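import Mathlib

/-!
Linear maps of a finite field extension of prime degree.
-/

set_option autoImplicit false

namespace CfsgLib.Geometric.ExtF

open Module

variable {F : Type*} [Field F] {E : Type*} [Field E] [Algebra F E]

/-- `G` normalises the multiplications. -/
def Nrm (G : E →ₗ[F] E) : Prop := ∀ a : E, ∃ b : E, ∀ x, G (a * x) = b * G x

lemma subalgebra_eq_top (hr : (finrank F E).Prime) {S : Subalgebra F E} {c : E}
    (hc : c ∈ S) (hcF : c ∉ Set.range (algebraMap F E)) : S = ⊤ := by
  have := Subalgebra.isSimpleOrder_of_finrank_prime F E hr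
  rcases eq_bot_or_eq_top S with h | h
  · rw [h, Algebra.mem_bot] at hc
    exact absurd hc hcF
  · exact h

/-- A subalgebra of endomorphisms containing the multiplications and one more map is everything. -/
theorem endSubalgebra_eq_top [Finite E] (hr : (finrank F E).Prime)
    (S : Subalgebra F (E →ₗ[F] E)) (hmul : ∀ a, LinearMap.mulLeft F a ∈ S) {D : E →ₗ[F] E}
    (hD : D ∈ S) (hD' : ∀ d, D ≠ LinearMap.mulLeft F d) (f : E →ₗ[F] E) : f ∈ S := by
  classical
  have : Nontrivial E := inferInstance
  have : IsSimpleModule S E := by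
    refine isSimpleModule_iff_toSpanSingleton_surjective.mpr ⟨inferInstance, fun v hv w => ?_⟩
    refine ⟨⟨LinearMap.mulLeft F (w * v⁻¹), hmul _⟩, ?_⟩
    show w * v⁻¹ * v = w
    field_simp
  -- the commutant consists of scalars
  have hcomm : ∀ φ : Module.End S E, ∃ c : F, ∀ x, φ x = c • x := by
    intro φ
    have h1 : ∀ a x : E, φ (a * x) = a * φ x := fun a x =>
      φ.map_smul ⟨LinearMap.mulLeft F a, hmul a⟩ x
    have h2 : ∀ x, φ x = φ 1 * x := fun x => by
      rw [mul_comm, ← h1, mul_one]
    have h3 : ∀ x, φ (D x) = D (φ x) := fun x => φ.map_smul ⟨D, hD⟩ x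
    let C : Subalgebra F E :=
      { carrier := {c | ∀ x, D (c * x) = c * D x}
        mul_mem' := fun {a b} ha hb x => by rw [mul_assoc, ha, hb, mul_assoc]
        one_mem' := fun x => by rw [one_mul, one_mul]
        add_mem' := fun {a b} ha hb x => by rw [add_mul, map_add, ha, hb, add_mul]
        zero_mem' := fun x => by rw [zero_mul, map_zero, zero_mul]
        algebraMap_mem' := fun c x => by
          rw [← Algebra.smul_def, map_smul, Algebra.smul_def] }
    have hC : φ 1 ∈ C := fun x => by rw [← h2, ← h3, h2]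
    by_contra hne
    have hcF : φ 1 ∉ Set.range (algebraMap F E) := by
      rintro ⟨c, hc⟩
      exact hne ⟨c, fun x => by rw [h2, ← hc, Algebra.smul_def]⟩
    have htop := subalgebra_eq_top hr hC hcF
    refine hD' (D 1) (LinearMap.ext fun x => ?_)
    have hx : x ∈ C := htop ▸ Algebra.mem_top
    rw [LinearMap.mulLeft_apply, mul_comm (D 1), ← hx 1, mul_one]
  let f' : Module.End (Module.End S E) E :=
    { toFun := f
      map_add' := map_add f
      map_smul' := fun φ x => by
        obtain ⟨c, hc⟩ := hcomm φ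
        simp only [Module.End.smul_def, RingHom.id_apply, hc, map_smul] }
  have := Fintype.ofFinite E
  obtain ⟨s, hs⟩ := jacobson_density (R := S) (M := E) f' Finset.univ
  have : f = (s : E →ₗ[F] E) := LinearMap.ext fun x => hs x (Finset.mem_univ x)
  exact this ▸ s.2

/-- In degree two, an additive set of maps stable under left multiplication containing the identity and a map
that is not a multiplication is everything. -/
theorem mem_of_finrank_two (h2 : finrank F E = 2) (P : (E →ₗ[F] E) → Prop)
    (hadd : ∀ A B, P A → P B → P (A + B)) (hleft : ∀ a A, P A → P (LinearMap.mulLeft F a ∘ₗ A))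
    (h1 : P LinearMap.id) {A : E →ₗ[F] E} (hA : P A) (hA' : ∀ d, A ≠ LinearMap.mulLeft F d)
    (f : E →ₗ[F] E) : P f := by
  obtain ⟨w, hw⟩ : ∃ w, A w ≠ A 1 * w := by
    by_contra h
    push Not at h
    exact hA' (A 1) (LinearMap.ext h)
  have hli : LinearIndependent F ![(1 : E), w] := by
    refine LinearIndependent.pair_iff.mpr fun a b hab => ?_
    have hb : b = 0 := by
      by_contra hb
      apply hw
      have hw' : w = (-(b⁻¹ * a)) • (1 : E) := by
        rw [neg_smul, ← smul_smul, eq_neg_iff_add_eq_zero, add_comm]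
        conv_lhs => arg 2; rw [← one_smul F w, ← inv_mul_cancel₀ hb, ← smul_smul]
        rw [← smul_add, hab, smul_zero]
      rw [hw', map_smul]
      simp [mul_comm]
    subst hb
    simpa using hab
  let A' : E →ₗ[F] E := A + LinearMap.mulLeft F (-A 1) ∘ₗ LinearMap.id
  have hA0 : A' 1 = 0 := by simp [A']
  have hAw : A' w ≠ 0 := by
    simpa [A', ← sub_eq_add_neg, sub_eq_zero] using hw
  have hf : f = LinearMap.mulLeft F (f 1) ∘ₗ LinearMap.id +
      LinearMap.mulLeft F ((f w - f 1 * w) / A' w) ∘ₗ A' := by
    refine (basisOfLinearIndependentOfCardEqFinrank hli (by simp [h2])).ext fun i => ?_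
    fin_cases i
    · simp [hA0]
    · simp [div_mul_cancel₀ _ hAw]
  rw [hf]
  exact hadd _ _ (hleft _ _ h1) (hleft _ _ (hadd _ _ hA (hleft _ _ h1)))

/-- If all maps `1 + λ N` with `N * N = 0`, `N ≠ 0`, normalise the multiplications, the degree is two and the
base field has two elements. -/
theorem small_of_nrm [FiniteDimensional F E] (hr : (finrank F E).Prime) {N : E →ₗ[F] E} (hN : N ≠ 0)
    (hNN : ∀ x, N (N x) = 0) (h : ∀ c : F, c ≠ 0 → Nrm (LinearMap.id + c • N)) :
    finrank F E = 2 ∧ ∀ c : F, c ≠ 0 → c = 1 := by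
  have h1 : ∀ c : F, c ≠ 0 → ∀ a, ∃ b, ∀ x, a * x + c • N (a * x) = b * (x + c • N x) := by
    intro c hc a
    obtain ⟨b, hb⟩ := h c hc a
    exact ⟨b, fun x => by simpa using hb x⟩
  obtain ⟨z, hz0, hz⟩ : ∃ z, z ≠ 0 ∧ N z = 0 := by
    obtain ⟨x, hx⟩ : ∃ x, N x ≠ 0 := by
      by_contra hc
      push Not at hc
      exact hN (LinearMap.ext hc)
    exact ⟨N x, hx, hNN x⟩
  -- the stabiliser of the kernel
  let S : Subalgebra F E :=
    { carrier := {a | ∀ x, x + N x ≠ 0 → (a * x + N (a * x)) = a * (x + N x)}
      mul_mem' := fun {a b} ha hb x hx => by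
        by_cases hb0 : b = 0
        · simp [hb0]
        have hbx : b * x + N (b * x) ≠ 0 := by rw [hb x hx]; exact mul_ne_zero hb0 hx
        rw [mul_assoc, ha (b * x) hbx, hb x hx, mul_assoc]
      one_mem' := fun x _ => by rw [one_mul, one_mul]
      add_mem' := fun {a b} ha hb x hx => by
        rw [add_mul, map_add, add_mul, ← ha x hx, ← hb x hx]; abel
      zero_mem' := fun x _ => by rw [zero_mul, map_zero, zero_mul, add_zero]
      algebraMap_mem' := fun c x _ => by
        rw [← Algebra.smul_def, map_smul, ← Algebra.smul_def, smul_add] }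
  have hker : ∀ a, N (a * z) = 0 → a ∈ Set.range (algebraMap F E) := by
    intro a ha
    by_contra hcF
    have haS : a ∈ S := by
      intro x _
      obtain ⟨b, hb⟩ := h1 1 one_ne_zero a
      simp only [one_smul] at hb
      have h2 := hb z
      rw [ha, hz, add_zero, add_zero] at h2
      rw [hb x, mul_right_cancel₀ hz0 h2]
    have htop := subalgebra_eq_top hr haS hcF
    apply hN
    refine LinearMap.ext fun x => ?_
    have hxz : x * z⁻¹ ∈ S := htop ▸ Algebra.mem_top
    have h3 := hxz z (by rwa [hz, add_zero])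
    rw [hz, add_zero, mul_assoc, inv_mul_cancel₀ hz0, mul_one] at h3
    simpa using h3
  have hkdim : finrank F (LinearMap.ker N) ≤ 1 := by
    refine finrank_le_one ⟨z, by simpa using hz⟩ ?_
    rintro ⟨x, hx⟩
    obtain ⟨c, hc⟩ := hker (x * z⁻¹) (by
      rw [mul_assoc, inv_mul_cancel₀ hz0, mul_one]; simpa using hx)
    exact ⟨c, Subtype.ext (by
      show c • z = x
      rw [Algebra.smul_def, hc, mul_assoc, inv_mul_cancel₀ hz0, mul_one])⟩
  have hr2 : finrank F E = 2 := by
    have e1 := LinearMap.finrank_range_add_finrank_ker N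
    have e2 : finrank F (LinearMap.range N) ≤ finrank F (LinearMap.ker N) :=
      Submodule.finrank_mono (by rintro _ ⟨x, rfl⟩; exact hNN x)
    have := hr.two_le
    omega
  refine ⟨hr2, fun c hc => ?_⟩
  obtain ⟨a, ha⟩ : ∃ a, N (a * z) ≠ 0 := by
    by_contra hc
    push Not at hc
    exact hN (LinearMap.ext fun x => by simpa [mul_assoc, inv_mul_cancel₀ hz0] using hc (x * z⁻¹))
  obtain ⟨k, hk⟩ := hker (N (a * z) * z⁻¹) (by
    rw [mul_assoc, inv_mul_cancel₀ hz0, mul_one]; exact hNN _)
  have hk0 : k ≠ 0 := by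
    rintro rfl
    rw [map_zero, eq_comm, mul_eq_zero] at hk
    rcases hk with hk | hk
    · exact ha hk
    · exact hz0 (inv_eq_zero.mp hk)
  have hτ : ∀ t : F, t ≠ 0 → ∀ x, a * x + t • N (a * x) = (a + algebraMap F E (t * k)) * (x + t • N x) := by
    intro t ht x
    obtain ⟨b, hb⟩ := h1 t ht a
    have h2 := hb z
    rw [hz, smul_zero, add_zero] at h2
    have hbe : b = a + algebraMap F E (t * k) := by
      apply mul_right_cancel₀ hz0
      rw [← h2, add_mul, (algebraMap F E).map_mul, hk, Algebra.smul_def]
      field_simp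
    rw [hb x, hbe]
  -- the two quadratic conjugates
  obtain ⟨p, q, hpq⟩ : ∃ p q : F, a * a = p • a + q • (1 : E) := by
    have haF : a ∉ Set.range (algebraMap F E) := by
      rintro ⟨s, rfl⟩
      rw [← Algebra.smul_def, map_smul, hz, smul_zero] at ha
      exact ha rfl
    have hli : LinearIndependent F ![(1 : E), a] := by
      refine LinearIndependent.pair_iff.mpr fun s t hst => ?_
      by_cases ht : t = 0
      · subst ht; simpa using hst
      refine absurd ⟨-(t⁻¹ * s), ?_⟩ haF
      rw [map_neg, map_mul, map_inv₀, neg_eq_iff_eq_neg]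
      rw [Algebra.smul_def, Algebra.smul_def, mul_one] at hst
      have ht' : algebraMap F E t ≠ 0 := by simpa using ht
      field_simp
      linear_combination hst
    let B := basisOfLinearIndependentOfCardEqFinrank hli (by simp [hr2])
    refine ⟨B.repr (a * a) 1, B.repr (a * a) 0, ?_⟩
    conv_lhs => rw [← B.sum_repr (a * a)]
    simp [B, Fin.sum_univ_two, add_comm]
  have hquad : ∀ t : F, t ≠ 0 →
      (a + algebraMap F E (t * k)) * (a + algebraMap F E (t * k)) =
        p • (a + algebraMap F E (t * k)) + q • (1 : E) := by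
    intro t ht
    have e1 := hτ t ht (a * z)
    have e2 := hτ t ht z
    rw [hz, smul_zero, add_zero] at e2
    rw [e2, ← mul_assoc a a z, hpq, add_mul, smul_mul_assoc, smul_mul_assoc, one_mul, map_add,
      map_smul, map_smul, hz, smul_zero, add_zero] at e1
    apply mul_right_cancel₀ hz0
    rw [mul_assoc, ← e1]
    simp only [Algebra.smul_def, mul_one] at e2 ⊢
    linear_combination (algebraMap F E p) * e2
  have e1 := hquad c hc
  have e2 := hquad 1 one_ne_zero
  simp only [one_mul, map_mul, Algebra.smul_def, mul_one] at e1 e2 hpq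
  have hk' : algebraMap F E k ≠ 0 := by simpa using hk0
  have hc' : algebraMap F E c ≠ 0 := by simpa using hc
  have h4 : algebraMap F E c = 1 := by
    have e3 : 2 * a + algebraMap F E c * algebraMap F E k - algebraMap F E p = 0 := by
      apply (mul_eq_zero.mp (show (algebraMap F E c * algebraMap F E k) *
        (2 * a + algebraMap F E c * algebraMap F E k - algebraMap F E p) = 0 by
          linear_combination e1 - hpq)).resolve_left (mul_ne_zero hc' hk')
    have e4 : 2 * a + algebraMap F E k - algebraMap F E p = 0 := by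
      apply (mul_eq_zero.mp (show algebraMap F E k * (2 * a + algebraMap F E k - algebraMap F E p) = 0 by
          linear_combination e2 - hpq)).resolve_left hk'
    exact mul_right_cancel₀ hk' (by linear_combination e3 - e4)
  exact (algebraMap F E).injective (h4.trans (map_one _).symm)

/-- There is a norm one element outside the base field. -/
lemma exists_norm_one [Finite F] [Finite E] (hr : (finrank F E).Prime) :
    ∃ c : E, Algebra.norm F c = 1 ∧ c ∉ Set.range (algebraMap F E) := by
  have := Fintype.ofFinite F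
  set φ := FiniteField.frobeniusAlgEquivOfAlgebraic F E
  have hφ : φ ≠ 1 := by
    intro h
    have := FiniteField.orderOf_frobeniusAlgEquivOfAlgebraic F E
    rw [← show φ = FiniteField.frobeniusAlgEquivOfAlgebraic F E from rfl, h, orderOf_one] at this
    have := hr.two_le
    omega
  obtain ⟨a, ha⟩ : ∃ a, φ a ≠ a := by
    by_contra h
    push Not at h
    exact hφ (AlgEquiv.ext h)
  have ha0 : a ≠ 0 := fun h => ha (by rw [h, map_zero])
  have hnorm : ∀ x : E, x ≠ 0 → Algebra.norm F (φ x / x) = 1 := fun x hx => by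
    rw [div_eq_mul_inv, map_mul, Algebra.norm_eq_of_algEquiv φ, ← map_mul, mul_inv_cancel₀ hx,
      map_one]
  by_cases h1 : φ a / a ∈ Set.range (algebraMap F E)
  swap
  · exact ⟨_, hnorm a ha0, h1⟩
  have ha1 : 1 + a ≠ 0 := fun h => ha (by
    rw [eq_neg_of_add_eq_zero_right h, map_neg, map_one])
  by_cases h2 : φ (1 + a) / (1 + a) ∈ Set.range (algebraMap F E)
  swap
  · exact ⟨_, hnorm _ ha1, h2⟩
  exfalso
  obtain ⟨s, hs⟩ := h1
  obtain ⟨t, ht⟩ := h2
  rw [eq_div_iff ha0] at hs
  rw [eq_div_iff ha1, map_add, map_one, ← hs] at ht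
  have haF : a ∉ Set.range (algebraMap F E) := by
    rintro ⟨u, rfl⟩
    exact ha (AlgEquiv.commutes φ u)
  by_cases hst : t = s
  · subst hst
    apply ha
    have h1 : algebraMap F E t = 1 := by linear_combination ht
    rw [← hs, h1, one_mul]
  · refine haF ⟨(1 - t) / (t - s), ?_⟩
    have h0 : algebraMap F E (t - s) ≠ 0 := by simpa [sub_eq_zero] using hst
    rw [map_div₀, div_eq_iff h0, map_sub, map_sub, map_one]
    linear_combination -ht

end CfsgLib.Geometric.ExtF
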