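import Cfsg.Agent.Lib.Geometric.LinearSubfield

/-!
Vector spaces over an extension field inside `GL ι F`: semilinear elements, elements `1 + C` with `C * C = 0`,
and the criterion that a subgroup containing the semilinear elements of determinant one and all rank-one
modifications at one vector contains the special linear group.
-/

set_option autoImplicit false

namespace CfsgLib.Geometric.ExtF

open Module Matrix

variable {F : Type*} [Field F] {ι : Type} [Fintype ι] [DecidableEq ι]

/-- The invertible map `x ↦ x + C x` for `C ∘ C = 0`. -/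
def qT (C : (ι → F) →ₗ[F] (ι → F)) (hC : ∀ x, C (C x) = 0) : GL ι F :=
  ofEquiv
    { toFun := fun x => x + C x
      map_add' := fun x y => by rw [map_add]; abel
      map_smul' := fun c x => by rw [map_smul, smul_add, RingHom.id_apply]
      invFun := fun x => x - C x
      left_inv := fun x => by simp [map_add, hC]
      right_inv := fun x => by simp [map_sub, hC] }

@[simp] lemma ap_qT (C : (ι → F) →ₗ[F] (ι → F)) (hC : ∀ x, C (C x) = 0) (x : ι → F) :
    ap (qT C hC) x = x + C x := by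
  rw [qT, ap_ofEquiv]; rfl

@[simp] lemma ap_qT_inv (C : (ι → F) →ₗ[F] (ι → F)) (hC : ∀ x, C (C x) = 0) (x : ι → F) :
    ap (qT C hC)⁻¹ x = x - C x := by
  apply ap_injective (qT C hC)
  rw [ap_ap_inv]
  simp [map_sub, hC]

lemma qT_mul {C C' : (ι → F) →ₗ[F] (ι → F)} (hC : ∀ x, C (C x) = 0) (hC' : ∀ x, C' (C' x) = 0)
    (h : ∀ x, C (C' x) = 0) (hs : ∀ x, (C + C') ((C + C') x) = 0) :
    qT C hC * qT C' hC' = qT (C + C') hs := by
  refine gl_ext fun x => ?_
  simp [ap_mul, map_add, h]
  abel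

lemma qT_conj (g : GL ι F) (C : (ι → F) →ₗ[F] (ι → F)) (hC : ∀ x, C (C x) = 0) :
    g * qT C hC * g⁻¹ = qT ((apEquiv g).toLinearMap ∘ₗ C ∘ₗ (apEquiv g⁻¹).toLinearMap)
      (fun x => by simp [ap_inv_ap, hC, ap_zero]) := by
  refine gl_ext fun x => ?_
  simp [ap_mul, ap_add, ap_ap_inv]

lemma det_qT [Finite F] (C : (ι → F) →ₗ[F] (ι → F)) (hC : ∀ x, C (C x) = 0) :
    qT C hC ∈ Cfsg.Geo.specialLinear ι F := by
  obtain ⟨p, hp⟩ := CharP.exists F
  have hpp : Fact p.Prime := ⟨CharP.char_is_prime F p⟩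
  have : ExpChar F p := .prime hpp.out
  have hpow : ∀ k : ℕ, ∀ x, ap (qT C hC ^ k) x = x + (k : F) • C x := by
    intro k
    induction k with
    | zero => simp
    | succ k ih =>
      intro x
      rw [pow_succ, ap_mul, ap_qT, ih, map_add, hC, add_zero, Nat.cast_succ, add_smul, one_smul]
      abel
  have h1 : qT C hC ^ p = 1 := gl_ext fun x => by simp [hpow, CharP.cast_eq_zero]
  rw [mem_specialLinear_iff]
  apply frobenius_inj F p
  simp only [frobenius_def, one_pow]
  rw [← Matrix.det_pow, ← Units.val_pow_eq_pow_val, h1, Units.val_one, Matrix.det_one]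

variable {E : Type*} [Field E] [Algebra F E] [Module E (ι → F)] [IsScalarTower F E (ι → F)]

variable (E) in
/-- The elements that are semilinear over `E`. -/
def IsSemi (g : GL ι F) : Prop :=
  ∀ a : E, ∃ b : E, ∀ x : ι → F, ap g (a • x) = b • ap g x

variable (E) in
lemma IsSemi.of_linear {g : GL ι F} (h : ∀ (a : E) x, ap g (a • x) = a • ap g x) :
    IsSemi E g := fun a => ⟨a, h a⟩

lemma IsSemi.mul {g h : GL ι F} (hg : IsSemi E g) (hh : IsSemi E h) : IsSemi E (g * h) := by
  intro a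
  obtain ⟨b, hb⟩ := hh a
  obtain ⟨c, hc⟩ := hg b
  exact ⟨c, fun x => by rw [ap_mul, hb, hc, ap_mul]⟩

variable (F) in
/-- A functional over `E` times a vector. -/
def dyad (A : E →ₗ[F] E) (v : ι → F) (Φ : (ι → F) →ₗ[E] E) : (ι → F) →ₗ[F] (ι → F) :=
  ((LinearMap.toSpanSingleton E (ι → F) v).restrictScalars F) ∘ₗ A ∘ₗ (Φ.restrictScalars F)

@[simp] lemma dyad_apply (A : E →ₗ[F] E) (v : ι → F) (Φ : (ι → F) →ₗ[E] E) (x : ι → F) :
    dyad F A v Φ x = A (Φ x) • v := rfl

lemma dyad_sq (A : E →ₗ[F] E) (v : ι → F) (Φ : (ι → F) →ₗ[E] E) (h : Φ v = 0)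
    (x : ι → F) : dyad F A v Φ (dyad F A v Φ x) = 0 := by
  simp [h]

lemma qT_dyad_isSemi (v : ι → F) (Φ : (ι → F) →ₗ[E] E) (h : Φ v = 0) :
    IsSemi E (qT (dyad F (LinearMap.id) v Φ) (dyad_sq _ v Φ h)) :=
  IsSemi.of_linear E fun a x => by simp [smul_smul, smul_add]

/-- A functional with value one at `v`, zero at `u`, for `v` outside the line of `u`. -/
lemma exists_sep {v u : ι → F} (h : ∀ a : E, a • u ≠ v) :
    ∃ Φ : (ι → F) →ₗ[E] E, Φ v = 1 ∧ Φ u = 0 := by
  have hv : v ∉ Submodule.span E {u} := fun hm => by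
    obtain ⟨a, ha⟩ := Submodule.mem_span_singleton.mp hm
    exact h a ha
  obtain ⟨f, hf, hf0⟩ := Submodule.exists_dual_map_eq_bot_of_notMem hv inferInstance
  have hu : f u = 0 := by
    have : f u ∈ Submodule.map f (Submodule.span E {u}) := ⟨u, Submodule.mem_span_singleton_self u, rfl⟩
    rwa [hf0, Submodule.mem_bot] at this
  exact ⟨(f v)⁻¹ • f, by simp [hf], by simp [hu]⟩

/-- A functional with value one at a non-zero vector. -/
lemma exists_one {v : ι → F} (hv : v ≠ 0) : ∃ Φ : (ι → F) →ₗ[E] E, Φ v = 1 := by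
  obtain ⟨Φ, h, -⟩ := exists_sep (E := E) (v := v) (u := 0) fun a => by simp [Ne.symm hv]
  exact ⟨Φ, h⟩

variable [Finite F] (hm : ∀ v : ι → F, ∃ w : ι → F, ∀ a : E, a • v ≠ w)
include hm

/-- Linear elements of determinant one are transitive on non-zero vectors. -/
lemma exists_linear_move {v u : ι → F} (hv : v ≠ 0) (hu : u ≠ 0) :
    ∃ g ∈ Cfsg.Geo.specialLinear ι F, (∀ (a : E) x, ap g (a • x) = a • ap g x) ∧ ap g v = u := by
  have one : ∀ v u : ι → F, v ≠ 0 → u ≠ 0 → (∀ a : E, a • v ≠ u) →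
      ∃ g ∈ Cfsg.Geo.specialLinear ι F, (∀ (a : E) x, ap g (a • x) = a • ap g x) ∧ ap g v = u := by
    intro v u hv hu hind
    have hne : ∀ a : E, a • (u - v) ≠ v := by
      intro a ha
      by_cases ha0 : a = 0
      · exact hv (by rw [← ha, ha0, zero_smul])
      refine hind (a⁻¹ + 1) ?_
      rw [add_smul, one_smul]
      conv_lhs => arg 1; rw [← ha, smul_smul, inv_mul_cancel₀ ha0, one_smul]
      abel
    obtain ⟨Φ, h1, h0⟩ := exists_sep hne
    exact ⟨qT (dyad F LinearMap.id (u - v) Φ) (dyad_sq _ _ Φ h0), det_qT _ _,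
      fun a x => by simp [smul_smul, smul_add], by simp [h1]⟩
  by_cases h : ∀ a : E, a • v ≠ u
  · exact one v u hv hu h
  push Not at h
  obtain ⟨a, ha⟩ := h
  have ha0 : a ≠ 0 := fun h => hu (by rw [← ha, h, zero_smul])
  obtain ⟨w, hw⟩ := hm v
  have hw0 : w ≠ 0 := fun h => hw 0 (by rw [h, zero_smul])
  have hwu : ∀ b : E, b • w ≠ u := by
    intro b hb
    have hb0 : b ≠ 0 := fun h => hu (by rw [← hb, h, zero_smul])
    refine hw (b⁻¹ * a) ?_
    rw [mul_smul, ha, ← hb, smul_smul, inv_mul_cancel₀ hb0, one_smul]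
  obtain ⟨g₁, hg₁, hl₁, hm₁⟩ := one v w hv hw0 hw
  obtain ⟨g₂, hg₂, hl₂, hm₂⟩ := one w u hw0 hu hwu
  exact ⟨g₂ * g₁, mul_mem hg₂ hg₁, fun b x => by rw [ap_mul, hl₁, hl₂, ap_mul],
    by rw [ap_mul, hm₁, hm₂]⟩

omit hm

variable (E) in
/-- `A` occurs at `v` in every position. -/
def PAt (X : Subgroup (GL ι F)) (v : ι → F) (A : E →ₗ[F] E) : Prop :=
  ∀ (Φ : (ι → F) →ₗ[E] E) (h : Φ v = 0), qT (dyad F A v Φ) (dyad_sq A v Φ h) ∈ X

include hm

/-- If every map occurs at one vector, the group contains the special linear group. -/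
theorem specialLinear_le_of_pAt [FiniteDimensional F E] {X : Subgroup (GL ι F)}
    (hX : ∀ g ∈ Cfsg.Geo.specialLinear ι F, IsSemi E g → g ∈ X)
    {v₀ : ι → F} (hv₀ : v₀ ≠ 0) (hP : ∀ A, PAt E X v₀ A) :
    Cfsg.Geo.specialLinear ι F ≤ X := by
  have hall : ∀ v, v ≠ 0 → ∀ A, PAt E X v A := by
    intro v hv A Φ hΦ
    obtain ⟨g, hg, hlin, hgv⟩ := exists_linear_move hm hv₀ hv
    let Φ' : (ι → F) →ₗ[E] E :=
      { toFun := fun x => Φ (ap g x)
        map_add' := fun x y => by rw [ap_add, map_add]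
        map_smul' := fun a x => by simp [hlin] }
    have hgX := hX g hg (IsSemi.of_linear E hlin)
    have h := mul_mem (mul_mem hgX (hP A Φ' (show Φ (ap g v₀) = 0 by rw [hgv, hΦ]))) (inv_mem hgX)
    convert h using 1
    refine gl_ext fun x => ?_
    simp [ap_mul, ap_add, ap_ap_inv, hlin, hgv, Φ']
  -- transvections whose functional kills the whole line of the centre
  have hline : ∀ (v : ι → F), v ≠ 0 → ∀ (φ : (ι → F) →ₗ[F] F) (h : φ v = 0),
      (∀ a : E, φ (a • v) = 0) → tv v φ h ∈ X := by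
    intro v hv φ h hL
    classical
    obtain ⟨T, hT⟩ : ∃ T : E →ₗ[F] F, T 1 = 1 := by
      obtain ⟨f, hf⟩ := Module.Projective.exists_dual_ne_zero F (one_ne_zero (α := E))
      exact ⟨(f 1)⁻¹ • f, by simp [hf]⟩
    -- write `φ = T ∘ Φ`
    let φl : (ι → F) → (E →ₗ[F] F) := fun x =>
      φ ∘ₗ ((LinearMap.toSpanSingleton E (ι → F) x).restrictScalars F)
    let TE : E →ₗ[F] (E →ₗ[F] F) :=
      { toFun := fun e => T ∘ₗ LinearMap.mulLeft F e
        map_add' := fun a b => LinearMap.ext fun c => by simp [add_mul]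
        map_smul' := fun c a => LinearMap.ext fun d => by simp }
    have hinj : Function.Injective TE := by
      rw [injective_iff_map_eq_zero]
      intro e he
      by_contra he0
      have := LinearMap.congr_fun he e⁻¹
      simp [TE, mul_inv_cancel₀ he0, hT] at this
    have hbij : Function.Bijective TE :=
      ⟨hinj, (LinearMap.injective_iff_surjective_of_finrank_eq_finrank
        (by rw [Module.finrank_linearMap, Module.finrank_self, mul_one])).1 hinj⟩
    choose f hf using fun x => hbij.2 (φl x)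
    have hf' : ∀ x a, T (f x * a) = φ (a • x) := fun x a => LinearMap.congr_fun (hf x) a
    have heq : ∀ e e' : E, (∀ a, T (e * a) = T (e' * a)) → e = e' := fun e e' h =>
      hinj (LinearMap.ext h)
    let Φ : (ι → F) →ₗ[E] E :=
      { toFun := f
        map_add' := fun x y => heq _ _ fun a => by
          rw [add_mul, map_add, hf', hf', hf', smul_add, map_add]
        map_smul' := fun b x => heq _ _ fun a => by
          rw [RingHom.id_apply, hf', smul_eq_mul, show b * f x * a = f x * (a * b) by ring, hf',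
            mul_smul] }
    have hΦv : Φ v = 0 := heq _ _ fun a => by
      show T (f v * a) = _
      rw [hf', hL, zero_mul, map_zero]
    have h2 := hall v hv ((Algebra.linearMap F E) ∘ₗ T) Φ hΦv
    convert h2 using 1
    refine gl_ext fun x => ?_
    have := hf' x 1
    rw [mul_one, one_smul] at this
    simp [Φ, this]
  refine specialLinear_le_of_tv_mem fun v φ h => ?_
  by_cases hv : v = 0
  · subst hv
    rw [show tv 0 φ h = 1 from gl_ext fun x => by simp]
    exact one_mem X
  by_cases hL : ∀ a : E, φ (a • v) = 0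
  · exact hline v hv φ h hL
  push Not at hL
  obtain ⟨a₀, ha₀⟩ := hL
  -- a vector whose line is killed by `φ`, outside the line of `v`
  obtain ⟨w, hwv, hwφ⟩ : ∃ w : ι → F, (∀ a : E, a • v ≠ w) ∧ ∀ b : E, φ (b • w) = 0 := by
    obtain ⟨y, hy⟩ := hm v
    let φl : (ι → F) → (E →ₗ[F] F) := fun x =>
      φ ∘ₗ ((LinearMap.toSpanSingleton E (ι → F) x).restrictScalars F)
    let M : E →ₗ[F] (E →ₗ[F] F) :=
      { toFun := fun e => φl (e • v)
        map_add' := fun a b => LinearMap.ext fun c => by simp [φl, add_smul, map_add]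
        map_smul' := fun c a => LinearMap.ext fun d => by
          simp [φl, map_smul, smul_comm d c] }
    have hinj : Function.Injective M := by
      rw [injective_iff_map_eq_zero]
      intro e he
      by_contra he0
      have := LinearMap.congr_fun he (a₀ * e⁻¹)
      simp [M, φl, smul_smul, mul_assoc, inv_mul_cancel₀ he0, ha₀] at this
    obtain ⟨e, he⟩ := (LinearMap.injective_iff_surjective_of_finrank_eq_finrank
      (by rw [Module.finrank_linearMap, Module.finrank_self, mul_one])).1 hinj (φl y)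
    refine ⟨y - e • v, fun a h => hy (a + e) ?_, fun b => ?_⟩
    · rw [add_smul, h]; abel
    · have := LinearMap.congr_fun he b
      simp [M, φl] at this
      rw [smul_sub, map_sub, this, sub_self]
  have hw0 : w ≠ 0 := fun h => hwv 0 (by rw [h, zero_smul])
  obtain ⟨Φw, hΦw, hΦv⟩ := exists_sep hwv
  obtain ⟨f, hf⟩ := Module.Projective.exists_dual_ne_zero F (one_ne_zero (α := E))
  let ψ : (ι → F) →ₗ[F] F := (f 1)⁻¹ • (f ∘ₗ Φw.restrictScalars F)
  have hψv : ∀ a : E, ψ (a • v) = 0 := fun a => by simp [ψ, hΦv]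
  have hψw : ψ w = 1 := by simp [ψ, hΦw, hf]
  have h1 := hline v hv ψ (by simpa using hψv 1) hψv
  have h2 := hline w hw0 φ (by simpa using hwφ 1) hwφ
  have h3 := comm_mem h1 h2 h
  convert h3 using 2
  rw [hψw, one_smul]

end CfsgLib.Geometric.ExtF
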