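import Mathlib

/-!
A non-zero common zero of few inhomogeneous quadratic functions vanishing at the origin.
-/

set_option autoImplicit false

namespace CfsgLib.Geometric.ExtF

open Module MvPolynomial

/-- Few quadratic functions without constant term have a non-zero common zero. -/
theorem exists_common_zero {F : Type*} [Field F] [Finite F] {W : Type*} [AddCommGroup W] [Module F W]
    [FiniteDimensional F W] {κ : Type*} [Fintype κ] (B : κ → W →ₗ[F] W →ₗ[F] F)
    (l : κ → W →ₗ[F] F) (hd : 2 * Fintype.card κ < finrank F W) :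
    ∃ x : W, x ≠ 0 ∧ ∀ k, B k x x + l k x = 0 := by
  classical
  have := Fintype.ofFinite F
  obtain ⟨p, hp⟩ := CharP.exists F
  have hpp : p.Prime := CharP.char_is_prime F p
  let b := finBasis F W
  let P : κ → MvPolynomial (Fin (finrank F W)) F := fun k =>
    (∑ i, ∑ j, C (B k (b i) (b j)) * X i * X j) + ∑ i, C (l k (b i)) * X i
  have heval : ∀ k (c : Fin (finrank F W) → F), eval c (P k) =
      B k (∑ i, c i • b i) (∑ i, c i • b i) + l k (∑ i, c i • b i) := by
    intro k c
    simp only [P, map_add, map_sum, map_mul, eval_C, eval_X, map_smul, LinearMap.coe_sum,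
      Finset.sum_apply, LinearMap.smul_apply, smul_eq_mul, Finset.mul_sum]
    congr 1
    · rw [Finset.sum_comm]
      exact Finset.sum_congr rfl fun i _ => Finset.sum_congr rfl fun j _ => by ring
    · exact Finset.sum_congr rfl fun i _ => by ring
  have hdeg : ∀ k, (P k).totalDegree ≤ 2 := by
    intro k
    refine (totalDegree_add _ _).trans (max_le ?_ ?_)
    · refine totalDegree_finsetSum_le fun i _ => totalDegree_finsetSum_le fun j _ => ?_
      refine (totalDegree_mul _ _).trans ?_
      refine le_trans (Nat.add_le_add ((totalDegree_mul _ _).trans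
        (Nat.add_le_add (totalDegree_C _).le (totalDegree_X i).le)) (totalDegree_X j).le) (le_of_eq rfl)
    · refine totalDegree_finsetSum_le fun i _ => ?_
      refine (totalDegree_mul _ _).trans ?_
      exact (Nat.add_le_add (totalDegree_C _).le (totalDegree_X i).le).trans (by norm_num)
  have hsum : ∑ k, (P k).totalDegree < Fintype.card (Fin (finrank F W)) := by
    refine lt_of_le_of_lt (Finset.sum_le_sum fun k _ => hdeg k) ?_
    simpa [Nat.mul_comm] using hd
  have hdvd := char_dvd_card_solutions_of_fintype_sum_lt p hsum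
  have h0 : ∀ k, eval (0 : Fin (finrank F W) → F) (P k) = 0 := fun k => by
    rw [heval]; simp
  obtain ⟨x, hx⟩ := Fintype.exists_ne_of_one_lt_card
    (α := {c : Fin (finrank F W) → F // ∀ k, eval c (P k) = 0})
    (lt_of_lt_of_le hpp.one_lt (Nat.le_of_dvd (Fintype.card_pos_iff.2 ⟨⟨0, h0⟩⟩) hdvd)) ⟨0, h0⟩
  refine ⟨∑ i, x.1 i • b i, fun h => hx (Subtype.ext (funext fun i => ?_)), fun k => by
    rw [← heval]; exact x.2 k⟩
  have := congrArg (fun v => b.repr v i) h
  simpa [b.repr_sum_self, Finsupp.single_apply, Finsupp.finsetSum_apply] using this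

end CfsgLib.Geometric.ExtF
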