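import Cfsg.Agent.Lib.Geometric.ExtField.Basic
import Cfsg.Agent.Lib.Geometric.ExtField.Algebra

/-!
A group containing the semilinear elements of determinant one and one more element contains the special linear
group, except possibly for degree two over the field with two elements (treated separately).
-/

set_option autoImplicit false

namespace CfsgLib.Geometric.ExtF

open Module Matrix

variable {F : Type*} [Field F] {ι : Type} [Fintype ι] [DecidableEq ι] {E : Type*} [Field E] [Algebra F E] [Module E (ι → F)]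
  [IsScalarTower F E (ι → F)]

variable (F E) in
/-- The line over `E` through `v`, as a subspace over `F`. -/
def ln (v : ι → F) : Submodule F (ι → F) :=
  LinearMap.range ((LinearMap.toSpanSingleton E (ι → F) v).restrictScalars F)

lemma mem_ln {v w : ι → F} : w ∈ ln F E v ↔ ∃ a : E, a • v = w := Iff.rfl

lemma smul_mem_ln (v : ι → F) (a : E) : a • v ∈ ln F E v := mem_ln.mpr ⟨a, rfl⟩

lemma self_mem_ln (v : ι → F) : v ∈ ln F E v := mem_ln.mpr ⟨1, one_smul E v⟩

lemma finrank_ln {v : ι → F} (hv : v ≠ 0) : finrank F (ln F E v) = finrank F E :=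
  LinearMap.finrank_range_of_inj fun _ _ h => smul_left_injective E hv h

/-- The image of a subspace. -/
def img (g : GL ι F) (S : Submodule F (ι → F)) : Submodule F (ι → F) :=
  S.map (apEquiv g).toLinearMap

lemma finrank_img (g : GL ι F) (S : Submodule F (ι → F)) :
    finrank F (img g S) = finrank F S := LinearEquiv.finrank_map_eq _ _

lemma mem_img {g : GL ι F} {S : Submodule F (ι → F)} {x : ι → F} :
    x ∈ img g S ↔ ∃ y ∈ S, ap g y = x := Iff.rfl

/-- An element mapping lines into lines is semilinear. -/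
lemma isSemi_of_lines [Finite E] (hm : ∀ v : ι → F, ∃ w : ι → F, ∀ a : E, a • v ≠ w)
    {g : GL ι F} (h : ∀ v : ι → F, ∀ a : E, ∃ b : E, ap g (a • v) = b • ap g v) :
    IsSemi E g := by
  intro a
  choose β hβ using fun v => h v a
  have hind : ∀ v w : ι → F, v ≠ 0 → (∀ c : E, c • v ≠ w) → β v = β w := by
    intro v w hv hvw
    have hgvw : ∀ c : E, c • ap g v ≠ ap g w := by
      intro c hc
      choose f hf using fun e => h v e
      have hfi : Function.Injective f := fun e e' he => by
        have := (hf e).trans ((congrArg (· • ap g v) he).trans (hf e').symm)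
        exact smul_left_injective E hv (ap_injective g this)
      obtain ⟨e, he⟩ := (Finite.injective_iff_surjective.mp hfi) c
      refine hvw e (ap_injective g ?_)
      rw [hf, he, hc]
    have e1 := hβ (v + w)
    rw [smul_add, ap_add, ap_add, hβ v, hβ w, smul_add] at e1
    have h2 : (β v - β (v + w)) • ap g v + (β w - β (v + w)) • ap g w = 0 := by
      rw [sub_smul, sub_smul, ← sub_eq_zero.mpr e1]; abel
    have hgv := ap_ne_zero g hv
    by_cases hw : β w - β (v + w) = 0
    · rw [hw, zero_smul, add_zero, smul_eq_zero, or_iff_left hgv, sub_eq_zero] at h2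
      rw [h2, sub_eq_zero.mp hw]
    · refine absurd ?_ (hgvw (-((β w - β (v + w))⁻¹ * (β v - β (v + w)))))
      rw [neg_smul, mul_smul, eq_neg_of_add_eq_zero_left h2, smul_neg, neg_neg, smul_smul,
        inv_mul_cancel₀ hw, one_smul]
  by_cases hz : ∀ x : ι → F, x = 0
  · exact ⟨0, fun x => by rw [hz x, smul_zero, ap_zero, smul_zero]⟩
  push Not at hz
  obtain ⟨v₀, hv₀⟩ := hz
  refine ⟨β v₀, fun x => ?_⟩
  by_cases hx : x = 0
  · rw [hx, smul_zero, ap_zero, smul_zero]
  rw [hβ x]
  congr 1
  by_cases hdep : ∀ c : E, c • v₀ ≠ x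
  · exact (hind v₀ x hv₀ hdep).symm
  · push Not at hdep
    obtain ⟨c, hc⟩ := hdep
    obtain ⟨w, hw⟩ := hm v₀
    rw [hind v₀ w hv₀ hw]
    refine hind x w hx fun e he => hw (e * c) ?_
    rw [mul_smul, hc, he]

variable [Finite F] [Finite E]

/-- An element stabilising a line with trivial action on the quotient moves the positions at that line. -/
lemma pAt_comp {X : Subgroup (GL ι F)} {v : ι → F} {j : GL ι F} (hj : j ∈ X)
    {D : E →ₗ[F] E} (hline : ∀ a : E, ap j (a • v) = D a • v)
    (hquot : ∀ x, ∃ b : E, ap j x = x + b • v) {A : E →ₗ[F] E} (hA : PAt E X v A) :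
    PAt E X v (D ∘ₗ A) := by
  intro Φ h
  convert mul_mem (mul_mem hj (hA Φ h)) (inv_mem hj) using 1
  refine gl_ext fun x => ?_
  obtain ⟨b, hb⟩ := hquot (ap j⁻¹ x)
  rw [ap_ap_inv] at hb
  have hΦ : Φ x = Φ (ap j⁻¹ x) := by
    conv_lhs => rw [hb]
    simp [h]
  simp [ap_mul, ap_add, ap_ap_inv, hline, hΦ]

omit [Finite F] [Finite E] in
lemma smul_sq {C : (ι → F) →ₗ[F] (ι → F)} (hC : ∀ x, C (C x) = 0) (c : F) (x : ι → F) :
    (c • C) ((c • C) x) = 0 := by simp [hC]

variable {X : Subgroup (GL ι F)}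
  (hX : ∀ g ∈ Cfsg.Geo.specialLinear ι F, IsSemi E g → g ∈ X)
  (hm : ∀ v : ι → F, ∃ w : ι → F, ∀ a : E, a • v ≠ w)
include hX hm

/-- The maximal intersection of images of lines gives elements of small rank stabilising a line. -/
theorem exists_step (hnot : ∃ g ∈ X, ¬ IsSemi E g) :
    ∃ v : ι → F, v ≠ 0 ∧ ∃ (C : (ι → F) →ₗ[F] (ι → F)) (hC : ∀ x, C (C x) = 0)
      (N : E →ₗ[F] E), (∀ c : F, qT (c • C) (smul_sq hC c) ∈ X) ∧ (∀ a : E, C (a • v) = N a • v) ∧
        N ≠ 0 ∧ finrank F (LinearMap.range C) ≤ finrank F E := by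
  classical
  let P : ℕ → Prop := fun e => ∃ g ∈ X, ∃ v u : ι → F, v ≠ 0 ∧ u ≠ 0 ∧
    img g (ln F E v) ≠ ln F E u ∧ finrank F ↥(img g (ln F E v) ⊓ ln F E u) = e
  have hbound : ∀ e, P e → e ≤ finrank F E := by
    rintro e ⟨g, -, v, u, hv, hu, -, rfl⟩
    exact le_trans (Submodule.finrank_mono inf_le_right) (finrank_ln hu).le
  obtain ⟨e₀, hPe₀, he₀⟩ : ∃ e, P e ∧ 0 < e := by
    obtain ⟨g, hgX, hg⟩ := hnot
    by_contra hno
    push Not at hno
    refine hg (isSemi_of_lines hm fun v a => ?_)
    by_cases hv : v = 0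
    · exact ⟨0, by rw [hv, smul_zero, ap_zero, zero_smul]⟩
    by_cases he : img g (ln F E v) = ln F E (ap g v)
    · obtain ⟨b, hb⟩ := mem_ln.mp (he ▸ mem_img.mpr ⟨a • v, smul_mem_ln v a, rfl⟩)
      exact ⟨b, hb.symm⟩
    · exfalso
      have h0 := hno _ ⟨g, hgX, v, ap g v, hv, ap_ne_zero g hv, he, rfl⟩
      have : finrank F ↥(img g (ln F E v) ⊓ ln F E (ap g v)) ≠ 0 := by
        rw [Ne, Submodule.finrank_eq_zero]
        intro hbot
        have hmem : ap g v ∈ img g (ln F E v) ⊓ ln F E (ap g v) :=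
          ⟨mem_img.mpr ⟨v, self_mem_ln v, rfl⟩, self_mem_ln _⟩
        rw [hbot, Submodule.mem_bot] at hmem
        exact ap_ne_zero g hv hmem
      omega
  set e := Nat.findGreatest P (finrank F E) with he
  have hPe : P e := Nat.findGreatest_spec (hbound _ hPe₀) hPe₀
  have hee : e₀ ≤ e := Nat.le_findGreatest (hbound _ hPe₀) hPe₀
  obtain ⟨g, hgX, v, u, hv, hu, hne, hdim⟩ := hPe
  set D := img g (ln F E v) ⊓ ln F E u with hD
  obtain ⟨d, hdD, hd⟩ := Submodule.exists_mem_ne_zero_of_ne_bot (p := D) (by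
    intro h
    rw [h, finrank_bot] at hdim
    omega)
  obtain ⟨w, hwL, hwu⟩ : ∃ w ∈ img g (ln F E v), w ∉ ln F E u := by
    by_contra h
    push Not at h
    exact hne (Submodule.eq_of_le_of_finrank_eq h (by rw [finrank_img, finrank_ln hv, finrank_ln hu]))
  obtain ⟨Φ, hΦw, hΦu⟩ := exists_sep (E := E) (v := w) (u := u) fun a ha => hwu (ha ▸ smul_mem_ln u a)
  have hΦl : ∀ x ∈ ln F E u, Φ x = 0 := by
    intro x hx
    obtain ⟨a, rfl⟩ := mem_ln.mp hx
    simp [hΦu]
  have hΦd : Φ d = 0 := hΦl d hdD.2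
  set C₀ := dyad F LinearMap.id d Φ with hC₀def
  have hC₀ := dyad_sq (LinearMap.id (R := F) (M := E)) d Φ hΦd
  set C := (apEquiv g⁻¹).toLinearMap ∘ₗ C₀ ∘ₗ (apEquiv g).toLinearMap with hCdef
  have hC : ∀ x, C (C x) = 0 := by
    intro x
    simp only [hCdef, LinearMap.comp_apply, LinearEquiv.coe_coe, apEquiv_apply, ap_ap_inv, hC₀def, hC₀,
      ap_zero]
  have hmem : ∀ c : F, qT (c • C) (smul_sq hC c) ∈ X := by
    intro c
    have ht : qT (c • C₀) (smul_sq hC₀ c) ∈ X := hX _ (det_qT _ _)
      (IsSemi.of_linear E fun a x => by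
        simp [hC₀def, smul_add, smul_smul, smul_comm c])
    convert mul_mem (mul_mem (inv_mem hgX) ht) hgX using 1
    refine gl_ext fun x => ?_
    simp [hCdef, ap_mul, ap_add, ap_inv_ap, ap_smul]
  set h := qT C hC with hdef
  have hhX : h ∈ X := by
    convert hmem 1 using 1
    exact gl_ext fun x => by simp [hdef]
  have hCw : C (ap g⁻¹ w) = ap g⁻¹ d := by simp [hCdef, hC₀def, ap_ap_inv, hΦw]
  -- the image of the line is the line
  have hstab : img h (ln F E v) = ln F E v := by
    by_contra hne'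
    let S := D ⊔ Submodule.span F {w + d}
    have hwd : w + d ∉ ln F E u := fun hc => hwu (by
      simpa using (ln F E u).sub_mem hc hdD.2)
    have hlt : D < S := lt_of_le_of_ne le_sup_left fun heq => hwd
      ((show D ≤ ln F E u from inf_le_right)
        (heq ▸ Submodule.mem_sup_right (Submodule.mem_span_singleton_self _)))
    have hle : img g⁻¹ S ≤ img h (ln F E v) ⊓ ln F E v := by
      have hline : ∀ x ∈ img g (ln F E v), ap g⁻¹ x ∈ ln F E v := by
        intro x hx
        obtain ⟨y, hy, rfl⟩ := mem_img.mp hx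
        rwa [ap_inv_ap]
      rw [img, Submodule.map_sup, Submodule.map_span, sup_le_iff, Submodule.span_le,
        Set.image_singleton, Set.singleton_subset_iff]
      refine ⟨?_, ⟨mem_img.mpr ⟨ap g⁻¹ w, hline w hwL, ?_⟩, ?_⟩⟩
      · rintro _ ⟨x, hx, rfl⟩
        refine ⟨mem_img.mpr ⟨ap g⁻¹ x, hline x hx.1, ?_⟩, hline x hx.1⟩
        simp [hdef, hCdef, hC₀def, ap_ap_inv, hΦl x hx.2, ap_zero]
      · simp [hdef, hCw, ap_add]
      · simp only [LinearEquiv.coe_coe, apEquiv_apply]
        exact hline _ ((img g (ln F E v)).add_mem hwL hdD.1)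
    have h1 := Submodule.finrank_mono hle
    rw [finrank_img] at h1
    have h2 := Submodule.finrank_lt_finrank_of_lt hlt
    have hP : P (finrank F ↥(img h (ln F E v) ⊓ ln F E v)) := ⟨h, hhX, v, v, hv, hv, hne', rfl⟩
    have := Nat.le_findGreatest (hbound _ hP) hP
    omega
  have hCl : ∀ a : E, ∃ b : E, b • v = C (a • v) := by
    intro a
    have := hstab ▸ mem_img.mpr ⟨a • v, smul_mem_ln v a, rfl⟩
    rw [hdef, ap_qT] at this
    exact mem_ln.mp (by simpa using (ln F E v).sub_mem this (smul_mem_ln v a))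
  choose N₀ hN₀ using hCl
  let N : E →ₗ[F] E :=
    { toFun := N₀
      map_add' := fun a b => smul_left_injective E hv (by
        simp only [hN₀, add_smul, map_add])
      map_smul' := fun c a => smul_left_injective E hv (by
        simp only [hN₀, RingHom.id_apply, smul_assoc, map_smul]) }
  refine ⟨v, hv, C, hC, N, hmem, fun a => (hN₀ a).symm, ?_, ?_⟩
  · intro hN
    obtain ⟨a, ha⟩ : ∃ a : E, a • v = ap g⁻¹ w := by
      obtain ⟨y, hy, hyw⟩ := mem_img.mp hwL
      rw [← hyw, ap_inv_ap]
      exact mem_ln.mp hy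
    have := (hN₀ a).symm
    rw [ha, hCw, show N₀ a = 0 from LinearMap.congr_fun hN a, zero_smul] at this
    exact ap_ne_zero g⁻¹ hd this
  · refine le_trans (Submodule.finrank_mono ?_) (LinearMap.finrank_range_le
      ((apEquiv g⁻¹).toLinearMap ∘ₗ (LinearMap.toSpanSingleton E (ι → F) d).restrictScalars F))
    rintro _ ⟨x, rfl⟩
    exact ⟨Φ (ap g x), by simp [hCdef, hC₀def]⟩

/-- An element stabilising a line without normalising the field there gives the special linear group. -/
theorem le_of_not_nrm (hr : (finrank F E).Prime) {v : ι → F} (hv : v ≠ 0) {h : GL ι F}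
    (hh : h ∈ X) (G : E ≃ₗ[F] E) (hG : ∀ a : E, ap h (a • v) = G a • v) (hN : ¬ Nrm G.toLinearMap) :
    Cfsg.Geo.specialLinear ι F ≤ X := by
  obtain ⟨c, hc, hcF⟩ := exists_norm_one (F := F) (E := E) hr
  obtain ⟨Ψ, hΨ⟩ := exists_one (E := E) hv
  have hc0 : c ≠ 0 := fun h => hcF ⟨0, by rw [h, map_zero]⟩
  let k : GL ι F := ofEquiv
    { toFun := fun x => x + ((c - 1) * Ψ x) • v
      map_add' := fun x y => by rw [map_add, mul_add, add_smul]; abel
      map_smul' := fun s x => by
        rw [LinearMap.map_smul_of_tower, mul_smul_comm, smul_assoc, RingHom.id_apply, smul_add]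
      invFun := fun x => x + ((c⁻¹ - 1) * Ψ x) • v
      left_inv := fun x => by
        simp only [map_add, map_smul, smul_eq_mul, hΨ, mul_one]
        rw [add_assoc, ← add_smul, show (c - 1) * Ψ x + (c⁻¹ - 1) * (Ψ x + (c - 1) * Ψ x) = 0 by
          field_simp; ring, zero_smul, add_zero]
      right_inv := fun x => by
        simp only [map_add, map_smul, smul_eq_mul, hΨ, mul_one]
        rw [add_assoc, ← add_smul, show (c⁻¹ - 1) * Ψ x + (c - 1) * (Ψ x + (c⁻¹ - 1) * Ψ x) = 0 by
          field_simp; ring, zero_smul, add_zero] }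
  have hkap : ∀ x, ap k x = x + ((c - 1) * Ψ x) • v := fun x => by simp only [k, ap_ofEquiv]; rfl
  have hkline : ∀ a : E, ap k (a • v) = LinearMap.mulLeft F c a • v := by
    intro a
    rw [hkap, ← add_smul]
    simp [hΨ, sub_mul]
  have hklin : ∀ (a : E) x, ap k (a • x) = a • ap k x := by
    intro a x
    simp [hkap, smul_add, smul_smul, mul_left_comm]
  have hkX : k ∈ X := by
    refine hX k ?_ (IsSemi.of_linear E hklin)
    have : Module.Finite E (ι → F) := Module.Finite.of_restrictScalars_finite F E _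
    rw [mem_specialLinear_iff, ← LinearMap.det_toLin']
    rw [show Matrix.toLin' (k : Matrix ι ι F) =
      (LinearMap.transvection ((c - 1) • Ψ) v).restrictScalars F from LinearMap.ext fun x => by
        rw [Matrix.toLin'_apply, ← ap_def, hkap]
        simp [LinearMap.transvection.apply]]
    rw [LinearMap.det_restrictScalars, LinearMap.transvection.det]
    simp [hΨ, hc]
  have hkq : ∀ x, ∃ b : E, ap k x = x + b • v := fun x => ⟨_, hkap x⟩
  set j := h * k * h⁻¹ with hj
  let D : E →ₗ[F] E := G.toLinearMap ∘ₗ LinearMap.mulLeft F c ∘ₗ G.symm.toLinearMap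
  have hinv : ∀ a : E, ap h⁻¹ (a • v) = G.symm a • v := fun a => ap_injective h (by
    rw [ap_ap_inv, hG, G.apply_symm_apply])
  have hjline : ∀ a : E, ap j (a • v) = D a • v := fun a => by
    simp [hj, ap_mul, hinv, hkline, hG, D]
  have hjq : ∀ x, ∃ b : E, ap j x = x + b • v := fun x => ⟨G ((c - 1) * Ψ (ap h⁻¹ x)), by
    rw [hj, ap_mul, ap_mul, hkap, ap_add, ap_ap_inv, hG]⟩
  have hjX : j ∈ X := mul_mem (mul_mem hh hkX) (inv_mem hh)
  have hadd : ∀ A B, PAt E X v A → PAt E X v B → PAt E X v (A + B) := by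
    intro A B hA hB Φ h
    convert mul_mem (hA Φ h) (hB Φ h) using 1
    refine gl_ext fun x => ?_
    simp [ap_mul, map_add, h, add_smul]
    abel
  have hzero : PAt E X v 0 := by
    intro Φ h
    convert one_mem X using 1
    refine gl_ext fun x => by simp
  have hmul : ∀ a, PAt E X v (LinearMap.mulLeft F a) := by
    intro a Φ h
    exact hX _ (det_qT _ _) (IsSemi.of_linear E fun b x => by
      simp [smul_add, smul_smul, mul_left_comm])
  have hright : ∀ A (s : F), PAt E X v A → PAt E X v (s • A) := by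
    intro A s hA Φ h
    convert hA (algebraMap F E s • Φ) (by simp [h]) using 1
    refine gl_ext fun x => ?_
    simp
  obtain ⟨S, hS⟩ : ∃ S : Subalgebra F (E →ₗ[F] E),
      ∀ B, B ∈ S ↔ ∀ A, PAt E X v A → PAt E X v (B ∘ₗ A) := ⟨
    { carrier := {B | ∀ A, PAt E X v A → PAt E X v (B ∘ₗ A)}
      mul_mem' := fun {a b} ha hb A hA => by
        have e : (a * b) ∘ₗ A = a ∘ₗ (b ∘ₗ A) := LinearMap.ext fun x => rfl
        rw [e]
        exact ha _ (hb A hA)
      one_mem' := fun A hA => by
        have e : (1 : E →ₗ[F] E) ∘ₗ A = A := LinearMap.ext fun x => rfl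
        rw [e]
        exact hA
      add_mem' := fun {a b} ha hb A hA => by
        rw [LinearMap.add_comp]
        exact hadd _ _ (ha A hA) (hb A hA)
      zero_mem' := fun A _ => by rw [LinearMap.zero_comp]; exact hzero
      algebraMap_mem' := fun s A hA => by
        have e : (algebraMap F (E →ₗ[F] E) s) ∘ₗ A = s • A := LinearMap.ext fun x => rfl
        rw [e]
        exact hright A s hA }, fun B => Iff.rfl⟩
  have hcS : LinearMap.mulLeft F c ∈ S := (hS _).mpr fun A hA => pAt_comp hkX hkline hkq hA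
  have hDS : D ∈ S := (hS _).mpr fun A hA => pAt_comp hjX hjline hjq hA
  have hlm : ∀ a : E, Algebra.lmul F E a = LinearMap.mulLeft F a := fun a => LinearMap.ext fun x => by
    simp
  have hmulS : ∀ a, LinearMap.mulLeft F a ∈ S := by
    intro a
    have htop : S.comap (Algebra.lmul F E) = ⊤ := subalgebra_eq_top hr (c := c)
      (by rw [Subalgebra.mem_comap, hlm]; exact hcS) hcF
    have ha : a ∈ S.comap (Algebra.lmul F E) := by rw [htop]; exact Algebra.mem_top
    rwa [Subalgebra.mem_comap, hlm] at ha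
  have hD : ∀ d, D ≠ LinearMap.mulLeft F d := by
    intro d hd
    apply hN
    let T : Subalgebra F E :=
      { carrier := {a | ∃ b : E, ∀ x, G (a * x) = b * G x}
        mul_mem' := by
          rintro a a' ⟨b, hb⟩ ⟨b', hb'⟩
          exact ⟨b * b', fun x => by rw [mul_assoc, hb, hb', mul_assoc]⟩
        one_mem' := ⟨1, fun x => by rw [one_mul, one_mul]⟩
        add_mem' := by
          rintro a a' ⟨b, hb⟩ ⟨b', hb'⟩
          exact ⟨b + b', fun x => by rw [add_mul, map_add, hb, hb', add_mul]⟩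
        zero_mem' := ⟨0, fun x => by rw [zero_mul, map_zero, zero_mul]⟩
        algebraMap_mem' := fun s => ⟨algebraMap F E s, fun x => by
          rw [← Algebra.smul_def, map_smul, Algebra.smul_def]⟩ }
    have hcT : c ∈ T := ⟨d, fun x => by
      have := LinearMap.congr_fun hd (G x)
      simpa [D] using this⟩
    have htop := subalgebra_eq_top hr hcT hcF
    intro a
    exact (show a ∈ T from htop ▸ Algebra.mem_top)
  refine specialLinear_le_of_pAt hm hX hv fun A => ?_
  have hA := (hS A).mp (endSubalgebra_eq_top hr S hmulS hDS hD A) _ (hmul 1)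
  rwa [show A ∘ₗ LinearMap.mulLeft F (1 : E) = A from LinearMap.ext fun x => by simp] at hA

/-- Either semilinear, or everything, or degree two over two elements. -/
theorem main (hr : (finrank F E).Prime) (hnot : ∃ g ∈ X, ¬ IsSemi E g) :
    Cfsg.Geo.specialLinear ι F ≤ X ∨ (finrank F E = 2 ∧ ∀ c : F, c ≠ 0 → c = 1) := by
  obtain ⟨v, hv, C, hC, N, hmem, hN, hN0, -⟩ := exists_step hX hm hnot
  have hNN : ∀ a, N (N a) = 0 := fun a => smul_left_injective E hv (by
    simp only [← hN, hC, zero_smul])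
  by_cases hall : ∀ c : F, c ≠ 0 → Nrm (LinearMap.id + c • N)
  · exact Or.inr (small_of_nrm hr hN0 hNN hall)
  push Not at hall
  obtain ⟨c, -, hc⟩ := hall
  let G : E ≃ₗ[F] E :=
    { (LinearMap.id + c • N : E →ₗ[F] E) with
      invFun := fun x => x - c • N x
      left_inv := fun x => by simp [hNN]
      right_inv := fun x => by simp [map_sub, hNN] }
  exact Or.inl (le_of_not_nrm hX hm hr hv (hmem c) G (fun a => by
    rw [ap_qT]
    simp [G, hN, add_smul, smul_assoc]) hc)

end CfsgLib.Geometric.ExtF
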