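import Cfsg.Agent.Lib.Geometric.ExtField.Core

/-!
The normaliser of a field subalgebra as the group of semilinear maps.
-/

set_option autoImplicit false
set_option linter.unusedSectionVars false

namespace CfsgLib.Geometric.ExtF

open Matrix Module

variable {F : Type*} [Field F] [Finite F] {ι : Type} [Fintype ι] [DecidableEq ι]

/-- Membership in the normaliser is semilinearity. -/
lemma mem_normalizer_iff_isSemi {E : Type*} [Field E] [Algebra F E] [Module E (ι → F)]
    [IsScalarTower F E (ι → F)] (K : Subalgebra F (Matrix ι ι F))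
    (ρ : E → Matrix ι ι F) (hK : ∀ k, k ∈ K ↔ ∃ a, ρ a = k)
    (hsmul : ∀ (a : E) (v : ι → F), a • v = ρ a *ᵥ v) (g : GL ι F) :
    g ∈ Cfsg.Geo.subalgebraNormalizer K ↔ IsSemi E g := by
  constructor
  · intro hg a
    obtain ⟨b, hb⟩ := (hK _).mp ((hg (ρ a)).mp ((hK _).mpr ⟨a, rfl⟩))
    refine ⟨b, fun x => ?_⟩
    simp only [hsmul, hb, ap_def, Matrix.mulVec_mulVec, Matrix.mul_assoc, Units.inv_mul,
      Matrix.mul_one]
  · intro hg
    have key : ∀ h : GL ι F, IsSemi E h → ∀ k ∈ K,
        (h : Matrix ι ι F) * k * ((h⁻¹ : GL ι F) : Matrix ι ι F) ∈ K := by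
      intro h hh k hk
      obtain ⟨a, rfl⟩ := (hK k).mp hk
      obtain ⟨b, hb⟩ := hh a
      refine (hK _).mpr ⟨b, Matrix.ext_of_mulVec_single fun i => ?_⟩
      have := hb (ap h⁻¹ (Pi.single i 1))
      rw [ap_ap_inv, hsmul, hsmul] at this
      rw [← Matrix.mulVec_mulVec, ← Matrix.mulVec_mulVec]
      exact this.symm
    intro k
    refine ⟨key g hg k, fun hk => ?_⟩
    have hinv : IsSemi E g⁻¹ := by
      have : Finite (GL ι F) := inferInstance
      have hfo : IsOfFinOrder g := isOfFinOrder_of_finite g
      rw [show g⁻¹ = g ^ (orderOf g - 1) from (inv_eq_of_mul_eq_one_right (by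
        rw [← pow_succ', Nat.sub_add_cancel hfo.orderOf_pos, pow_orderOf_eq_one]))]
      generalize orderOf g - 1 = e
      induction e with
      | zero => exact IsSemi.of_linear E fun a x => by rw [pow_zero, ap_one, ap_one]
      | succ e ih => rw [pow_succ]; exact ih.mul hg
    have := key g⁻¹ hinv _ hk
    simpa [mul_assoc] using this

/-- The field structure on a field subalgebra. -/
@[implicit_reducible]
noncomputable def fieldOfSubalg [Fintype F] {r : ℕ} {K : Subalgebra F (Matrix ι ι F)}
    (hK : Cfsg.Geo.IsFieldSubalgebra r K) (hr : r ≠ 0) : Field K :=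
  letI : CommRing K :=
    { (inferInstance : Ring K) with mul_comm := fun x y => Subtype.ext (hK.comm x x.2 y y.2) }
  IsField.toField
    { exists_pair_ne := by
        have h : Nontrivial K := Module.nontrivial_of_finrank_pos (R := F) (by rw [hK.finrank_eq]; omega)
        exact h.exists_pair_ne
      mul_comm := fun x y => Subtype.ext (hK.comm x x.2 y y.2)
      mul_inv_cancel := fun {x} hx => by
        obtain ⟨y, hy, hxy⟩ := hK.inv x x.2 (fun h => hx (Subtype.ext h))
        exact ⟨⟨y, hy⟩, Subtype.ext hxy⟩ }

/-- An element of prime degree outside the ground field. -/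
lemma exists_notMem_range {E : Type*} [Field E] [Algebra F E] (hr : (finrank F E).Prime) :
    ∃ a : E, a ∉ Set.range (algebraMap F E) := by
  by_contra h
  push Not at h
  have h1 := (Algebra.linearMap F E).finrank_range_le
  have hs : Function.Surjective (Algebra.linearMap F E) := fun w => h w
  rw [LinearMap.range_eq_top.mpr hs, finrank_top, Module.finrank_self] at h1
  have := hr.two_le
  omega

/-- Every functional on a finite extension is multiplication followed by a fixed one. -/
lemma exists_mul_rep {E : Type*} [Field E] [Algebra F E] [Finite E] {T : E →ₗ[F] F} (hT : T ≠ 0)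
    (ψ : E →ₗ[F] F) : ∃ e : E, ∀ a, T (a * e) = ψ a := by
  have : Module.Finite F E := Module.Finite.of_finite
  let TE : E →ₗ[F] (E →ₗ[F] F) :=
    { toFun := fun e => T ∘ₗ LinearMap.mulRight F e
      map_add' := fun a b => LinearMap.ext fun c => by simp [mul_add]
      map_smul' := fun c a => LinearMap.ext fun d => by simp }
  have hinj : Function.Injective TE := by
    rw [injective_iff_map_eq_zero]
    intro e he
    by_contra hne
    refine hT (LinearMap.ext fun a => ?_)
    simpa [TE, div_mul_cancel₀ _ hne] using LinearMap.congr_fun he (a / e)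
  obtain ⟨c, hc⟩ := (LinearMap.injective_iff_surjective_of_finrank_eq_finrank
    (by rw [Module.finrank_linearMap, Module.finrank_self, mul_one])).1 hinj ψ
  exact ⟨c, fun a => LinearMap.congr_fun hc a⟩

/-- A non-zero functional. -/
lemma exists_functional_ne_zero (E : Type*) [Field E] [Algebra F E] : ∃ T : E →ₗ[F] F, T ≠ 0 := by
  let b := Module.Free.chooseBasis F E
  obtain ⟨i⟩ := b.index_nonempty
  exact ⟨b.coord i, fun h => one_ne_zero (α := F) (by simpa using LinearMap.congr_fun h (b i))⟩

end CfsgLib.Geometric.ExtF
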