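import Cfsg.Agent.Lib.Geometric.ExtField.OrthTrace
import Cfsg.Agent.Lib.Geometric.ExtField.CommonZero

/-!
Dimension three over the extension: an element that is not semilinear gives everything, by counting the pairs of
perpendicular singular vectors.
-/

set_option autoImplicit false
set_option linter.unusedSectionVars false

namespace CfsgLib.Geometric.ExtF

open Module Matrix QuadraticMap CfsgLib.ClassicalForms CfsgLib.Geometric.Orth

variable {F : Type*} [Field F] {ι : Type} [Fintype ι] [DecidableEq ι] {E : Type*} [Field E] [Algebra F E]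
  [Module E (ι → F)] [IsScalarTower F E (ι → F)] [Finite F] [Finite E]

/-- A non-zero singular vector is perpendicular to few singular vectors. -/
lemma card_perp_zeros {Q : QuadraticForm F (ι → F)} (hnd : Nondeg Q) (hι : 2 ≤ Fintype.card ι)
    (hN : Nat.card {x : ι → F // Q x = 0} ≤ Nat.card F ^ (Fintype.card ι - 1)) {x : ι → F} (hx : Q x = 0)
    (hx0 : x ≠ 0) :
    Nat.card {y : ι → F // Q y = 0 ∧ polar Q x y = 0} ≤ Nat.card F ^ (Fintype.card ι - 2) := by
  classical
  set q := Nat.card F with hq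
  obtain ⟨z, hz⟩ := hnd.exists_polar_ne hx0
  let χ : (ι → F) →ₗ[F] F := (polarBilin Q) x
  have hχ : ∀ y, χ y = polar Q x y := fun y => rfl
  have hker : finrank F (LinearMap.ker χ) = Fintype.card ι - 1 := by
    have h := χ.finrank_range_add_finrank_ker
    rw [LinearMap.range_eq_top.mpr (LinearMap.surjective fun h0 => hz (by rw [← hχ, h0]; rfl)), finrank_top,
      Module.finrank_self, Module.finrank_fintype_fun_eq_card] at h
    omega
  have hcker : Nat.card {y : ι → F // polar Q x y = 0} = q ^ (Fintype.card ι - 1) := by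
    rw [← hker, ← Module.natCard_eq_pow_finrank (K := F) (V := LinearMap.ker χ)]
    exact Nat.card_congr (Equiv.subtypeEquivRight fun y => by rw [LinearMap.mem_ker, hχ])
  have hall : Nat.card {y : ι → F // polar Q x y = 0} + Nat.card {y : ι → F // ¬ polar Q x y = 0} =
      q ^ Fintype.card ι := by
    rw [← Nat.card_sum, Nat.card_congr (Equiv.sumCompl _), Nat.card_fun, Nat.card_eq_fintype_card (α := ι)]
  have hsplit : Nat.card {y : ι → F // Q y = 0 ∧ polar Q x y = 0} +
      Nat.card {y : ι → F // Q y = 0 ∧ ¬ polar Q x y = 0} = Nat.card {y : ι → F // Q y = 0} := by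
    rw [← Nat.card_sum]
    exact Nat.card_congr ((Equiv.sumCongr (Equiv.subtypeSubtypeEquivSubtypeInter _ _).symm
      (Equiv.subtypeSubtypeEquivSubtypeInter _ _).symm).trans
      (Equiv.sumCompl fun y : {y : ι → F // Q y = 0} => polar Q x y.1 = 0))
  have hinj : Nat.card {y : ι → F // ¬ polar Q x y = 0} ≤
      Nat.card {y : ι → F // Q y = 0 ∧ ¬ polar Q x y = 0} * q := by
    rw [hq, ← Nat.card_prod]
    have hp : ∀ (y : ι → F) (t : F), polar Q x (y - t • x) = polar Q x y := fun y t => by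
      rw [← hχ, ← hχ, map_sub, map_smul, hχ x, polar_self_mul, hx, mul_zero, smul_zero, sub_zero]
    refine Nat.card_le_card_of_injective
      (fun y => (⟨y.1 - (Q y.1 / polar Q x y.1) • x, ?_, by rw [hp]; exact y.2⟩, Q y.1 / polar Q x y.1)) ?_
    · rw [sub_eq_add_neg, ← neg_smul, QuadraticMap.map_add ⇑Q, QuadraticMap.map_smul, hx, smul_zero, add_zero,
        polar_smul_right, polar_comm (⇑Q) y.1 x, smul_eq_mul, neg_mul, div_mul_cancel₀ _ y.2, add_neg_cancel]
    · intro y y' h
      simp only [Prod.mk.injEq, Subtype.mk.injEq] at h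
      obtain ⟨h1, h2⟩ := h
      rw [h2] at h1
      exact Subtype.ext (sub_left_injective h1)
  have hq1 : 0 < q := Nat.card_pos
  have hpow : q ^ Fintype.card ι = q * q ^ (Fintype.card ι - 1) := by
    rw [← pow_succ']; congr 1; omega
  have hpow' : q ^ (Fintype.card ι - 1) = q * q ^ (Fintype.card ι - 2) := by
    rw [← pow_succ']; congr 1; omega
  refine le_of_mul_le_mul_left ?_ hq1
  rw [← hpow']
  have h1 := Nat.mul_le_mul_left q (hsplit ▸ hN)
  rw [mul_add] at h1
  rw [mul_comm] at hinj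
  omega

namespace OForm

variable {Q : QuadraticForm F (ι → F)} (S : OForm Q E)

include S in
/-- An isotropic vector. -/
lemma exists_isotropic : ∃ v, v ≠ 0 ∧ S.φ v v = 0 := by
  have := S.finite_E
  obtain ⟨v, hv, h⟩ := exists_common_zero (fun _ : Unit => S.φ) 0
    (by rw [Fintype.card_unit]; have := S.big; omega)
  exact ⟨v, hv, by simpa using h ()⟩

include S in
/-- Many isotropic vectors. -/
lemma card_iso_ge :
    (Nat.card E + 1) * (Nat.card E - 1) ≤ Nat.card {x : ι → F // x ≠ 0 ∧ S.φ x x = 0} := by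
  classical
  obtain ⟨v, hv, hvv⟩ := S.exists_isotropic
  obtain ⟨p, hpp, hvp⟩ := S.exists_partner hv hvv
  have hpv : S.φ p v = 1 := by rw [S.symm, hvp]
  obtain ⟨y, y1, y2, hyy⟩ := S.exists_aniso hvv hpp (by rw [hvp]; exact one_ne_zero)
  let w : Option E → (ι → F) := fun o => o.elim p fun t => v + t • y + (-(t * t * S.φ y y) / 2) • p
  have hw : ∀ o, S.φ (w o) (w o) = 0 := by
    rintro (_ | t)
    · exact hpp
    · simp only [w, Option.elim, map_add, map_smul, LinearMap.add_apply, LinearMap.smul_apply, smul_eq_mul,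
        hvv, hpp, hvp, hpv, S.symm v y, S.symm p y, y1, y2]
      have := S.two_E
      field_simp
      ring
  have hw0 : ∀ o, w o ≠ 0 := by
    rintro (_ | t) h
    · have := congrArg (fun u => S.φ u v) h
      simp [w, hpv] at this
    · have := congrArg (fun u => S.φ u p) h
      simp [w, hvp, y2, hpp] at this
  refine le_of_eq_of_le ?_ (Nat.card_le_card_of_injective
    (fun z : Option E × Eˣ => (⟨(z.2 : E) • w z.1, smul_ne_zero z.2.ne_zero (hw0 _), by simp [hw]⟩ :
      {x : ι → F // x ≠ 0 ∧ S.φ x x = 0})) ?_)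
  · rw [Nat.card_prod, Nat.card_units, Finite.card_option]
  rintro ⟨o, c⟩ ⟨o', c'⟩ h
  simp only [Subtype.mk.injEq] at h
  rcases o with _ | t <;> rcases o' with _ | t'
  · have := congrArg (fun u => S.φ u v) h
    simp [w, hpv] at this
    exact Prod.ext rfl (Units.ext this)
  · have := congrArg (fun u => S.φ u p) h
    simp [w, hvp, y2, hpp] at this
    exact absurd this.symm c'.ne_zero
  · have := congrArg (fun u => S.φ u p) h
    simp [w, hvp, y2, hpp] at this
  · have h1 := congrArg (fun u => S.φ u p) h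
    have h2 := congrArg (fun u => S.φ u y) h
    simp [w, hvp, y2, hpp] at h1
    obtain rfl := Units.ext h1
    simp [w, S.symm v y, y1, S.symm p y, y2, hyy] at h2
    rw [h2]

include S in
/-- Many linear elements. -/
lemma card_lin_ge :
    (Nat.card E + 1) * (Nat.card E - 1) * Nat.card E ≤
      2 * Nat.card {n : GL ι F // n ∈ Cfsg.Geo.omegaGL (⇑Q) ∧ ∀ (a : E) x, ap n (a • x) = a • ap n x} := by
  classical
  obtain ⟨v, hv, hvv⟩ := S.exists_isotropic
  obtain ⟨p, hpp, hvp⟩ := S.exists_partner hv hvv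
  have hpv : S.φ p v = 1 := by rw [S.symm, hvp]
  obtain ⟨y, y1, y2, hyy⟩ := S.exists_aniso hvv hpp (by rw [hvp]; exact one_ne_zero)
  let w : Option E → (ι → F) := fun o => o.elim p fun t => v + t • y + (-(t * t * S.φ y y) / 2) • p
  have hw : ∀ o, S.φ (w o) (w o) = 0 := by
    rintro (_ | t)
    · exact hpp
    · simp only [w, Option.elim, map_add, map_smul, LinearMap.add_apply, LinearMap.smul_apply, smul_eq_mul,
        hvv, hpp, hvp, hpv, S.symm v y, S.symm p y, y1, y2]
      have := S.two_E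
      field_simp
      ring
  have hw0 : ∀ o, w o ≠ 0 := by
    rintro (_ | t) h
    · have := congrArg (fun u => S.φ u v) h
      simp [w, hpv] at this
    · have := congrArg (fun u => S.φ u p) h
      simp [w, hvp, y2, hpp] at this
  choose k hk hkl hkf d hd hkv using fun o =>
    S.exists_move (M := Cfsg.Geo.omegaGL (⇑Q)) (fun g hg _ => hg) hv (hw0 o) hvv (hw o)
  have hy : ∀ t : E, S.φ v (t • y) = 0 := fun t => by simp [S.symm v y, y1]
  let f : Option E × Eˣ × E →
      {n : GL ι F // n ∈ Cfsg.Geo.omegaGL (⇑Q) ∧ ∀ (a : E) x, ap n (a • x) = a • ap n x} := fun z =>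
    ⟨k z.1 * S.torus v p ((z.2.1 : E) * z.2.1) * S.sE v (z.2.2 • y),
      mul_mem (mul_mem (hk _) (S.torus_sq_mem hvv hpp hvp z.2.1.ne_zero)) (S.sE_mem hvv (hy _)),
      fun a x => by
        rw [ap_mul, S.sE_linear hvv (hy _), ap_mul,
          S.torus_linear hvv hpp hvp (mul_ne_zero z.2.1.ne_zero z.2.1.ne_zero), hkl, ← ap_mul, ← ap_mul]⟩
  have hfv : ∀ o (c : Eˣ) t, ap (f (o, c, t)).1 v = (((c : E) * c) * d o) • w o := fun o c t => by
    simp only [f, ap_mul]
    rw [S.ap_sE hvv (hy t), hvv, hy t]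
    simp only [zero_smul, mul_zero, add_zero, sub_zero]
    rw [S.torus_v hvv hpp hvp (mul_ne_zero c.ne_zero c.ne_zero), hkl, hkv, smul_smul]
  have key : ∀ o o' (c c' : Eˣ) t t', f (o, c, t) = f (o', c', t') →
      o = o' ∧ (c : E) * c = c' * c' ∧ t = t' := by
    intro o o' c c' t t' he
    have h := congrArg (fun n => ap n.1 v) he
    simp only [hfv] at h
    have hcd : ∀ (c : Eˣ) o, (c : E) * c * d o ≠ 0 := fun c o =>
      mul_ne_zero (mul_ne_zero c.ne_zero c.ne_zero) (hd o)
    have ho : o = o' := by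
      rcases o with _ | s <;> rcases o' with _ | s'
      · rfl
      · have := congrArg (fun u => S.φ u p) h
        simp [w, hvp, y2, hpp, hd] at this
      · have := congrArg (fun u => S.φ u p) h
        simp [w, hvp, y2, hpp, hd] at this
      · have h1 := congrArg (fun u => S.φ u p) h
        have h2 := congrArg (fun u => S.φ u y) h
        simp [w, hvp, y2, hpp] at h1
        simp [w, S.symm v y, y1, S.symm p y, y2, hyy] at h2
        rw [h1] at h2
        exact congrArg some (mul_right_cancel₀ hyy (mul_left_cancel₀ (hcd c' (some s')) h2))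
    subst ho
    have hc : (c : E) * c = c' * c' := mul_right_cancel₀ (hd o) (smul_left_injective E (hw0 o) h)
    refine ⟨rfl, hc, ?_⟩
    have hn : (f (o, c, t)).1 = (f (o, c', t')).1 := congrArg Subtype.val he
    simp only [f, hc] at hn
    have h2 := congrArg (fun n => S.φ (ap n p) y) (mul_left_cancel hn)
    simp [S.ap_sE hvv (hy _), hpv, S.symm p y, y2, S.symm v y, y1, hyy] at h2
    exact h2
  let rep : _ → Option E × Eˣ × E := Function.invFun f
  have hrep : ∀ z, f (rep (f z)) = f z := fun z => Function.invFun_eq ⟨z, rfl⟩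
  have hinj : Function.Injective fun z => (f z, decide (z.2.1 = (rep (f z)).2.1)) := by
    rintro ⟨o, c, t⟩ ⟨o', c', t'⟩ he
    simp only [Prod.mk.injEq] at he
    obtain ⟨he, hb⟩ := he
    obtain ⟨rfl, hcc, rfl⟩ := key o o' c c' t t' he
    rw [← he] at hb
    obtain ⟨-, hr, -⟩ := key _ _ _ _ _ _ (hrep (o, c, t))
    by_cases hc : c = (rep (f (o, c, t))).2.1
    · rw [decide_eq_true hc, eq_comm, decide_eq_true_iff] at hb
      rw [hb, ← hc]
    · rw [decide_eq_false hc, eq_comm, decide_eq_false_iff_not] at hb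
      rw [← Units.val_inj] at hb hc
      have h1 : (c : E) = -((rep (f (o, c, t))).2.1 : E) :=
        (mul_self_eq_mul_self_iff.mp hr.symm).resolve_left hc
      have h2 : (c' : E) = -((rep (f (o, c, t))).2.1 : E) :=
        (mul_self_eq_mul_self_iff.mp (hcc ▸ hr.symm)).resolve_left hb
      rw [Units.ext (h1.trans h2.symm)]
  have h := Nat.card_le_card_of_injective _ hinj
  rw [Nat.card_prod, Nat.card_prod, Nat.card_prod, Nat.card_units, Finite.card_option,
    Nat.card_eq_fintype_card (α := Bool), Fintype.card_bool] at h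
  rw [mul_assoc, mul_comm 2]
  exact h

variable {M : Subgroup (GL ι F)}
  (hR : ∀ g ∈ Cfsg.Geo.omegaGL (⇑Q), IsSemi E g → g ∈ M)
  (hMΩ : M ≤ Cfsg.Geo.omegaGL (⇑Q))

include hR hMΩ

include S in
/-- Everything, in dimension three. -/
theorem omega_le_three (h3 : finrank E (ι → F) = 3) (hr : (finrank F E).Prime) (h3r : 3 ≤ finrank F E)
    (hN : Nat.card {x : ι → F // Q x = 0} ≤ Nat.card F ^ (Fintype.card ι - 1))
    (hnot : ∃ g ∈ M, ¬ IsSemi E g) : Cfsg.Geo.omegaGL (⇑Q) ≤ M := by
  classical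
  by_contra hΩ
  obtain ⟨g, hg, hns⟩ := hnot
  have hfinE : Module.Finite F E := Module.Finite.of_finite
  set r := finrank F E with hr'
  have hι : Fintype.card ι = r * 3 := by
    rw [← Module.finrank_fintype_fun_eq_card F (η := ι), hr', ← h3, Module.finrank_mul_finrank]
  have hn : 5 ≤ Fintype.card ι := by omega
  have hM : M ≤ Cfsg.isometryGroup F (⇑Q) := hMΩ.trans omegaGL_le
  let N := {n : GL ι F // n ∈ Cfsg.Geo.omegaGL (⇑Q) ∧ ∀ (a : E) x, ap n (a • x) = a • ap n x}
  let I := {x : ι → F // x ≠ 0 ∧ S.φ x x = 0}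
  let A := {a : E // a ∉ Set.range (algebraMap F E)}
  let P := {x : ι → F // Q x = 0 ∧ x ≠ 0}
  let T := (x : P) × {y : ι → F // Q y = 0 ∧ polar Q x.1 y = 0}
  have hm : ∀ n : N, g * n.1 * g⁻¹ ∈ M := fun n =>
    mul_mem (mul_mem hg (hR _ n.2.1 (IsSemi.of_linear E n.2.2))) (inv_mem hg)
  let f : N × I × A → T := fun z =>
    ⟨⟨ap (g * z.1.1 * g⁻¹) z.2.1.1, by
      rw [mem_isometryGroup_iff.mp (hM (hm z.1))]; exact S.Q_eq_zero z.2.1.2.2,
      fun h => z.2.1.2.1 (ap_injective _ (by rw [h, ap_zero]))⟩,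
    ⟨ap (g * z.1.1 * g⁻¹) (z.2.2.1 • z.2.1.1), by
      rw [mem_isometryGroup_iff.mp (hM (hm z.1))]; exact S.Q_eq_zero (by simp [z.2.1.2.2]), by
      rw [polar_ap (hM (hm z.1)), S.polar_smul, z.2.1.2.2, mul_zero, map_zero]⟩⟩
  have hT : ∀ {t t' : T}, t = t' → (t.1.1, t.2.1) = (t'.1.1, t'.2.1) := fun h => by subst h; rfl
  have key : ∀ z z', f z = f z' → z'.1.1⁻¹ * z.1.1 ∈ conjSemi E Q g := by
    rintro ⟨n, x, a⟩ ⟨n', x', a'⟩ he
    obtain ⟨h1', h2'⟩ := Prod.mk.inj (hT he)
    have h1 : ap (g * n.1 * g⁻¹) x.1 = ap (g * n'.1 * g⁻¹) x'.1 := h1'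
    have h2 : ap (g * n.1 * g⁻¹) (a.1 • x.1) = ap (g * n'.1 * g⁻¹) (a'.1 • x'.1) := h2'
    refine ⟨mul_mem (inv_mem n'.2.1) n.2.1, fun b z => ?_, ?_⟩
    · refine ap_injective n'.1 ?_
      simp only [← ap_mul, mul_inv_cancel_left]
      rw [n.2.2, n'.2.2, ← ap_mul, mul_inv_cancel_left]
    rw [show g * (n'.1⁻¹ * n.1) * g⁻¹ = (g * n'.1 * g⁻¹)⁻¹ * (g * n.1 * g⁻¹) by group]
    refine S.semi_of_two hR hMΩ h3 hr h3r hn hΩ (mul_mem (inv_mem (hm n')) (hm n)) x.2.1 x.2.2 x'.2.1 x'.2.2 a.2
      ?_ ?_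
    · rw [ap_mul, h1, ap_inv_ap]; exact self_mem_ln _
    · rw [ap_mul, h2, ap_inv_ap]; exact smul_mem_ln _ _
  have hcard : Nat.card (N × I × A) ≤ Nat.card (T × conjSemi E Q g) := by
    by_cases hne : Nonempty (N × I × A)
    swap
    · rw [not_nonempty_iff] at hne
      simp
    let rep : T → N × I × A := Function.invFun f
    have hrep : ∀ z, f (rep (f z)) = f z := fun z => Function.invFun_eq ⟨z, rfl⟩
    refine Nat.card_le_card_of_injective
      (fun z => (f z, (⟨(rep (f z)).1.1⁻¹ * z.1.1, key z (rep (f z)) (hrep z).symm⟩ : conjSemi E Q g))) ?_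
    rintro ⟨n, x, a⟩ ⟨n', x', a'⟩ he
    simp only [Prod.mk.injEq, Subtype.mk.injEq] at he
    obtain ⟨he, hc⟩ := he
    rw [he] at hc
    obtain rfl : n = n' := Subtype.ext (mul_left_cancel hc)
    obtain ⟨h1, h2⟩ := Prod.mk.inj (hT he)
    obtain rfl : x = x' := Subtype.ext (ap_injective _ h1)
    obtain rfl : a = a' := Subtype.ext (smul_left_injective E x.2.1 (ap_injective _ h2))
    rfl
  have := Fintype.ofFinite F
  obtain ⟨κ, hC, hκ⟩ : ∃ κ, Nat.card (conjSemi E Q g) ≤ κ * (4 * Nat.card F - 4) ∧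
      ((κ = 1 ∧ (finrank F E = 3 → Nat.card F = 3)) ∨ (κ = 3 ∧ finrank F E = 3 ∧ Nat.card F ≠ 3)) := by
    have hlinC : Nat.card (conjLin E Q g) ≤ 4 * Nat.card F - 4 := by
      have := Fintype.ofFinite (conjLin E Q g)
      rw [Nat.card_eq_fintype_card, Nat.card_eq_fintype_card]
      exact S.card_conjLin hR hMΩ h3 hr h3r hn hΩ hg hns
    by_cases hsmall : finrank F E = 3 → Nat.card F = 3
    · refine ⟨1, ?_, Or.inl ⟨rfl, hsmall⟩⟩
      rw [one_mul]
      refine le_trans (Subgroup.card_le_of_le (S.conjSemi_le hR hMΩ h3 hr h3r hn hΩ hg hns fun h => ?_)) hlinC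
      have h' := FiniteField.cast_card_eq_zero F
      rw [← Nat.card_eq_fintype_card, hsmall h] at h'
      exact_mod_cast h'
    · push Not at hsmall
      refine ⟨3, ?_, Or.inr ⟨rfl, hsmall.1, hsmall.2⟩⟩
      obtain ⟨v, hv, -⟩ := S.exists_isotropic
      refine (card_conjSemi (Q := Q) (g := g) (E := E) hv).trans (Nat.mul_le_mul ?_ hlinC)
      rw [Nat.card_eq_fintype_card]
      exact (AlgEquiv.card_le (F := F) (K := E)).trans hsmall.1.le
  have hT' : Nat.card T ≤ Nat.card F ^ (Fintype.card ι - 1) * Nat.card F ^ (Fintype.card ι - 2) := by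
    have := Fintype.ofFinite P
    rw [Nat.card_sigma]
    refine (Finset.sum_le_card_nsmul _ _ _ fun x _ => card_perp_zeros S.nd (by omega) hN x.2.1 x.2.2).trans ?_
    rw [Finset.card_univ, smul_eq_mul, ← Nat.card_eq_fintype_card]
    exact Nat.mul_le_mul_right _ ((Nat.card_le_card_of_injective (fun x : P => (⟨x.1, x.2.1⟩ :
      {x : ι → F // Q x = 0})) fun a b h => Subtype.ext (congrArg (fun z : {x : ι → F // Q x = 0} => z.1) h)).trans hN)
  have hA : Nat.card A + Nat.card F = Nat.card E := by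
    rw [show Nat.card F = Nat.card {a : E // a ∈ Set.range (algebraMap F E)} from
      Nat.card_congr (Equiv.ofInjective _ (algebraMap F E).injective), add_comm, ← Nat.card_sum]
    exact Nat.card_congr (Equiv.sumCompl fun a : E => a ∈ Set.range (algebraMap F E))
  rw [Nat.card_prod, Nat.card_prod, Nat.card_prod] at hcard
  have hI : (Nat.card E + 1) * (Nat.card E - 1) ≤ Nat.card I := S.card_iso_ge
  have hN0 : (Nat.card E + 1) * (Nat.card E - 1) * Nat.card E ≤ 2 * Nat.card N := S.card_lin_ge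
  have hQE : Nat.card E = Nat.card F ^ r := Module.natCard_eq_pow_finrank
  have hq3 : 3 ≤ Nat.card F := by
    have h2 : 1 < Nat.card F := Finite.one_lt_card
    by_contra hlt
    have h2' : Fintype.card F = 2 := by rw [← Nat.card_eq_fintype_card]; omega
    exact S.two (by
      have := FiniteField.cast_card_eq_zero F
      rw [h2'] at this
      exact_mod_cast this)
  set q := Nat.card F
  set K := Nat.card E
  have hodd3 : q = 3 ∨ 5 ≤ q := by
    by_contra h
    have h4 : q = 4 := by omega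
    have h' := FiniteField.cast_card_eq_zero F
    rw [← Nat.card_eq_fintype_card, show Nat.card F = 4 from h4] at h'
    exact S.two (mul_self_eq_zero.mp (by push_cast at h'; linear_combination h'))
  have hbig : (K + 1) * (K - 1) * K * ((K + 1) * (K - 1)) * (K - q) * q ^ 3 ≤ κ * (8 * (q - 1) * K ^ 6) := by
    calc (K + 1) * (K - 1) * K * ((K + 1) * (K - 1)) * (K - q) * q ^ 3
        ≤ 2 * Nat.card N * Nat.card I * Nat.card A * q ^ 3 := by
          gcongr
          omega
      _ = 2 * (Nat.card N * (Nat.card I * Nat.card A)) * q ^ 3 := by ring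
      _ ≤ 2 * ((q ^ (Fintype.card ι - 1) * q ^ (Fintype.card ι - 2)) * (κ * (4 * q - 4))) * q ^ 3 := by
          exact Nat.mul_le_mul_right _ (Nat.mul_le_mul_left _ (hcard.trans (Nat.mul_le_mul hT' hC)))
      _ = κ * (8 * (q - 1) * K ^ 6) := by
          rw [show 4 * q - 4 = 4 * (q - 1) by omega, hQE, ← pow_mul,
            show r * 6 = (Fintype.card ι - 1) + (Fintype.card ι - 2) + 3 by omega, pow_add, pow_add]
          ring
  have hr35 : r = 3 ∨ 5 ≤ r := by
    by_contra h
    have h4 : r = 4 := by omega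
    rw [h4] at hr
    norm_num at hr
  have hK27 : 27 ≤ K := by
    rw [hQE]
    exact le_trans (by simpa using Nat.pow_le_pow_right (show 0 < 3 by omega) h3r) (Nat.pow_le_pow_left hq3 r)
  -- the final inequality
  obtain ⟨a, ha⟩ : ∃ a, K = a + 1 := ⟨K - 1, by omega⟩
  have hqK : q ≤ K := hQE ▸ Nat.le_self_pow (by omega) q
  obtain ⟨b, hb⟩ : ∃ b, K = q + b := ⟨K - q, by omega⟩
  rw [show K - 1 = a by omega, show K - q = b by omega] at hbig
  have e1 : 8 * K ^ 4 ≤ 9 * (((K + 1) * a) * ((K + 1) * a)) := by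
    have : ((K + 1) * a) + 1 = K * K := by rw [ha]; ring
    rw [show K ^ 4 = (K * K) * (K * K) by ring, ← this]
    have hm : 243 ≤ (K + 1) * a := by nlinarith
    generalize (K + 1) * a = m at hm ⊢
    nlinarith [Nat.mul_le_mul_right m hm]
  -- with a lower bound for the complement of the base field
  have key : ∀ α β : ℕ, α * K ≤ β * b → 8 * α * q ^ 3 ≤ 9 * β * (κ * (8 * (q - 1))) := by
    intro α β hαβ
    refine Nat.le_of_mul_le_mul_right (c := K ^ 6) ?_ (by positivity)
    refine le_trans (le_of_eq (show 8 * α * q ^ 3 * K ^ 6 = (8 * K ^ 4) * (α * K) * K * q ^ 3 by ring)) ?_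
    refine le_trans (b := (9 * (((K + 1) * a) * ((K + 1) * a))) * (β * b) * K * q ^ 3) (by gcongr) ?_
    calc (9 * (((K + 1) * a) * ((K + 1) * a))) * (β * b) * K * q ^ 3
        = 9 * β * ((K + 1) * a * K * ((K + 1) * a) * b * q ^ 3) := by ring
      _ ≤ 9 * β * (κ * (8 * (q - 1) * K ^ 6)) := Nat.mul_le_mul_left _ hbig
      _ = _ := by ring
  rcases hκ with ⟨rfl, hs⟩ | ⟨rfl, hr3, hq⟩
  · rcases hr35 with hr3 | h5
    · have hq' : q = 3 := hs hr3
      have hK' : K = 27 := by rw [hQE, hq', hr3]; norm_num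
      obtain rfl : a = 26 := by omega
      obtain rfl : b = 24 := by omega
      rw [hq', hK'] at hbig
      norm_num at hbig
    · have hK : q ^ 5 ≤ K := hQE ▸ Nat.pow_le_pow_right (by omega) h5
      have h81 : 3 ^ 4 * q ≤ q ^ 5 := by
        rw [pow_succ q 4]; exact Nat.mul_le_mul_right q (Nat.pow_le_pow_left hq3 4)
      have e4 := key 80 81 (by omega)
      rcases eq_or_lt_of_le hq3 with h | h
      · rw [← h] at e4; norm_num at e4
      · have : 16 * q ≤ q ^ 3 := by
          rw [pow_succ q 2]; exact Nat.mul_le_mul_right q (Nat.pow_le_pow_left (show 4 ≤ q by omega) 2)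
        omega
  · have h5 : 5 ≤ q := hodd3.resolve_left hq
    have hK : K = q ^ 3 := by rw [hQE]; exact congrArg (q ^ ·) hr3
    have h25 : 25 * q ≤ q ^ 3 := by
      rw [pow_succ q 2]; exact Nat.mul_le_mul_right q (Nat.pow_le_pow_left h5 2)
    have e4 := key 24 25 (by omega)
    rcases eq_or_lt_of_le h5 with h | h
    · rw [← h] at e4; norm_num at e4
    · have : 36 * q ≤ q ^ 3 := by
        rw [pow_succ q 2]; exact Nat.mul_le_mul_right q (Nat.pow_le_pow_left (show 6 ≤ q by omega) 2)
      omega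

end OForm

end CfsgLib.Geometric.ExtF
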