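import Cfsg.Agent.Lib.Geometric.ExtField.OrthMax
import Cfsg.Agent.Lib.Geometric.ExtField.OrthThree
import Cfsg.Agent.Lib.Geometric.ExtField.Normaliser

/-!
Maximality of the extension field subgroup in `omegaGL` in odd characteristic and dimension at least three over
the extension (in dimension three, for a form with at most `q ^ (n - 1)` zeros and degree at least three).
-/

set_option autoImplicit false
set_option linter.unusedSectionVars false

namespace CfsgLib.Geometric.ExtF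

open Module Matrix QuadraticMap CfsgLib.ClassicalForms CfsgLib.Geometric.Orth

section

variable {F : Type*} [Field F] [Finite F] {ι : Type} [Fintype ι] [DecidableEq ι] {E : Type*} [Field E]
  [Algebra F E] [Module E (ι → F)] [IsScalarTower F E (ι → F)] [Finite E] {Q : QuadraticForm F (ι → F)}

/-- There is an element of `omegaGL` that is not semilinear. -/
theorem OForm.exists_not_semi (S : OForm Q E) (hr : (finrank F E).Prime) (hn : 5 ≤ Fintype.card ι) :
    ∃ g ∈ Cfsg.Geo.omegaGL (⇑Q), ¬ IsSemi E g := by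
  obtain ⟨v, hv, hvv⟩ := S.exists_isotropic
  obtain ⟨p, hpp, hvp⟩ := S.exists_partner hv hvv
  have hpv : S.φ p v = 1 := by rw [S.symm, hvp]
  obtain ⟨y, y1, y2, hyy⟩ := S.exists_aniso hvv hpp (by rw [hvp]; exact one_ne_zero)
  obtain ⟨d, hd⟩ : ∃ d, S.T d ≠ 0 := by
    by_contra hall
    push Not at hall
    exact S.T_ne (LinearMap.ext hall)
  obtain ⟨b, hb⟩ := exists_notMem_range (F := F) hr
  have h1 : Q (d • v) = 0 := S.Q_eq_zero (by simp [hvv])
  have h2 : polar Q (d • v) y = 0 := by rw [S.polar_smul', S.symm v y, y1, mul_zero, map_zero]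
  refine ⟨sg Q (d • v) y h1 h2, orthToGL_mem_omega' S.nd hn (siegel_mem_siegelGroup h1 h2),
    fun hs => hb ?_⟩
  obtain ⟨c, hc⟩ := hs b
  have hfix : ∀ a : E, ap (sg Q (d • v) y h1 h2) (a • v) = a • v := fun a =>
    ap_sg_fix h1 h2 (by rw [S.polar_smul]; simp [hvv])
      (by rw [S.polar_smul', S.symm v y, y1, mul_zero, map_zero])
  have h3 := hc v
  rw [hfix, show ap (sg Q (d • v) y h1 h2) v = v by simpa using hfix 1] at h3
  obtain rfl := smul_left_injective E hv h3
  have h4 := congrArg (fun w => S.φ w y) (hc p)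
  have hφs : ∀ (t : F) (w : ι → F), S.φ (t • w) y = algebraMap F E t * S.φ w y := fun t w => by
    rw [← algebraMap_smul E t w, map_smul, LinearMap.smul_apply, smul_eq_mul]
  simp only [ap_sg, map_add, map_sub, LinearMap.add_apply, LinearMap.sub_apply, hφs, map_smul,
    LinearMap.smul_apply, S.symm p y, y2, S.symm v y, y1, S.polar_smul, hpv, smul_eq_mul,
    mul_one, mul_zero, sub_zero, zero_add] at h4
  refine ⟨S.T (d * b) / S.T d, ?_⟩
  rw [map_div₀, div_eq_iff (by simpa using hd)]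
  refine mul_right_cancel₀ hyy ?_
  linear_combination h4

end

theorem orth_ext_maximal' {F : Type*} [Field F] [Fintype F] {ι : Type} [Fintype ι] [DecidableEq ι]
    {f : (ι → F) → F} (hQ : Cfsg.Geo.IsNondegenerateQuadraticForm f) (hodd : Odd (Fintype.card F))
    {E : Type*} [Field E] [Algebra F E] [Finite E] (hr : (finrank F E).Prime) (hn : 5 ≤ Fintype.card ι)
    (ρ : E →ₐ[F] Matrix ι ι F) (K : Subalgebra F (Matrix ι ι F)) (hρK : ∀ k, k ∈ K ↔ ∃ a, ρ a = k)
    (hsa : Cfsg.Geo.IsSelfAdjointFor (QuadraticMap.polar f) K)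
    (hdim : ∀ m, Fintype.card ι = finrank F E * m → 4 ≤ m ∨
      (m = 3 ∧ 3 ≤ finrank F E ∧ Nat.card {x // f x = 0} ≤ Nat.card F ^ (Fintype.card ι - 1))) :
    Cfsg.Geo.IsMaximalIn (Cfsg.Geo.omegaGL f) (Cfsg.Geo.subalgebraNormalizer K ⊓ Cfsg.Geo.omegaGL f) := by
  classical
  letI : Module E (ι → F) := Module.compHom _ ((Matrix.toLinAlgEquiv'.toAlgHom.comp ρ).toRingHom)
  have hsmul : ∀ (a : E) (v : ι → F), a • v = ρ a *ᵥ v := fun a v => rfl
  haveI : IsScalarTower F E (ι → F) := ⟨fun c a v => by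
    rw [hsmul, hsmul, map_smul, Matrix.smul_mulVec]⟩
  set Q := toQF hQ with hQdef
  have hQc : ⇑Q = f := funext fun v => rfl
  rw [← hQc] at hsa ⊢
  have hnd : Nondeg Q := nondeg_toQF hQ
  have h2 : (2 : F) ≠ 0 := two_ne_zero_of_odd (by rwa [Nat.card_eq_fintype_card])
  have hfinE : Module.Finite F E := Module.Finite.of_finite
  let T : E →ₗ[F] F := Algebra.trace F E
  have hT : T ≠ 0 := Algebra.trace_ne_zero F E
  have ext : ∀ {e e' : E}, (∀ a, T (a * e) = T (a * e')) → e = e' := by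
    intro e e' h
    by_contra hne
    refine hT (LinearMap.ext fun a => ?_)
    have h1 := h (a / (e - e'))
    rw [← sub_eq_zero, ← map_sub, ← mul_sub, div_mul_cancel₀ _ (sub_ne_zero.mpr hne)] at h1
    simpa using h1
  let ψ : (ι → F) → (ι → F) → (E →ₗ[F] F) := fun x y =>
    { toFun := fun a => polar Q (a • x) y
      map_add' := fun a b => by rw [add_smul, polar_add_left]
      map_smul' := fun c a => by rw [smul_assoc, polar_smul_left, RingHom.id_apply] }
  choose φ hφ using fun x y => exists_mul_rep hT (ψ x y)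
  have hφ' : ∀ x y a, T (a * φ x y) = polar Q (a • x) y := fun x y a => hφ x y a
  have hsa' : ∀ (a : E) x y, polar Q (a • x) y = polar Q x (a • y) := fun a x y =>
    hsa _ ((hρK _).mpr ⟨a, rfl⟩) x y
  let φl : (ι → F) →ₗ[E] (ι → F) →ₗ[E] E := LinearMap.mk₂ E φ
    (fun x x' y => ext fun a => by rw [mul_add, map_add, hφ', hφ', hφ', smul_add, polar_add_left])
    (fun b x y => ext fun a => by rw [smul_eq_mul, hφ', ← mul_assoc, hφ', mul_smul])
    (fun x y y' => ext fun a => by rw [mul_add, map_add, hφ', hφ', hφ', polar_add_right])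
    (fun b x y => ext fun a => by
      rw [smul_eq_mul, hφ', ← mul_assoc, hφ', mul_smul, hsa' a, hsa' a, hsa' b, smul_comm b a])
  let S : OForm Q E :=
    { T := T
      T_ne := hT
      T_aut := fun σ a => Algebra.trace_eq_of_algEquiv σ a
      φ := φl
      symm := fun x y => ext fun a => by
        show T (a * φ x y) = T (a * φ y x)
        rw [hφ', hφ', hsa' a x y, polar_comm]
      T_φ := fun x y => by
        show T (φ x y) = _
        have := hφ' x y 1
        rwa [one_mul, one_smul] at this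
      nd := hnd
      two := h2
      big := by
        rcases hdim (finrank E (ι → F))
          (by rw [Module.finrank_mul_finrank, Module.finrank_fintype_fun_eq_card]) with h | ⟨h, -, -⟩ <;> omega }
  have hiff : ∀ g : GL ι F, g ∈ Cfsg.Geo.subalgebraNormalizer K ↔ IsSemi E g :=
    mem_normalizer_iff_isSemi K ρ hρK hsmul
  refine ⟨lt_of_le_of_ne inf_le_right fun h => ?_, fun M hNM hMΩ => ?_⟩
  · obtain ⟨g, hg, hgn⟩ := S.exists_not_semi hr (by omega)
    exact hgn ((hiff g).mp (inf_eq_right.mp h hg))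
  by_cases hle : M ≤ Cfsg.Geo.subalgebraNormalizer K
  · exact Or.inl (le_antisymm (le_inf hle hMΩ) hNM)
  obtain ⟨g, hg, hgN⟩ := SetLike.not_le_iff_exists.mp hle
  have hR : ∀ g ∈ Cfsg.Geo.omegaGL (⇑Q), IsSemi E g → g ∈ M := fun g hg hs => hNM ⟨(hiff g).mpr hs, hg⟩
  have hnot : ∃ g ∈ M, ¬ IsSemi E g := ⟨g, hg, fun hs => hgN ((hiff g).mpr hs)⟩
  refine Or.inr (le_antisymm hMΩ ?_)
  rcases hdim (finrank E (ι → F))
    (by rw [Module.finrank_mul_finrank, Module.finrank_fintype_fun_eq_card]) with h4 | ⟨h3, h3r, hN⟩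
  · exact S.omega_le hR hMΩ h4 hr (by omega) hnot
  · exact S.omega_le_three hR hMΩ h3 hr h3r hN hnot

/-- `orth_ext_maximal` from dimension five and degree three on. -/
theorem orth_ext_maximal_three {F : Type*} [Field F] [Fintype F] {ι : Type} [Fintype ι] [DecidableEq ι]
    {f : (ι → F) → F} (hQ : Cfsg.Geo.IsNondegenerateQuadraticForm f) (hodd : Odd (Fintype.card F))
    {r : ℕ} (hr : r.Prime) (hn : 5 ≤ Fintype.card ι) (K : Subalgebra F (Matrix ι ι F))
    (hK : Cfsg.Geo.IsFieldSubalgebra r K) (hsa : Cfsg.Geo.IsSelfAdjointFor (QuadraticMap.polar f) K)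
    (hdim : ∀ m, Fintype.card ι = r * m → 4 ≤ m ∨
      (m = 3 ∧ 3 ≤ r ∧ Nat.card {x // f x = 0} ≤ Nat.card F ^ (Fintype.card ι - 1))) :
    Cfsg.Geo.IsMaximalIn (Cfsg.Geo.omegaGL f) (Cfsg.Geo.subalgebraNormalizer K ⊓ Cfsg.Geo.omegaGL f) := by
  letI := fieldOfSubalg hK hr.ne_zero
  have : Finite K := Finite.of_injective (fun x : K => (x : Matrix ι ι F)) Subtype.val_injective
  have hfr : finrank F K = r := hK.finrank_eq
  exact orth_ext_maximal' hQ hodd (E := K) (hfr ▸ hr) hn K.val K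
    (fun k => ⟨fun hk => ⟨⟨k, hk⟩, rfl⟩, fun ⟨a, ha⟩ => ha ▸ a.2⟩) hsa (by rwa [hfr])

/-- `orth_ext_maximal` from dimension five on. -/
theorem orth_ext_maximal_low {F : Type*} [Field F] [Fintype F] {ι : Type} [Fintype ι] [DecidableEq ι]
    {f : (ι → F) → F} (hQ : Cfsg.Geo.IsNondegenerateQuadraticForm f) (hodd : Odd (Fintype.card F))
    {r : ℕ} (hr : r.Prime) (hn : 5 ≤ Fintype.card ι) (K : Subalgebra F (Matrix ι ι F))
    (hK : Cfsg.Geo.IsFieldSubalgebra r K) (hsa : Cfsg.Geo.IsSelfAdjointFor (QuadraticMap.polar f) K)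
    (hdim : ∀ m, Fintype.card ι = r * m → 4 ≤ m ∨
      (m = 3 ∧ 5 ≤ r ∧ Nat.card {x // f x = 0} ≤ Nat.card F ^ (Fintype.card ι - 1))) :
    Cfsg.Geo.IsMaximalIn (Cfsg.Geo.omegaGL f) (Cfsg.Geo.subalgebraNormalizer K ⊓ Cfsg.Geo.omegaGL f) :=
  orth_ext_maximal_three hQ hodd hr hn K hK hsa fun m hm =>
    (hdim m hm).imp_right fun h => ⟨h.1, by omega, h.2.2⟩

theorem orth_ext_maximal {F : Type*} [Field F] [Fintype F] {ι : Type} [Fintype ι] [DecidableEq ι]
    {f : (ι → F) → F} (hQ : Cfsg.Geo.IsNondegenerateQuadraticForm f) (hodd : Odd (Fintype.card F))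
    {r : ℕ} (hr : r.Prime) (hn : 12 ≤ Fintype.card ι) (K : Subalgebra F (Matrix ι ι F))
    (hK : Cfsg.Geo.IsFieldSubalgebra r K) (hsa : Cfsg.Geo.IsSelfAdjointFor (QuadraticMap.polar f) K)
    (hdim : ∀ m, Fintype.card ι = r * m → 4 ≤ m ∨
      (m = 3 ∧ 5 ≤ r ∧ Nat.card {x // f x = 0} ≤ Nat.card F ^ (Fintype.card ι - 1))) :
    Cfsg.Geo.IsMaximalIn (Cfsg.Geo.omegaGL f) (Cfsg.Geo.subalgebraNormalizer K ⊓ Cfsg.Geo.omegaGL f) :=
  orth_ext_maximal_low hQ hodd hr (by omega) K hK hsa hdim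

end CfsgLib.Geometric.ExtF
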