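import Cfsg.Agent.Lib.Geometric.ExtField.OrthPureThree
import Cfsg.Agent.Lib.CoprimeAction.Abelian

/-!
Dimension three over the extension: stabilisers of isotropic lines are semilinear, and the pointwise fixer of an
intersection of dimension two is a Siegel group, by Burnside transfer.
-/

set_option autoImplicit false
set_option linter.unusedSectionVars false

namespace CfsgLib.Geometric.ExtF

open Module Matrix QuadraticMap CfsgLib.ClassicalForms CfsgLib.Geometric.Orth

variable {F : Type*} [Field F] {ι : Type} [Fintype ι] [DecidableEq ι] {E : Type*} [Field E] [Algebra F E]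
  [Module E (ι → F)] [IsScalarTower F E (ι → F)] [Finite F] [Finite E]

/-- A linear element as a map over the extension. -/
def eLin (g : GL ι F) (hl : ∀ (a : E) x, ap g (a • x) = a • ap g x) : (ι → F) →ₗ[E] (ι → F) :=
  { toFun := ap g, map_add' := ap_add g, map_smul' := hl }

@[simp] lemma eLin_apply (g : GL ι F) (hl : ∀ (a : E) x, ap g (a • x) = a • ap g x) (x : ι → F) :
    eLin g hl x = ap g x := rfl

lemma det_omegaGL {f : (ι → F) → F} {g : GL ι F} (hg : g ∈ Cfsg.Geo.omegaGL f) :
    (g : Matrix ι ι F).det = 1 := by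
  obtain ⟨s, hs, rfl⟩ := hg
  have h1 : Cfsg.Omega F f ≤
      ((Matrix.GeneralLinearGroup.det : GL ι F →* Fˣ).comp (Cfsg.isometryGroup F f).subtype).ker :=
    Abelianization.commutator_subset_ker _
  exact congrArg Units.val (MonoidHom.mem_ker.mp (h1 hs))

namespace OForm

variable {Q : QuadraticForm F (ι → F)} (S : OForm Q E)

/-- The form as a bilinear form over the extension. -/
lemma bilin_nd : LinearMap.BilinForm.Nondegenerate (R := E) (M := ι → F) S.φ :=
  ⟨fun x hx => S.nondeg hx, fun y hy => S.nondeg fun x => by rw [S.symm]; exact hy x⟩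

include S in
/-- Linear elements of `omegaGL` have determinant one over the extension. -/
lemma det_eLin (hodd : Odd (finrank F E)) {g : GL ι F} (hg : g ∈ Cfsg.Geo.omegaGL (⇑Q))
    (hl : ∀ (a : E) x, ap g (a • x) = a • ap g x) : LinearMap.det (eLin g hl) = 1 := by
  classical
  have := S.finite_E
  have hfin : Module.Finite F E := Module.Finite.of_finite
  let b := finBasis E (ι → F)
  have hJ := (LinearMap.BilinForm.nondegenerate_iff_det_ne_zero b).mp S.bilin_nd
  have hcomp : LinearMap.BilinForm.comp S.φ (eLin g hl) (eLin g hl) = S.φ :=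
    LinearMap.ext fun x => LinearMap.ext fun y => S.form_of_linear (omegaGL_le hg) hl x y
  have h1 := congrArg Matrix.det (LinearMap.BilinForm.toMatrix_comp b b S.φ (eLin g hl) (eLin g hl))
  rw [hcomp, Matrix.det_mul, Matrix.det_mul, Matrix.det_transpose, LinearMap.det_toMatrix] at h1
  have hsq : LinearMap.det (eLin g hl) * LinearMap.det (eLin g hl) = 1 :=
    mul_right_cancel₀ hJ (by rw [one_mul]; linear_combination -h1)
  have hF : Algebra.norm F (LinearMap.det (eLin g hl)) = 1 := by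
    rw [← LinearMap.det_restrictScalars,
      show (eLin g hl).restrictScalars F = Matrix.toLin' (g : Matrix ι ι F) from LinearMap.ext fun x => rfl,
      LinearMap.det_toLin', det_omegaGL hg]
  rcases mul_self_eq_one_iff.mp hsq with h | h
  · exact h
  · exfalso
    rw [h, ← map_one (algebraMap F E), ← map_neg, Algebra.norm_algebraMap, hodd.neg_one_pow] at hF
    exact S.two (by linear_combination -hF)

include S in
/-- In dimension three a linear isometry of determinant one fixes a vector. -/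
lemma exists_fixed (h3 : finrank E (ι → F) = 3) (hodd : Odd (finrank F E)) {g : GL ι F}
    (hg : g ∈ Cfsg.Geo.omegaGL (⇑Q)) (hl : ∀ (a : E) x, ap g (a • x) = a • ap g x) :
    ∃ x, x ≠ 0 ∧ ap g x = x := by
  classical
  have := S.finite_E
  let b := finBasis E (ι → F)
  set A := LinearMap.toMatrix b b (eLin g hl) with hA
  set J := LinearMap.BilinForm.toMatrix b S.φ with hJdef
  have hJ : J.det ≠ 0 := (LinearMap.BilinForm.nondegenerate_iff_det_ne_zero b).mp S.bilin_nd
  have hcomp : LinearMap.BilinForm.comp S.φ (eLin g hl) (eLin g hl) = S.φ :=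
    LinearMap.ext fun x => LinearMap.ext fun y => S.form_of_linear (omegaGL_le hg) hl x y
  have h1 := LinearMap.BilinForm.toMatrix_comp b b S.φ (eLin g hl) (eLin g hl)
  rw [hcomp, ← hA, ← hJdef] at h1
  have h2 : A.transpose * J * (A - 1) = (1 - A).transpose * J := by
    rw [Matrix.mul_sub, Matrix.mul_one, ← h1, Matrix.transpose_sub, Matrix.transpose_one, Matrix.sub_mul,
      Matrix.one_mul]
  have hdetA : A.det = 1 := by rw [hA, LinearMap.det_toMatrix, S.det_eLin hodd hg hl]
  have h4 := congrArg Matrix.det h2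
  rw [Matrix.det_mul, Matrix.det_mul, Matrix.det_transpose, Matrix.det_mul, Matrix.det_transpose, hdetA,
    ← neg_sub A 1, Matrix.det_neg, Fintype.card_fin, show (-1 : E) ^ finrank E (ι → F) = -1 by rw [h3]; norm_num] at h4
  have h5 : (A - 1).det = 0 := by
    have h6 : (2 : E) * (A - 1).det * J.det = 0 := by linear_combination h4
    exact (mul_eq_zero.mp ((mul_eq_zero.mp h6).resolve_right hJ)).resolve_left S.two_E
  have h7 : LinearMap.det (eLin g hl - LinearMap.id) = 0 := by
    rw [← LinearMap.det_toMatrix b, map_sub, LinearMap.toMatrix_id, ← hA, h5]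
  obtain ⟨x, hx, hx0⟩ := (Submodule.ne_bot_iff _).mp (LinearMap.bot_lt_ker_of_det_eq_zero h7).ne'
  exact ⟨x, hx0, sub_eq_zero.mp (LinearMap.mem_ker.mp hx)⟩

variable {M : Subgroup (GL ι F)}
  (hR : ∀ g ∈ Cfsg.Geo.omegaGL (⇑Q), IsSemi E g → g ∈ M)
  (hMΩ : M ≤ Cfsg.Geo.omegaGL (⇑Q))

include hR hMΩ

/-- An element stabilising an isotropic line is semilinear, unless everything is contained. -/
lemma semi_of_stab (hr : (finrank F E).Prime) (h3r : 3 ≤ finrank F E) (hn : 5 ≤ Fintype.card ι)
    (hnot : ¬ Cfsg.Geo.omegaGL (⇑Q) ≤ M) {v : ι → F} (hv : v ≠ 0) (hvv : S.φ v v = 0) {h : GL ι F}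
    (hh : h ∈ M) (hst : ∀ x ∈ ln F E v, ap h x ∈ ln F E v) : IsSemi E h := by
  have hM : M ≤ Cfsg.isometryGroup F (⇑Q) := hMΩ.trans omegaGL_le
  by_contra hns
  obtain ⟨G, hG⟩ := exists_onLine hv hst
  by_cases hN : Nrm G.toLinearMap
  swap
  · exact hnot (S.le_of_lineFull hR hM hr hn hv hvv (S.lineFull_of_not_nrm hR hM hr hv hvv hh G hG hN))
  obtain ⟨u, huM, hu, hus⟩ := S.exists_uni_of_nrm hR hM hMΩ hn hv hvv hh G hG hN hns
  obtain ⟨ρ, hρ, B, hB0, hB⟩ := S.exists_pure_of_uni hR hM hv hvv huM hu hus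
  by_cases hr3 : finrank F E = 3
  · exact hnot (S.le_of_pure_cubic hR hMΩ hr3 hn hv hvv hρ hB0 hB)
  have h5 : 5 ≤ finrank F E := by
    by_contra h
    have h4 : finrank F E = 4 := by omega
    rw [h4] at hr
    norm_num at hr
  exact hnot (S.le_of_pure hR hMΩ hr h5 hn hv hvv hρ hB0 hB)

omit hR hMΩ

include S in
/-- Coordinates at a hyperbolic pair and an anisotropic vector, in dimension three. -/
lemma decomp_three (h3 : finrank E (ι → F) = 3) {v p y : ι → F} (hvv : S.φ v v = 0) (hpp : S.φ p p = 0)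
    (hvp : S.φ v p = 1) (hyv : S.φ y v = 0) (hyp : S.φ y p = 0) (hyy : S.φ y y ≠ 0) (x : ι → F) :
    x = S.φ x p • v + S.φ x v • p + (S.φ x y / S.φ y y) • y := by
  have := S.finite_E
  set z := x - (S.φ x p • v + S.φ x v • p + (S.φ x y / S.φ y y) • y) with hz
  have hpv : S.φ p v = 1 := by rw [S.symm, hvp]
  have z1 : S.φ z v = 0 := by simp [hz, hvv, hpv, hyv]
  have z2 : S.φ z p = 0 := by simp [hz, hpp, hvp, hyp]
  have z3 : S.φ z y = 0 := by simp [hz, S.symm v y, S.symm p y, hyv, hyp, div_mul_cancel₀ _ hyy]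
  by_contra hne
  have hli : LinearIndependent E ![v, p, y, z] := by
    rw [Fintype.linearIndependent_iff]
    intro c hc
    simp [Fin.sum_univ_four] at hc
    have c0 : c 0 = 0 := by
      have := congrArg (fun w => S.φ w p) hc
      simpa [hvp, hpp, hyp, z2] using this
    have c1 : c 1 = 0 := by
      have := congrArg (fun w => S.φ w v) hc
      simpa [hvv, hpv, hyv, z1] using this
    have c2 : c 2 = 0 := by
      have := congrArg (fun w => S.φ w y) hc
      simpa [S.symm v y, S.symm p y, hyv, hyp, hyy, z3] using this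
    rw [c0, c1, c2] at hc
    have c3 : c 3 = 0 := by
      simp at hc
      exact hc.resolve_right (sub_ne_zero.mpr hne)
    intro i
    fin_cases i <;> assumption
  have h4 := hli.fintype_card_le_finrank
  simp [h3] at h4

include hR hMΩ

/-- Semilinear elements, not linear, of degree three do not fix pointwise the preimage of an isotropic line
when it has an isotropic vector. -/
lemma false_of_fixed_form (hV : finrank E (ι → F) = 3) (hr3 : finrank F E = 3) (hn : 5 ≤ Fintype.card ι)
    (hnot : ¬ Cfsg.Geo.omegaGL (⇑Q) ≤ M) {h : GL ι F} (hhM : h ∈ Cfsg.isometryGroup F (⇑Q))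
    (hsemi : IsSemi E h) (hc₁ : ∃ (c : E) (x : ι → F), ap h (c • x) ≠ c • ap h x)
    (V₀ : Submodule F (ι → F)) (hV₀3 : finrank F V₀ = 3) (hhfix : ∀ x ∈ V₀, ap h x = x) {z : ι → F}
    (hzV : z ∈ V₀) (hz0 : z ≠ 0) (hzz : S.φ z z = 0) {g : GL ι F} (hg : g ∈ M) {u : ι → F} (hu : u ≠ 0)
    (huu : S.φ u u = 0) (hV₀ : ∀ x, x ∈ V₀ ↔ ap g x ∈ ln F E u) : False := by
  classical
  have hfin : Module.Finite F E := Module.Finite.of_finite
  have hr : (finrank F E).Prime := by rw [hr3]; exact Nat.prime_three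
  have h3r : 3 ≤ finrank F E := by omega
  obtain ⟨c₁, hc₁⟩ := hc₁
  obtain ⟨v, hv⟩ : ∃ v : ι → F, v ≠ 0 := ⟨z, hz0⟩
  have hCF : ∀ c : E, (∀ x, ap h (c • x) = c • ap h x) → c ∈ Set.range (algebraMap F E) := by
    intro c hc
    by_contra hcF
    let C : Subalgebra F E :=
      { carrier := {c | ∀ x, ap h (c • x) = c • ap h x}
        mul_mem' := fun {a b} ha hb x => by rw [mul_smul, ha, hb, mul_smul]
        one_mem' := fun x => by rw [one_smul, one_smul]
        add_mem' := fun {a b} ha hb x => by rw [add_smul, ap_add, ha, hb, add_smul]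
        zero_mem' := fun x => by rw [zero_smul, ap_zero, zero_smul]
        algebraMap_mem' := fun c x => by rw [algebraMap_smul, ap_smul, algebraMap_smul] }
    obtain ⟨x, hx⟩ := hc₁
    exact hx ((show c₁ ∈ C from subalgebra_eq_top hr (show c ∈ C from hc) hcF ▸ Algebra.mem_top) x)
  have hratio : ∀ x ∈ V₀, x ≠ 0 → ∀ l : E, l • x ∈ V₀ → l ∈ Set.range (algebraMap F E) := by
    intro x hx hx0 l hl
    refine hCF l fun x' => ?_
    obtain ⟨d, hd⟩ := hsemi l
    have h1 := hd x
    rw [hhfix _ hl, hhfix _ hx] at h1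
    rw [hd, ← smul_left_injective E hx0 h1]
  choose σ hσ using hsemi
  have hhv0 : ap h v ≠ 0 := fun h0 => hv (ap_injective h (by rw [h0, ap_zero]))
  let σlin : E →ₗ[F] E :=
    { toFun := σ
      map_add' := fun a b => smul_left_injective E hhv0 (by
        show σ (a + b) • ap h v = (σ a + σ b) • ap h v
        rw [← hσ, add_smul, ap_add, hσ, hσ, add_smul])
      map_smul' := fun s a => smul_left_injective E hhv0 (by
        show σ (s • a) • ap h v = (s • σ a) • ap h v
        rw [← hσ, smul_assoc, ap_smul, hσ, smul_assoc]) }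
  let σh : E →ₐ[F] E := AlgHom.ofLinearMap σlin (smul_left_injective E hhv0 (by
      show σ 1 • ap h v = (1 : E) • ap h v
      rw [← hσ, one_smul, one_smul]))
    (fun a b => smul_left_injective E hhv0 (by
      show σ (a * b) • ap h v = (σ a * σ b) • ap h v
      rw [← hσ, mul_smul, hσ, hσ, smul_smul]))
  let σe : E ≃ₐ[F] E := AlgEquiv.ofBijective σh (Finite.injective_iff_bijective.mp σh.toRingHom.injective)
  have hformF : ∀ x ∈ V₀, ∀ x' ∈ V₀, S.φ x x' ∈ Set.range (algebraMap F E) := by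
    intro x hx x' hx'
    refine hCF _ fun x'' => ?_
    have h1 : σ (S.φ x x') = S.φ x x' := S.ext_T fun c => by
      obtain ⟨c', rfl⟩ := σe.surjective c
      rw [show σ (S.φ x x') = σe (S.φ x x') from rfl, ← map_mul, S.T_aut, ← S.polar_smul',
        ← polar_ap hhM, hσ, hhfix x hx, hhfix x' hx', S.polar_smul']
      rfl
    rw [hσ, h1]
  -- a vector paired with `z`
  obtain ⟨p, hpp, hzp⟩ := S.exists_partner hz0 hzz
  obtain ⟨y₁, y1z, y1p, hy1⟩ := S.exists_aniso hzz hpp (by rw [hzp]; exact one_ne_zero)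
  have hpair : ∃ w₁ ∈ V₀, S.φ z w₁ ≠ 0 := by
    by_contra hall
    push Not at hall
    have hdec : ∀ x ∈ V₀, ∃ α β : E, x = α • z + β • y₁ := fun x hx => ⟨_, _, by
      conv_lhs => rw [S.decomp_three hV hzz hpp hzp y1z y1p hy1 x, S.symm x z, hall x hx, zero_smul, add_zero]⟩
    have hbig : ∀ s : ι → F, ∃ x ∈ V₀, x ∉ Submodule.span F {z} ⊔ Submodule.span F {s} := by
      intro s
      by_contra hall'
      push Not at hall'
      have h1 := Submodule.finrank_mono hall'
      have h2 := Submodule.finrank_add_le_finrank_add_finrank (Submodule.span F {z}) (Submodule.span F {s})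
      have h4 : ∀ t : ι → F, finrank F (Submodule.span F {t}) ≤ 1 := fun t => by
        by_cases ht0 : t = 0
        · rw [ht0, Submodule.span_zero_singleton, finrank_bot]; omega
        · rw [finrank_span_singleton ht0]
      have := h4 z
      have := h4 s
      omega
    obtain ⟨x, hx, hxz⟩ := hbig 0
    obtain ⟨x', hx', hxz'⟩ := hbig x
    obtain ⟨α, β, hxe⟩ := hdec x hx
    obtain ⟨α', β', hxe'⟩ := hdec x' hx'
    have hβ : β ≠ 0 := fun h0 => hxz (by
      rw [h0, zero_smul, add_zero] at hxe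
      obtain ⟨s, hs⟩ := hratio z hzV hz0 α (hxe ▸ hx)
      refine Submodule.mem_sup_left (Submodule.mem_span_singleton.mpr ⟨s, ?_⟩)
      rw [hxe, ← hs, algebraMap_smul])
    obtain ⟨s₁, hs₁⟩ := hformF x hx x hx
    obtain ⟨s₂, hs₂⟩ := hformF x' hx' x hx
    rw [hxe] at hs₁ hs₂
    rw [hxe'] at hs₂
    simp [hzz, y1z, S.symm z y₁] at hs₁ hs₂
    have hs : β' = algebraMap F E (s₂ / s₁) * β := by
      rw [map_div₀, hs₁, hs₂]
      field_simp
    have h1 : x' - (s₂ / s₁) • x = (α' - algebraMap F E (s₂ / s₁) * α) • z := by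
      rw [hxe, hxe', hs, ← algebraMap_smul E (s₂ / s₁) (_ + _)]
      module
    obtain ⟨s, hs'⟩ := hratio z hzV hz0 _ (h1 ▸ Submodule.sub_mem _ hx' (Submodule.smul_mem _ _ hx))
    rw [← hs', algebraMap_smul, sub_eq_iff_eq_add] at h1
    exact hxz' (h1 ▸ Submodule.mem_sup.mpr ⟨_, Submodule.smul_mem _ _ (Submodule.mem_span_singleton_self _), _,
      Submodule.smul_mem _ _ (Submodule.mem_span_singleton_self _), rfl⟩)
  obtain ⟨w₁, hw₁, hzw₁⟩ := hpair
  obtain ⟨s₁, hs₁⟩ := hformF z hzV w₁ hw₁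
  have hs₁0 : s₁ ≠ 0 := fun h0 => hzw₁ (by rw [← hs₁, h0, map_zero])
  obtain ⟨s₂, hs₂⟩ := hformF w₁ hw₁ w₁ hw₁
  set p₀ := (algebraMap F E s₁⁻¹) • w₁ - (algebraMap F E (s₁⁻¹ * s₁⁻¹ * (2 : F)⁻¹ * s₂)) • z with hp₀def
  have hp₀V : p₀ ∈ V₀ := by
    rw [hp₀def, algebraMap_smul, algebraMap_smul]
    exact Submodule.sub_mem _ (Submodule.smul_mem _ _ hw₁) (Submodule.smul_mem _ _ hzV)
  have hzp₀ : S.φ z p₀ = 1 := by
    simp only [hp₀def, map_sub, map_smul, smul_eq_mul, hzz, mul_zero, sub_zero]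
    rw [← hs₁, ← map_mul, inv_mul_cancel₀ hs₁0, map_one]
  have hp₀p₀ : S.φ p₀ p₀ = 0 := by
    simp only [hp₀def, map_sub, map_smul, LinearMap.sub_apply, LinearMap.smul_apply, smul_eq_mul, hzz,
      S.symm w₁ z, ← hs₁, ← hs₂, mul_zero, sub_zero, map_mul, map_inv₀, map_ofNat]
    have := S.two_E
    have : algebraMap F E s₁ ≠ 0 := (map_ne_zero _).mpr hs₁0
    field_simp
    ring
  obtain ⟨y₂, y2z, y2p, hy2⟩ := S.exists_aniso hzz hp₀p₀ (by rw [hzp₀]; exact one_ne_zero)
  obtain ⟨x, hx, hxn⟩ : ∃ x ∈ V₀, x ∉ Submodule.span F {z} ⊔ Submodule.span F {p₀} := by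
    by_contra hall'
    push Not at hall'
    have h1 := Submodule.finrank_mono hall'
    have h2 := Submodule.finrank_add_le_finrank_add_finrank (Submodule.span F {z}) (Submodule.span F {p₀})
    have hp₀0 : p₀ ≠ 0 := fun h => by rw [h, map_zero] at hzp₀; exact zero_ne_one hzp₀
    rw [finrank_span_singleton hz0, finrank_span_singleton hp₀0] at h2
    omega
  obtain ⟨s₃, hs₃⟩ := hformF x hx p₀ hp₀V
  obtain ⟨s₄, hs₄⟩ := hformF x hx z hzV
  set y₀ := x - s₃ • z - s₄ • p₀ with hy₀def
  have hy₀V : y₀ ∈ V₀ := Submodule.sub_mem _ (Submodule.sub_mem _ hx (Submodule.smul_mem _ _ hzV))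
    (Submodule.smul_mem _ _ hp₀V)
  have hy₀0 : y₀ ≠ 0 := fun h0 => hxn (by
    rw [hy₀def, sub_sub, sub_eq_zero] at h0
    exact h0 ▸ Submodule.mem_sup.mpr ⟨_, Submodule.smul_mem _ _ (Submodule.mem_span_singleton_self _), _,
      Submodule.smul_mem _ _ (Submodule.mem_span_singleton_self _), rfl⟩)
  have y0z : S.φ y₀ z = 0 := by
    simp only [hy₀def, ← algebraMap_smul E (_ : F) (_ : ι → F), map_sub, map_smul, LinearMap.sub_apply,
      LinearMap.smul_apply, smul_eq_mul, hzz, S.symm p₀ z, hzp₀, ← hs₄]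
    ring
  have y0p : S.φ y₀ p₀ = 0 := by
    simp only [hy₀def, ← algebraMap_smul E (_ : F) (_ : ι → F), map_sub, map_smul, LinearMap.sub_apply,
      LinearMap.smul_apply, smul_eq_mul, hp₀p₀, hzp₀, ← hs₃]
    ring
  obtain ⟨e, he⟩ := hformF y₀ hy₀V y₀ hy₀V
  set η := S.φ y₀ y₀ with hη
  have hη0 : η ≠ 0 := by
    intro h0
    have h1 := S.decomp_three hV hzz hp₀p₀ hzp₀ y2z y2p hy2 y₀
    rw [y0z, y0p, zero_smul, zero_smul, zero_add, zero_add] at h1
    rw [hη, h1] at h0
    simp [hy2] at h0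
    exact hy₀0 (by rw [h1, h0, zero_div, zero_smul])
  set b := z + (algebraMap F E (e / 2)) • p₀ with hb
  have hbV : b ∈ V₀ := by
    rw [hb, algebraMap_smul]; exact Submodule.add_mem _ hzV (Submodule.smul_mem _ _ hp₀V)
  have hbb : S.φ b b = η := by
    simp only [hb, map_add, map_smul, LinearMap.add_apply, LinearMap.smul_apply, smul_eq_mul, hzz, hp₀p₀,
      S.symm p₀ z, hzp₀, map_div₀, map_ofNat, ← he]
    have := S.two_E
    field_simp
    ring
  have hby : S.φ y₀ b = 0 := by
    simp only [hb, map_add, map_smul, smul_eq_mul, y0z, y0p, mul_zero, add_zero]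
  -- a rotation of order four
  let Rl : (ι → F) →ₗ[E] (ι → F) :=
    { toFun := fun x => x - (S.φ x b / η + S.φ x y₀ / η) • b + (S.φ x b / η - S.φ x y₀ / η) • y₀
      map_add' := fun x x' => by simp only [map_add, LinearMap.add_apply, add_div]; module
      map_smul' := fun l x => by
        simp only [RingHom.id_apply, map_smul, LinearMap.smul_apply, smul_eq_mul, mul_div_assoc]; module }
  have hR' : ∀ x, Rl x = x - (S.φ x b / η + S.φ x y₀ / η) • b + (S.φ x b / η - S.φ x y₀ / η) • y₀ :=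
    fun x => rfl
  have hRform : ∀ x x', S.φ (Rl x) (Rl x') = S.φ x x' := by
    intro x x'
    simp only [hR', map_add, map_sub, map_smul, LinearMap.add_apply, LinearMap.sub_apply,
      LinearMap.smul_apply, smul_eq_mul, hbb, hby, S.symm b y₀, ← hη, S.symm b x', S.symm y₀ x']
    field_simp
    ring
  have hRinj : Function.Injective (Rl.restrictScalars F) := (injective_iff_map_eq_zero _).mpr fun x hx =>
    S.nondeg fun x' => by rw [← hRform, show Rl x = 0 from hx]; simp
  let R : GL ι F := ofEquiv (LinearEquiv.ofInjectiveEndo (Rl.restrictScalars F) hRinj)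
  have hRap : ∀ x, ap R x = Rl x := fun x => by simp only [R, ap_ofEquiv]; rfl
  set n := R * R with hn'
  have hnΩ : n ∈ Cfsg.Geo.omegaGL (⇑Q) :=
    S.sq_mem_omega (S.isometry_of_form fun x => by rw [hRap, hRform]) hn
  have hnap : ∀ x, ap n x = x - (2 * (S.φ x b / η)) • b - (2 * (S.φ x y₀ / η)) • y₀ := fun x => by
    rw [hn', ap_mul, hRap, hRap]
    simp only [hR', map_add, map_sub, map_smul, LinearMap.add_apply, LinearMap.sub_apply,
      LinearMap.smul_apply, smul_eq_mul, hbb, hby, S.symm b y₀, ← hη]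
    match_scalars <;> field_simp <;> ring
  have hnl : ∀ (l : E) x, ap n (l • x) = l • ap n x := fun l x => by
    simp only [hnap, map_smul, LinearMap.smul_apply, smul_eq_mul]
    match_scalars <;> ring
  have hnV : ∀ x ∈ V₀, ap n x ∈ V₀ := by
    intro x hx
    obtain ⟨r₁, hr₁⟩ := hformF x hx b hbV
    obtain ⟨r₂, hr₂⟩ := hformF x hx y₀ hy₀V
    rw [hnap, ← hr₁, ← hr₂, ← he, ← map_div₀, ← map_div₀, ← map_ofNat (algebraMap F E) 2, ← map_mul,
      ← map_mul, algebraMap_smul, algebraMap_smul]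
    exact Submodule.sub_mem _ (Submodule.sub_mem _ hx (Submodule.smul_mem _ _ hbV))
      (Submodule.smul_mem _ _ hy₀V)
  -- its conjugate stabilises the second line
  set m := g * n * g⁻¹ with hm
  have hmM : m ∈ M := mul_mem (mul_mem hg (hR _ hnΩ (IsSemi.of_linear E hnl))) (inv_mem hg)
  have hmap : ∀ x, ap m (ap g x) = ap g (ap n x) := fun x => by
    rw [hm, ap_mul, ap_mul, ap_inv_ap]
  have hmst : ∀ x ∈ ln F E u, ap m x ∈ ln F E u := fun x hx => by
    have h1 := hnV (ap g⁻¹ x) ((hV₀ _).mpr (by rw [ap_ap_inv]; exact hx))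
    rw [hV₀, ← hmap, ap_ap_inv] at h1
    exact h1
  have hmsemi := S.semi_of_stab hR hMΩ hr h3r hn hnot hu huu hmM hmst
  obtain ⟨G, hG⟩ := exists_onLine hu hmst
  have hN : Nrm G.toLinearMap := fun l => by
    obtain ⟨d, hd⟩ := hmsemi l
    refine ⟨d, fun x => smul_left_injective E hu ?_⟩
    show G (l * x) • u = (d * G x) • u
    rw [← hG, mul_smul, hd, hG, smul_smul]
  have hV₀u : ∀ x ∈ V₀, ∃ l : E, l • u = ap g x := fun x hx => by
    rw [hV₀] at hx
    exact mem_ln.mp hx
  obtain ⟨l₁, hl₁⟩ := hV₀u b hbV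
  obtain ⟨l₂, hl₂⟩ := hV₀u y₀ hy₀V
  have hnb : ap n b = -b := by
    rw [hnap, hbb, show S.φ b y₀ = 0 by rw [S.symm]; exact hby, div_self hη0]; simp; module
  have hny : ap n y₀ = -y₀ := by
    rw [hnap, hby, ← hη, div_self hη0]; simp; module
  have hneg : ∀ x ∈ V₀, ap n x = -x → ∀ l : E, l • u = ap g x → (-G.toLinearMap) l = l := by
    intro x hx hnx l hl
    show -G l = l
    refine smul_left_injective E hu ?_
    show (-G l) • u = l • u
    rw [neg_smul, ← hG, hl, hmap, hnx, ← neg_one_smul F x, ap_smul, neg_one_smul, neg_neg]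
  have hb0 : b ≠ 0 := fun h0 => hη0 (by rw [← hbb, h0, map_zero])
  have hl₁0 : l₁ ≠ 0 := fun h0 => hb0 (ap_injective g (by rw [← hl₁, h0, zero_smul, ap_zero]))
  have hrat : l₂ / l₁ ∉ Set.range (algebraMap F E) := by
    rintro ⟨s, hs⟩
    have h1 : ap g y₀ = ap g (s • b) := by
      rw [ap_smul, ← hl₂, ← hl₁, ← algebraMap_smul E s (l₁ • u), smul_smul, hs, div_mul_cancel₀ _ hl₁0]
    have h2 := congrArg (fun x => S.φ x y₀) (ap_injective g h1)
    rw [← algebraMap_smul E s b] at h2
    simp [← hη, S.symm b y₀, hby, hη0] at h2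
  have hG' := nrm_id hr (G := -G.toLinearMap) (fun l => by
    obtain ⟨d, hd⟩ := hN l
    exact ⟨d, fun x => by simp only [LinearMap.neg_apply, hd, mul_neg]⟩) hl₁0
    (hneg b hbV hnb l₁ hl₁) (hneg y₀ hy₀V hny l₂ hl₂) hrat
  obtain ⟨l₃, hl₃⟩ := hV₀u z hzV
  have hz3 : G l₃ = -l₃ := neg_eq_iff_eq_neg.mp (hG' l₃)
  have h5 : ap m (ap g z) = -ap g z := by rw [← hl₃, hG, hz3, neg_smul]
  rw [hmap, ← neg_one_smul F (ap g z), ← ap_smul, neg_one_smul] at h5
  have h6 := congrArg (fun x => S.φ x p₀) (ap_injective g h5)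
  simp only [hnap, map_sub, map_smul, map_neg, LinearMap.sub_apply, LinearMap.smul_apply, LinearMap.neg_apply,
    smul_eq_mul, hzp₀, y0p, S.symm z y₀, y0z, zero_div, mul_zero, sub_zero] at h6
  have e1 : S.φ z b = algebraMap F E e / 2 := by
    simp only [hb, map_add, map_smul, smul_eq_mul, hzz, hzp₀, map_div₀, map_ofNat]; ring
  have e2 : S.φ b p₀ = 1 := by
    simp only [hb, map_add, map_smul, LinearMap.add_apply, LinearMap.smul_apply, smul_eq_mul, hp₀p₀, hzp₀]
    ring
  rw [e1, e2, he] at h6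
  rw [show (2 : E) * (η / 2 / η) * 1 = 1 by have := S.two_E; field_simp, sub_self] at h6
  exact neg_ne_zero.mpr one_ne_zero h6.symm


/-- A pair of largest intersection has no perpendicular vector, in degree three. -/
lemma false_of_perp_cubic (hV : finrank E (ι → F) = 3) (hr3 : finrank F E = 3) (hn : 5 ≤ Fintype.card ι)
    (hnot : ¬ Cfsg.Geo.omegaGL (⇑Q) ≤ M) {g : GL ι F} {v u : ι → F} (hmax : S.IsMax M g v u)
    {w : ι → F} (hw : w ∈ img g (ln F E v)) (hwu : w ∉ ln F E u) (hwu' : S.φ w u = 0) : False := by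
  classical
  have hM : M ≤ Cfsg.isometryGroup F (⇑Q) := hMΩ.trans omegaGL_le
  have hfin : Module.Finite F E := Module.Finite.of_finite
  have hr : (finrank F E).Prime := by rw [hr3]; exact Nat.prime_three
  have h3r : 3 ≤ finrank F E := by omega
  obtain ⟨hg, hv, hvv, hu, huu, ⟨z, hz, hz0, hgz⟩, hne⟩ := hmax.1
  obtain ⟨a, ha⟩ := mem_ln.mp hgz
  obtain ⟨Ψ, hΨw, hΨu⟩ := exists_sep (E := E) (v := w) (u := u) fun l h => hwu (mem_ln.mpr ⟨l, h⟩)
  obtain ⟨y, hy⟩ := S.exists_eq ((-a) • Ψ)
  have hyu : S.φ u y = 0 := by rw [hy]; simp [hΨu]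
  set t := S.sE u y with ht
  have hfix : ∀ x ∈ ln F E u, ap t x = x := by
    intro x hx
    obtain ⟨l, rfl⟩ := mem_ln.mp hx
    rw [ht, S.ap_sE huu hyu]; simp [huu, hyu]
  have htw : ap t w = w + a • u := by
    rw [ht, S.ap_sE huu hyu, hwu', hy]; simp [hΨw]
  have hst := S.stab hMΩ hmax (S.sE_mem' hR huu hyu) hfix hw hwu (by
    rw [htw, ha]
    exact Submodule.add_mem _ hw (mem_img'.mpr (by rw [ap_inv_ap]; exact hz)))
  -- the conjugate, stabilising the first line and fixing a second one pointwise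
  set h := g⁻¹ * t * g with hh
  have hhM : h ∈ M := mul_mem (mul_mem (inv_mem hg) (S.sE_mem' hR huu hyu)) hg
  have hhst : ∀ x ∈ ln F E v, ap h x ∈ ln F E v := fun x hx => by
    have h1 := hst (ap g x) (mem_img'.mpr (by rw [ap_inv_ap]; exact hx))
    rw [hh, ap_mul, ap_mul]
    exact mem_img'.mp h1
  have hsemi := S.semi_of_stab hR hMΩ hr h3r hn hnot hv hvv hhM hhst
  set V₀ := img g⁻¹ (ln F E u) with hV₀
  have hhfix : ∀ x ∈ V₀, ap h x = x := fun x hx => by
    rw [hV₀, mem_img', inv_inv] at hx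
    rw [hh, ap_mul, ap_mul, hfix _ hx, ap_inv_ap]
  obtain ⟨a₀, ha₀⟩ := mem_ln.mp hz
  have ha₀0 : a₀ ≠ 0 := fun h0 => hz0 (by rw [← ha₀, h0, zero_smul])
  have hzV : z ∈ V₀ := mem_img'.mpr (by rw [inv_inv]; exact hgz)
  have hzz : S.φ z z = 0 := by rw [← ha₀]; simp [hvv]
  -- not linear
  obtain ⟨c₁, hc₁⟩ : ∃ c : E, ∃ x, ap h (c • x) ≠ c • ap h x := by
    by_contra hlin
    push Not at hlin
    have hhv : ap h v = v := smul_right_injective _ ha₀0 (by
      show a₀ • ap h v = a₀ • v
      rw [← hlin, ha₀, hhfix z hzV])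
    obtain ⟨l, hl⟩ := mem_ln.mp (mem_img'.mp hw)
    have h1 : ap h (ap g⁻¹ w) = ap g⁻¹ w := by rw [← hl, hlin, hhv]
    rw [hh, ap_mul, ap_mul, ap_ap_inv] at h1
    have h2 := ap_injective g⁻¹ h1
    rw [htw, add_eq_left] at h2
    exact hz0 (ap_injective g (by rw [← ha, h2, ap_zero]))
  exact S.false_of_fixed_form hR hMΩ hV hr3 hn hnot (hM hhM) hsemi ⟨c₁, hc₁⟩ V₀
    (by rw [hV₀, finrank_img, finrank_ln hu, hr3]) hhfix hzV hz0 hzz hg hu huu
    fun x => by rw [hV₀, mem_img', inv_inv]

/-- A pair of largest intersection has no perpendicular vector. -/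
lemma false_of_perp (hV : finrank E (ι → F) = 3) (hr : (finrank F E).Prime) (h3r : 3 ≤ finrank F E)
    (hn : 5 ≤ Fintype.card ι) (hnot : ¬ Cfsg.Geo.omegaGL (⇑Q) ≤ M) {g : GL ι F} {v u : ι → F}
    (hmax : S.IsMax M g v u) {w : ι → F} (hw : w ∈ img g (ln F E v)) (hwu : w ∉ ln F E u)
    (hwu' : S.φ w u = 0) : False := by
  by_cases hr3 : finrank F E = 3
  · exact S.false_of_perp_cubic hR hMΩ hV hr3 hn hnot hmax hw hwu hwu'
  have h5 : 5 ≤ finrank F E := by
    by_contra h
    have h4 : finrank F E = 4 := by omega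
    rw [h4] at hr
    norm_num at hr
  exact hnot (S.le_of_perp hR hMΩ hr h5 hn hmax hw hwu hwu')

/-- There is no pair with an intersection of dimension two. -/
theorem psize_le_one (h3 : finrank E (ι → F) = 3) (hr : (finrank F E).Prime) (h3r : 3 ≤ finrank F E)
    (hn : 5 ≤ Fintype.card ι) (hnot : ¬ Cfsg.Geo.omegaGL (⇑Q) ≤ M) {g : GL ι F} {v u : ι → F}
    (hP : S.Pair M g v u) : S.psize g v u ≤ 1 := by
  classical
  by_contra hsize
  push Not at hsize
  have hM : M ≤ Cfsg.isometryGroup F (⇑Q) := hMΩ.trans omegaGL_le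
  have hfin : Module.Finite F E := Module.Finite.of_finite
  have hodd : Odd (finrank F E) := hr.odd_of_ne_two (by omega)
  obtain ⟨hg, hv, hvv, hu, huu, -, hne⟩ := hP
  set D := img g (ln F E v) ⊓ ln F E u with hDdef
  change 2 ≤ finrank F D at hsize
  let X : Subgroup (GL ι F) :=
    { carrier := {x | x ∈ M ∧ ∀ d ∈ D, ap x d = d}
      mul_mem' := fun {a b} ha hb => ⟨mul_mem ha.1 hb.1, fun d hd => by rw [ap_mul, hb.2 d hd, ha.2 d hd]⟩
      one_mem' := ⟨one_mem _, fun d _ => ap_one d⟩
      inv_mem' := fun {a} ha => ⟨inv_mem ha.1, fun d hd => by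
        conv_lhs => rw [← ha.2 d hd]
        exact ap_inv_ap a d⟩ }
  obtain ⟨p, hpp, hup⟩ := S.exists_partner hu huu
  have hpu : S.φ p u = 1 := by rw [S.symm, hup]
  obtain ⟨y₀, y0u, y0p, hyy⟩ := S.exists_aniso huu hpp (by rw [hup]; exact one_ne_zero)
  have huy : ∀ c : E, S.φ u (c • y₀) = 0 := fun c => by rw [map_smul, S.symm, y0u, smul_zero]
  -- a basis
  have hspan : ∀ x, x = S.φ x p • u + S.φ x u • p + (S.φ x y₀ / S.φ y₀ y₀) • y₀ := by
    intro x
    set z := x - (S.φ x p • u + S.φ x u • p + (S.φ x y₀ / S.φ y₀ y₀) • y₀) with hz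
    have z1 : S.φ z u = 0 := by simp [hz, huu, hpu, y0u]
    have z2 : S.φ z p = 0 := by simp [hz, hpp, hup, y0p]
    have z3 : S.φ z y₀ = 0 := by
      simp [hz, S.symm u y₀, S.symm p y₀, y0u, y0p, div_mul_cancel₀ _ hyy]
    by_contra hne'
    have hli : LinearIndependent E ![u, p, y₀, z] := by
      rw [Fintype.linearIndependent_iff]
      intro c hc
      simp [Fin.sum_univ_four] at hc
      have c0 : c 0 = 0 := by
        have := congrArg (fun w => S.φ w p) hc
        simpa [hup, hpp, y0p, z2] using this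
      have c1 : c 1 = 0 := by
        have := congrArg (fun w => S.φ w u) hc
        simpa [huu, hpu, y0u, z1] using this
      have c2 : c 2 = 0 := by
        have := congrArg (fun w => S.φ w y₀) hc
        simpa [S.symm u y₀, S.symm p y₀, y0u, y0p, hyy, z3] using this
      rw [c0, c1, c2] at hc
      have c3 : c 3 = 0 := by
        simp at hc
        exact hc.resolve_right (sub_ne_zero.mpr hne')
      intro i
      fin_cases i <;> assumption
    have := S.finite_E
    have h4 := hli.fintype_card_le_finrank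
    simp [h3] at h4
  -- the Siegel group
  have hadd : ∀ c d : E, S.sE u (c • y₀) * S.sE u (d • y₀) = S.sE u ((c + d) • y₀) := fun c d => by
    refine gl_ext fun x => ?_
    rw [ap_mul, S.ap_sE huu (huy d), S.ap_sE huu (huy c), S.ap_sE huu (huy (c + d))]
    simp only [map_add, map_sub, map_smul, LinearMap.add_apply, LinearMap.sub_apply, LinearMap.smul_apply,
      smul_eq_mul, huu, y0u, S.symm u y₀, add_smul]
    have := S.two_E
    match_scalars <;> field_simp <;> ring
  have hzero : S.sE u ((0 : E) • y₀) = 1 := gl_ext fun x => by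
    rw [S.ap_sE huu (huy 0), ap_one]; simp
  have hX : ∀ c : E, S.sE u (c • y₀) ∈ X := fun c => ⟨S.sE_mem' hR huu (huy c), fun d hd => by
    obtain ⟨l, rfl⟩ := mem_ln.mp hd.2
    rw [S.ap_sE huu (huy c)]; simp [huu, S.symm u y₀, y0u]⟩
  let f : Multiplicative E →* X :=
    { toFun := fun c => ⟨S.sE u (Multiplicative.toAdd c • y₀), hX _⟩
      map_one' := Subtype.ext hzero
      map_mul' := fun c d => Subtype.ext (hadd _ _).symm }
  have hker : ∀ c : E, c ≠ 0 → ∀ x, ap (S.sE u (c • y₀)) x = x → x ∈ ln F E u := by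
    intro c hc x hx
    rw [S.ap_sE huu (huy c), add_sub_assoc, add_eq_left, sub_eq_zero] at hx
    have h1 := congrArg (fun w => S.φ w y₀) hx
    simp [S.symm u y₀, y0u, hyy, hc] at h1
    rw [h1] at hx
    simp only [zero_smul, mul_zero, add_zero, map_smul, smul_eq_mul] at hx
    have h2 : S.φ x y₀ = 0 :=
      (mul_eq_zero.mp ((smul_eq_zero.mp hx.symm).resolve_right hu)).resolve_left hc
    rw [hspan x, h1, h2]
    simp [smul_mem_ln]
  have hinj : Function.Injective f := (injective_iff_map_eq_one f).mpr fun c hc => by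
    by_contra hc0
    have hc' : Multiplicative.toAdd c ≠ 0 := fun h => hc0 (Multiplicative.toAdd.injective h)
    have h1 := hker _ hc' p (by
      rw [show S.sE u (Multiplicative.toAdd c • y₀) = 1 from congrArg Subtype.val hc, ap_one])
    obtain ⟨l, hl⟩ := mem_ln.mp h1
    rw [← hl, map_smul, LinearMap.smul_apply, huu, smul_zero] at hpu
    exact zero_ne_one hpu
  -- the stabiliser of the line
  have hstab : ∀ x : X, (∀ z ∈ ln F E u, ap (x : GL ι F) z ∈ ln F E u) → x ∈ f.range := by
    rintro ⟨x, hx⟩ hst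
    have hsemi := S.semi_of_stab hR hMΩ hr h3r hn hnot hu huu hx.1 hst
    obtain ⟨G, hG⟩ := exists_onLine hu hst
    have hN : Nrm G.toLinearMap := fun a => by
      obtain ⟨b, hb⟩ := hsemi a
      refine ⟨b, fun y => smul_left_injective E hu ?_⟩
      show G (a * y) • u = (b * G y) • u
      rw [← hG, mul_smul, hb, hG, smul_smul]
    obtain ⟨a, b, ha, hGa, hGb, hab⟩ : ∃ a b : E, a ≠ 0 ∧ G a = a ∧ G b = b ∧
        b / a ∉ Set.range (algebraMap F E) := by
      obtain ⟨d, hd, hd0⟩ := (Submodule.ne_bot_iff D).mp fun h => by rw [h, finrank_bot] at hsize; omega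
      obtain ⟨a, rfl⟩ := mem_ln.mp hd.2
      have ha : a ≠ 0 := fun h => hd0 (by rw [h, zero_smul])
      obtain ⟨d', hd', hd''⟩ : ∃ d' ∈ D, d' ∉ Submodule.span F {a • u} := by
        by_contra hall
        push Not at hall
        have h1 := Submodule.finrank_mono (t := Submodule.span F {a • u}) hall
        rw [finrank_span_singleton hd0] at h1
        omega
      obtain ⟨b, rfl⟩ := mem_ln.mp hd'.2
      refine ⟨a, b, ha, smul_left_injective E hu ?_, smul_left_injective E hu ?_, fun ⟨s, hs⟩ => hd'' ?_⟩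
      · show G a • u = a • u
        rw [← hG]; exact hx.2 _ hd
      · show G b • u = b • u
        rw [← hG]; exact hx.2 _ hd'
      · refine Submodule.mem_span_singleton.mpr ⟨s, ?_⟩
        rw [← smul_assoc, Algebra.smul_def, hs, div_mul_cancel₀ _ ha]
    have hid : ∀ c, G c = c := nrm_id hr hN ha hGa hGb hab
    have hxu : ∀ c : E, ap x (c • u) = c • u := fun c => by rw [hG, hid]
    have hlin : ∀ (c : E) z, ap x (c • z) = c • ap x z := fun c z => by
      obtain ⟨d, hd⟩ := hsemi c
      have h1 := hd u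
      rw [hxu, show ap x u = u by simpa using hxu 1] at h1
      rw [hd, ← smul_left_injective E hu h1]
    have hφ := S.form_of_linear (hM hx.1) hlin
    have hu1 : ap x u = u := by simpa using hxu 1
    have hup' : S.φ u (ap x p) = 1 := by rw [← hu1, hφ, hup]
    have hy : S.φ u (ap x p - p) = 0 := by rw [map_sub, hup', hup, sub_self]
    set y := ap x p - p with hydef
    set c := S.φ y y₀ / S.φ y₀ y₀
    have hyu' : S.φ y u = 0 := by rw [S.symm, hy]
    have hsame : S.sE u (c • y₀) = S.sE u y := gl_ext fun z => by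
      have hy' : y = S.φ y p • u + c • y₀ := by
        conv_lhs => rw [hspan y, hyu', zero_smul, add_zero]
      rw [S.ap_sE huu hy, S.ap_sE huu (huy c)]
      conv_rhs => rw [hy']
      simp only [map_add, map_smul, LinearMap.add_apply, LinearMap.smul_apply, smul_eq_mul, huu,
        S.symm u y₀, y0u]
      module
    refine ⟨Multiplicative.ofAdd c, Subtype.ext ?_⟩
    show S.sE u (c • y₀) = x
    rw [hsame]
    set s := S.sE u y with hs
    have hsM : s ∈ M := S.sE_mem' hR huu hy
    have hslin : ∀ (a : E) z, ap s (a • z) = a • ap s z := S.sE_linear huu hy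
    have hsp : ap s p = ap x p := by
      have h1 : S.φ (ap x p) (ap x p) = 0 := by rw [hφ, hpp]
      rw [show ap x p = p + y by rw [hydef]; abel] at h1 ⊢
      simp only [map_add, LinearMap.add_apply, hpp, S.symm y p] at h1
      rw [hs, S.ap_sE huu hy, hpu, show S.φ p y + S.φ y y / 2 * 1 = 0 by
        have := S.two_E; field_simp; linear_combination h1]
      simp
    set x' := s⁻¹ * x with hx'
    have hl' : ∀ (a : E) z, ap x' (a • z) = a • ap x' z := fun a z => by
      rw [hx', ap_mul, ap_mul, hlin]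
      exact ap_injective s (by rw [ap_ap_inv, hslin, ap_ap_inv])
    have hx'M : x' ∈ M := mul_mem (inv_mem hsM) hx.1
    have x'u : ap x' u = u := by
      rw [hx', ap_mul, hu1]
      conv_lhs => rw [show u = ap s u by rw [hs, S.ap_sE huu hy]; simp [huu, hy]]
      rw [ap_inv_ap]
    have x'p : ap x' p = p := by rw [hx', ap_mul, ← hsp, ap_inv_ap]
    have hφ' := S.form_of_linear (hM hx'M) hl'
    set ε := S.φ (ap x' y₀) y₀ / S.φ y₀ y₀
    have x'y : ap x' y₀ = ε • y₀ := by
      have e1 : S.φ (ap x' y₀) u = 0 := by rw [← x'u, hφ', y0u]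
      have e2 : S.φ (ap x' y₀) p = 0 := by rw [← x'p, hφ', y0p]
      conv_lhs => rw [hspan (ap x' y₀), e1, e2, zero_smul, zero_smul, zero_add, zero_add]
    have hε : ε = 1 := by
      have hdet := S.det_eLin hodd (hMΩ hx'M) hl'
      have hli : LinearIndependent E ![u, p, y₀] := by
        rw [Fintype.linearIndependent_iff]
        intro d hd
        simp [Fin.sum_univ_three] at hd
        have d0 : d 0 = 0 := by
          have := congrArg (fun w => S.φ w p) hd
          simpa [hup, hpp, y0p] using this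
        have d1 : d 1 = 0 := by
          have := congrArg (fun w => S.φ w u) hd
          simpa [huu, hpu, y0u] using this
        have d2 : d 2 = 0 := by
          have := congrArg (fun w => S.φ w y₀) hd
          simpa [S.symm u y₀, S.symm p y₀, y0u, y0p, hyy] using this
        intro i
        fin_cases i <;> assumption
      let b := basisOfLinearIndependentOfCardEqFinrank hli (by simp [h3])
      have hm : LinearMap.toMatrix b b (eLin x' hl') = Matrix.diagonal ![1, 1, ε] := by
        ext i j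
        have hb : eLin x' hl' (b j) = (![1, 1, ε] : Fin 3 → E) j • b j := by
          simp only [eLin_apply, b, coe_basisOfLinearIndependentOfCardEqFinrank]
          fin_cases j <;> simp [x'u, x'p, x'y]
        rw [LinearMap.toMatrix_apply, hb, map_smul, b.repr_self, Finsupp.smul_single, smul_eq_mul, mul_one,
          Matrix.diagonal_apply, Finsupp.single_apply]
        by_cases hij : i = j
        · subst hij; simp
        · simp [hij, Ne.symm hij]
      rw [← LinearMap.det_toMatrix b, hm, Matrix.det_diagonal] at hdet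
      simpa [Fin.prod_univ_three] using hdet
    have h1 : x' = 1 := gl_ext fun z => by
      rw [ap_one]
      conv_lhs => rw [hspan z]
      rw [ap_add, ap_add, hl', hl', hl', x'u, x'p, x'y, hε, one_smul, ← hspan z]
    exact inv_mul_eq_one.mp h1
  -- the fixer is the Siegel group
  have hmove : ∀ x : X, ∀ c : E, c ≠ 0 → x * f (Multiplicative.ofAdd c) * x⁻¹ ∈ f.range →
      ∀ z ∈ ln F E u, ap (x : GL ι F) z ∈ ln F E u := by
    rintro x c hc ⟨d, hd⟩ z hz
    have hd' : Multiplicative.toAdd d ≠ 0 := by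
      intro h0
      have hd1 : d = 1 := Multiplicative.toAdd.injective h0
      rw [hd1, map_one] at hd
      refine hc ?_
      have h := hinj (show f (Multiplicative.ofAdd c) = f 1 by
        rw [map_one, ← inv_mul_cancel_left x (f (Multiplicative.ofAdd c))]
        rw [eq_comm, mul_inv_eq_one] at hd
        rw [hd, inv_mul_cancel])
      simpa using congrArg Multiplicative.toAdd h
    refine hker _ hd' _ ?_
    have h1 := congrArg (fun y : X => ap (y : GL ι F) (ap (x : GL ι F) z)) hd
    simp only [Subgroup.coe_mul, Subgroup.coe_inv, ap_mul, ap_inv_ap] at h1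
    rw [show ((f (Multiplicative.ofAdd c) : X) : GL ι F) = S.sE u (c • y₀) from rfl] at h1
    obtain ⟨l, rfl⟩ := mem_ln.mp hz
    rw [show ap (S.sE u (c • y₀)) (l • u) = l • u by rw [S.ap_sE huu (huy c)]; simp [huu, S.symm u y₀, y0u]] at h1
    exact h1
  obtain ⟨π, hπ⟩ := CharP.exists E
  have hπp : π.Prime := CharP.char_is_prime E π
  have := Fact.mk hπp
  set U := f.range with hU
  have hUpow : ∀ y : U, y ^ π = 1 := by
    rintro ⟨_, c, rfl⟩
    refine Subtype.ext ?_
    show f c ^ π = 1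
    rw [← map_pow, show c ^ π = 1 from Multiplicative.toAdd.injective (by simp), map_one]
  have hUp : IsPGroup π U := fun y => ⟨1, by rw [pow_one]; exact hUpow y⟩
  obtain ⟨P, hUP⟩ := hUp.exists_le_sylow
  have hnorm : Subgroup.normalizer (U : Set X) ≤ U := by
    intro x hx
    refine hstab x (hmove x 1 one_ne_zero ?_)
    exact (Subgroup.mem_normalizer_iff.mp hx _).mp ⟨_, rfl⟩
  have hPU : (P : Subgroup X) = U := by
    refine le_antisymm ?_ hUP
    by_contra hle
    have := P.isPGroup'.isNilpotent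
    have h1 : U.subgroupOf P < ⊤ :=
      lt_top_iff_ne_top.mpr fun h => hle (Subgroup.subgroupOf_eq_top.mp h)
    obtain ⟨x, hx, hxU⟩ := SetLike.exists_of_lt (normalizerCondition_of_isNilpotent _ h1)
    refine hxU (hnorm (Subgroup.mem_normalizer_iff.mpr fun y => ?_))
    constructor
    · intro hy
      exact (Subgroup.mem_normalizer_iff.mp hx ⟨y, hUP hy⟩).mp hy
    · intro hy
      have h2 : y ∈ (P : Subgroup X) := by
        have := (P : Subgroup X).mul_mem ((P : Subgroup X).mul_mem (inv_mem x.2) (hUP hy)) x.2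
        simpa [mul_assoc] using this
      exact (Subgroup.mem_normalizer_iff.mp hx ⟨y, h2⟩).mpr hy
  have hcomm : ∀ a ∈ U, ∀ b ∈ U, a * b = b * a := by
    rintro _ ⟨a, rfl⟩ _ ⟨b, rfl⟩
    rw [← map_mul, ← map_mul, mul_comm]
  have hNC : Subgroup.normalizer ((P : Subgroup X) : Set X) ≤ Subgroup.centralizer ((P : Subgroup X) : Set X) := by
    rw [hPU]
    exact fun x hx => Subgroup.mem_centralizer_iff.mpr fun y hy => hcomm y hy x (hnorm hx)
  set K := (MonoidHom.transferSylow P hNC).ker with hK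
  have hcompl := MonoidHom.ker_transferSylow_isComplement' P hNC
  have hKp : ¬ π ∣ Nat.card K := MonoidHom.not_dvd_card_ker_transferSylow P hNC
  have hUcard : Nat.card U = Nat.card E := (Nat.card_congr (MonoidHom.ofInjective hinj).toEquiv).symm.trans
    (Nat.card_congr Multiplicative.toAdd)
  have hcyc : ¬ IsCyclic U := by
    intro hc
    have h1 : Monoid.exponent U ∣ π := Monoid.exponent_dvd_of_forall_pow_eq_one hUpow
    rw [IsCyclic.exponent_eq_card, hUcard, Module.natCard_eq_pow_finrank (K := F) (V := E)] at h1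
    have h2 := Nat.le_of_dvd hπp.pos h1
    obtain ⟨π', hπ'⟩ := CharP.exists F
    have hππ : π' = π := by
      have := charP_of_injective_algebraMap (algebraMap F E).injective π'
      exact CharP.eq E this hπ
    subst hππ
    have := Fintype.ofFinite F
    obtain ⟨j, -, hj⟩ := FiniteField.card F π'
    rw [Nat.card_eq_fintype_card, hj] at h2
    have h3 : π' ^ 2 ≤ (π' ^ (j : ℕ)) ^ finrank F E := by
      rw [← pow_mul]
      exact Nat.pow_le_pow_right hπp.pos (le_trans (by omega) (Nat.le_mul_of_pos_left _ j.pos))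
    have h4 : π' * 2 ≤ π' ^ 2 := by rw [pow_two]; exact Nat.mul_le_mul_left _ hπp.two_le
    have := hπp.pos
    omega
  have hKbot : K = ⊥ := by
    haveI : IsMulCommutative U := ⟨⟨fun a b => Subtype.ext (hcomm a a.2 b b.2)⟩⟩
    have hnK : U ≤ Subgroup.normalizer (K : Set X) := fun x _ => by
      rw [Subgroup.normalizer_eq_top]; trivial
    have hcop : (Nat.card U).Coprime (Nat.card K) := by
      obtain ⟨k, hk⟩ := IsPGroup.iff_card.mp hUp
      rw [hk]
      exact Nat.Coprime.pow_left _ ((Nat.Prime.coprime_iff_not_dvd hπp).mpr hKp)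
    rw [← CfsgLib.CoprimeAction.iSup_centralizers_eq hcyc hnK hcop, eq_bot_iff]
    refine iSup₂_le fun a ha => ?_
    rintro x ⟨hxK, hxc⟩
    obtain ⟨⟨c, rfl⟩, ha1⟩ := ha
    have hc0 : Multiplicative.toAdd c ≠ 0 := fun h => ha1 (by
      rw [show c = 1 from Multiplicative.toAdd.injective h, map_one])
    have hxU : x ∈ U := hstab x (hmove x _ hc0 (by
      rw [ofAdd_toAdd, ← Subgroup.mem_centralizer_iff.mp hxc (f c) rfl, mul_inv_cancel_right]
      exact ⟨c, rfl⟩))
    rw [← hcompl.disjoint.eq_bot]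
    exact Subgroup.mem_inf.mpr ⟨hxK, hPU.symm ▸ hxU⟩
  have htop : U = ⊤ := by
    rw [← hPU]
    have h1 := hcompl.sup_eq_top
    rwa [← hK, hKbot, bot_sup_eq] at h1
  -- a conjugate of a Siegel element
  obtain ⟨p', hpp', hvp'⟩ := S.exists_partner hv hvv
  obtain ⟨y₁, y1v, y1p, hyy'⟩ := S.exists_aniso hvv hpp' (by rw [hvp']; exact one_ne_zero)
  have hvy : S.φ v y₁ = 0 := by rw [S.symm, y1v]
  set t := g * S.sE v y₁ * g⁻¹ with ht
  have hfixg : ∀ x ∈ img g (ln F E v), ap t x = x := by
    intro x hx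
    obtain ⟨l, hl⟩ := mem_ln.mp (mem_img'.mp hx)
    rw [ht, ap_mul, ap_mul, ← hl, S.ap_sE hvv hvy]
    simp only [map_smul, LinearMap.smul_apply, hvv, hvy, smul_zero, zero_smul, mul_zero, add_zero, sub_zero]
    rw [hl, ap_ap_inv]
  have htX : t ∈ X :=
    ⟨mul_mem (mul_mem hg (S.sE_mem' hR hvv hvy)) (inv_mem hg), fun d hd => hfixg d hd.1⟩
  obtain ⟨c, hc⟩ : (⟨t, htX⟩ : X) ∈ f.range := by rw [← hU, htop]; exact Subgroup.mem_top _
  have hc' : S.sE u (Multiplicative.toAdd c • y₀) = t := congrArg Subtype.val hc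
  by_cases hc0 : Multiplicative.toAdd c = 0
  · rw [hc0, hzero, ht, eq_comm, mul_inv_eq_one, mul_eq_left] at hc'
    have h1 := congrArg (fun y => ap y p') hc'
    simp only [ap_one, S.ap_sE hvv hvy, add_sub_assoc, add_eq_left, S.symm p' v, hvp', one_smul,
      sub_eq_zero] at h1
    have h2 := congrArg (fun w => S.φ w y₁) h1
    simp [hvy, hyy'] at h2
  refine hne (Submodule.eq_of_le_of_finrank_le (fun x hx => hker _ hc0 x ?_) ?_)
  · rw [hc']; exact hfixg x hx
  · rw [finrank_img, finrank_ln hu, finrank_ln hv]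

end OForm

end CfsgLib.Geometric.ExtF
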