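import Cfsg.Agent.Lib.Geometric.ExtField.Core
import Cfsg.Agent.Lib.Geometric.Orth.Full

/-!
A symmetric bilinear form over a field extension `E` whose composite with a functional to `F` is the polar form
of a quadratic form over `F`: Siegel elements, torus elements and transitivity on isotropic lines.
-/

set_option autoImplicit false
set_option linter.unusedSectionVars false

namespace CfsgLib.Geometric.ExtF

open Module Matrix QuadraticMap CfsgLib.ClassicalForms CfsgLib.Geometric.Orth

variable {F : Type*} [Field F] {ι : Type} [Fintype ι] [DecidableEq ι] {E : Type*} [Field E] [Algebra F E]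
  [Module E (ι → F)] [IsScalarTower F E (ι → F)] [Finite F] [Finite E]

/-- A symmetric form over `E` lying over the polar form of `Q`. -/
structure OForm (Q : QuadraticForm F (ι → F)) (E : Type*) [Field E] [Algebra F E]
    [Module E (ι → F)] where
  /-- The functional. -/
  T : E →ₗ[F] F
  T_ne : T ≠ 0
  T_aut : ∀ (σ : E ≃ₐ[F] E) (a : E), T (σ a) = T a
  /-- The form. -/
  φ : (ι → F) →ₗ[E] (ι → F) →ₗ[E] E
  symm : ∀ x y, φ x y = φ y x
  T_φ : ∀ x y, T (φ x y) = polar Q x y
  nd : Nondeg Q
  two : (2 : F) ≠ 0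
  big : 3 ≤ finrank E (ι → F)

namespace OForm

variable {Q : QuadraticForm F (ι → F)} (S : OForm Q E)

lemma two_E (S : OForm Q E) : (2 : E) ≠ 0 := by
  rw [← map_ofNat (algebraMap F E) 2]
  exact fun h => S.two ((algebraMap F E).injective (by rw [h, map_zero]))

lemma ext_T {a b : E} (h : ∀ c, S.T (c * a) = S.T (c * b)) : a = b := by
  by_contra hne
  refine S.T_ne (LinearMap.ext fun c => ?_)
  have h1 := h (c / (a - b))
  rw [← sub_eq_zero, ← map_sub, ← mul_sub, div_mul_cancel₀ _ (sub_ne_zero.mpr hne)] at h1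
  simpa using h1

lemma polar_smul (c : E) (x y : ι → F) : polar Q x (c • y) = S.T (c * S.φ x y) := by
  rw [← S.T_φ, map_smul, smul_eq_mul]

lemma polar_smul' (c : E) (x y : ι → F) : polar Q (c • x) y = S.T (c * S.φ x y) := by
  rw [← S.T_φ, map_smul, LinearMap.smul_apply, smul_eq_mul]

lemma two_Q (x : ι → F) : 2 * Q x = S.T (S.φ x x) := by
  rw [S.T_φ, polar_self_mul]

lemma Q_eq_zero {x : ι → F} (h : S.φ x x = 0) : Q x = 0 :=
  (mul_eq_zero.mp ((S.two_Q x).trans (by rw [h, map_zero]))).resolve_left S.two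

lemma nondeg {x : ι → F} (h : ∀ y, S.φ x y = 0) : x = 0 :=
  S.nd x fun y => by rw [← S.T_φ, h, map_zero]

lemma nondeg_ne {x : ι → F} (h : x ≠ 0) : ∃ y, S.φ x y ≠ 0 := by
  by_contra hh
  push Not at hh
  exact h (S.nondeg hh)

lemma finite_E (_S : OForm Q E) : Module.Finite E (ι → F) :=
  Module.Finite.of_restrictScalars_finite F E _

include S in
lemma hm_lines (v : ι → F) : ∃ w : ι → F, ∀ a : E, a • v ≠ w := by
  by_contra h
  push Not at h
  have := S.finite_E
  have h1 := LinearMap.finrank_range_le (LinearMap.toSpanSingleton E (ι → F) v)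
  rw [LinearMap.range_eq_top.mpr fun w => h w, finrank_top, Module.finrank_self] at h1
  have := S.big
  omega

/-- Every functional over `E` comes from the form. -/
lemma exists_eq (Ψ : (ι → F) →ₗ[E] E) : ∃ y, ∀ x, S.φ x y = Ψ x := by
  have := S.finite_E
  have hinj : Function.Injective S.φ := by
    rw [injective_iff_map_eq_zero]
    intro x hx
    exact S.nondeg fun y => by rw [hx]; rfl
  obtain ⟨y, hy⟩ := (LinearMap.injective_iff_surjective_of_finrank_eq_finrank
    (Subspace.dual_finrank_eq (K := E) (V := ι → F)).symm).mp hinj Ψ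
  exact ⟨y, fun x => by rw [S.symm, hy]⟩

/-- A vector orthogonal to a list of length less than the dimension. -/
lemma exists_perp {k : ℕ} (v : Fin k → ι → F) (hk : k < finrank E (ι → F)) :
    ∃ y, y ≠ 0 ∧ ∀ i, S.φ y (v i) = 0 := by
  have := S.finite_E
  obtain ⟨y, hy, h⟩ := exists_ne_zero_ker (fun i => S.φ (v i)) hk
  exact ⟨y, hy, fun i => by rw [S.symm]; exact h i⟩

/-- A partner of an isotropic vector. -/
lemma exists_partner {v : ι → F} (hv : v ≠ 0) (hvv : S.φ v v = 0) :
    ∃ p, S.φ p p = 0 ∧ S.φ v p = 1 := by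
  obtain ⟨q, hq⟩ := S.nondeg_ne hv
  refine ⟨(S.φ v q)⁻¹ • q - ((S.φ v q)⁻¹ * (S.φ v q)⁻¹ * S.φ q q / 2) • v, ?_, ?_⟩
  · simp only [map_sub, map_smul, LinearMap.sub_apply, LinearMap.smul_apply, smul_eq_mul, hvv,
      S.symm q v]
    have := S.two_E
    field_simp
    ring
  · simp only [map_sub, map_smul, smul_eq_mul, hvv, inv_mul_cancel₀ hq, mul_zero, sub_zero]

/-- An anisotropic vector orthogonal to a hyperbolic pair. -/
lemma exists_aniso {v p : ι → F} (hvv : S.φ v v = 0) (hpp : S.φ p p = 0) (hvp : S.φ v p ≠ 0) :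
    ∃ y, S.φ y v = 0 ∧ S.φ y p = 0 ∧ S.φ y y ≠ 0 := by
  obtain ⟨y, hy, hperp⟩ := S.exists_perp ![v, p] (by have := S.big; omega)
  have e1 : S.φ y v = 0 := hperp 0
  have e2 : S.φ y p = 0 := hperp 1
  by_cases hyy : S.φ y y = 0
  swap
  · exact ⟨y, e1, e2, hyy⟩
  obtain ⟨z, hz⟩ := S.nondeg_ne hy
  set z' := z - (S.φ z p / S.φ v p) • v - (S.φ z v / S.φ v p) • p with hz'
  have z1 : S.φ z' v = 0 := by
    simp only [hz', map_sub, map_smul, LinearMap.sub_apply, LinearMap.smul_apply, smul_eq_mul, hvv,
      S.symm p v]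
    field_simp
    ring
  have z2 : S.φ z' p = 0 := by
    simp only [hz', map_sub, map_smul, LinearMap.sub_apply, LinearMap.smul_apply, smul_eq_mul, hpp]
    field_simp
    ring
  have z3 : S.φ y z' = S.φ y z := by
    simp only [hz', map_sub, map_smul, smul_eq_mul, e1, e2, mul_zero, sub_zero]
  by_cases hzz : S.φ z' z' = 0
  swap
  · exact ⟨z', z1, z2, hzz⟩
  refine ⟨y + z', by simp [e1, z1], by simp [e2, z2], ?_⟩
  simp only [map_add, LinearMap.add_apply, hyy, hzz, S.symm z' y, z3, zero_add, add_zero, ← two_mul]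
  exact mul_ne_zero S.two_E hz

/-- An isotropic vector pairing with two given ones. -/
lemma exists_common {v w : ι → F} (hv : v ≠ 0) (hw : w ≠ 0) (hvv : S.φ v v = 0)
    (hww : S.φ w w = 0) : ∃ p, S.φ p p = 0 ∧ S.φ v p ≠ 0 ∧ S.φ w p ≠ 0 := by
  obtain ⟨p₀, hpp, hvp⟩ := S.exists_partner hv hvv
  by_cases hwp : S.φ w p₀ = 0
  swap
  · exact ⟨p₀, hpp, by rw [hvp]; exact one_ne_zero, hwp⟩
  by_cases hvw : S.φ v w = 0
  · have hnot : ∀ a : E, a • v ≠ w := fun a ha => hw (by
      rw [← ha, map_smul, LinearMap.smul_apply, hvp, smul_eq_mul, mul_one] at hwp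
      rw [← ha, hwp, zero_smul])
    obtain ⟨Ψ, hΨw, hΨv⟩ := exists_sep (E := E) (v := w) (u := v) hnot
    obtain ⟨y, hy⟩ := S.exists_eq Ψ
    refine ⟨p₀ + y - (S.φ p₀ y + S.φ y y / 2) • v, ?_, ?_, ?_⟩
    · simp only [map_add, map_sub, map_smul, LinearMap.add_apply, LinearMap.sub_apply,
        LinearMap.smul_apply, smul_eq_mul, hpp, hvv, S.symm y p₀, S.symm p₀ v, hvp, S.symm y v,
        (hy v).trans hΨv]
      have := S.two_E
      field_simp
      ring
    · simp only [map_add, map_sub, map_smul, smul_eq_mul, hvp, hvv, (hy v).trans hΨv]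
      simp
    · simp only [map_add, map_sub, map_smul, smul_eq_mul, hwp, S.symm w v, hvw, (hy w).trans hΨw]
      simp
  · obtain ⟨y, y1, y2, hyy⟩ := S.exists_aniso hvv hww hvw
    refine ⟨v + (-(S.φ y y) / (2 * S.φ v w)) • w + y, ?_, ?_, ?_⟩
    · simp only [map_add, map_smul, LinearMap.add_apply, LinearMap.smul_apply, smul_eq_mul, hvv,
        hww, S.symm w v, S.symm v y, S.symm w y, y1, y2]
      have := S.two_E
      field_simp
      ring
    · simp only [map_add, map_smul, smul_eq_mul, hvv, S.symm v y, y1, zero_add, add_zero]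
      exact mul_ne_zero (div_ne_zero (neg_ne_zero.mpr hyy) (mul_ne_zero S.two_E hvw)) hvw
    · simp only [map_add, map_smul, smul_eq_mul, hww, S.symm w y, S.symm w v, y2, mul_zero, add_zero]
      exact hvw

open Classical in
/-- The Siegel element over `E`. -/
noncomputable def sE (v y : ι → F) : GL ι F :=
  if h : S.φ v v = 0 ∧ S.φ v y = 0 then
    ofEquiv
      { toFun := fun x => x + S.φ x v • y - (S.φ x y + S.φ y y / 2 * S.φ x v) • v
        map_add' := fun a b => by
          simp only [map_add, LinearMap.add_apply]; module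
        map_smul' := fun c x => by
          simp only [RingHom.id_apply, ← algebraMap_smul E c, map_smul, LinearMap.smul_apply, smul_eq_mul]
          module
        invFun := fun x => x - S.φ x v • y + (S.φ x y - S.φ y y / 2 * S.φ x v) • v
        left_inv := fun x => by
          simp only [map_add, map_sub, map_smul, LinearMap.add_apply, LinearMap.sub_apply,
            LinearMap.smul_apply, smul_eq_mul, h.1, h.2, S.symm y v]
          have := S.two_E
          match_scalars <;> field_simp <;> ring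
        right_inv := fun x => by
          simp only [map_add, map_sub, map_smul, LinearMap.add_apply, LinearMap.sub_apply,
            LinearMap.smul_apply, smul_eq_mul, h.1, h.2, S.symm y v]
          have := S.two_E
          match_scalars <;> field_simp <;> ring }
  else 1

lemma ap_sE {v y : ι → F} (hv : S.φ v v = 0) (hy : S.φ v y = 0) (x : ι → F) :
    ap (S.sE v y) x = x + S.φ x v • y - (S.φ x y + S.φ y y / 2 * S.φ x v) • v := by
  rw [sE, dif_pos ⟨hv, hy⟩, ap_ofEquiv]; rfl

lemma sE_linear {v y : ι → F} (hv : S.φ v v = 0) (hy : S.φ v y = 0) (a : E) (x : ι → F) :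
    ap (S.sE v y) (a • x) = a • ap (S.sE v y) x := by
  simp only [S.ap_sE hv hy, map_smul, LinearMap.smul_apply, smul_eq_mul]
  module

lemma sE_form {v y : ι → F} (hv : S.φ v v = 0) (hy : S.φ v y = 0) (x z : ι → F) :
    S.φ (ap (S.sE v y) x) (ap (S.sE v y) z) = S.φ x z := by
  simp only [S.ap_sE hv hy, map_add, map_sub, map_smul, LinearMap.add_apply, LinearMap.sub_apply,
    LinearMap.smul_apply, smul_eq_mul, hv, hy, S.symm y v, S.symm v z, S.symm y z]
  have := S.two_E
  field_simp
  ring

include S in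
lemma isometry_of_form {g : GL ι F} (h : ∀ x, S.φ (ap g x) (ap g x) = S.φ x x) :
    g ∈ Cfsg.isometryGroup F (⇑Q) :=
  mem_isometryGroup_iff.mpr fun x => mul_left_cancel₀ S.two (by rw [S.two_Q, S.two_Q, h])

include S in
lemma mem_omega_of_commutator {g h : GL ι F} (hg : g ∈ Cfsg.isometryGroup F (⇑Q))
    (hh : h ∈ Cfsg.isometryGroup F (⇑Q)) : g * h * g⁻¹ * h⁻¹ ∈ Cfsg.Geo.omegaGL (⇑Q) := by
  rw [omegaGL_eq]
  exact Subgroup.commutator_mem_commutator hg hh

open Classical in
/-- Torus element at a hyperbolic pair. -/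
noncomputable def torus (v p : ι → F) (b : E) : GL ι F :=
  if h : S.φ v v = 0 ∧ S.φ p p = 0 ∧ S.φ v p = 1 ∧ b ≠ 0 then
    ofEquiv
      { toFun := fun x => x + ((b - 1) * S.φ x p) • v + ((b⁻¹ - 1) * S.φ x v) • p
        map_add' := fun x y => by simp only [map_add, LinearMap.add_apply]; module
        map_smul' := fun c x => by
          simp only [RingHom.id_apply, ← algebraMap_smul E c, map_smul, LinearMap.smul_apply, smul_eq_mul]
          module
        invFun := fun x => x + ((b⁻¹ - 1) * S.φ x p) • v + ((b - 1) * S.φ x v) • p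
        left_inv := fun x => by
          simp only [map_add, map_smul, LinearMap.add_apply, LinearMap.smul_apply, smul_eq_mul,
            h.1, h.2.1, h.2.2.1, S.symm p v]
          have := h.2.2.2
          match_scalars <;> field_simp <;> ring
        right_inv := fun x => by
          simp only [map_add, map_smul, LinearMap.add_apply, LinearMap.smul_apply, smul_eq_mul,
            h.1, h.2.1, h.2.2.1, S.symm p v]
          have := h.2.2.2
          match_scalars <;> field_simp <;> ring }
  else 1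

section

variable {v p : ι → F} (hv : S.φ v v = 0) (hp : S.φ p p = 0) (hvp : S.φ v p = 1)
include hv hp hvp

lemma ap_torus {b : E} (hb : b ≠ 0) (x : ι → F) :
    ap (S.torus v p b) x = x + ((b - 1) * S.φ x p) • v + ((b⁻¹ - 1) * S.φ x v) • p := by
  rw [torus, dif_pos ⟨hv, hp, hvp, hb⟩, ap_ofEquiv]; rfl

lemma torus_form {b : E} (hb : b ≠ 0) (x z : ι → F) :
    S.φ (ap (S.torus v p b) x) (ap (S.torus v p b) z) = S.φ x z := by
  simp only [S.ap_torus hv hp hvp hb, map_add, map_smul, LinearMap.add_apply, LinearMap.smul_apply,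
    smul_eq_mul, hv, hp, hvp, S.symm p v, S.symm v z, S.symm p z]
  field_simp
  ring

lemma torus_linear {b : E} (hb : b ≠ 0) (a : E) (x : ι → F) :
    ap (S.torus v p b) (a • x) = a • ap (S.torus v p b) x := by
  simp only [S.ap_torus hv hp hvp hb, map_smul, LinearMap.smul_apply, smul_eq_mul]
  module

lemma torus_v {b : E} (hb : b ≠ 0) : ap (S.torus v p b) v = b • v := by
  rw [S.ap_torus hv hp hvp hb, hv, hvp, mul_zero, mul_one, zero_smul, add_zero]
  module

lemma torus_p {b : E} (hb : b ≠ 0) : ap (S.torus v p b) p = b⁻¹ • p := by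
  rw [S.ap_torus hv hp hvp hb, hp, S.symm p v, hvp, mul_zero, mul_one, zero_smul, add_zero]
  module

lemma torus_fix {b : E} (hb : b ≠ 0) {y : ι → F} (h1 : S.φ y v = 0) (h2 : S.φ y p = 0) :
    ap (S.torus v p b) y = y := by
  rw [S.ap_torus hv hp hvp hb, h1, h2, mul_zero, mul_zero, zero_smul, zero_smul, add_zero, add_zero]

lemma torus_sq_mem {b : E} (hb : b ≠ 0) :
    S.torus v p (b * b) ∈ Cfsg.Geo.omegaGL (⇑Q) := by
  let w : GL ι F := ofEquiv
    { toFun := fun x => x - (S.φ x p - S.φ x v) • (v - p)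
      map_add' := fun x y => by simp only [map_add, LinearMap.add_apply]; module
      map_smul' := fun c x => by
        simp only [RingHom.id_apply, ← algebraMap_smul E c, map_smul, LinearMap.smul_apply, smul_eq_mul]
        module
      invFun := fun x => x - (S.φ x p - S.φ x v) • (v - p)
      left_inv := fun x => by
        simp only [map_sub, map_smul, LinearMap.sub_apply, LinearMap.smul_apply, smul_eq_mul, hv,
          hp, hvp, S.symm p v]
        module
      right_inv := fun x => by
        simp only [map_sub, map_smul, LinearMap.sub_apply, LinearMap.smul_apply, smul_eq_mul, hv,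
          hp, hvp, S.symm p v]
        module }
  have hw : ∀ x, ap w x = x - (S.φ x p - S.φ x v) • (v - p) := fun x => by
    simp only [w, ap_ofEquiv]; rfl
  have hwI : w ∈ Cfsg.isometryGroup F (⇑Q) := S.isometry_of_form fun x => by
    simp only [hw, map_sub, map_smul, LinearMap.sub_apply, LinearMap.smul_apply, smul_eq_mul, hv,
      hp, hvp, S.symm p v, S.symm v x, S.symm p x]
    ring
  have key : S.torus v p (b * b) * w * S.torus v p b = S.torus v p b * w := by
    refine gl_ext fun x => ?_
    simp only [ap_mul, hw, S.ap_torus hv hp hvp hb, S.ap_torus hv hp hvp (mul_ne_zero hb hb),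
      map_add, map_sub, map_smul, LinearMap.add_apply, LinearMap.sub_apply, LinearMap.smul_apply,
      smul_eq_mul, hv, hp, hvp, S.symm p v]
    match_scalars <;> field_simp <;> ring
  rw [show S.torus v p (b * b) = S.torus v p b * w * (S.torus v p b)⁻¹ * w⁻¹ by
    rw [← key]; group]
  exact S.mem_omega_of_commutator
    (S.isometry_of_form fun x => S.torus_form hv hp hvp hb x x) hwI

end

lemma sE_mem {v y : ι → F} (hv : S.φ v v = 0) (hy : S.φ v y = 0) :
    S.sE v y ∈ Cfsg.Geo.omegaGL (⇑Q) := by
  by_cases hv0 : v = 0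
  · rw [show S.sE v y = 1 from gl_ext fun x => by rw [S.ap_sE hv hy, hv0]; simp]
    exact one_mem _
  obtain ⟨p, hp, hvp⟩ := S.exists_partner hv0 hv
  set y₀ := y - S.φ y p • v with hy₀
  have e1 : S.φ v y₀ = 0 := by simp [hy₀, hy, hv]
  have e2 : S.φ y₀ p = 0 := by simp [hy₀, hvp]
  have e3 : S.φ y₀ v = 0 := by rw [S.symm]; exact e1
  have hsame : S.sE v y = S.sE v y₀ := gl_ext fun x => by
    rw [S.ap_sE hv hy, S.ap_sE hv e1, hy₀]
    simp only [map_sub, map_smul, LinearMap.sub_apply, LinearMap.smul_apply, smul_eq_mul, hv,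
      S.symm y v, hy]
    module
  rw [hsame]
  set y' := (-(2 : E)⁻¹) • y₀ with hy'
  have e4 : S.φ v y' = 0 := by simp [hy', e1]
  have hne : (-1 : E) ≠ 0 := neg_ne_zero.mpr one_ne_zero
  have key : S.sE v y₀ * S.sE v y' * S.torus v p (-1) = S.torus v p (-1) * S.sE v y' := by
    refine gl_ext fun x => ?_
    simp only [ap_mul, S.ap_torus hv hp hvp hne, S.ap_sE hv e4, S.ap_sE hv e1]
    simp only [hy', map_add, map_sub,
      map_smul, LinearMap.add_apply, LinearMap.sub_apply, LinearMap.smul_apply, smul_eq_mul, hv, hp,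
      hvp, S.symm p v, e1, e2, e3, S.symm p y₀]
    have := S.two_E
    match_scalars <;> field_simp <;> ring
  rw [show S.sE v y₀ = S.torus v p (-1) * S.sE v y' * (S.torus v p (-1))⁻¹ * (S.sE v y')⁻¹ by
    rw [← key]; group]
  exact S.mem_omega_of_commutator (S.isometry_of_form fun x => S.torus_form hv hp hvp hne x x)
    (S.isometry_of_form fun x => S.sE_form hv e4 x x)

include S in
/-- Squares of isometries lie in `omegaGL`. -/
lemma sq_mem_omega {g : GL ι F} (hg : g ∈ Cfsg.isometryGroup F (⇑Q)) (hn : 5 ≤ Fintype.card ι) :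
    g * g ∈ Cfsg.Geo.omegaGL (⇑Q) := by
  rw [← orthToGL_range] at hg
  obtain ⟨G, rfl⟩ := hg
  rw [← map_mul]
  refine orthToGL_mem_omega ?_
  have hmem : G ∈ reflGroup Q := (reflGroup_eq_top' S.nd hn) ▸ Subgroup.mem_top G
  have hsq : Abelianization.of G * Abelianization.of G = 1 := by
    induction hmem using Subgroup.closure_induction with
    | mem x hx =>
      obtain ⟨a, ha, rfl⟩ := hx
      rw [← map_mul, refl_mul_self, map_one]
    | one => rw [map_one, one_mul]
    | mul x y _ _ hx hy =>
      rw [map_mul, mul_mul_mul_comm, hx, hy, one_mul]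
    | inv x _ hx =>
      rw [map_inv, ← _root_.mul_inv_rev, hx, inv_one]
  rw [← map_mul] at hsq
  exact (QuotientGroup.eq_one_iff _).mp hsq

end OForm

end CfsgLib.Geometric.ExtF
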