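import Cfsg.Agent.Lib.Geometric.ExtField.Core

/-!
The case of degree two over the field with two elements.
-/

set_option autoImplicit false
set_option linter.unusedSectionVars false

namespace CfsgLib.Geometric.ExtF

open Module Matrix

variable {F : Type*} [Field F] {n : ℕ} {E : Type*} [Field E] [Algebra F E] [Module E (Fin n → F)]
  [IsScalarTower F E (Fin n → F)] [Finite F] [Finite E]

lemma IsSemi.pow {g : GL (Fin n) F} (hg : IsSemi E g) : ∀ k : ℕ, IsSemi E (g ^ k)
  | 0 => IsSemi.of_linear E fun a x => by rw [pow_zero, ap_one, ap_one]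
  | k + 1 => by rw [pow_succ]; exact (hg.pow k).mul hg

variable (hq : ∀ c : F, c ≠ 0 → c = 1)
include hq

lemma mem_sl (g : GL (Fin n) F) : g ∈ Cfsg.Geo.specialLinear (Fin n) F := by
  rw [mem_specialLinear_iff]
  exact hq _ (Matrix.GeneralLinearGroup.det_ne_zero g)

lemma add_self_E (a : E) : a + a = 0 := by
  have h2 : (2 : F) = 0 := by
    by_contra h
    exact one_ne_zero (α := F) (by linear_combination hq 2 h)
  rw [← two_mul, ← map_ofNat (algebraMap F E) 2, h2, map_zero, zero_mul]

lemma add_self_V (x : Fin n → F) : x + x = 0 := by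
  funext i
  have h2 : (2 : F) = 0 := by
    by_contra h
    exact one_ne_zero (α := F) (by linear_combination hq 2 h)
  simp [← two_mul, h2]

variable (hr2 : finrank F E = 2)
include hr2

/-- The four elements of the quadratic extension. -/
lemma four (ω : E) (hω : ω ∉ Set.range (algebraMap F E)) (a : E) :
    a = 0 ∨ a = 1 ∨ a = ω ∨ a = 1 + ω := by
  have hli : LinearIndependent F ![(1 : E), ω] := by
    refine LinearIndependent.pair_iff.mpr fun s t hst => ?_
    by_cases ht : t = 0
    · subst ht; simpa using hst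
    refine absurd ⟨-(t⁻¹ * s), ?_⟩ hω
    rw [map_neg, map_mul, map_inv₀, neg_eq_iff_eq_neg]
    rw [Algebra.smul_def, Algebra.smul_def, mul_one] at hst
    have ht' : algebraMap F E t ≠ 0 := by simpa using ht
    field_simp
    linear_combination hst
  let B := basisOfLinearIndependentOfCardEqFinrank hli (by simp [hr2])
  obtain ⟨p, q, h⟩ : ∃ p q : F, p • (1 : E) + q • ω = a := by
    refine ⟨B.repr a 0, B.repr a 1, ?_⟩
    conv_rhs => rw [← B.sum_repr a]
    simp [B, Fin.sum_univ_two]
  rcases eq_or_ne p 0 with h0 | h0 <;> rcases eq_or_ne q 0 with h1 | h1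
  · simp [h0, h1] at h; exact Or.inl h.symm
  · simp [h0, hq _ h1] at h; exact Or.inr (Or.inr (Or.inl h.symm))
  · simp [h1, hq _ h0] at h; exact Or.inr (Or.inl h.symm)
  · simp [hq _ h0, hq _ h1] at h; exact Or.inr (Or.inr (Or.inr h.symm))

lemma exists_omega : ∃ ω : E, ω ∉ Set.range (algebraMap F E) ∧ ω * ω = 1 + ω := by
  obtain ⟨ω, hω⟩ : ∃ ω : E, ω ∉ Set.range (algebraMap F E) := by
    by_contra h
    push Not at h
    have := (Algebra.linearMap F E).finrank_range_le
    rw [LinearMap.range_eq_top.mpr (show Function.Surjective (Algebra.linearMap F E) from fun x => h x), finrank_top, hr2, finrank_self] at this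
    omega
  refine ⟨ω, hω, ?_⟩
  have h0 : ω ≠ 0 := fun h => hω ⟨0, by simp [h]⟩
  have h1 : ω ≠ 1 := fun h => hω ⟨1, by simp [h]⟩
  rcases four hq hr2 ω hω (ω * ω) with h | h | h | h
  · exact absurd (mul_self_eq_zero.mp h) h0
  · refine absurd ?_ h1
    rcases mul_self_eq_one_iff.mp h with h | h
    · exact h
    · rw [h]; linear_combination -(add_self_E hq (1 : E))
  · exact absurd (by nth_rewrite 3 [← one_mul ω] at h; exact mul_right_cancel₀ h0 h) h1
  · exact h

variable {X : Subgroup (GL (Fin n) F)}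
  (hX : ∀ g ∈ Cfsg.Geo.specialLinear (Fin n) F, IsSemi E g → g ∈ X)
  (hm : ∀ v : Fin n → F, ∃ w : Fin n → F, ∀ a : E, a • v ≠ w)
  (hbad : ¬ Cfsg.Geo.specialLinear (Fin n) F ≤ X)
include hX hm hbad

/-- A modification at a line inside `X` is linear over the extension. -/
lemma linear_of_mem {v : Fin n → F} (hv : v ≠ 0) (C : (Fin n → F) →ₗ[F] E)
    (h0 : ∀ a : E, C (a • v) = 0) (hs : ∀ x, (C (C x • v)) • v = 0)
    (hCX : qT (((LinearMap.toSpanSingleton E (Fin n → F) v).restrictScalars F) ∘ₗ C)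
      (fun x => by simpa using hs x) ∈ X) (a : E) (y : Fin n → F) : C (a • y) = a * C y := by
  by_contra hne
  let sq : ∀ C : (Fin n → F) →ₗ[F] E, (∀ a : E, C (a • v) = 0) → ∀ x,
      (((LinearMap.toSpanSingleton E (Fin n → F) v).restrictScalars F) ∘ₗ C)
        ((((LinearMap.toSpanSingleton E (Fin n → F) v).restrictScalars F) ∘ₗ C) x) = 0 :=
    fun C h x => by simp [h]
  let Q : ((Fin n → F) →ₗ[F] E) → Prop := fun C => ∃ h : ∀ a : E, C (a • v) = 0,
    qT _ (sq C h) ∈ X
  have hQC : Q C := ⟨h0, hCX⟩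
  have hQadd : ∀ A B, Q A → Q B → Q (A + B) := by
    rintro A B ⟨hA, hA'⟩ ⟨hB, hB'⟩
    refine ⟨fun a => by simp [hA, hB], ?_⟩
    convert mul_mem hA' hB' using 1
    refine gl_ext fun x => ?_
    simp [ap_mul, map_add, hA, add_smul]
    abel
  have hQright : ∀ (A : (Fin n → F) →ₗ[F] E) (M : GL (Fin n) F),
      (∀ (a : E) x, ap M (a • x) = a • ap M x) → ap M v = v → Q A →
        Q (A ∘ₗ (apEquiv M).toLinearMap) := by
    rintro A M hM hMv ⟨hA, hA'⟩
    refine ⟨fun a => by simp [hM, hMv, hA], ?_⟩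
    have hMX := hX M (mem_sl hq M) (IsSemi.of_linear E hM)
    convert mul_mem (mul_mem (inv_mem hMX) hA') hMX using 1
    refine gl_ext fun x => ?_
    have hMv' : ∀ a : E, ap M⁻¹ (a • v) = a • v := fun a => ap_injective M (by
      rw [ap_ap_inv, hM, hMv])
    simp [ap_mul, ap_add, ap_inv_ap, hMv']
  have hQleft : ∀ A (b : E), b ≠ 0 → Q A → Q (LinearMap.mulLeft F b ∘ₗ A) := by
    rintro A b hb ⟨hA, hA'⟩
    refine ⟨fun a => by simp [hA], ?_⟩
    obtain ⟨Ψ, hΨ⟩ := exists_one (E := E) hv
    let k : GL (Fin n) F := ofEquiv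
      { toFun := fun x => x + ((b - 1) * Ψ x) • v
        map_add' := fun x y => by rw [map_add, mul_add, add_smul]; abel
        map_smul' := fun s x => by
          rw [LinearMap.map_smul_of_tower, mul_smul_comm, smul_assoc, RingHom.id_apply, smul_add]
        invFun := fun x => x + ((b⁻¹ - 1) * Ψ x) • v
        left_inv := fun x => by
          simp only [map_add, map_smul, smul_eq_mul, hΨ, mul_one]
          rw [add_assoc, ← add_smul, show (b - 1) * Ψ x + (b⁻¹ - 1) * (Ψ x + (b - 1) * Ψ x) = 0 by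
            field_simp; ring, zero_smul, add_zero]
        right_inv := fun x => by
          simp only [map_add, map_smul, smul_eq_mul, hΨ, mul_one]
          rw [add_assoc, ← add_smul, show (b⁻¹ - 1) * Ψ x + (b - 1) * (Ψ x + (b⁻¹ - 1) * Ψ x) = 0 by
            field_simp; ring, zero_smul, add_zero] }
    have hkap : ∀ x, ap k x = x + ((b - 1) * Ψ x) • v := fun x => by simp only [k, ap_ofEquiv]; rfl
    have hkX := hX k (mem_sl hq k) (IsSemi.of_linear E fun a x => by
      simp [hkap, smul_add, smul_smul, mul_left_comm])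
    convert mul_mem (mul_mem hkX hA') (inv_mem hkX) using 1
    refine gl_ext fun x => ?_
    have h1 := hkap (ap k⁻¹ x)
    rw [ap_ap_inv] at h1
    have hAx : A x = A (ap k⁻¹ x) := by
      conv_lhs => rw [h1]
      rw [map_add, hA, add_zero]
    simp [ap_mul, ap_add, ap_ap_inv, hkap (A (ap k⁻¹ x) • v), hΨ, hAx, ← add_smul, sub_mul]
  -- composing with a rank one map
  have hQe : ∀ (Φ : (Fin n → F) →ₗ[E] E), Φ v = 0 → 1 + Φ y ≠ 0 →
      Q (C ∘ₗ (((LinearMap.toSpanSingleton E (Fin n → F) y).restrictScalars F) ∘ₗ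
        Φ.restrictScalars F)) := by
    intro Φ hΦ hne
    let M : GL (Fin n) F := ofEquiv
      { toFun := fun x => x + Φ x • y
        map_add' := fun x z => by rw [map_add, add_smul]; abel
        map_smul' := fun s x => by
          rw [LinearMap.map_smul_of_tower, smul_assoc, RingHom.id_apply, smul_add]
        invFun := fun x => x - ((1 + Φ y)⁻¹ * Φ x) • y
        left_inv := fun x => by
          simp only [map_add, map_smul, smul_eq_mul]
          rw [show (1 + Φ y)⁻¹ * (Φ x + Φ x * Φ y) = Φ x by field_simp]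
          abel
        right_inv := fun x => by
          simp only [map_sub, map_smul, smul_eq_mul]
          rw [sub_add, ← sub_smul, show (1 + Φ y)⁻¹ * Φ x - (Φ x - (1 + Φ y)⁻¹ * Φ x * Φ y) = 0 by
            field_simp; ring, zero_smul, sub_zero] }
    have hMap : ∀ x, ap M x = x + Φ x • y := fun x => by simp only [M, ap_ofEquiv]; rfl
    have h := hQadd _ _ (hQright C M (fun a x => by simp [hMap, smul_add, smul_smul])
      (by simp [hMap, hΦ]) hQC) hQC
    convert h using 1
    refine LinearMap.ext fun x => ?_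
    simp [hMap]
    linear_combination -(add_self_E hq (C x))
  obtain ⟨ω, hω, -⟩ := exists_omega (E := E) hq hr2
  have hω0 : ω ≠ 0 := fun h => hω ⟨0, by simp [h]⟩
  have hω1 : ω ≠ 1 := fun h => hω ⟨1, by simp [h]⟩
  let A : E →ₗ[F] E := C ∘ₗ (LinearMap.toSpanSingleton E (Fin n → F) y).restrictScalars F
  let P : (E →ₗ[F] E) → Prop := fun B => ∀ Φ : (Fin n → F) →ₗ[E] E, Φ v = 0 →
    Q (B ∘ₗ Φ.restrictScalars F)
  have hA : P A := by
    intro Φ hΦ
    have e : A ∘ₗ Φ.restrictScalars F = C ∘ₗ (((LinearMap.toSpanSingleton E (Fin n → F) y).restrictScalars F) ∘ₗ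
        Φ.restrictScalars F) := rfl
    rw [e]
    by_cases hΦy : 1 + Φ y ≠ 0
    · exact hQe Φ hΦ hΦy
    rw [not_not] at hΦy
    have hy1 : Φ y = 1 := by linear_combination hΦy - add_self_E hq (1 : E)
    have e1 := hQe (ω • Φ) (by simp [hΦ]) (by
      simp [hy1]; intro h; exact hω1 (by linear_combination h - add_self_E hq (1 : E)))
    have e2 := hQe ((1 + ω) • Φ) (by simp [hΦ]) (by
      simp [hy1]; intro h; exact hω0 (by linear_combination h - add_self_E hq (1 : E)))
    convert hQadd _ _ e1 e2 using 1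
    refine LinearMap.ext fun x => ?_
    simp only [LinearMap.add_apply, LinearMap.comp_apply, LinearMap.coe_restrictScalars,
      LinearMap.toSpanSingleton_apply, LinearMap.smul_apply, smul_eq_mul, ← map_add, ← add_smul]
    congr 2
    linear_combination -(Φ x) * add_self_E hq ω
  have hP : ∀ B, P B := by
    refine mem_of_finrank_two hr2 P (fun B B' h h' Φ hΦ => ?_) (fun b B h Φ hΦ => ?_) ?_ hA ?_
    · convert hQadd _ _ (h Φ hΦ) (h' Φ hΦ) using 1
      exact LinearMap.add_comp _ _ _
    · by_cases hb : b = 0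
      · refine ⟨fun a => by simp [hΦ], ?_⟩
        convert one_mem X using 1
        exact gl_ext fun x => by simp [hb]
      · exact hQleft _ b hb (h Φ hΦ)
    · intro Φ hΦ
      exact ⟨fun a => by simp [hΦ], hX _ (det_qT _ _) (IsSemi.of_linear E fun a x => by
        simp [smul_add, smul_smul])⟩
    · intro d hd
      have e1 : C (a • y) = d * a := LinearMap.congr_fun hd a
      have e2 : C y = d := by simpa [A] using LinearMap.congr_fun hd 1
      exact hne (by rw [e1, e2, mul_comm])
  exact hbad (specialLinear_le_of_pAt hm hX hv fun B Φ hΦ => (hP B Φ hΦ).2)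

/-- An element stabilising a line transports functionals linearly. -/
lemma linear_conj {v : Fin n → F} (hv : v ≠ 0) {j : GL (Fin n) F} (hj : j ∈ X) (G : E →ₗ[F] E)
    (hG : ∀ a : E, ap j (a • v) = G a • v) (Φ : (Fin n → F) →ₗ[E] E) (hΦ : Φ v = 0) (a : E)
    (x : Fin n → F) : G (Φ (ap j⁻¹ (a • x))) = a * G (Φ (ap j⁻¹ x)) := by
  have hGi : Function.Injective G := fun b b' h => by
    refine smul_left_injective E hv (ap_injective j ?_)
    rw [hG, hG, h]
  have hback : ∀ b : E, ∃ b' : E, ap j⁻¹ (b • v) = b' • v := by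
    intro b
    obtain ⟨b', hb'⟩ := (Finite.injective_iff_surjective.mp hGi) b
    exact ⟨b', ap_injective j (by rw [ap_ap_inv, hG, hb'])⟩
  let C : (Fin n → F) →ₗ[F] E := G ∘ₗ Φ.restrictScalars F ∘ₗ (apEquiv j⁻¹).toLinearMap
  have h0 : ∀ b : E, C (b • v) = 0 := fun b => by
    obtain ⟨b', hb'⟩ := hback b
    simp [C, hb', hΦ]
  refine linear_of_mem hq hr2 hX hm hbad hv C h0 (fun z => by simp [h0]) ?_ a x
  have ht : qT (dyad F LinearMap.id v Φ) (dyad_sq _ v Φ hΦ) ∈ X :=
    hX _ (det_qT _ _) (qT_dyad_isSemi v Φ hΦ)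
  convert mul_mem (mul_mem hj ht) (inv_mem hj) using 1
  refine gl_ext fun z => ?_
  simp [ap_mul, ap_add, ap_ap_inv, hG, C]

/-- At least three lines over the extension: nothing more. -/
theorem contra_large (hn : 6 ≤ n) (hnot : ∃ g ∈ X, ¬ IsSemi E g) : False := by
  obtain ⟨v, hv, C, hC, N, hmem, hN, hN0, hrk⟩ := exists_step hX hm hnot
  have hNN : ∀ a, N (N a) = 0 := fun a => smul_left_injective E hv (by
    simp only [← hN, hC, zero_smul])
  obtain ⟨ω, hω, -⟩ := exists_omega (E := E) hq hr2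
  let μ : (Fin n → F) →ₗ[F] (Fin n → F) :=
    { toFun := fun x => ω • x
      map_add' := smul_add ω
      map_smul' := fun c x => smul_comm ω c x }
  let W := LinearMap.ker C ⊓ LinearMap.ker (C ∘ₗ μ)
  have hW : n ≤ finrank F W + 4 := by
    have e1 := LinearMap.finrank_range_add_finrank_ker C
    have e2 := LinearMap.finrank_range_add_finrank_ker (C ∘ₗ μ)
    have e3 := Submodule.finrank_mono (LinearMap.range_comp_le_range μ C)
    have e4 := Submodule.finrank_sup_add_finrank_inf_eq (LinearMap.ker C) (LinearMap.ker (C ∘ₗ μ))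
    have e5 := Submodule.finrank_le (LinearMap.ker C ⊔ LinearMap.ker (C ∘ₗ μ))
    simp only [Module.finrank_fin_fun] at e1 e2 e5
    show n ≤ finrank F ↥(LinearMap.ker C ⊓ LinearMap.ker (C ∘ₗ μ)) + 4
    omega
  have hlk : finrank F ↥(ln F E v ⊓ LinearMap.ker C) < 2 := by
    rw [← hr2, ← finrank_ln (E := E) hv]
    refine Submodule.finrank_lt_finrank_of_lt (lt_of_le_of_ne inf_le_left fun h => hN0 ?_)
    refine LinearMap.ext fun a => smul_left_injective E hv ?_
    have h2 : a • v ∈ ln F E v ⊓ LinearMap.ker C := by rw [h]; exact smul_mem_ln v a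
    have h3 : C (a • v) = 0 := h2.2
    simpa [hN] using h3
  obtain ⟨y, hyW, hy⟩ : ∃ y ∈ W, y ∉ ln F E v := by
    by_contra h
    push Not at h
    have h2 : W ≤ ln F E v ⊓ LinearMap.ker C := le_inf h inf_le_left
    have := Submodule.finrank_mono h2
    omega
  obtain ⟨Φ, hΦy, hΦv⟩ := exists_sep (E := E) (v := y) (u := v) fun a ha => hy (ha ▸ smul_mem_ln v a)
  have hy1 : C y = 0 := hyW.1
  have hy2 : C (ω • y) = 0 := hyW.2
  have hkey : ∀ b : E, N (ω * b) = ω * N b := by
    intro b
    have h := linear_conj hq hr2 hX hm hbad hv (hmem 1) (LinearMap.id + N)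
      (fun a => by simp [hN, add_smul]) (b • Φ) (by simp [hΦv]) ω y
    simp [hy1, hy2, hΦy, mul_comm b] at h
    linear_combination h
  let S : Subalgebra F E :=
    { carrier := {a | ∀ b, N (a * b) = a * N b}
      mul_mem' := fun {a a'} ha ha' b => by rw [mul_assoc, ha, ha', mul_assoc]
      one_mem' := fun b => by rw [one_mul, one_mul]
      add_mem' := fun {a a'} ha ha' b => by rw [add_mul, map_add, ha, ha', add_mul]
      zero_mem' := fun b => by rw [zero_mul, map_zero, zero_mul]
      algebraMap_mem' := fun c b => by rw [← Algebra.smul_def, map_smul, Algebra.smul_def] }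
  have htop := subalgebra_eq_top (by rw [hr2]; exact Nat.prime_two) (S := S) hkey hω
  have hlin : ∀ a, N a = a * N 1 := fun a => by
    have : a ∈ S := htop ▸ Algebra.mem_top
    simpa using this 1
  have h1 := hNN 1
  rw [hlin] at h1
  exact hN0 (LinearMap.ext fun a => by rw [hlin, mul_self_eq_zero.mp h1, mul_zero]; rfl)

variable (hV : finrank E (Fin n → F) = 2)
include hV

/-- In dimension two an element stabilising a line is semilinear. -/
theorem isSemi_of_stab {v : Fin n → F} (hv : v ≠ 0) {j : GL (Fin n) F} (hj : j ∈ X)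
    (hstab : ∀ a : E, ∃ b : E, ap j (a • v) = b • v) : IsSemi E j := by
  classical
  choose G₀ hG₀ using hstab
  let G : E →ₗ[F] E :=
    { toFun := G₀
      map_add' := fun a b => smul_left_injective E hv (by
        simp only [← hG₀, add_smul, ap_add])
      map_smul' := fun c a => smul_left_injective E hv (by
        simp only [RingHom.id_apply, smul_assoc, ← hG₀, ap_smul]) }
  have hG : ∀ a : E, ap j (a • v) = G a • v := hG₀
  have hGi : Function.Injective G := fun b b' h => by
    refine smul_left_injective E hv (ap_injective j ?_)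
    rw [hG, hG, h]
  have hG1 : G 1 ≠ 0 := fun h => one_ne_zero (hGi (h.trans (map_zero G).symm))
  obtain ⟨y, hy⟩ := hm v
  have hy0 : y ≠ 0 := fun h => hy 0 (by rw [h, zero_smul])
  have hvy : ∀ b : E, b • y ≠ v := by
    intro b hb
    by_cases hb0 : b = 0
    · exact hv (by rw [← hb, hb0, zero_smul])
    · exact hy b⁻¹ (by rw [← hb, smul_smul, inv_mul_cancel₀ hb0, one_smul])
  obtain ⟨Φ, hΦy, hΦv⟩ := exists_sep (E := E) (v := y) (u := v) hy
  obtain ⟨Ψ, hΨv, hΨy⟩ := exists_sep (E := E) (v := v) (u := y) hvy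
  have : Module.Finite E (Fin n → F) := Module.Finite.of_restrictScalars_finite F E _
  have hli : LinearIndependent E ![v, y] := by
    refine LinearIndependent.pair_iff.mpr fun s t hst => ?_
    have h1 := congrArg Ψ hst
    have h2 := congrArg Φ hst
    simp [hΨv, hΨy, hΦy, hΦv] at h1 h2
    exact ⟨h1, h2⟩
  have hdec : ∀ x, x = Ψ x • v + Φ x • y := by
    intro x
    let B := basisOfLinearIndependentOfCardEqFinrank hli (by simp [hV])
    have h := B.sum_repr x
    simp [B, Fin.sum_univ_two] at h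
    generalize B.repr x 0 = s at h
    generalize B.repr x 1 = t at h
    rw [← h]
    simp [hΨv, hΨy, hΦy, hΦv]
  set c := Φ (ap j y) with hc
  have hjy : ∀ b : E, b • v ≠ ap j y := by
    intro b hb
    obtain ⟨b', hb'⟩ := (Finite.injective_iff_surjective.mp hGi) b
    refine hy b' (ap_injective j ?_)
    rw [hG, hb', hb]
  have hc0 : c ≠ 0 := fun h => hjy (Ψ (ap j y)) (by
    conv_rhs => rw [hdec (ap j y), ← hc, h, zero_smul, add_zero])
  let τ : E →ₗ[F] E := LinearMap.mulLeft F (G 1)⁻¹ ∘ₗ G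
  have ht : ∀ a : E, ∃ t : E, (∀ b, G (b * t) = a * G b) ∧ Φ (ap j (t • y)) = a * c := by
    intro a
    refine ⟨Φ (ap j⁻¹ (a • ap j y)), fun b => ?_, ?_⟩
    · have := linear_conj hq hr2 hX hm hbad hv hj G hG (b • Φ) (by simp [hΦv]) a (ap j y)
      simpa [ap_inv_ap, hΦy] using this
    · set z := ap j⁻¹ (a • ap j y) with hz
      have h := congrArg (fun w => Φ (ap j w)) (hdec z)
      simp only [ap_add, hG, map_add, map_smul, hΦv, smul_zero, zero_add] at h
      rw [← h, hz, ap_ap_inv, map_smul, smul_eq_mul]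
  have hmulG : ∀ b t : E, G (b * t) * G 1 = G b * G t := by
    intro b t
    obtain ⟨t', ht', -⟩ := ht (G t / G 1)
    have : t' = t := hGi (by rw [← one_mul t', ht' 1]; field_simp)
    rw [← this, ← one_mul t', ht' 1, one_mul, ht' b]
    ring
  have hτmul : ∀ a b, τ (a * b) = τ a * τ b := by
    intro a b
    simp [τ]
    field_simp
    linear_combination hmulG a b
  have hτi : Function.Injective τ := fun a b h => hGi (by simpa [τ, hG1] using h)
  have hGτ : ∀ a b, G (a * b) = τ a * G b := by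
    intro a b
    simp [τ]
    field_simp
    linear_combination hmulG a b
  have hquot : ∀ b, Φ (ap j (b • y)) = τ b * c := by
    intro b
    obtain ⟨t, ht1, ht2⟩ := ht (τ b)
    have : t = b := hτi (by
      simp only [τ, LinearMap.comp_apply, LinearMap.mulLeft_apply]
      rw [← one_mul t, ht1 1]
      simp [τ]
      field_simp
      simp)
    rw [← this]
    simpa [this] using ht2
  -- the semilinear map agreeing on the line and at `y`
  let f : (Fin n → F) →ₗ[F] (Fin n → F) :=
    { toFun := fun x => G (Ψ x) • v + τ (Φ x) • ap j y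
      map_add' := fun x z => by simp only [map_add, add_smul]; abel
      map_smul' := fun s x => by
        simp only [LinearMap.map_smul_of_tower, RingHom.id_apply, smul_assoc, smul_add] }
  have hfi : Function.Injective f := by
    rw [injective_iff_map_eq_zero]
    intro x hx
    change G (Ψ x) • v + τ (Φ x) • ap j y = 0 at hx
    have h1 := congrArg Φ hx
    rw [map_add, map_smul, map_smul, hΦv, smul_zero, zero_add, map_zero, smul_eq_mul, ← hc,
      mul_eq_zero, or_iff_left hc0] at h1
    have hx2 : Φ x = 0 := hτi (h1.trans (map_zero τ).symm)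
    rw [h1, zero_smul, add_zero, smul_eq_zero, or_iff_left hv] at hx
    rw [hdec x, hx2, hGi (hx.trans (map_zero G).symm)]
    simp
  let k : GL (Fin n) F := ofEquiv (LinearEquiv.ofInjectiveEndo f hfi)
  have hk : ∀ x, ap k x = G (Ψ x) • v + τ (Φ x) • ap j y := fun x => by simp [k]; rfl
  have hksemi : IsSemi E k := fun a => ⟨τ a, fun x => by
    simp [hk, hGτ, hτmul, smul_add, smul_smul]⟩
  have hkX := hX k (mem_sl hq k) hksemi
  set u := k⁻¹ * j with hu
  have hkv : ∀ a : E, ap k (a • v) = G a • v := fun a => by simp [hk, hΨv, hΦv]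
  have huv : ∀ a : E, ap u (a • v) = a • v := fun a => ap_injective k (by
    rw [hu, ap_mul, ap_ap_inv, hkv, hG])
  have hky : ap k y = ap j y := by
    simp [hk, hΨy, hΦy, τ, hG1]
  have huy : ap u y = y := by rw [hu, ap_mul, ← hky, ap_inv_ap]
  have huq : ∀ x, Φ (ap u x - x) = 0 := by
    intro x
    have h1 : Φ (ap k (ap u x)) = Φ (ap j x) := by rw [hu, ap_mul, ap_ap_inv]
    have h2 : Φ (ap j x) = τ (Φ x) * c := by
      conv_lhs => rw [hdec x]
      simp [ap_add, hG, hΦv, hquot]
    rw [h2, hk] at h1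
    simp [hΦv, ← hc, hc0] at h1
    rw [map_sub, hτi h1, sub_self]
  let C : (Fin n → F) →ₗ[F] E := Ψ.restrictScalars F ∘ₗ ((apEquiv u).toLinearMap - LinearMap.id)
  have hC0 : ∀ a : E, C (a • v) = 0 := fun a => by simp [C, huv]
  have hCu : ∀ x, ap u x = x + C x • v := by
    intro x
    have h := hdec (ap u x - x)
    rw [huq, zero_smul, add_zero] at h
    rw [show C x = Ψ (ap u x - x) by simp [C], ← h]
    abel
  have huX : u ∈ X := mul_mem (inv_mem hkX) hj
  have hlinC := linear_of_mem hq hr2 hX hm hbad hv C hC0 (fun x => by simp [hC0]) (by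
    convert huX using 1
    exact gl_ext fun x => by simp [hCu])
  have hu1 : u = 1 := gl_ext fun x => by
    rw [hCu, ap_one, hdec x, map_add, hC0, hlinC, show C y = 0 by simp [C, huy], mul_zero,
      add_zero, zero_smul, add_zero]
  rw [hu, inv_mul_eq_one] at hu1
  rwa [← hu1]

/-- An element carrying one line to a line is semilinear. -/
theorem isSemi_of_line {g : GL (Fin n) F} (hg : g ∈ X) {v u : Fin n → F} (hv : v ≠ 0) (hu : u ≠ 0)
    (h : ∀ a : E, ∃ b : E, ap g (a • v) = b • u) : IsSemi E g := by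
  obtain ⟨m, -, hlin, hmu⟩ := exists_linear_move (E := E) hm hu hv
  have hinv : ∀ (a : E) x, ap m⁻¹ (a • x) = a • ap m⁻¹ x := fun a x => ap_injective m (by
    rw [ap_ap_inv, hlin, ap_ap_inv])
  have hmX := hX m (mem_sl hq m) (IsSemi.of_linear E hlin)
  have := isSemi_of_stab hq hr2 hX hm hbad hV hv (mul_mem hmX hg) fun a => by
    obtain ⟨b, hb⟩ := h a
    exact ⟨b, by rw [ap_mul, hb, hlin, hmu]⟩
  simpa using (IsSemi.of_linear E hinv).mul this

/-- Dimension two: nothing more. -/
theorem contra_two (hn : n = 4) (hnot : ∃ g ∈ X, ¬ IsSemi E g) : False := by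
  classical
  obtain ⟨g, hgX, hg⟩ := hnot
  obtain ⟨ω, hω, hωω⟩ := exists_omega (E := E) hq hr2
  have hω0 : ω ≠ 0 := fun h => hω ⟨0, by simp [h]⟩
  have hω1 : ω ≠ 1 := fun h => hω ⟨1, by simp [h]⟩
  have hω3 : ω * (ω * ω) = 1 := by rw [hωω]; linear_combination hωω + add_self_E hq ω
  have hne2 : ∀ v : Fin n → F, v ≠ 0 → ω • ap g v ≠ ap g v := fun v hv h => hω1
    (smul_left_injective E (ap_ne_zero g hv) (h.trans (one_smul E _).symm))
  -- the four elements
  have hfour := four hq hr2 ω hω
  -- no image of a line is a line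
  have hnl : ∀ v w : Fin n → F, v ≠ 0 → w ≠ 0 → ¬ ∀ a : E, ∃ b : E, ap g (a • v) = b • w :=
    fun v w hv hw h => hg (isSemi_of_line hq hr2 hX hm hbad hV hgX hv hw h)
  let ω' : GL (Fin n) F := ofEquiv
    { toFun := fun x => ω • x
      map_add' := smul_add ω
      map_smul' := fun c x => smul_comm ω c x
      invFun := fun x => ω⁻¹ • x
      left_inv := fun x => by simp [smul_smul, inv_mul_cancel₀ hω0]
      right_inv := fun x => by simp [smul_smul, mul_inv_cancel₀ hω0] }
  have hω' : ∀ x, ap ω' x = ω • x := fun x => by simp only [ω', ap_ofEquiv]; rfl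
  have hω'3 : ω' ^ 3 = 1 := gl_ext fun x => by
    rw [show 3 = 1 + 1 + 1 from rfl, pow_succ, pow_succ, pow_one, ap_mul, ap_mul, hω', hω', hω',
      smul_smul, smul_smul, ap_one]
    rw [show ω * ω * ω = 1 by linear_combination hω3, one_smul]
  let T : Submonoid (GL (Fin n) F) :=
    { carrier := {δ | IsSemi E (g⁻¹ * δ * g)}
      one_mem' := IsSemi.of_linear E fun a x => by simp
      mul_mem' := fun {δ δ'} h h' => by
        have : g⁻¹ * (δ * δ') * g = (g⁻¹ * δ * g) * (g⁻¹ * δ' * g) := by group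
        show IsSemi E (g⁻¹ * (δ * δ') * g)
        rw [this]
        exact h.mul h' }
  have hT : ∀ δ, δ ∈ T ↔ IsSemi E (g⁻¹ * δ * g) := fun δ => Iff.rfl
  -- the scalar does not become semilinear
  have hωT : ω' ∉ T := by
    intro hmem
    set m := g⁻¹ * ω' * g with hmdef
    have hm' : ∀ x, ap g (ap m x) = ω • ap g x := fun x => by
      rw [hmdef, ap_mul, ap_mul, ap_ap_inv, hω']
    have hnofix : ∀ v, v ≠ 0 → ∀ b : E, ap m v ≠ b • v := by
      intro v hv b hb
      refine hnl v (ap g v) hv (ap_ne_zero g hv) fun a => ?_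
      have h1 := hm' v
      rw [hb] at h1
      have hb' : ∀ e, e = b ∨ e = 1 + b ∨ e = 0 ∨ e = 1 := by
        intro e
        rcases hfour b with h | h | h | h
        · exact absurd (by rw [h, zero_smul, ap_zero] at h1; exact h1.symm)
            (smul_ne_zero hω0 (ap_ne_zero g hv))
        · exact absurd (by rw [h, one_smul] at h1; exact h1.symm) (hne2 v hv)
        · subst h; rcases hfour e with h | h | h | h <;> simp [h]
        · rcases hfour e with h' | h' | h' | h'
          · exact Or.inr (Or.inr (Or.inl h'))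
          · exact Or.inr (Or.inr (Or.inr h'))
          · refine Or.inr (Or.inl ?_)
            rw [h', h]; linear_combination -(add_self_E hq (1 : E))
          · exact Or.inl (h'.trans h.symm)
      rcases hb' a with rfl | rfl | rfl | rfl
      · exact ⟨ω, h1⟩
      · exact ⟨1 + ω, by rw [add_smul, one_smul, ap_add, h1, add_smul, one_smul]⟩
      · exact ⟨0, by simp [ap_zero]⟩
      · exact ⟨1, by simp⟩
    have hm3 : ∀ x, ap m (ap m (ap m x)) = x := by
      intro x
      apply ap_injective g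
      rw [hm', hm', hm', smul_smul, smul_smul,
        show ω * ω * ω = 1 by linear_combination hω3, one_smul]
    obtain ⟨b, hb⟩ := ((hT ω').mp hmem) ω
    obtain ⟨x₀, hx₀⟩ : ∃ x : Fin n → F, x ≠ 0 := by
      obtain ⟨w, hw⟩ := hm 0
      exact ⟨w, fun h => hw 0 (by rw [h, zero_smul])⟩
    have hbω : b = ω := by
      have hnz : ap m x₀ ≠ 0 := ap_ne_zero m hx₀
      rcases hfour b with h | h | h | h
      · have := hb x₀
        rw [h, zero_smul] at this
        exact absurd this (ap_ne_zero m (smul_ne_zero hω0 hx₀))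
      · have := hb x₀
        rw [h, one_smul] at this
        exact absurd (smul_left_injective E hx₀ ((ap_injective m this).trans (one_smul E x₀).symm)) hω1
      · exact h
      · exfalso
        have h2 : ∀ x, ap m ((1 + ω) • x) = ω • ap m x := fun x => by
          rw [add_smul, one_smul, ap_add, hb, h, add_smul, one_smul, ← add_assoc, add_self_V hq,
            zero_add]
        have h3 := hm3 (ω • x₀)
        rw [hb, h, h2, hb, hm3, h] at h3
        exact one_ne_zero (smul_left_injective E hx₀ (show (1 : E) • x₀ = (0 : E) • x₀ by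
          have h4 : (1 + ω - ω) • x₀ = 0 := by rw [sub_smul, h3, sub_self]
          simpa using h4))
    rw [hbω] at hb
    have hlinm : ∀ (a : E) x, ap m (a • x) = a • ap m x := by
      intro a x
      rcases hfour a with rfl | rfl | rfl | rfl
      · simp [ap_zero]
      · simp
      · exact hb x
      · rw [add_smul, add_smul, ap_add, hb, one_smul, one_smul]
    have hind : LinearIndependent E ![x₀, ap m x₀] := by
      refine LinearIndependent.pair_iff.mpr fun s t hst => ?_
      by_cases ht : t = 0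
      · subst ht
        simpa [hx₀] using hst
      refine absurd ?_ (hnofix x₀ hx₀ (-(t⁻¹ * s)))
      rw [neg_smul, mul_smul, eq_neg_of_add_eq_zero_left hst, smul_neg, neg_neg, smul_smul,
        inv_mul_cancel₀ ht, one_smul]
    have : Module.Finite E (Fin n → F) := Module.Finite.of_restrictScalars_finite F E _
    obtain ⟨α, β, hαβ⟩ : ∃ α β : E, ap m (ap m x₀) = α • x₀ + β • ap m x₀ := by
      let B := basisOfLinearIndependentOfCardEqFinrank hind (by simp [hV])
      refine ⟨B.repr (ap m (ap m x₀)) 0, B.repr (ap m (ap m x₀)) 1, ?_⟩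
      conv_lhs => rw [← B.sum_repr (ap m (ap m x₀))]
      simp [B, Fin.sum_univ_two]
    have h3 := hm3 x₀
    rw [hαβ, ap_add, hlinm, hlinm, hαβ] at h3
    have h4 : (β * α - 1) • x₀ + (α + β * β) • ap m x₀ = 0 := by
      rw [smul_add, smul_smul, smul_smul] at h3
      rw [sub_smul, add_smul, one_smul]
      linear_combination (norm := module) h3
    obtain ⟨e1, e2⟩ := LinearIndependent.pair_iff.mp hind _ _ h4
    refine hnofix (ap m x₀ + (β * (1 + ω)) • x₀) (fun h => ?_) (β * ω) ?_
    · have h' := (LinearIndependent.pair_iff.mp hind (β * (1 + ω)) 1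
        (by rw [one_smul, add_comm]; exact h)).2
      exact one_ne_zero h'
    · rw [ap_add, hlinm, hαβ, smul_add, smul_smul,
        show α = β * ω * (β * (1 + ω)) by
          linear_combination e2 - (add_self_E hq (β * β)) - β * β * hωω - β * β * add_self_E hq ω]
      have : β + β * (1 + ω) = β * ω := by linear_combination β * add_self_E hq (1 : E)
      rw [add_assoc, ← add_smul, this]
      abel
  -- order five elements
  obtain ⟨v₀, hv₀⟩ : ∃ x : Fin n → F, x ≠ 0 := by
    obtain ⟨w, hw⟩ := hm 0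
    exact ⟨w, fun h => hw 0 (by rw [h, zero_smul])⟩
  set d := ap g v₀ with hd
  set w := ap g (ω • v₀) with hw
  have hd0 : d ≠ 0 := ap_ne_zero g hv₀
  have hwd : ∀ a : E, a • d ≠ w := by
    intro a ha
    refine hnl v₀ d hv₀ hd0 fun e => ?_
    rcases hfour e with rfl | rfl | rfl | rfl
    · exact ⟨0, by simp [ap_zero]⟩
    · exact ⟨1, by simp [hd]⟩
    · exact ⟨a, ha.symm⟩
    · exact ⟨1 + a, by rw [add_smul, one_smul, ap_add, ← hw, ← ha, add_smul, one_smul, ← hd]⟩
  have hw0 : w ≠ 0 := fun h => hwd 0 (by rw [h, zero_smul])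
  set e₁ := ω • d with he₁
  have hwe : ∀ a : E, a • e₁ ≠ w := fun a => by rw [he₁, smul_smul]; exact hwd _
  have hew : ∀ a : E, a • w ≠ e₁ := by
    intro a ha
    by_cases ha0 : a = 0
    · exact smul_ne_zero hω0 hd0 (by rw [← he₁, ← ha, ha0, zero_smul])
    · refine hwd (a⁻¹ * ω) ?_
      rw [mul_smul, ← he₁, ← ha, smul_smul, inv_mul_cancel₀ ha0, one_smul]
  obtain ⟨Φ₁, hΦ₁e, hΦ₁w⟩ := exists_sep (E := E) (v := e₁) (u := w) hew
  obtain ⟨Φ₂, hΦ₂w, hΦ₂e⟩ := exists_sep (E := E) (v := w) (u := e₁) hwe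
  let tu : E → GL (Fin n) F := fun s =>
    qT (dyad F LinearMap.id e₁ (s • Φ₂)) (dyad_sq _ _ _ (by simp [hΦ₂e]))
  let tl : GL (Fin n) F := qT (dyad F LinearMap.id w Φ₁) (dyad_sq _ _ _ hΦ₁w)
  have htul : ∀ s (a : E) x, ap (tu s) (a • x) = a • ap (tu s) x := fun s a x => by
    simp [tu, smul_add, smul_smul, mul_left_comm]
  have htll : ∀ (a : E) x, ap tl (a • x) = a • ap tl x := fun a x => by
    simp [tl, smul_add, smul_smul]
  let xs : E → GL (Fin n) F := fun s => tu s * tl
  have hxsl : ∀ s (a : E) x, ap (xs s) (a • x) = a • ap (xs s) x := fun s a x => by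
    simp only [xs, ap_mul, htll, htul]
  have hxs : ∀ s z, ap (xs s) z = z + Φ₁ z • w + (s * (Φ₂ z + Φ₁ z)) • e₁ := by
    intro s z
    simp [xs, tu, tl, ap_mul, hΦ₂w]
  have hquad : ∀ s, ∀ z, ap (xs s) (ap (xs s) z) = s • ap (xs s) z + z := by
    intro s z
    have hdec : z = Φ₁ z • e₁ + Φ₂ z • w := by
      have hli : LinearIndependent E ![e₁, w] := by
        refine LinearIndependent.pair_iff.mpr fun p t hst => ?_
        have h1 := congrArg Φ₁ hst
        have h2 := congrArg Φ₂ hst
        simp [hΦ₁e, hΦ₁w, hΦ₂e, hΦ₂w] at h1 h2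
        exact ⟨h1, h2⟩
      have : Module.Finite E (Fin n → F) := Module.Finite.of_restrictScalars_finite F E _
      let B := basisOfLinearIndependentOfCardEqFinrank hli (by simp [hV])
      have h := B.sum_repr z
      simp [B, Fin.sum_univ_two] at h
      generalize B.repr z 0 = p at h
      generalize B.repr z 1 = t at h
      rw [← h]
      simp [hΦ₁e, hΦ₁w, hΦ₂e, hΦ₂w]
    have k1 : ∀ a : E, a + a = 0 := add_self_E hq
    have k2 : (2 : E) = 0 := by linear_combination k1 1
    have k : ∀ p t : E, ap (xs s) (p • e₁ + t • w) = (p + s * (p + t)) • e₁ + (p + t) • w := by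
      intro p t
      rw [hxs]
      simp [hΦ₁e, hΦ₁w, hΦ₂e, hΦ₂w]
      module
    rw [hdec]
    generalize Φ₁ z = p
    generalize Φ₂ z = t
    rw [k, k]
    simp only [smul_add, smul_smul, add_smul]
    match_scalars
    · linear_combination k1 p * s + (p * ω * s - p * s + ω * s * t) * k2
    · linear_combination k1 p
  have hx5 : ∀ s : E, s * s = 1 + s → xs s ^ 5 = 1 := by
    intro s hs
    refine gl_ext fun z => ?_
    have k1 : ∀ a : E, a + a = 0 := add_self_E hq
    rw [show 5 = 1 + 1 + 1 + 1 + 1 from rfl, pow_succ, pow_succ, pow_succ, pow_succ, pow_one]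
    simp only [ap_mul, ap_one, hquad, hxsl, ap_add, smul_add, smul_smul]
    match_scalars
    · linear_combination (s * s + s + 1) * hs + k1 1 + k1 s * (1 + s) + s ^ 2 * k1 1
    · linear_combination (s + 1) * hs + k1 s + k1 1 + (s - 1) * k1 1
  have hxscomm : ∀ s, Commute ω' (xs s) := fun s => gl_ext fun z => by
    rw [ap_mul, ap_mul (xs s), hω', hω', hxsl]
  -- pigeonhole
  have hcase : ∀ s : E, s * s = 1 + s → xs s ∈ T := by
    intro s hs
    have hsX : xs s ∈ X := hX _ (mem_sl hq _) (IsSemi.of_linear E (hxsl s))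
    have hωX : ω' ∈ X := hX _ (mem_sl hq _) (IsSemi.of_linear E fun a x => by
      rw [hω', hω', smul_comm])
    let γ : Fin 3 × Fin 5 → GL (Fin n) F := fun p => ω' ^ (p.1 : ℕ) * xs s ^ (p.2 : ℕ) * g
    have hγX : ∀ p, γ p ∈ X := fun p => mul_mem (mul_mem (pow_mem hωX _) (pow_mem hsX _)) hgX
    let ζ : Fin 3 × Fin 5 → {z : Fin n → F // z ≠ 0 ∧ z ≠ v₀} := fun p =>
      ⟨ap (γ p) (ω • ap (γ p)⁻¹ v₀), ap_ne_zero _ (smul_ne_zero hω0 (ap_ne_zero _ hv₀)), fun h => by
        have h' : ω • ap (γ p)⁻¹ v₀ = ap (γ p)⁻¹ v₀ := ap_injective (γ p) (by rw [h, ap_ap_inv])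
        exact hω1 (smul_left_injective E (ap_ne_zero _ hv₀) (h'.trans (one_smul E _).symm))⟩
    have hF2 : Nat.card F = 2 := by
      have : Fintype F := Fintype.ofFinite F
      rw [Nat.card_eq_fintype_card]
      refine le_antisymm ?_ Fintype.one_lt_card
      calc Fintype.card F ≤ ({0, 1} : Finset F).card := Finset.card_le_card fun c _ => by
            rcases eq_or_ne c 0 with h | h
            · simp [h]
            · simp [hq c h]
        _ ≤ 2 := Finset.card_le_two
    have hcard : Nat.card {z : Fin n → F // z ≠ 0 ∧ z ≠ v₀} < Nat.card (Fin 3 × Fin 5) := by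
      have : Fintype F := Fintype.ofFinite F
      rw [Nat.card_eq_fintype_card] at hF2
      rw [Nat.card_eq_fintype_card, Nat.card_eq_fintype_card, Fintype.card_prod, Fintype.card_fin,
        Fintype.card_fin, Fintype.card_subtype]
      have hsub : (Finset.univ.filter fun z : Fin n → F => z ≠ 0 ∧ z ≠ v₀) ⊆
          (Finset.univ.erase 0).erase v₀ := fun z hz => by
        simp at hz ⊢; tauto
      refine lt_of_le_of_lt (Finset.card_le_card hsub) ?_
      rw [Finset.card_erase_of_mem (by simp [hv₀]), Finset.card_erase_of_mem (Finset.mem_univ _),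
        Finset.card_univ, Fintype.card_fun, hF2, Fintype.card_fin, hn]
      norm_num
    obtain ⟨p, q, hpq, hζ⟩ : ∃ p q, p ≠ q ∧ ζ p = ζ q := by
      by_contra h
      push Not at h
      exact absurd (Nat.card_le_card_of_injective ζ fun p q hpq => by
        by_contra hne
        exact h p q hne hpq) (not_le.mpr hcard)
    have hzeq : ap (γ p) (ω • ap (γ p)⁻¹ v₀) = ap (γ q) (ω • ap (γ q)⁻¹ v₀) := congrArg Subtype.val hζ
    have hsemi : IsSemi E ((γ q)⁻¹ * γ p) := by
      refine isSemi_of_line hq hr2 hX hm hbad hV (mul_mem (inv_mem (hγX q)) (hγX p))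
        (ap_ne_zero (γ p)⁻¹ hv₀) (ap_ne_zero (γ q)⁻¹ hv₀) fun a => ⟨a, ?_⟩
      apply ap_injective (γ q)
      rw [ap_mul (γ q)⁻¹ (γ p), ap_ap_inv]
      rcases hfour a with rfl | rfl | rfl | rfl
      · simp [ap_zero]
      · simp [ap_ap_inv]
      · exact hzeq
      · rw [add_smul, add_smul, one_smul, one_smul, ap_add, ap_add, ap_ap_inv, ap_ap_inv, hzeq]
    have hxs5 : ∀ k : ℕ, xs s ^ k = xs s ^ (k % 5) := fun k => pow_eq_pow_mod k (hx5 s hs)
    have hω'm : ∀ k : ℕ, ω' ^ k = ω' ^ (k % 3) := fun k => pow_eq_pow_mod k hω'3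
    have hδ : ω' ^ ((p.1 : ℕ) + 2 * q.1) * xs s ^ ((p.2 : ℕ) + 4 * q.2) ∈ T := by
      rw [hT]
      convert hsemi using 1
      have e1 : (ω' ^ (q.1 : ℕ))⁻¹ = ω' ^ (2 * (q.1 : ℕ)) := by
        rw [inv_eq_iff_mul_eq_one, ← pow_add, show (q.1 : ℕ) + 2 * q.1 = 3 * q.1 by ring, pow_mul,
          hω'3, one_pow]
      have e2 : (xs s ^ (q.2 : ℕ))⁻¹ = xs s ^ (4 * (q.2 : ℕ)) := by
        rw [inv_eq_iff_mul_eq_one, ← pow_add, show (q.2 : ℕ) + 4 * q.2 = 5 * q.2 by ring, pow_mul,
          hx5 s hs, one_pow]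
      have hc := hxscomm s
      have hR : (ω' ^ (q.1 : ℕ) * xs s ^ (q.2 : ℕ))⁻¹ * (ω' ^ (p.1 : ℕ) * xs s ^ (p.2 : ℕ)) =
          ω' ^ ((p.1 : ℕ) + 2 * q.1) * xs s ^ ((p.2 : ℕ) + 4 * q.2) := by
        rw [_root_.mul_inv_rev, e1, e2, (hc.symm.pow_pow _ _).eq, mul_assoc, ← mul_assoc (xs s ^ _),
          (hc.symm.pow_pow _ _).eq, mul_assoc, ← pow_add, ← mul_assoc, ← pow_add, add_comm,
          add_comm (4 * (q.2 : ℕ))]
      rw [← hR]
      simp only [γ]
      group
    set i := (p.1 : ℕ) + 2 * q.1 with hi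
    set j := (p.2 : ℕ) + 4 * q.2 with hj
    have hc := hxscomm s
    by_cases hi0 : i % 3 = 0
    · rw [hω'm i, hi0, pow_zero, one_mul] at hδ
      have hj0 : j % 5 ≠ 0 := by
        intro hj0
        apply hpq
        obtain ⟨⟨a, ha⟩, ⟨b, hb⟩⟩ := p
        obtain ⟨⟨a', ha'⟩, ⟨b', hb'⟩⟩ := q
        simp only [hi, hj] at hi0 hj0
        have : a = a' := by omega
        have : b = b' := by omega
        subst_vars
        rfl
      obtain ⟨k, hk⟩ : ∃ k, (j * k) % 5 = 1 := by
        have h5 : j % 5 = 1 ∨ j % 5 = 2 ∨ j % 5 = 3 ∨ j % 5 = 4 := by omega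
        rcases h5 with h | h | h | h
        · exact ⟨1, by omega⟩
        · exact ⟨3, by omega⟩
        · exact ⟨2, by omega⟩
        · exact ⟨4, by omega⟩
      have := pow_mem hδ k
      rwa [← pow_mul, hxs5, hk, pow_one] at this
    · exfalso
      apply hωT
      have h5 := pow_mem hδ 5
      rw [(hc.pow_pow _ _).mul_pow, ← pow_mul, ← pow_mul, hxs5 (j * 5), Nat.mul_mod_left, pow_zero,
        mul_one, hω'm] at h5
      have h3 : i * 5 % 3 = 1 ∨ i * 5 % 3 = 2 := by omega
      rcases h3 with h | h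
      · rwa [h, pow_one] at h5
      · rw [h] at h5
        have := pow_mem h5 2
        rwa [← pow_mul, hω'm, show 2 * 2 % 3 = 1 from rfl, pow_one] at this
  have hω2 : (1 + ω) * (1 + ω) = 1 + (1 + ω) := by
    linear_combination hωω + add_self_E hq ω
  have hu : tu 1 ∈ T := by
    have h := mul_mem (hcase ω hωω) (pow_mem (hcase (1 + ω) hω2) 4)
    convert h using 1
    rw [show tu 1 = (tu 1 * xs (1 + ω)) * xs (1 + ω) ^ 4 by
      rw [mul_assoc, ← pow_succ', hx5 _ hω2, mul_one]]
    congr 1
    refine gl_ext fun z => ?_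
    simp only [ap_mul, hxs]
    simp [tu, hΦ₂w, hΦ₂e]
    match_scalars <;> first | ring1 | linear_combination (Φ₂ z + Φ₁ z) * add_self_E hq (1 : E) | linear_combination (ω * (Φ₂ z + Φ₁ z)) * add_self_E hq (1 : E)
  obtain ⟨b, hb⟩ := (hT _).mp hu ω
  have h1 : ap (tu 1) d = d := by
    have : Φ₂ d = 0 := by
      have h := congrArg Φ₂ he₁
      simpa [hΦ₂e, hω0] using h
    simp [tu, this]
  have h2 := hb v₀
  simp only [ap_mul, ← hd, ← hw, h1] at h2
  rw [show ap (tu 1) w = w + e₁ by simp [tu, hΦ₂w]] at h2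
  rw [show ap g⁻¹ d = v₀ by rw [hd, ap_inv_ap], ap_add, show ap g⁻¹ w = ω • v₀ by rw [hw, ap_inv_ap]] at h2
  refine hnl v₀ d hv₀ hd0 fun a => ?_
  have h3 : ap g ((b - ω) • v₀) = e₁ := by
    rw [sub_smul, ← h2, add_sub_cancel_left, ap_ap_inv]
  rcases hfour (b - ω) with h | h | h | h
  · rw [h, zero_smul, ap_zero] at h3
    exact absurd h3.symm (smul_ne_zero hω0 hd0)
  · rw [h, one_smul, ← hd] at h3
    exact absurd h3.symm (hne2 v₀ hv₀)
  · rw [h, ← hw] at h3
    exact absurd (by rw [h3, he₁]) (hwd ω)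
  · rw [h, add_smul, one_smul, ap_add, ← hd, ← hw] at h3
    refine absurd ?_ (hwd (ω - 1))
    rw [sub_smul, one_smul, ← he₁, ← h3]
    abel

end CfsgLib.Geometric.ExtF
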