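import Cfsg.Agent.Lib.Geometric.ExtField.SympForm
import Cfsg.Agent.Lib.Geometric.ExtField.Small

/-!
A group containing the isometries of a symplectic form over an extension field and one further isometry over the
base field contains all symplectic transvections over the base field.
-/

set_option autoImplicit false
set_option linter.unusedSectionVars false

namespace CfsgLib.Geometric.ExtF

open Module Matrix

/-- Every element of a finite field is a sum of two squares. -/
lemma exists_sq_add_sq {F : Type*} [Field F] [Finite F] (a : F) : ∃ s t : F, s ^ 2 + t ^ 2 = a := by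
  classical
  have := Fintype.ofFinite F
  by_cases h : ringChar F = 2
  · obtain ⟨s, rfl⟩ := FiniteField.isSquare_of_char_two h a
    exact ⟨s, 0, by ring⟩
  obtain ⟨s, t, hst⟩ := FiniteField.exists_root_sum_quadratic (R := F)
    (f := (Polynomial.X : Polynomial F) ^ 2) (g := Polynomial.X ^ 2 - Polynomial.C a)
    (Polynomial.degree_X_pow 2) (Polynomial.degree_X_pow_sub_C (by decide) _)
    (FiniteField.odd_card_of_char_ne_two h)
  exact ⟨s, t, by simp at hst; linear_combination hst⟩

variable {F : Type*} [Field F] {ι : Type} [Fintype ι] [DecidableEq ι] {E : Type*} [Field E] [Algebra F E]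
  [Module E (ι → F)] [IsScalarTower F E (ι → F)] [Finite F] [Finite E]

namespace KForm

variable (S : KForm F E ι)

/-- A functional is multiplication followed by `T`. -/
lemma exists_rep (ψ : E →ₗ[F] F) : ∃ c : E, ∀ a, S.T (c * a) = ψ a := by
  have : Module.Finite F E := Module.Finite.of_finite
  let TE : E →ₗ[F] (E →ₗ[F] F) :=
    { toFun := fun e => S.T ∘ₗ LinearMap.mulLeft F e
      map_add' := fun a b => LinearMap.ext fun c => by simp [add_mul]
      map_smul' := fun c a => LinearMap.ext fun d => by simp }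
  have hinj : Function.Injective TE := by
    rw [injective_iff_map_eq_zero]
    intro e he
    refine S.T_mul_ext fun a => ?_
    rw [mul_zero, map_zero, mul_comm]
    exact LinearMap.congr_fun he a
  obtain ⟨c, hc⟩ := (LinearMap.injective_iff_surjective_of_finrank_eq_finrank
    (by rw [Module.finrank_linearMap, Module.finrank_self, mul_one])).1 hinj ψ
  exact ⟨c, fun a => LinearMap.congr_fun hc a⟩

lemma exists_T_one {c : E} (hc : c ≠ 0) : ∃ p, S.T (p * c) = 1 := by
  obtain ⟨a, ha⟩ : ∃ a, S.T a ≠ 0 := by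
    by_contra h
    push Not at h
    exact S.T_ne (LinearMap.ext h)
  refine ⟨((S.T a)⁻¹ • a) / c, ?_⟩
  rw [div_mul_cancel₀ _ hc, map_smul, smul_eq_mul, inv_mul_cancel₀ ha]

/-- A vector outside a line pairs as prescribed with something orthogonal to the line. -/
lemma exists_pair {v x : ι → F} (hv : v ≠ 0) (hx : x ∉ ln F E v) (b : E) :
    ∃ y, S.φ y v = 0 ∧ S.φ x y = b := by
  obtain ⟨p, hp⟩ : ∃ p, S.φ p v = 1 := by
    obtain ⟨p, hp⟩ := S.nondeg v hv
    exact ⟨(-(S.φ v p))⁻¹ • p, by rw [S.smul_left, S.skew v p, inv_mul_cancel₀ (neg_ne_zero.mpr hp)]⟩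
  obtain ⟨y, hy, hxy⟩ : ∃ y, S.φ y v = 0 ∧ S.φ x y ≠ 0 := by
    by_contra h
    push Not at h
    refine hx (mem_ln.mpr ⟨S.φ p x, (sub_eq_zero.mp ?_).symm⟩)
    by_contra hne0
    obtain ⟨y, hy⟩ := S.nondeg _ hne0
    refine hy ?_
    have h1 := h (y - S.φ y v • p) (by rw [S.sub_left, S.smul_left, hp, mul_one, sub_self])
    rw [S.sub_right, S.smul_right] at h1
    rw [S.sub_left, S.smul_left, S.skew y v]
    linear_combination h1 + S.φ y v * S.skew p x
  exact ⟨(b / S.φ x y) • y, by rw [S.smul_left, hy, mul_zero],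
    by rw [S.smul_right, div_mul_cancel₀ _ hxy]⟩

variable {X : Subgroup (GL ι F)}
  (hX : ∀ g, S.IsIsom g → g ∈ X)
  (hXf : ∀ g ∈ X, ∀ x y, S.T (S.φ (ap g x) (ap g y)) = S.T (S.φ x y))

/-- A transvection over the base field. -/
def HasTv (X : Subgroup (GL ι F)) : Prop :=
  ∃ (u : ι → F) (κ : F), u ≠ 0 ∧ κ ≠ 0 ∧ ∃ g ∈ X, ∀ x, ap g x = x + (κ * S.T (S.φ x u)) • u

/-- A position of rank one is a transvection. -/
lemma hasTv_of_p {v : ι → F} (hv : v ≠ 0) {z : E} (hz : z ≠ 0) {κ : F} (hκ : κ ≠ 0) {A : E →ₗ[F] E}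
    (hA : S.P X v A) (hAe : ∀ e, A e = algebraMap F E (κ * S.T (z * e)) * z) : S.HasTv X := by
  obtain ⟨g, hg, hg'⟩ := hA
  refine ⟨z • v, κ, smul_ne_zero hz hv, hκ, g, hg, fun x => ?_⟩
  rw [hg', hAe, S.smul_right, mul_smul, algebraMap_smul]

include hX

/-- Positions form a space over `F`. -/
lemma p_smul {v w : ι → F} (hvw : S.φ v w = 1) {A : E →ₗ[F] E} (hA : S.P X v A) (s : F) :
    S.P X v (s • A) := by
  obtain ⟨a, b, rfl⟩ := exists_sq_add_sq s
  have key : ∀ a : F, S.P X v (a ^ 2 • A) := by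
    intro a
    have h := S.p_scale hX hvw hA (algebraMap F E a)
    have e : a ^ 2 • A =
        LinearMap.mulLeft F (algebraMap F E a) ∘ₗ A ∘ₗ LinearMap.mulLeft F (algebraMap F E a) := by
      refine LinearMap.ext fun x => ?_
      simp [← Algebra.smul_def, map_smul, smul_smul, sq]
    rw [e]
    exact h
  rw [add_smul]
  exact S.p_add (key a) (key b)

/-- One transvection gives all. -/
theorem all_transvections (h : S.HasTv X) (u' : ι → F) (c : F) :
    ∃ g ∈ X, ∀ x, ap g x = x + (c * S.T (S.φ x u')) • u' := by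
  by_cases hu' : u' = 0
  · exact ⟨1, one_mem X, fun x => by simp [hu']⟩
  obtain ⟨u, κ, hu, hκ, t, ht, ht'⟩ := h
  have sq : ∀ s : F, ∃ g ∈ X, ∀ x, ap g x = x + (κ * s ^ 2 * S.T (S.φ x u')) • u' := by
    intro s
    by_cases hs : s = 0
    · exact ⟨1, one_mem X, fun x => by simp [hs]⟩
    obtain ⟨g, hg, hiso, hgu⟩ := S.exists_move hX hu (show s • u' ≠ 0 from smul_ne_zero hs hu')
    refine ⟨g * t * g⁻¹, mul_mem (mul_mem hg ht) (inv_mem hg), fun x => ?_⟩
    have h1 : S.φ (ap g⁻¹ x) u = algebraMap F E s * S.φ x u' := by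
      rw [← hiso.2, ap_ap_inv, hgu, ← algebraMap_smul E s u', S.smul_right]
    rw [ap_mul, ap_mul, ht', ap_add, ap_ap_inv, ap_smul, hgu, h1, ← Algebra.smul_def, map_smul,
      smul_smul, smul_eq_mul]
    congr 2
    ring
  obtain ⟨a, b, hab⟩ := exists_sq_add_sq (c / κ)
  obtain ⟨g₁, hg₁, hg₁'⟩ := sq a
  obtain ⟨g₂, hg₂, hg₂'⟩ := sq b
  refine ⟨g₁ * g₂, mul_mem hg₁ hg₂, fun x => ?_⟩
  have e : S.φ (x + (κ * b ^ 2 * S.T (S.φ x u')) • u') u' = S.φ x u' := by
    rw [← algebraMap_smul E (κ * b ^ 2 * S.T (S.φ x u')) u', S.add_left, S.smul_left, S.self,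
      mul_zero, add_zero]
  rw [ap_mul, hg₂', hg₁', e, add_assoc, ← add_smul]
  congr 2
  field_simp at hab
  linear_combination S.T (S.φ x u') * hab

include hXf

/-- Away from degree two over two elements there is a transvection. -/
theorem hasTv_general (hr : (finrank F E).Prime)
    (hns : 3 ≤ finrank F E ∨ ∃ μ : F, μ ≠ 0 ∧ μ ≠ 1)
    (hm : ∀ v : ι → F, ∃ w : ι → F, ∀ a : E, a • v ≠ w) (hnot : ∃ g ∈ X, ¬ IsSemi E g) :
    S.HasTv X := by
  obtain ⟨v, C, hC, ψ, z, hv, hz, hψz, hψ, hCv, hmem, -⟩ := S.exists_step hX hXf hr hm hnot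
  obtain ⟨c, hc⟩ := S.exists_rep ψ
  have hc0 : c ≠ 0 := fun h => hψ (LinearMap.ext fun a => by rw [← hc, h, zero_mul, map_zero]; rfl)
  have hzc : S.T (z * c) = 0 := by rw [mul_comm, hc, hψz]
  obtain ⟨w, hvw⟩ : ∃ w, S.φ v w = 1 := by
    obtain ⟨p, hp⟩ := S.nondeg v hv
    exact ⟨(S.φ v p)⁻¹ • p, by rw [S.smul_right, inv_mul_cancel₀ hp]⟩
  -- the action on the line and on the pairing with it
  have hline : ∀ (t : F) (a : E), ap (qT (t • C) (smul_sq hC t)) (a • v) =
      (a + algebraMap F E (t * ψ a) * z) • v := fun t a => by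
    simp [hCv, add_smul, map_mul, mul_smul, algebraMap_smul]
  have hpair : ∀ (t : F) x, S.φ (ap (qT (t • C) (smul_sq hC t))⁻¹ x) v =
      S.φ x v + algebraMap F E (t * S.T (z * S.φ x v)) * c := by
    intro t x
    refine S.T_mul_ext fun b => ?_
    rw [← S.smul_right b, ← hXf _ (hmem t), ap_ap_inv, hline, S.smul_right, add_mul, map_add,
      mul_add, map_add, mul_assoc, ← Algebra.smul_def, map_smul, ← Algebra.smul_def, mul_smul_comm,
      map_smul, mul_comm b c, hc, smul_eq_mul, smul_eq_mul]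
    ring
  let Z : E → F → (E →ₗ[F] E) := fun p t =>
    t • ((S.T ∘ₗ LinearMap.mulLeft F z).smulRight p + (S.T ∘ₗ LinearMap.mulLeft F p).smulRight z) +
      (t ^ 2 * S.T (p * c)) • ((S.T ∘ₗ LinearMap.mulLeft F z).smulRight z)
  have hZ : ∀ p e t, Z p t e = t • (S.T (z * e) • p + S.T (p * e) • z) +
      (t ^ 2 * S.T (p * c)) • S.T (z * e) • z := fun p e t => rfl
  have hZP : ∀ p t, S.P X v (Z p t) := by
    intro p t
    obtain ⟨g₀, hg₀, hg₀'⟩ := S.p_mul hX v (p / c)
    set h := qT (t • C) (smul_sq hC t) with hh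
    have hP : S.P X v (Z p t + LinearMap.mulLeft F (p / c)) := by
      refine ⟨h * g₀ * h⁻¹, mul_mem (mul_mem (hmem t) hg₀) (inv_mem (hmem t)), fun x => ?_⟩
      rw [ap_mul, ap_mul, hg₀', ap_add, ap_ap_inv, hh, hline, hpair, LinearMap.add_apply, hZ,
        LinearMap.mulLeft_apply]
      congr 2
      set e := S.φ x v
      have e1 : p / c * (e + algebraMap F E (t * S.T (z * e)) * c) =
          p / c * e + algebraMap F E (t * S.T (z * e)) * p := by field_simp
      have e2 : ψ (p / c * e) = S.T (p * e) := by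
        rw [← hc, ← mul_assoc, mul_div_cancel₀ _ hc0]
      rw [LinearMap.mulLeft_apply, e1, map_add, e2, ← Algebra.smul_def _ p, map_smul, ← hc p,
        mul_comm c p]
      simp only [Algebra.smul_def, smul_eq_mul, map_add, map_mul, map_pow, Algebra.algebraMap_self,
        RingHom.id_apply]
      ring
    have := S.p_add hP (S.p_neg (S.p_mul hX v (p / c)))
    rwa [add_neg_cancel_right] at this
  by_cases hμ : ∃ μ : F, μ ≠ 0 ∧ μ ≠ 1
  · obtain ⟨μ, hμ0, hμ1⟩ := hμ
    obtain ⟨p, hp⟩ := S.exists_T_one hc0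
    refine S.hasTv_of_p hv hz (κ := μ ^ 2 - μ) ?_
      (S.p_add (hZP p μ) (S.p_neg (S.p_smul hX hvw (hZP p 1) μ))) fun e => ?_
    · rw [sq, ← mul_sub_one]
      exact mul_ne_zero hμ0 (sub_ne_zero.mpr hμ1)
    · rw [LinearMap.add_apply, LinearMap.neg_apply, LinearMap.smul_apply, hZ, hZ, hp]
      simp only [Algebra.smul_def, map_sub, map_mul, map_pow, map_one]
      ring
  push Not at hμ
  have hr3 : 3 ≤ finrank F E := hns.resolve_right (by
    rintro ⟨μ, h0, h1⟩
    exact h1 (hμ μ h0))
  -- two elements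
  have h2 : (2 : F) = 0 := by
    by_contra h
    exact one_ne_zero (α := F) (by linear_combination hμ 2 h)
  have h2E : (2 : E) = 0 := by rw [← map_ofNat (algebraMap F E) 2, h2, map_zero]
  have hTval : ∀ a, S.T a = 0 ∨ S.T a = 1 := fun a => by
    by_cases h : S.T a = 0
    · exact Or.inl h
    · exact Or.inr (hμ _ h)
  -- a scalar moving the pair
  obtain ⟨b, hb0, hb1, hbzc⟩ : ∃ b : E, b ≠ 0 ∧ S.T (z * c / b) = 0 ∧ S.T (z * c * b) = 1 := by
    by_contra hnone
    push Not at hnone
    set s := z * c with hs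
    let H : Submodule F E := LinearMap.ker (S.T ∘ₗ LinearMap.mulLeft F s)
    have hH : ∀ y, y ∈ H ↔ S.T (s * y) = 0 := fun y => Iff.rfl
    have hinv : ∀ y ∈ H, y⁻¹ ∈ H := by
      intro y hy
      by_cases hy0 : y = 0
      · rw [hy0, _root_.inv_zero]; exact H.zero_mem
      rw [hH]
      by_contra h
      refine hnone y⁻¹ (inv_ne_zero hy0) ?_ ((hTval _).resolve_left h)
      rw [div_inv_eq_mul]
      exact hy
    have h1 : (1 : E) ∈ H := by rw [hH, mul_one, hs, hzc]
    have hadd : ∀ a : E, a + a = 0 := fun a => by rw [← two_mul, h2E, zero_mul]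
    have hneg : ∀ a : E, -a = a := fun a => neg_eq_of_add_eq_zero_left (hadd a)
    have hab : ∀ a ∈ H, ∀ b ∈ H, a * b * a ∈ H := by
      intro a ha b hb
      by_cases ha0 : a = 0
      · simp [ha0]
      by_cases hb0 : b = 0
      · simp [hb0]
      by_cases hab1 : a * b = 1
      · rw [hab1, one_mul]; exact ha
      have hd : b⁻¹ - a ≠ 0 := by
        intro h
        rw [sub_eq_zero] at h
        exact hab1 (by rw [← h, inv_mul_cancel₀ hb0])
      have e : a * b * a = a - (a⁻¹ + (b⁻¹ - a)⁻¹)⁻¹ := by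
        have : a⁻¹ + (b⁻¹ - a)⁻¹ = b⁻¹ / (a * (b⁻¹ - a)) := by field_simp; ring
        rw [this]
        field_simp
        ring
      rw [e]
      exact H.sub_mem ha (hinv _ (H.add_mem (hinv _ ha) (hinv _ (H.sub_mem (hinv _ hb) ha))))
    have hsq : ∀ a ∈ H, ∃ a' ∈ H, a' * a' = a := by
      intro a ha
      let f : H → H := fun y => ⟨(y : E) * y, by simpa using hab _ y.2 1 h1⟩
      have hf : Function.Injective f := by
        intro x y hxy
        have h : ((x : E) - y) * ((x : E) - y) = 0 := by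
          linear_combination (congrArg Subtype.val hxy) + ((y : E) * y - x * y) * h2E
        exact Subtype.ext (sub_eq_zero.mp (mul_self_eq_zero.mp h))
      obtain ⟨y, hy⟩ := (Finite.injective_iff_surjective.mp hf) ⟨a, ha⟩
      exact ⟨y, y.2, congrArg Subtype.val hy⟩
    let R : Subalgebra F E :=
      { carrier := H
        mul_mem' := fun {a b} ha hb => by
          obtain ⟨a', ha', rfl⟩ := hsq a ha
          have := hab a' ha' b hb
          rwa [show a' * a' * b = a' * b * a' by ring]
        one_mem' := h1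
        add_mem' := fun ha hb => H.add_mem ha hb
        zero_mem' := H.zero_mem
        algebraMap_mem' := fun t => by
          rw [Algebra.algebraMap_eq_smul_one]; exact H.smul_mem t h1 }
    have hHtop : H ≠ ⊤ := by
      intro h
      refine mul_ne_zero hz hc0 (S.T_mul_ext fun a => ?_)
      rw [mul_zero, map_zero, mul_comm]
      exact (hH a).mp (h ▸ Submodule.mem_top)
    have hdim := LinearMap.finrank_range_add_finrank_ker (S.T ∘ₗ LinearMap.mulLeft F s)
    have hdle := Submodule.finrank_le (LinearMap.range (S.T ∘ₗ LinearMap.mulLeft F s))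
    rw [Module.finrank_self] at hdle
    have hdH : finrank F (LinearMap.ker (S.T ∘ₗ LinearMap.mulLeft F s)) = finrank F H := rfl
    obtain ⟨a, ha, haF⟩ : ∃ a ∈ H, a ∉ Set.range (algebraMap F E) := by
      by_contra h
      push Not at h
      have hle : H ≤ LinearMap.range (Algebra.linearMap F E) := fun a ha => h a ha
      have h3 := Submodule.finrank_mono hle
      have h4 := (Algebra.linearMap F E).finrank_range_le
      rw [Module.finrank_self] at h4
      omega
    have htop := subalgebra_eq_top hr (show a ∈ R from ha) haF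
    exact hHtop (eq_top_iff.mpr fun y _ => (htop ▸ Algebra.mem_top : y ∈ R))
  obtain ⟨p', hp'c, hp'b⟩ : ∃ p', S.T (p' * c) = 0 ∧ S.T (p' * (c / b)) = 1 := by
    by_contra h
    push Not at h
    obtain ⟨q, hq⟩ := S.exists_T_one hc0
    have hall : c / b = algebraMap F E (S.T (q * (c / b))) * c := by
      refine S.T_mul_ext fun a => ?_
      have h1 := h (a - S.T (a * c) • q) (by
        rw [sub_mul, map_sub, smul_mul_assoc, map_smul, hq, smul_eq_mul, mul_one, sub_self])
      have h2' := (hTval _).resolve_right h1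
      rw [sub_mul, map_sub, smul_mul_assoc, map_smul, smul_eq_mul, sub_eq_zero] at h2'
      rw [h2', mul_left_comm, ← Algebra.smul_def, map_smul, smul_eq_mul, mul_comm]
    rcases hTval (q * (c / b)) with h0 | h0
    · rw [h0, map_zero, zero_mul, div_eq_zero_iff] at hall
      exact hall.elim hc0 hb0
    · rw [h0, map_one, one_mul, div_eq_iff hb0] at hall
      have hb : b = 1 := mul_left_cancel₀ hc0 (by rw [mul_one]; exact hall.symm)
      rw [hb, mul_one, hzc] at hbzc
      exact zero_ne_one hbzc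
  -- conjugating by the scaled element
  obtain ⟨d, hdX, hd, hdv⟩ := S.exists_diag hX hvw hb0
  set h₁ := d * qT ((1 : F) • C) (smul_sq hC 1) * d⁻¹ with hh₁
  have hh₁X : h₁ ∈ X := mul_mem (mul_mem hdX (hmem 1)) (inv_mem hdX)
  have hdinv : ∀ a : E, ap d⁻¹ (a • v) = (a / b) • v := fun a => ap_injective d (by
    rw [ap_ap_inv, hd.1, hdv, smul_smul, div_mul_cancel₀ _ hb0])
  have hline₁ : ∀ a : E, ap h₁ (a • v) = (a + algebraMap F E (ψ (a / b)) * (b * z)) • v := by
    intro a
    rw [hh₁, ap_mul, ap_mul, hdinv, hline, hd.1, hdv, smul_smul, one_mul]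
    congr 1
    field_simp
  have hpair₁ : ∀ x, S.φ (ap h₁⁻¹ x) v =
      S.φ x v + algebraMap F E (S.T (b * z * S.φ x v)) * (c / b) := by
    intro x
    have e0 : ∀ y, S.φ (ap d⁻¹ y) v = b * S.φ y v := fun y => by
      rw [← hd.2, ap_ap_inv, hdv, S.smul_right]
    have e1 : ∀ y, S.φ (ap d y) v = S.φ y v / b := fun y => by
      rw [eq_div_iff hb0, mul_comm, ← e0, ap_inv_ap]
    rw [hh₁, _root_.mul_inv_rev, _root_.mul_inv_rev, inv_inv, ap_mul, ap_mul, e1, hpair, e0]
    field_simp
  have hA := hZP p' 1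
  obtain ⟨gA, hgA, hgA'⟩ := hA
  let B : E →ₗ[F] E := Z p' 1 + ((S.T ∘ₗ LinearMap.mulLeft F (b * z)).smulRight z +
    (S.T ∘ₗ LinearMap.mulLeft F z).smulRight (b * z))
  have hB : S.P X v B := by
    refine ⟨h₁ * gA * h₁⁻¹, mul_mem (mul_mem hh₁X hgA) (inv_mem hh₁X), fun x => ?_⟩
    rw [ap_mul, ap_mul, hgA', ap_add, ap_ap_inv, hline₁, hpair₁]
    congr 2
    set e := S.φ x v
    have hBe : B e = Z p' 1 e + (S.T (b * z * e) • z + S.T (z * e) • (b * z)) := rfl
    rw [hBe, hZ, hZ, hp'c]
    simp only [one_smul, one_pow, one_mul, zero_smul, add_zero, mul_zero]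
    set e' := e + algebraMap F E (S.T (b * z * e)) * (c / b) with he'
    have i1 : S.T (z * e') = S.T (z * e) := by
      rw [he', mul_add, map_add, ← Algebra.smul_def, mul_smul_comm, map_smul,
        show z * (c / b) = z * c / b by ring, hb1, smul_zero, add_zero]
    have i2 : S.T (p' * e') = S.T (p' * e) + S.T (b * z * e) := by
      rw [he', mul_add, map_add, ← Algebra.smul_def, mul_smul_comm, map_smul, hp'b, smul_eq_mul,
        mul_one]
    have i3 : ψ (p' / b) = 1 := by rw [← hc, show c * (p' / b) = p' * (c / b) by ring, hp'b]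
    have i4 : ψ (z / b) = 0 := by rw [← hc, show c * (z / b) = z * c / b by ring, hb1]
    rw [i1, i2, add_div, map_add, smul_div_assoc, smul_div_assoc, map_smul, map_smul, i3, i4,
      smul_zero, add_zero, smul_eq_mul, mul_one, add_smul, Algebra.smul_def, Algebra.smul_def,
      Algebra.smul_def, Algebra.smul_def]
    ring
  have hR := S.p_add (hZP (b * z) 1) (S.p_add hB (S.p_neg (hZP p' 1)))
  refine S.hasTv_of_p hv hz one_ne_zero hR fun e => ?_
  have hBe : B e = Z p' 1 e + (S.T (b * z * e) • z + S.T (z * e) • (b * z)) := rfl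
  show Z (b * z) 1 e + (B e + -(Z p' 1 e)) = _
  rw [hBe]
  rw [hZ, hZ,
    show b * z * c = z * c * b by ring, hbzc]
  simp only [one_smul, one_pow, one_mul, Algebra.smul_def, map_one]
  linear_combination (algebraMap F E (S.T (z * e)) * (b * z) +
    algebraMap F E (S.T (b * z * e)) * z) * h2E

/-- Degree two over two elements: some image of a line is not totally singular. -/
lemma exists_hyperbolic (hq : ∀ t : F, t ≠ 0 → t = 1) (hr2 : finrank F E = 2) (hT1 : S.T 1 = 0)
    (hm : ∀ v : ι → F, ∃ w : ι → F, ∀ a : E, a • v ≠ w) (hnot : ∃ g ∈ X, ¬ IsSemi E g)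
    {ω : E} (hω : ω ∉ Set.range (algebraMap F E)) (hωω : ω * ω = 1 + ω) (hTω : S.T ω = 1) :
    ∃ g ∈ X, ∃ v : ι → F, S.φ (ap g (ω • v)) (ap g v) ≠ 0 := by
  classical
  by_contra hall
  push Not at hall
  have hfour := four hq hr2 ω hω
  have k1 : ∀ a : E, a + a = 0 := add_self_E hq
  have k2 : (2 : E) = 0 := by linear_combination k1 1
  have kV : ∀ x : ι → F, x + x = 0 := fun x => by rw [← two_smul E x, k2, zero_smul]
  have hsk : ∀ x y, S.φ x y = S.φ y x := fun x y => by
    rw [S.skew y x]; exact neg_eq_of_add_eq_zero_left (k1 _)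
  -- the values of the trace determine a scalar
  have hext : ∀ {e e' : E}, S.T e = S.T e' → S.T (ω * e) = S.T (ω * e') → e = e' := by
    intro e e' h1 h2
    refine S.T_mul_ext fun a => ?_
    rcases hfour a with rfl | rfl | rfl | rfl
    · simp
    · simp [h1]
    · exact h2
    · simp [add_mul, h1, h2]
  let A : GL ι F → (ι → F) → (ι → F) := fun g x => ap g⁻¹ (ω • ap g x)
  have hgA : ∀ g x, ap g (A g x) = ω • ap g x := fun g x => ap_ap_inv g _
  -- the trace form moved by an element
  have hTA : ∀ g ∈ X, ∀ x y, S.T (S.φ (A g x) y) = S.T (S.φ x (A g y)) := by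
    intro g hg x y
    rw [← hXf g hg, hgA, ← hXf g hg x, hgA, S.smul_left, S.smul_right]
  have hpol : ∀ g ∈ X, ∀ x y, S.φ (ap g (ω • x)) (ap g y) = S.φ (ap g x) (ap g (ω • y)) := by
    intro g hg x y
    have h1 := hall g hg (x + y)
    rw [smul_add, ap_add, ap_add, S.add_left, S.add_right, S.add_right, hall g hg x,
      hall g hg y, hsk (ap g (ω • y))] at h1
    linear_combination h1 - S.φ (ap g x) (ap g (ω • y)) * k2
  have hAω : ∀ g ∈ X, ∀ x, A g (ω • x) = ω • A g x := by
    intro g hg x
    refine sub_eq_zero.mp ?_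
    by_contra hne
    obtain ⟨y, hy⟩ := S.nondeg _ hne
    refine hy ?_
    have e0 : ∀ y, S.T (S.φ (A g (ω • x) - ω • A g x) y) = 0 := by
      intro y
      rw [S.sub_left, map_sub, ← hXf g hg (A g (ω • x)), hgA, S.smul_left, S.smul_left,
        hpol g hg, ← S.smul_right ω (A g x), ← hXf g hg (A g x), hgA, S.smul_left, sub_self]
    refine hext (by rw [e0, map_zero]) ?_
    rw [mul_zero, map_zero, ← S.smul_right, e0]
  -- some linear part is not scalar
  obtain ⟨g, hg, v, hv⟩ : ∃ g ∈ X, ∃ v, ∀ a : E, A g v ≠ a • v := by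
    by_contra hno
    push Not at hno
    obtain ⟨g, hg, hns⟩ := hnot
    refine hns (isSemi_of_lines hm fun x a => ?_)
    obtain ⟨l, hl⟩ := hno g hg x
    have h1 : ap g (l • x) = ω • ap g x := by rw [← hl, hgA]
    by_cases hx : x = 0
    · exact ⟨0, by rw [hx, smul_zero, ap_zero, smul_zero]⟩
    have hgx := ap_ne_zero g hx
    obtain ⟨b, hb⟩ : ∃ b : E, ap g (ω • x) = b • ap g x := by
      rcases hfour l with hl' | hl' | hl' | hl' <;> rw [hl'] at h1
      · rw [zero_smul, ap_zero] at h1
        rw [← smul_left_injective E hgx ((zero_smul E _).trans h1)] at hω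
        exact absurd ⟨0, map_zero _⟩ hω
      · rw [one_smul] at h1
        rw [← smul_left_injective E hgx ((one_smul E _).trans h1)] at hω
        exact absurd ⟨1, map_one _⟩ hω
      · exact ⟨ω, h1⟩
      · refine ⟨1 + ω, ?_⟩
        rw [add_smul, one_smul, ap_add] at h1
        rw [add_smul, one_smul, ← h1, ← add_assoc, kV, zero_add]
    rcases hfour a with rfl | rfl | rfl | rfl
    · exact ⟨0, by simp [ap_zero]⟩
    · exact ⟨1, by simp⟩
    · exact ⟨b, hb⟩
    · exact ⟨1 + b, by rw [add_smul, one_smul, ap_add, hb, add_smul, one_smul]⟩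
  set Av := A g v with hAv
  have hlinA : ∀ (e : E) x, A g (e • x) = e • A g x := by
    intro e x
    rcases hfour e with rfl | rfl | rfl | rfl
    · simp [A, ap_zero]
    · simp
    · exact hAω g hg x
    · rw [add_smul, add_smul, one_smul, one_smul]
      have := hAω g hg x
      simp only [A, ap_add, smul_add] at this ⊢
      rw [this]
  have hAadd : ∀ x y, A g (x + y) = A g x + A g y := fun x y => by
    simp [A, ap_add, smul_add]
  have hA2 : ∀ x, A g (A g x) = A g x + x := fun x => by
    apply ap_injective g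
    rw [hgA, hgA, smul_smul, hωω, ap_add, hgA, add_smul, one_smul, add_comm]
  have hAφ : ∀ x y, S.φ (A g x) y = S.φ x (A g y) := fun x y => by
    refine hext (hTA g hg x y) ?_
    rw [← S.smul_left, ← hlinA, hTA g hg, S.smul_left]
  have hAvv : S.φ Av v = 0 := by
    refine hext ?_ ?_
    · rw [hAv, ← hXf g hg, hgA, S.smul_left, S.self, mul_zero]
    · rw [hAv, ← S.smul_left, ← hlinA, ← hXf g hg, hgA, S.smul_left, hall g hg, mul_zero]
  -- a transvection not commuting with it
  let C : (ι → F) →ₗ[F] (ι → F) := dyad F (LinearMap.mulLeft F (1 : E)) v (S.l v)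
  set t := qT C (dyad_sq _ v (S.l v) (S.self v))
  have ht : ∀ x, ap t x = x + S.φ x v • v := fun x => by simp [t, C]
  have htX : t ∈ X := by
    refine hX t ⟨fun e x => ?_, fun x y => ?_⟩
    · simp [ht, S.smul_left, smul_add, smul_smul]
    · simp [ht, S.add_left, S.add_right, S.smul_left, S.smul_right, S.self, S.skew y v]
      ring
  have htω : ∀ x, ap t (ω • x) = ω • ap t x := fun x => by
    simp [ht, S.smul_left, smul_add, smul_smul]
  have htinv : ∀ x, ap t⁻¹ x = x + S.φ x v • v := fun x => ap_injective t (by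
    rw [ap_ap_inv, ht, S.add_left, S.smul_left, S.self, mul_zero, add_zero, add_assoc, kV,
      add_zero])
  have hh : g * t * g⁻¹ ∈ X := mul_mem (mul_mem hg htX) (inv_mem hg)
  set B : (ι → F) → (ι → F) := fun x => A g x + (S.φ x Av • v + S.φ x v • Av) with hB
  have hAh : ∀ x, A (g * t * g⁻¹) x = ap g (ap t⁻¹ (A g (ap t (ap g⁻¹ x)))) := fun x => by
    simp only [A, _root_.mul_inv_rev, inv_inv, ap_mul]
  have hB' : ∀ x, ap t⁻¹ (A g (ap t x)) = B x := fun x => by
    rw [htinv, ht, hAadd, hlinA, ← hAv, S.add_left, S.smul_left, hAvv, mul_zero, add_zero, hAφ,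
      ← hAv, hB]
    abel
  have hcomm : ∀ x, B (A g x) = A g (B x) := by
    intro x
    have h := hAω _ hh (ap g x)
    rw [hAh, hAh, ap_inv_ap] at h
    have e1 : ap g⁻¹ (ω • ap g x) = A g x := rfl
    rw [e1, hB', hB', ← hgA] at h
    exact ap_injective g h
  obtain ⟨x, hx⟩ : ∃ x, S.φ x v = 1 := by
    obtain ⟨p, hp⟩ := S.nondeg v (fun h => hv 0 (by rw [hAv, h]; simp [A, ap_zero]))
    exact ⟨(S.φ v p)⁻¹ • p, by rw [hsk, S.smul_right, inv_mul_cancel₀ hp]⟩
  have h := hcomm x
  simp only [hB, hAadd, hlinA, hAφ, ← hAv, hx] at h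
  have hAAv : A g Av = Av + v := hA2 v
  rw [hAAv, S.add_right, hx] at h
  refine hv (S.φ x Av) ?_
  linear_combination (norm := module) -h

/-- Degree two over two elements: a modification of rank two stabilising a line. -/
lemma exists_step_two (hq : ∀ t : F, t ≠ 0 → t = 1) (hr2 : finrank F E = 2) (hT1 : S.T 1 = 0)
    (hm : ∀ v : ι → F, ∃ w : ι → F, ∀ a : E, a • v ≠ w) (hnot : ∃ g ∈ X, ¬ IsSemi E g) :
    ∃ (v : ι → F) (C : (ι → F) →ₗ[F] (ι → F)) (hC : ∀ x, C (C x) = 0) (ψ : E →ₗ[F] F) (z : E),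
      v ≠ 0 ∧ z ≠ 0 ∧ ψ z = 0 ∧ ψ ≠ 0 ∧ (∀ a : E, C (a • v) = (algebraMap F E (ψ a) * z) • v) ∧
      (∀ c : F, qT (c • C) (smul_sq hC c) ∈ X) ∧ finrank F (LinearMap.range C) ≤ finrank F E := by
  classical
  obtain ⟨ω, hω, hωω⟩ := exists_omega (E := E) hq hr2
  have hfour := four hq hr2 ω hω
  have hTω : S.T ω = 1 := by
    by_cases h : S.T ω = 0
    · refine absurd (LinearMap.ext fun a => ?_) S.T_ne
      rcases hfour a with rfl | rfl | rfl | rfl <;> simp [hT1, h]
    · exact hq _ h
  obtain ⟨g, hg, v, hv⟩ := S.exists_hyperbolic hX hXf hq hr2 hT1 hm hnot hω hωω hTω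
  set u := ap g v
  set w := ap g (ω • v)
  have hv0 : v ≠ 0 := fun h => hv (by simp [u, h, ap_zero, S.zero_right])
  have hwu : S.φ w u = 1 := by
    have h1 : S.T (S.φ w u) = 0 := by rw [hXf g hg, S.smul_left, S.self, mul_zero, map_zero]
    rcases hfour (S.φ w u) with h | h | h | h
    · exact absurd h hv
    · exact h
    · rw [h, hTω] at h1; exact absurd h1 one_ne_zero
    · rw [h, map_add, hT1, hTω, zero_add] at h1; exact absurd h1 one_ne_zero
  let D : (ι → F) →ₗ[F] (ι → F) := dyad F (LinearMap.mulLeft F (1 : E)) u (S.l u)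
  have hD : ∀ x, D x = S.φ x u • u := fun x => by simp [D]
  set C : (ι → F) →ₗ[F] (ι → F) :=
    (apEquiv g⁻¹).toLinearMap ∘ₗ D ∘ₗ (apEquiv g).toLinearMap with hCdef
  have hCap : ∀ x, C x = ap g⁻¹ (S.φ (ap g x) u • u) := fun x => by simp [hCdef, hD]
  have hC : ∀ x, C (C x) = 0 := fun x => by
    rw [hCap, hCap, ap_ap_inv, S.smul_left, S.self, mul_zero, zero_smul, ap_zero]
  have hCv : C v = 0 := by rw [hCap, S.self, zero_smul, ap_zero]
  have hCω : C (ω • v) = v := by rw [hCap, hwu, one_smul, ap_inv_ap]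
  refine ⟨v, C, hC, S.T, 1, hv0, one_ne_zero, hT1, S.T_ne, fun a => ?_, fun c => ?_, ?_⟩
  · rcases hfour a with rfl | rfl | rfl | rfl
    · simp
    · simp [hCv, hT1]
    · simp [hCω, hTω]
    · simp [add_smul, hCv, hCω, hT1, hTω]
  · by_cases hc : c = 0
    · rw [show qT (c • C) (smul_sq hC c) = 1 from gl_ext fun x => by simp [hc]]
      exact one_mem X
    have htX : qT D (dyad_sq _ u (S.l u) (S.self u)) ∈ X := by
      refine hX _ ⟨fun e x => ?_, fun x y => ?_⟩
      · simp [hD, S.smul_left, smul_add, smul_smul]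
      · simp [hD, S.add_left, S.add_right, S.smul_left, S.smul_right, S.self, S.skew y u]
        ring
    convert mul_mem (mul_mem (inv_mem hg) htX) hg using 1
    refine gl_ext fun x => ?_
    simp [hq c hc, hCap, hD, ap_mul, ap_add, ap_inv_ap]
  · refine le_trans (Submodule.finrank_mono
      (show LinearMap.range C ≤ img g⁻¹ (ln F E u) from ?_)) ?_
    · rintro _ ⟨x, rfl⟩
      rw [hCap]
      exact mem_img.mpr ⟨_, smul_mem_ln u _, rfl⟩
    · rw [finrank_img, finrank_ln (ap_ne_zero g hv0)]

/-- Degree two over two elements. -/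
theorem hasTv_small (hq : ∀ t : F, t ≠ 0 → t = 1) (hr2 : finrank F E = 2) (hT1 : S.T 1 = 0)
    (hn : 8 ≤ Fintype.card ι) (hnot : ∃ g ∈ X, ¬ IsSemi E g) : S.HasTv X := by
  classical
  by_contra hbad
  have hm : ∀ v : ι → F, ∃ w : ι → F, ∀ a : E, a • v ≠ w := by
    intro v
    by_contra h
    push Not at h
    have h1 := LinearMap.finrank_range_le
      ((LinearMap.toSpanSingleton E (ι → F) v).restrictScalars F)
    rw [LinearMap.range_eq_top.mpr (fun w => h w), finrank_top,
      Module.finrank_fintype_fun_eq_card, hr2] at h1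
    omega
  obtain ⟨v, C, hC, ψ, z, hv, hz, hψz, hψ, hCv, hmem, hrk⟩ :=
    S.exists_step_two hX hXf hq hr2 hT1 hm hnot
  obtain ⟨c, hc⟩ := S.exists_rep ψ
  obtain ⟨ω, hω, hωω⟩ := exists_omega (E := E) hq hr2
  have hω0 : ω ≠ 0 := fun h => hω ⟨0, by simp [h]⟩
  have hfour := four hq hr2 ω hω
  have k1 : ∀ a : E, a + a = 0 := add_self_E hq
  have k2 : (2 : E) = 0 := by linear_combination k1 1
  have kV : ∀ x : ι → F, x + x = 0 := fun x => by rw [← two_smul E x, k2, zero_smul]
  have hTval : ∀ a, S.T a = 0 ∨ S.T a = 1 := fun a => by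
    by_cases h : S.T a = 0
    · exact Or.inl h
    · exact Or.inr (hq _ h)
  have hTω : S.T ω = 1 := by
    rcases hTval ω with h | h
    · refine absurd (LinearMap.ext fun a => ?_) S.T_ne
      rcases hfour a with rfl | rfl | rfl | rfl <;> simp [hT1, h]
    · exact h
  set h := qT C hC with hh
  have hhX : h ∈ X := by
    convert hmem 1 using 1
    exact gl_ext fun x => by simp [hh]
  have hinv : ∀ x, ap h⁻¹ x = ap h x := fun x => by
    rw [hh, ap_qT_inv, ap_qT, sub_eq_add_neg, neg_eq_of_add_eq_zero_left (kV _)]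
  have hhh : ∀ x, ap h (ap h x) = x := fun x => by rw [← hinv (ap h x), ap_inv_ap]
  let G : E →ₗ[F] E := LinearMap.id + ψ.smulRight z
  have hGline : ∀ a : E, ap h (a • v) = G a • v := fun a => by
    simp [hh, G, hCv, add_smul, Algebra.smul_def]
  have hfT : ∀ x y, S.T (S.φ (ap h x) y) = S.T (S.φ x (ap h y)) := fun x y => by
    conv_lhs => rw [← hhh y]
    exact hXf h hhX _ _
  let Gs : E → E := fun e => e + algebraMap F E (S.T (z * e)) * c
  have hGs : ∀ e m, S.T (Gs e * m) = S.T (e * G m) := by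
    intro e m
    simp only [Gs, G, LinearMap.add_apply, LinearMap.id_apply, LinearMap.smulRight_apply, add_mul,
      mul_add, map_add, mul_assoc, ← Algebra.smul_def, map_smul, mul_smul_comm, hc, smul_eq_mul]
    rw [smul_mul_assoc, map_smul, hc, smul_eq_mul, mul_comm z e]
    ring
  have hpair : ∀ x, S.φ (ap h x) v = Gs (S.φ x v) := by
    intro x
    refine S.T_mul_ext fun b => ?_
    rw [← S.smul_right b, hfT, hGline, S.smul_right, mul_comm b, hGs, mul_comm]
  have hskew : ∀ x y, S.φ x y = S.φ y x := fun x y => by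
    rw [S.skew y x]; exact neg_eq_of_add_eq_zero_left (k1 _)
  -- the commutators
  have main : ∀ y y', S.φ y v = 0 → S.φ y' v = 0 → ∀ e b : E,
      S.T (b * G (S.φ (ap h (e • y')) y)) = S.T (e * G (S.φ (ap h (b • y')) y)) := by
    intro y y' hy hy'
    let R : E →ₗ[F] E :=
      { toFun := fun e => G (S.φ (ap h (e • y')) y)
        map_add' := fun a a' => by rw [add_smul, ap_add, S.add_left, map_add]
        map_smul' := fun s a => by
          rw [RingHom.id_apply, smul_assoc, ap_smul, ← algebraMap_smul E s (ap h _), S.smul_left,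
            ← Algebra.smul_def, map_smul] }
    let R' : E →ₗ[F] E :=
      { toFun := fun e => S.φ (ap h (Gs e • y)) y'
        map_add' := fun a a' => by
          rw [show Gs (a + a') = Gs a + Gs a' by simp only [Gs, mul_add, map_add, add_mul]; ring,
            add_smul, ap_add, S.add_left]
        map_smul' := fun s a => by
          rw [RingHom.id_apply, show Gs (s • a) = s • Gs a by
            simp [Gs, Algebra.smul_def, mul_add, mul_left_comm z, ← Algebra.smul_def, mul_smul_comm,
              mul_smul], smul_assoc, ap_smul, ← algebraMap_smul E s (ap h _), S.smul_left,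
            Algebra.smul_def] }
    have hadj : ∀ e b, S.T (b * R' e) = S.T (e * R b) := by
      intro e b
      show S.T (b * S.φ (ap h (Gs e • y)) y') = _
      rw [← S.smul_right, hfT, S.smul_left, hskew y, hGs]
      rfl
    -- the elements
    let C' : (ι → F) → (ι → F) →ₗ[F] (ι → F) := fun y =>
      dyad F LinearMap.id y (S.l v) + dyad F LinearMap.id v (S.l y)
    have hC' : ∀ y, S.φ y v = 0 → ∀ x, C' y (C' y x) = 0 := fun y hy x => by
      simp [C', S.add_left, S.smul_left, S.self, hy, hskew v y]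
    have hCX : ∀ y (hy : S.φ y v = 0), qT (C' y) (hC' y hy) ∈ X := fun y hy => hX _
      ⟨fun a x => by simp [C', S.smul_left, smul_smul, smul_add], fun x x' => by
        simp [C', S.add_left, S.add_right, S.smul_left, S.smul_right, S.self, hy, hskew v y,
          hskew v x', hskew y x']
        linear_combination (S.φ x v * S.φ x' y + S.φ x y * S.φ x' v) * k2⟩
    set t₁ := h * qT (C' y) (hC' y hy) * h with ht₁
    set t₂ := qT (C' y') (hC' y' hy') with ht₂
    have ht₁X : t₁ ∈ X := mul_mem (mul_mem hhX (hCX y hy)) hhX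
    have ht₁ap : ∀ x, ap t₁ x = x + (ap h (Gs (S.φ x v) • y) + G (S.φ (ap h x) y) • v) := fun x => by
      simp [ht₁, ap_mul, C', ap_add, hhh, hpair, hGline]
    have ht₂ap : ∀ x, ap t₂ x = x + (S.φ x v • y' + S.φ x y' • v) := fun x => by
      simp [ht₂, C']
    have hperp : ∀ a : E, S.φ (ap h (a • y)) v = 0 := fun a => by
      rw [hpair, S.smul_left, hy, mul_zero]
      simp [Gs]
    have hperp' : ∀ a : E, S.φ (a • y') v = 0 := fun a => by rw [S.smul_left, hy', mul_zero]
    have hGs0 : Gs 0 = 0 := by simp [Gs]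
    have hvy : ∀ (y : ι → F), S.φ y v = 0 → S.φ v y = 0 := fun y h => by rwa [hskew]
    have hCv0 : ∀ a : E, G (S.φ (ap h (a • v)) y) = 0 := fun a => by
      rw [hGline, S.smul_left, hvy y hy, mul_zero, map_zero]
    have hA : S.P X v (R + R') := by
      refine ⟨t₁ * t₂ * t₁ * t₂, mul_mem (mul_mem (mul_mem ht₁X (hCX y' hy')) ht₁X) (hCX y' hy'),
        fun x => ?_⟩
      show _ = x + (G (S.φ (ap h (S.φ x v • y')) y) + S.φ (ap h (Gs (S.φ x v) • y)) y') • v
      have step : ∀ (x : ι → F), ap t₁ (ap t₂ x) = x + (S.φ x v • y' + S.φ x y' • v) +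
          (ap h (Gs (S.φ x v) • y) +
            (G (S.φ (ap h x) y) + G (S.φ (ap h (S.φ x v • y')) y)) • v) := by
        intro x
        rw [ht₁ap, ht₂ap]
        congr 2
        · rw [S.add_left, S.add_left, hperp', S.smul_left, S.self, mul_zero, add_zero, add_zero]
        · rw [ap_add, ap_add, S.add_left, S.add_left, map_add, map_add, hCv0, add_zero]
      rw [ap_mul, ap_mul, ap_mul, step x, step]
      set e := S.φ x v
      set m := G (S.φ (ap h x) y) + G (S.φ (ap h (e • y')) y)
      have hwv : S.φ (x + (e • y' + S.φ x y' • v) + (ap h (Gs e • y) + m • v)) v = e := by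
        simp [S.add_left, S.smul_left, S.self, hy', hperp, e]
      have hwy' : S.φ (x + (e • y' + S.φ x y' • v) + (ap h (Gs e • y) + m • v)) y' =
          S.φ x y' + S.φ (ap h (Gs e • y)) y' := by
        simp [S.add_left, S.smul_left, S.self, hvy y' hy']
      have hwh : G (S.φ (ap h (x + (e • y' + S.φ x y' • v) + (ap h (Gs e • y) + m • v))) y) =
          G (S.φ (ap h x) y) + G (S.φ (ap h (e • y')) y) := by
        rw [ap_add, ap_add, ap_add, ap_add, hhh]
        simp only [S.add_left, map_add, hCv0, S.smul_left, S.self, mul_zero, map_zero, add_zero]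
      rw [hwv, hwy', hwh]
      set a₁ := G (S.φ (ap h x) y)
      set a₂ := G (S.φ (ap h (e • y')) y)
      match_scalars
      · ring
      · linear_combination e * k2
      · linear_combination (S.φ x y' + a₁ + a₂) * k2
      · linear_combination k2
    set A := R + R' with hAdef
    have hAsym : ∀ e b, S.T (b * A e) = S.T (e * A b) := fun e b => by
      simp only [hAdef, LinearMap.add_apply, mul_add, map_add, hadj]
      ring
    have hAalt : ∀ e, S.T (e * A e) = 0 := fun e => by
      simp only [hAdef, LinearMap.add_apply, mul_add, map_add, hadj]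
      have h2 : (2 : F) = 0 := by
        by_contra h
        exact one_ne_zero (α := F) (by linear_combination hq 2 h)
      linear_combination S.T (e * R e) * h2
    have hA1 : A 1 = 0 := by
      rcases hfour (A 1) with h1 | h1 | h1 | h1
      · exact h1
      · refine absurd (S.hasTv_of_p hv one_ne_zero (κ := 1) one_ne_zero
          (S.p_add hA (S.p_mul hX v 1)) fun e => ?_) hbad
        have hAω : A ω = 1 + ω := by
          have e1 : S.T (A ω) = 1 := by
            have := hAsym ω 1
            rwa [one_mul, h1, mul_one, hTω] at this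
          have e2 := hAalt ω
          rcases hfour (A ω) with h' | h' | h' | h'
          · rw [h', map_zero] at e1; exact absurd e1 zero_ne_one
          · rw [h', hT1] at e1; exact absurd e1 zero_ne_one
          · rw [h', hωω, map_add, hT1, hTω, zero_add] at e2; exact absurd e2 one_ne_zero
          · exact h'
        rcases hfour e with he | he | he | he <;> rw [he]
        · simp
        · simp [h1, hT1, k1]
        · simp [hAω, hTω]
          linear_combination ω * k2
        · simp [h1, hAω, hT1, hTω, map_add, k1]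
          linear_combination ω * k2
      · have := hAalt 1
        rw [one_mul, h1, hTω] at this
        exact absurd this one_ne_zero
      · have := hAalt 1
        rw [one_mul, h1, map_add, hT1, hTω, zero_add] at this
        exact absurd this one_ne_zero
    have hAω : A ω = 0 := by
      have e1 : S.T (A ω) = 0 := by
        have := hAsym ω 1
        rwa [one_mul, hA1, mul_zero, map_zero] at this
      have e2 := hAalt ω
      rcases hfour (A ω) with h' | h' | h' | h'
      · exact h'
      · rw [h', mul_one, hTω] at e2; exact absurd e2 one_ne_zero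
      · rw [h', hTω] at e1; exact absurd e1 one_ne_zero
      · rw [h', map_add, hT1, hTω, zero_add] at e1; exact absurd e1 one_ne_zero
    intro e b
    have hA0 : A e = 0 := by
      rcases hfour e with rfl | rfl | rfl | rfl <;> simp [hA1, hAω]
    have h3 := hadj e b
    have h4 : R' e = R e := by
      have : R e + R' e = 0 := hA0
      linear_combination this - R e * k2
    rw [h4] at h3
    exact h3
  have hRlin : ∀ y y', S.φ y v = 0 → S.φ y' v = 0 → ∀ e,
      G (S.φ (ap h (e • y')) y) = e * G (S.φ (ap h y') y) := by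
    intro y y' hy hy' e
    refine S.T_mul_ext fun b => ?_
    have e1 := main y (e • y') hy (by rw [S.smul_left, hy', mul_zero]) 1 b
    have e2 := main y y' hy hy' (b * e) 1
    rw [one_mul, one_smul, smul_smul] at e1
    rw [one_mul, one_smul] at e2
    rw [e1, e2, mul_assoc]
  -- a vector fixed with its multiple
  let μ : (ι → F) →ₗ[F] (ι → F) :=
    { toFun := fun x => ω • x
      map_add' := smul_add ω
      map_smul' := fun s x => smul_comm ω s x }
  let W := LinearMap.ker C ⊓ LinearMap.ker (C ∘ₗ μ) ⊓ LinearMap.ker ((S.l v).restrictScalars F)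
  have hW : 2 ≤ finrank F W := by
    have e1 := LinearMap.finrank_range_add_finrank_ker C
    have e2 := LinearMap.finrank_range_add_finrank_ker (C ∘ₗ μ)
    have e3 := Submodule.finrank_mono (LinearMap.range_comp_le_range μ C)
    have e4 := Submodule.finrank_sup_add_finrank_inf_eq (LinearMap.ker C) (LinearMap.ker (C ∘ₗ μ))
    have e5 := Submodule.finrank_le (LinearMap.ker C ⊔ LinearMap.ker (C ∘ₗ μ))
    have e6 := Submodule.finrank_sup_add_finrank_inf_eq (LinearMap.ker C ⊓ LinearMap.ker (C ∘ₗ μ))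
      (LinearMap.ker ((S.l v).restrictScalars F))
    have e7 := Submodule.finrank_le (LinearMap.ker C ⊓ LinearMap.ker (C ∘ₗ μ) ⊔
      LinearMap.ker ((S.l v).restrictScalars F))
    have e8 := LinearMap.finrank_range_add_finrank_ker ((S.l v).restrictScalars F)
    have e9 := Submodule.finrank_le (LinearMap.range ((S.l v).restrictScalars F))
    simp only [Module.finrank_fintype_fun_eq_card, hr2] at e1 e2 e5 e7 e8 e9 hrk
    show 2 ≤ finrank F ↥(LinearMap.ker C ⊓ LinearMap.ker (C ∘ₗ μ) ⊓
      LinearMap.ker ((S.l v).restrictScalars F))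
    omega
  obtain ⟨x, ⟨⟨hxC, hxωC⟩, hxv⟩, hx⟩ : ∃ x ∈ W, x ∉ ln F E v := by
    by_contra hno
    push Not at hno
    have hle : W ≤ ln F E v := hno
    have heq := Submodule.eq_of_le_of_finrank_le hle (by rw [finrank_ln hv, hr2]; omega)
    refine hψ (LinearMap.ext fun a => ?_)
    have h1 : a • v ∈ W := heq ▸ ⟨a, rfl⟩
    have h2 : C (a • v) = 0 := h1.1.1
    simpa [hCv, hz, hv] using h2
  have hhx : ap h x = x := by rw [hh, ap_qT, show C x = 0 from hxC, add_zero]
  have hhωx : ap h (ω • x) = ω • x := by rw [hh, ap_qT, show C (ω • x) = 0 from hxωC, add_zero]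
  obtain ⟨y, hy, hxy⟩ := S.exists_pair hv hx z
  have h5 := hRlin y x hy hxv ω
  rw [hhωx, hhx, S.smul_left, hxy] at h5
  simp only [G, LinearMap.add_apply, LinearMap.id_apply, LinearMap.smulRight_apply, hψz, zero_smul,
    add_zero, add_eq_left, smul_eq_zero, or_iff_left hz] at h5
  apply hψ
  refine LinearMap.ext fun a => ?_
  rcases hfour (a / z) with h' | h' | h' | h' <;> rw [div_eq_iff hz] at h' <;> rw [h']
  · simp
  · simp [hψz]
  · simp [h5]
  · simp [add_mul, hψz, h5]

/-- A transvection always exists. -/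
theorem hasTv (hr : (finrank F E).Prime) (hn : 8 ≤ Fintype.card ι)
    (hm : ∀ v : ι → F, ∃ w : ι → F, ∀ a : E, a • v ≠ w) (hnot : ∃ g ∈ X, ¬ IsSemi E g) :
    S.HasTv X := by
  by_cases hs : 3 ≤ finrank F E ∨ ∃ μ : F, μ ≠ 0 ∧ μ ≠ 1
  · exact S.hasTv_general hX hXf hr hs hm hnot
  push Not at hs
  obtain ⟨h3, hq⟩ := hs
  have hr2 : finrank F E = 2 := by have := hr.two_le; omega
  have : Module.Finite F E := Module.Finite.of_finite
  obtain ⟨a, ha0, ha⟩ : ∃ a : E, a ≠ 0 ∧ S.T a = 0 := by
    have h1 := LinearMap.finrank_range_add_finrank_ker S.T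
    have h2 := Submodule.finrank_le (LinearMap.range S.T)
    rw [Module.finrank_self] at h2
    obtain ⟨⟨a, ha⟩, ha0⟩ := Module.finrank_pos_iff_exists_ne_zero.mp
      (show 0 < finrank F (LinearMap.ker S.T) by omega)
    exact ⟨a, fun h => ha0 (Subtype.ext h), ha⟩
  let S' : KForm F E ι :=
    { T := S.T ∘ₗ LinearMap.mulLeft F a
      T_ne := fun h => S.T_ne (LinearMap.ext fun e => by
        simpa [← mul_assoc, mul_inv_cancel₀ ha0] using LinearMap.congr_fun h (a⁻¹ * e))
      φ := fun x y => a⁻¹ * S.φ x y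
      add_left := fun x y z => by rw [S.add_left, mul_add]
      smul_left := fun b x y => by rw [S.smul_left]; ring
      self := fun x => by rw [S.self, mul_zero]
      smul_right := fun b x y => by rw [S.smul_right]; ring
      add_right := fun x y z => by rw [S.add_right, mul_add]
      nondeg := fun x hx => by
        obtain ⟨y, hy⟩ := S.nondeg x hx
        exact ⟨y, mul_ne_zero (inv_ne_zero ha0) hy⟩ }
  have hTφ : ∀ x y, S'.T (S'.φ x y) = S.T (S.φ x y) := fun x y => by
    simp [S', ← mul_assoc, mul_inv_cancel₀ ha0]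
  obtain ⟨u, κ, hu, hκ, g, hg, hg'⟩ := S'.hasTv_small (X := X)
    (fun g hg => hX g ⟨hg.1, fun x y => mul_left_cancel₀ (inv_ne_zero ha0) (hg.2 x y)⟩)
    (fun g hg x y => by rw [hTφ, hTφ]; exact hXf g hg x y) hq hr2 (by simp [S', ha]) hn hnot
  exact ⟨u, κ, hu, hκ, g, hg, fun x => by rw [hg', hTφ]⟩

end KForm

end CfsgLib.Geometric.ExtF
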