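import Cfsg.Agent.Lib.Geometric.ExtField.OrthForm
import Cfsg.Agent.Lib.Geometric.ExtField.SympTransv
import Cfsg.Agent.Lib.Geometric.Orth.Values

/-!
A group containing the semilinear elements of `omegaGL` and an element stabilising an isotropic line without
being semilinear on it contains `omegaGL`.
-/

set_option autoImplicit false
set_option linter.unusedSectionVars false

namespace CfsgLib.Geometric.ExtF

open Module Matrix QuadraticMap CfsgLib.ClassicalForms CfsgLib.Geometric.Orth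

variable {F : Type*} [Field F] {ι : Type} [Fintype ι] [DecidableEq ι]
variable {Q : QuadraticForm F (ι → F)}

/-- An isometry moving vectors only into a totally singular subspace and fixing its orthogonal is a product of
long root elements of that subspace. -/
theorem pure_mem {M : Subgroup (GL ι F)} (hnd : Nondeg Q) (h2 : (2 : F) ≠ 0) (W : Submodule F (ι → F))
    (hW : ∀ a ∈ W, Q a = 0)
    (hroot : ∀ a ∈ W, ∀ b ∈ W, ∀ (ha : Q a = 0) (hb : polar Q a b = 0), sg Q a b ha hb ∈ M) :
    ∀ (n : ℕ) (g : GL ι F) (C : (ι → F) →ₗ[F] (ι → F)), finrank F (LinearMap.range C) ≤ n →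
      g ∈ Cfsg.isometryGroup F (⇑Q) → (∀ x, ap g x = x + C x) → (∀ x, C x ∈ W) →
      (∀ w, (∀ a ∈ W, polar Q w a = 0) → C w = 0) → g ∈ M := by
  have hWW : ∀ a ∈ W, ∀ b ∈ W, polar Q a b = 0 := fun a ha b hb => by
    rw [QuadraticMap.polar, hW _ (W.add_mem ha hb), hW a ha, hW b hb, sub_zero, sub_zero]
  intro n
  induction n with
  | zero =>
    intro g C hC _ hg _ _
    have hC0 : C = 0 := by
      rw [← LinearMap.range_eq_bot]
      exact Submodule.finrank_eq_zero.mp (Nat.le_zero.mp hC)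
    rw [show g = 1 from gl_ext fun x => by rw [hg, hC0, ap_one]; simp]
    exact one_mem M
  | succ n ih =>
    intro g C hC hgI hg hCW hker
    by_cases hC0 : C = 0
    · rw [show g = 1 from gl_ext fun x => by rw [hg, hC0, ap_one]; simp]
      exact one_mem M
    have hxC : ∀ x, polar Q x (C x) = 0 := fun x => by
      have := mem_isometryGroup_iff.mp hgI x
      rw [hg, QuadraticMap.map_add (⇑Q), hW _ (hCW x)] at this
      simpa using this
    have hskew : ∀ x y, polar Q (C x) y = -polar Q x (C y) := fun x y => by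
      have h := hxC (x + y)
      simp only [map_add, polar_add_left, polar_add_right, hxC, zero_add, add_zero,
        polar_comm Q y (C x)] at h
      linear_combination h
    obtain ⟨x₀, hx₀⟩ : ∃ x, C x ≠ 0 := by
      by_contra h
      push Not at h
      exact hC0 (LinearMap.ext h)
    obtain ⟨z, hz⟩ := hnd.exists_polar_ne hx₀
    set x₁ := (polar Q (C x₀) z)⁻¹ • z
    have h01 : polar Q (C x₀) x₁ = 1 := by simp [x₁, polar_smul_right, hz]
    have h10 : polar Q x₀ (C x₁) = -1 := by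
      have := hskew x₀ x₁
      rw [h01] at this
      linear_combination this
    have hu : polar Q (C x₀) (C x₁) = 0 := hWW _ (hCW _) _ (hCW _)
    have hu' : polar Q (C x₀) (-C x₁) = 0 := by rw [polar_neg_right, hu, neg_zero]
    set R := sg Q (C x₀) (-C x₁) (hW _ (hCW _)) hu'
    have hRM : R ∈ M := hroot _ (hCW _) _ (W.neg_mem (hCW _)) _ _
    let C' : (ι → F) →ₗ[F] (ι → F) := C - (pf Q (C x₀)).smulRight (C x₁) +
      (pf Q (C x₁)).smulRight (C x₀)
    have hC' : ∀ x, C' x = C x - polar Q x (C x₀) • C x₁ + polar Q x (C x₁) • C x₀ := fun x => rfl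
    have hgR : ∀ x, ap (R * g) x = x + C' x := fun x => by
      have e : ∀ a ∈ W, polar Q (x + C x) a = polar Q x a := fun a ha => by
        rw [polar_add_left, hWW _ (hCW _) _ ha, add_zero]
      rw [ap_mul, ap_sg, hg, polar_neg_right, QuadraticMap.map_neg, hW _ (hCW x₁),
        e _ (hCW x₀), e _ (hCW x₁), hC']
      module
    have hk0 : C' x₀ = 0 := by
      rw [hC', polar_comm Q x₀ (C x₀), show polar Q (C x₀) x₀ = 0 by rw [polar_comm]; exact hxC x₀, h10]
      simp
    have hk1 : C' x₁ = 0 := by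
      rw [hC', polar_comm Q x₁ (C x₀), h01, hxC x₁]
      simp
    have hC'W : ∀ x, C' x ∈ W := fun x => by
      rw [hC']
      exact W.add_mem (W.sub_mem (hCW x) (W.smul_mem _ (hCW _))) (W.smul_mem _ (hCW _))
    have hI : R * g ∈ Cfsg.isometryGroup F (⇑Q) := mul_mem (orthToGL_mem _) hgI
    have hle : LinearMap.range C' < LinearMap.range C := by
      refine lt_of_le_of_ne ?_ fun heq => ?_
      · rintro _ ⟨x, rfl⟩
        rw [hC']
        exact Submodule.add_mem _ (Submodule.sub_mem _ ⟨x, rfl⟩ (Submodule.smul_mem _ _ ⟨x₁, rfl⟩))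
          (Submodule.smul_mem _ _ ⟨x₀, rfl⟩)
      · obtain ⟨x, hx⟩ : C x₀ ∈ LinearMap.range C' := heq ▸ ⟨x₀, rfl⟩
        have h := mem_isometryGroup_iff.mp hI (x + x₁)
        have h' := mem_isometryGroup_iff.mp hI x
        rw [hgR, LinearMap.map_add, hk1, add_zero, QuadraticMap.map_add (⇑Q), hW _ (hC'W x), polar_add_left, hx,
          polar_comm Q x₁, h01] at h
        rw [hgR, QuadraticMap.map_add (⇑Q), hW _ (hC'W x), hx] at h'
        exact one_ne_zero (α := F) (by linear_combination h - h')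
    have hmem : R * g ∈ M := ih _ C' (by have := Submodule.finrank_lt_finrank_of_lt hle; omega) hI
      hgR hC'W (fun w hw => by
        rw [hC', hker w hw, hw _ (hCW _), hw _ (hCW _)]; simp)
    simpa using mul_mem (inv_mem hRM) hmem

variable {E : Type*} [Field E] [Algebra F E] [Module E (ι → F)] [IsScalarTower F E (ι → F)] [Finite F]
  [Finite E]

namespace OForm

variable (S : OForm Q E)
variable {M : Subgroup (GL ι F)}
  (hR : ∀ g ∈ Cfsg.Geo.omegaGL (⇑Q), IsSemi E g → g ∈ M)
  (hM : M ≤ Cfsg.isometryGroup F (⇑Q))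

include hR in
lemma sE_mem' {v y : ι → F} (hv : S.φ v v = 0) (hy : S.φ v y = 0) : S.sE v y ∈ M :=
  hR _ (S.sE_mem hv hy) (IsSemi.of_linear E (S.sE_linear hv hy))

include hR in
lemma torus_sq_mem' {v p : ι → F} (hv : S.φ v v = 0) (hp : S.φ p p = 0) (hvp : S.φ v p = 1) {b : E}
    (hb : b ≠ 0) : S.torus v p (b * b) ∈ M :=
  hR _ (S.torus_sq_mem hv hp hvp hb)
    (IsSemi.of_linear E (S.torus_linear hv hp hvp (mul_ne_zero hb hb)))

include hR in
/-- Linear elements of `M` move any isotropic line to any other. -/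
lemma exists_move {v w : ι → F} (hv : v ≠ 0) (hw : w ≠ 0) (hvv : S.φ v v = 0) (hww : S.φ w w = 0) :
    ∃ g ∈ M, (∀ (a : E) x, ap g (a • x) = a • ap g x) ∧ (∀ x z, S.φ (ap g x) (ap g z) = S.φ x z) ∧
      ∃ c : E, c ≠ 0 ∧ ap g v = c • w := by
  obtain ⟨p, hpp, hvp, hwp⟩ := S.exists_common hv hw hvv hww
  set v' := (S.φ v p)⁻¹ • v with hv'
  set w' := (S.φ w p)⁻¹ • w with hw'
  have e1 : S.φ v' p = 1 := by simp [hv', hvp]
  have e2 : S.φ w' p = 1 := by simp [hw', hwp]
  have e3 : S.φ v' v' = 0 := by simp [hv', hvv]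
  have e4 : S.φ w' w' = 0 := by simp [hw', hww]
  have hy : S.φ p (w' - v') = 0 := by
    rw [map_sub, S.symm p, S.symm p, e1, e2, sub_self]
  refine ⟨S.sE p (w' - v'), S.sE_mem' hR hpp hy, S.sE_linear hpp hy, S.sE_form hpp hy,
    S.φ v p / S.φ w p, div_ne_zero hvp hwp, ?_⟩
  have h : ap (S.sE p (w' - v')) v' = w' := by
    rw [S.ap_sE hpp hy, e1]
    simp only [map_sub, LinearMap.sub_apply, e3, e4, S.symm w' v']
    have := S.two_E
    match_scalars <;> field_simp <;> ring
  have hv2 : v = S.φ v p • v' := by rw [hv', smul_smul, mul_inv_cancel₀ hvp, one_smul]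
  rw [hv2, S.sE_linear hpp hy, h, hw', smul_smul, hv', smul_smul, mul_inv_cancel₀ hvp, one_smul,
    div_eq_mul_inv]

/-- Every Siegel element centred on the line of `v` along the orthogonal of that line is in `M`. -/
def LineFull (S : OForm Q E) (M : Subgroup (GL ι F)) (v : ι → F) : Prop :=
  ∀ (c : E) (y : ι → F), S.φ y v = 0 →
    ∀ (h : Q (c • v) = 0) (h' : polar Q (c • v) y = 0), sg Q (c • v) y h h' ∈ M

/-- Positions at an isotropic vector. -/
def Pos (S : OForm Q E) (M : Subgroup (GL ι F)) (v : ι → F) (A : E →ₗ[F] (ι → F)) : Prop :=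
  (∀ a, S.φ (A a) v = 0) ∧
    ∃ g ∈ M, (∀ a : E, ap g (a • v) = a • v) ∧ ∀ x, ap g x - x - A (S.φ x v) ∈ ln F E v

lemma pos_add {v : ι → F} {A A' : E →ₗ[F] (ι → F)} (h : S.Pos M v A) (h' : S.Pos M v A') :
    S.Pos M v (A + A') := by
  obtain ⟨hA, g, hg, hgL, hgx⟩ := h
  obtain ⟨hA', g', hg', hgL', hgx'⟩ := h'
  refine ⟨fun a => by simp [hA, hA'], g * g', mul_mem hg hg',
    fun a => by rw [ap_mul, hgL', hgL], fun x => ?_⟩
  obtain ⟨l, hl⟩ := mem_ln.mp (hgx' x)
  obtain ⟨l₁, hl₁⟩ := mem_ln.mp (hgx x)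
  obtain ⟨l₂, hl₂⟩ := mem_ln.mp (hgx (A' (S.φ x v)))
  rw [hA', map_zero, sub_zero] at hl₂
  refine mem_ln.mpr ⟨l₁ + l₂ + l, ?_⟩
  rw [ap_mul, show ap g' x = x + A' (S.φ x v) + l • v by rw [hl]; abel, ap_add, ap_add, hgL,
    add_smul, add_smul, hl₁, hl₂, LinearMap.add_apply]
  abel

include hR hM

/-- The main step: all positions. -/
theorem lineFull_of_not_nrm (hr : (finrank F E).Prime) {v : ι → F} (hv : v ≠ 0) (hvv : S.φ v v = 0)
    {h : GL ι F} (hh : h ∈ M) (G : E ≃ₗ[F] E) (hG : ∀ a : E, ap h (a • v) = G a • v)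
    (hN : ¬ Nrm G.toLinearMap) : S.LineFull M v := by
  have hfin : Module.Finite F E := Module.Finite.of_finite
  obtain ⟨p, hpp, hvp⟩ := S.exists_partner hv hvv
  have hpv : S.φ p v = 1 := by rw [S.symm, hvp]
  have hzero : S.Pos M v 0 := ⟨by simp, 1, one_mem M, fun a => ap_one _,
    fun x => by simp⟩
  -- elements acting on the line
  have hconj : ∀ (j : GL ι F) (D : E →ₗ[F] E), j ∈ M → (∀ a : E, ap j (a • v) = D a • v) →
      (∀ w, S.φ w v = 0 → ap j w - w ∈ ln F E v) →
      ∃ Dt : E →ₗ[F] E, (∀ c a, S.T (c * Dt a) = S.T (D c * a)) ∧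
        ∀ A, S.Pos M v A → S.Pos M v (A ∘ₗ Dt) := by
    intro j D hj hjL hjw
    have hperp : ∀ w, S.φ w v = 0 → S.φ (ap j⁻¹ w) v = 0 := by
      intro w hw
      refine S.ext_T fun c => ?_
      rw [mul_zero, map_zero, ← S.polar_smul, ← polar_ap (hM hj), ap_ap_inv, hjL, S.polar_smul, hw,
        mul_zero, map_zero]
    let Dt : E →ₗ[F] E :=
      { toFun := fun a => S.φ (ap j⁻¹ (a • p)) v
        map_add' := fun a b => by rw [add_smul, ap_add, map_add, LinearMap.add_apply]
        map_smul' := fun s a => by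
          rw [smul_assoc, ap_smul, RingHom.id_apply, ← algebraMap_smul E s (ap j⁻¹ _), map_smul,
            LinearMap.smul_apply, algebraMap_smul] }
    have hDt : ∀ c a, S.T (c * Dt a) = S.T (D c * a) := fun c a => by
      show S.T (c * S.φ (ap j⁻¹ (a • p)) v) = _
      rw [← S.polar_smul, ← polar_ap (hM hj), ap_ap_inv, hjL, S.polar_smul, map_smul,
        LinearMap.smul_apply, hpv, smul_eq_mul, mul_one]
    have hgen : ∀ x, S.φ (ap j⁻¹ x) v = Dt (S.φ x v) := by
      intro x
      have hw : S.φ (x - S.φ x v • p) v = 0 := by simp [hpv]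
      conv_lhs => rw [show x = S.φ x v • p + (x - S.φ x v • p) by abel]
      rw [ap_add, map_add, LinearMap.add_apply, hperp _ hw, add_zero]
      rfl
    refine ⟨Dt, hDt, fun A hA => ?_⟩
    obtain ⟨hA0, g, hg, hgL, hgx⟩ := hA
    refine ⟨fun a => hA0 _, j * g * j⁻¹, mul_mem (mul_mem hj hg) (inv_mem hj), fun a => ?_, fun x => ?_⟩
    · obtain ⟨b, hb⟩ : ∃ b, D b = a := by
        have hD : Function.Injective D := fun b b' e => smul_left_injective E hv
          (ap_injective j (by rw [hjL, hjL, e]))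
        exact (LinearMap.injective_iff_surjective).mp hD a
      rw [ap_mul, ap_mul, ← hb, ← hjL, ap_inv_ap, hgL, hjL]
    · obtain ⟨l, hl⟩ := mem_ln.mp (hgx (ap j⁻¹ x))
      obtain ⟨l', hl'⟩ := mem_ln.mp (hjw _ (hA0 (S.φ (ap j⁻¹ x) v)))
      refine mem_ln.mpr ⟨l' + D l, ?_⟩
      rw [ap_mul, ap_mul, show ap g (ap j⁻¹ x) =
        ap j⁻¹ x + A (S.φ (ap j⁻¹ x) v) + l • v by rw [hl]; abel, ap_add, ap_add, ap_ap_inv, hjL,
        add_smul, hl', LinearMap.comp_apply, ← hgen]
      abel
  let R : Subalgebra F (E →ₗ[F] E) :=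
    { carrier := {D | ∀ A, S.Pos M v A → S.Pos M v (A ∘ₗ D)}
      mul_mem' := fun {a b} ha hb A hA => by
        have e : A ∘ₗ (a * b) = (A ∘ₗ a) ∘ₗ b := LinearMap.ext fun x => rfl
        rw [e]; exact hb _ (ha A hA)
      one_mem' := fun A hA => by
        have e : A ∘ₗ (1 : E →ₗ[F] E) = A := LinearMap.ext fun x => rfl
        rw [e]; exact hA
      add_mem' := fun {a b} ha hb A hA => by
        rw [LinearMap.comp_add]; exact S.pos_add (ha A hA) (hb A hA)
      zero_mem' := fun A _ => by rw [LinearMap.comp_zero]; exact hzero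
      algebraMap_mem' := fun s A hA => by
        have key : ∀ b : E, S.Pos M v (A ∘ₗ LinearMap.mulLeft F (b ^ 2)) := by
          intro b
          by_cases hb : b = 0
          · rw [hb, show LinearMap.mulLeft F ((0 : E) ^ 2) = 0 by ext; simp, LinearMap.comp_zero]
            exact hzero
          obtain ⟨Dt, hDt, hpos⟩ := hconj (S.torus v p (b * b)) (LinearMap.mulLeft F (b * b))
            (S.torus_sq_mem' hR hvv hpp hvp hb)
            (fun a => by
              rw [S.torus_linear hvv hpp hvp (mul_ne_zero hb hb), S.torus_v hvv hpp hvp (mul_ne_zero hb hb),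
                smul_smul, mul_comm, LinearMap.mulLeft_apply])
            (fun w hw => by
              rw [S.ap_torus hvv hpp hvp (mul_ne_zero hb hb), hw, mul_zero, zero_smul, add_zero,
                add_sub_cancel_left]
              exact smul_mem_ln v _)
          have hm : Dt = LinearMap.mulLeft F (b ^ 2) := LinearMap.ext fun a => S.ext_T fun c => by
            rw [hDt, LinearMap.mulLeft_apply, LinearMap.mulLeft_apply, pow_two]; congr 1; ring
          rw [← hm]; exact hpos A hA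
        obtain ⟨b, b', hbb⟩ := exists_sq_add_sq (algebraMap F E s)
        have e : A ∘ₗ (algebraMap F (E →ₗ[F] E) s) =
            A ∘ₗ LinearMap.mulLeft F (b ^ 2) + A ∘ₗ LinearMap.mulLeft F (b' ^ 2) := by
          refine LinearMap.ext fun x => ?_
          simp only [LinearMap.comp_apply, LinearMap.add_apply, LinearMap.mulLeft_apply, ← map_add,
            ← add_mul, hbb, ← Algebra.smul_def]
          rfl
        rw [e]
        exact S.pos_add (key b) (key b') }
  have hmulS : ∀ a, LinearMap.mulLeft F a ∈ R := by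
    intro a
    have key : ∀ b : E, LinearMap.mulLeft F (b ^ 2) ∈ R := by
      intro b
      by_cases hb : b = 0
      · rw [hb, show LinearMap.mulLeft F ((0 : E) ^ 2) = 0 by ext; simp]
        exact R.zero_mem
      obtain ⟨Dt, hDt, hpos⟩ := hconj (S.torus v p (b * b)) (LinearMap.mulLeft F (b * b))
        (S.torus_sq_mem' hR hvv hpp hvp hb)
        (fun a => by
          rw [S.torus_linear hvv hpp hvp (mul_ne_zero hb hb), S.torus_v hvv hpp hvp (mul_ne_zero hb hb),
            smul_smul, mul_comm, LinearMap.mulLeft_apply])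
        (fun w hw => by
          rw [S.ap_torus hvv hpp hvp (mul_ne_zero hb hb), hw, mul_zero, zero_smul, add_zero,
            add_sub_cancel_left]
          exact smul_mem_ln v _)
      have hm : Dt = LinearMap.mulLeft F (b ^ 2) := LinearMap.ext fun a => S.ext_T fun c => by
        rw [hDt, LinearMap.mulLeft_apply, LinearMap.mulLeft_apply, pow_two]; congr 1; ring
      rw [← hm]; exact hpos
    obtain ⟨b, b', rfl⟩ := exists_sq_add_sq a
    rw [show LinearMap.mulLeft F (b ^ 2 + b' ^ 2) =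
      LinearMap.mulLeft F (b ^ 2) + LinearMap.mulLeft F (b' ^ 2) by ext; simp [add_mul]]
    exact R.add_mem (key b) (key b')
  obtain ⟨β, hβ, hβF⟩ : ∃ β : E, β ≠ 0 ∧ β * β ∉ Set.range (algebraMap F E) := by
    by_contra hall
    push Not at hall
    have htop : ∀ a : E, a ∈ (⊥ : Subalgebra F E) := by
      intro a
      obtain ⟨b, b', rfl⟩ := exists_sq_add_sq a
      refine Algebra.mem_bot.mpr ?_
      have h1 : ∀ b : E, b ^ 2 ∈ Set.range (algebraMap F E) := fun b => by
        by_cases hb : b = 0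
        · exact ⟨0, by simp [hb]⟩
        · rw [pow_two]; exact hall b hb
      obtain ⟨s, hs⟩ := h1 b
      obtain ⟨s', hs'⟩ := h1 b'
      exact ⟨s + s', by rw [map_add, hs, hs']⟩
    have := hr.two_le
    have h2 : finrank F E = 1 := Subalgebra.bot_eq_top_iff_finrank_eq_one.mp
      (top_unique fun a _ => htop a)
    omega
  set c := β * β with hc
  have hc0 : c ≠ 0 := mul_ne_zero hβ hβ
  set k := S.torus v p c with hk
  have hinv : ∀ a : E, ap h⁻¹ (a • v) = G.symm a • v := fun a => ap_injective h (by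
    rw [ap_ap_inv, hG, G.apply_symm_apply])
  have hkL : ∀ a : E, ap k (a • v) = (c * a) • v := fun a => by
    rw [hk, S.torus_linear hvv hpp hvp hc0, S.torus_v hvv hpp hvp hc0, smul_smul, mul_comm]
  set D : E →ₗ[F] E := G.toLinearMap ∘ₗ LinearMap.mulLeft F c ∘ₗ G.symm.toLinearMap with hDdef
  obtain ⟨Dt, hDt, hpos⟩ := hconj (h * k * h⁻¹) D
    (mul_mem (mul_mem hh (S.torus_sq_mem' hR hvv hpp hvp hβ)) (inv_mem hh))
    (fun a => by simp [ap_mul, hinv, hkL, hG, hDdef])
    (fun w hw => by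
      have hw' : S.φ (ap h⁻¹ w) v = 0 := S.ext_T fun d => by
        rw [mul_zero, map_zero, ← S.polar_smul, ← polar_ap (hM hh), ap_ap_inv, hG, S.polar_smul, hw,
          mul_zero, map_zero]
      rw [ap_mul, ap_mul, hk, S.ap_torus hvv hpp hvp hc0, hw', mul_zero, zero_smul, add_zero, ap_add,
        ap_ap_inv, add_sub_cancel_left, hG]
      exact smul_mem_ln v _)
  have hDR : Dt ∈ R := hpos
  have hDne : ∀ d, Dt ≠ LinearMap.mulLeft F d := by
    intro d hd
    have hDd : ∀ a, D a = d * a := fun a => S.ext_T fun b => by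
      have := hDt a b
      rw [hd, LinearMap.mulLeft_apply] at this
      rw [mul_comm b, ← this]; congr 1; ring
    apply hN
    let T' : Subalgebra F E :=
      { carrier := {a | ∃ b : E, ∀ x, G (a * x) = b * G x}
        mul_mem' := by
          rintro a a' ⟨b, hb⟩ ⟨b', hb'⟩
          exact ⟨b * b', fun x => by rw [mul_assoc, hb, hb', mul_assoc]⟩
        one_mem' := ⟨1, fun x => by rw [one_mul, one_mul]⟩
        add_mem' := by
          rintro a a' ⟨b, hb⟩ ⟨b', hb'⟩
          exact ⟨b + b', fun x => by rw [add_mul, map_add, hb, hb', add_mul]⟩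
        zero_mem' := ⟨0, fun x => by rw [zero_mul, map_zero, zero_mul]⟩
        algebraMap_mem' := fun s => ⟨algebraMap F E s, fun x => by
          rw [← Algebra.smul_def, map_smul, Algebra.smul_def]⟩ }
    have hcT : c ∈ T' := ⟨d, fun x => by simpa [hDdef] using hDd (G x)⟩
    have htop := subalgebra_eq_top hr hcT hβF
    intro a
    exact (show a ∈ T' from htop ▸ Algebra.mem_top)
  have hall : ∀ D', D' ∈ R := fun D' => endSubalgebra_eq_top hr R hmulS hDR hDne D'
  -- rank one positions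
  have hrank1 : ∀ (d : E) (y : ι → F), S.φ y v = 0 → ∃ g ∈ M, (∀ a : E, ap g (a • v) = a • v) ∧
      ∀ x, ap g x - x - polar Q x (d • v) • y ∈ ln F E v := by
    intro d y hy
    have hy' : S.φ v y = 0 := by rw [S.symm, hy]
    have hseed : S.Pos M v ((LinearMap.toSpanSingleton E (ι → F) y).restrictScalars F) :=
      ⟨fun a => by simp [hy], S.sE v y, S.sE_mem' hR hvv hy',
        fun a => by rw [S.ap_sE hvv hy']; simp [hvv, hy'],
        fun x => mem_ln.mpr ⟨-(S.φ x y + S.φ y y / 2 * S.φ x v), by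
          rw [S.ap_sE hvv hy', neg_smul]; simp; abel⟩⟩
    obtain ⟨-, g, hg, hgL, hgx⟩ := hall ((S.T ∘ₗ LinearMap.mulLeft F d).smulRight (1 : E)) _ hseed
    refine ⟨g, hg, hgL, fun x => ?_⟩
    have h := hgx x
    rw [S.polar_smul]
    simpa [smul_assoc] using h
  set W := ln F E v with hW'
  have hWsing : ∀ a ∈ W, Q a = 0 := by
    intro a ha
    obtain ⟨b, rfl⟩ := mem_ln.mp ha
    exact S.Q_eq_zero (by simp [hvv])
  have hsingv : ∀ d : E, Q (d • v) = 0 := fun d => hWsing _ (smul_mem_ln v d)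
  have hpolar0 : ∀ (d : E) (y : ι → F), S.φ y v = 0 → polar Q (d • v) y = 0 := fun d y hy => by
    rw [S.polar_smul', S.symm v y, hy, mul_zero, map_zero]
  -- the pure part
  have hsplit : ∀ (d : E) (y : ι → F) (hy : S.φ y v = 0), ∃ g ∈ M, ∃ ρ : GL ι F,
      ρ ∈ Cfsg.isometryGroup F (⇑Q) ∧ g = sg Q (d • v) y (hsingv d) (hpolar0 d y hy) * ρ ∧
      ∃ C : (ι → F) →ₗ[F] (ι → F), (∀ x, ap ρ x = x + C x) ∧ (∀ x, C x ∈ W) ∧
        ∀ w, (∀ a ∈ W, polar Q w a = 0) → C w = 0 := by
    intro d y hy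
    obtain ⟨g, hg, hgL, hgx⟩ := hrank1 d y hy
    set s := sg Q (d • v) y (hsingv d) (hpolar0 d y hy) with hs
    have hsI : s ∈ Cfsg.isometryGroup F (⇑Q) := orthToGL_mem _
    have hsL : ∀ a ∈ W, ap s a = a := by
      intro a ha
      obtain ⟨b, rfl⟩ := mem_ln.mp ha
      exact ap_sg_fix _ _ (by rw [S.polar_smul]; simp [hvv]) (hpolar0 b y hy)
    have hsinvL : ∀ a ∈ W, ap s⁻¹ a = a := fun a ha => ap_injective s (by rw [ap_ap_inv, hsL a ha])
    refine ⟨g, hg, s⁻¹ * g, mul_mem (inv_mem hsI) (hM hg), (mul_inv_cancel_left s g).symm,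
      (apEquiv (s⁻¹ * g)).toLinearMap - LinearMap.id, fun x => by simp, fun x => ?_, fun w hw => ?_⟩
    · show ap (s⁻¹ * g) x - x ∈ W
      obtain ⟨l, hl⟩ := mem_ln.mp (hgx x)
      have h1 : ap g x = ap s x + (ap g x - ap s x) := by abel
      have h2 : ap g x - ap s x ∈ W := by
        rw [show ap g x - ap s x = (ap g x - x - polar Q x (d • v) • y) +
          (polar Q x y + Q y * polar Q x (d • v)) • (d • v) by rw [ap_sg]; module]
        exact W.add_mem (hgx x) (W.smul_mem _ (smul_mem_ln v d))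
      rw [ap_mul, h1, ap_add, ap_inv_ap, hsinvL _ h2]
      simpa using h2
    · show ap (s⁻¹ * g) w - w = 0
      set ρ := s⁻¹ * g
      have hρI : ρ ∈ Cfsg.isometryGroup F (⇑Q) := mul_mem (inv_mem hsI) (hM hg)
      have hρW : ∀ x, ap ρ x - x ∈ W := fun x => by
        obtain ⟨l, hl⟩ := mem_ln.mp (hgx x)
        have h2 : ap g x - ap s x ∈ W := by
          rw [show ap g x - ap s x = (ap g x - x - polar Q x (d • v) • y) +
            (polar Q x y + Q y * polar Q x (d • v)) • (d • v) by rw [ap_sg]; module]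
          exact W.add_mem (hgx x) (W.smul_mem _ (smul_mem_ln v d))
        rw [ap_mul, show ap g x = ap s x + (ap g x - ap s x) by abel, ap_add, ap_inv_ap, hsinvL _ h2]
        simpa using h2
      have hWW : ∀ a ∈ W, ∀ b ∈ W, polar Q a b = 0 := fun a ha b hb => by
        rw [QuadraticMap.polar, hWsing _ (W.add_mem ha hb), hWsing a ha, hWsing b hb, sub_zero, sub_zero]
      refine S.nd _ fun x => ?_
      have h3 := polar_ap hρI w x
      rw [show ap ρ x = x + (ap ρ x - x) by abel, show ap ρ w = w + (ap ρ w - w) by abel,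
        polar_add_left, polar_add_right, polar_add_right, hw _ (hρW x), hWW _ (hρW w) _ (hρW x)] at h3
      linear_combination h3
  have hroot : ∀ a ∈ W, ∀ b ∈ W, ∀ (ha : Q a = 0) (hb : polar Q a b = 0), sg Q a b ha hb ∈ M := by
    intro a ha b hb hQa hab
    obtain ⟨d, rfl⟩ := mem_ln.mp ha
    obtain ⟨d', rfl⟩ := mem_ln.mp hb
    obtain ⟨y, y1, y2, hyy⟩ := S.exists_aniso hvv hpp (by rw [hvp]; exact one_ne_zero)
    obtain ⟨t, ht⟩ : ∃ t, S.T t ≠ 0 := by
      by_contra hall'
      push Not at hall'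
      exact S.T_ne (LinearMap.ext hall')
    set y' := ((S.T t)⁻¹ • t / S.φ y y) • y with hy'
    have hy'v : S.φ y' v = 0 := by simp [hy', y1]
    have hκ : polar Q y y' = 1 := by
      rw [hy', S.polar_smul, div_mul_cancel₀ _ hyy, map_smul, smul_eq_mul, inv_mul_cancel₀ ht]
    obtain ⟨g, hg, ρ, hρI, hgeq, C, hC, hCW, hCker⟩ := hsplit d y y1
    obtain ⟨g', hg', ρ', hρI', hgeq', C', hC', hCW', hCker'⟩ := hsplit d' y' hy'v
    set s := sg Q (d • v) y (hsingv d) (hpolar0 d y y1)
    set s' := sg Q (d' • v) y' (hsingv d') (hpolar0 d' y' hy'v)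
    have hWW : ∀ a ∈ W, ∀ b ∈ W, polar Q a b = 0 := fun a ha b hb => by
      rw [QuadraticMap.polar, hWsing _ (W.add_mem ha hb), hWsing a ha, hWsing b hb, sub_zero, sub_zero]
    have comm : ∀ (e : E) (z : ι → F) (hz : S.φ z v = 0) (ρ : GL ι F)
        (C : (ι → F) →ₗ[F] (ι → F)), (∀ x, ap ρ x = x + C x) → (∀ x, C x ∈ W) →
        (∀ w, (∀ a ∈ W, polar Q w a = 0) → C w = 0) →
        ρ * sg Q (e • v) z (hsingv e) (hpolar0 e z hz) =
          sg Q (e • v) z (hsingv e) (hpolar0 e z hz) * ρ := by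
      intro e z hz ρ C hC hCW hCk
      refine gl_ext fun x => ?_
      obtain ⟨l, hl⟩ := mem_ln.mp (hCW x)
      have e1 : C (polar Q x (e • v) • z - (polar Q x z + Q z * polar Q x (e • v)) • (e • v)) = 0 :=
        hCk _ fun a ha => by
          obtain ⟨b, rfl⟩ := mem_ln.mp ha
          rw [polar_sub_left, polar_smul_left, polar_smul_left, hWW _ (smul_mem_ln v e) _ (smul_mem_ln v b),
            polar_comm Q z, hpolar0 b z hz]
          simp
      rw [ap_mul, ap_mul, hC, ap_sg, hC, ap_add, ap_sg_fix _ _ (hWW _ (hCW x) _ (smul_mem_ln v e))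
        (by rw [← hl]; exact hpolar0 l z hz), ap_sg, add_sub_assoc, map_add, e1, add_zero]

    have hρρ : ρ * ρ' = ρ' * ρ := by
      refine gl_ext fun x => ?_
      have e1 : C (C' x) = 0 := hCker _ fun a ha => hWW _ (hCW' x) _ ha
      have e2 : C' (C x) = 0 := hCker' _ fun a ha => hWW _ (hCW x) _ ha
      rw [ap_mul, ap_mul, hC, hC', hC', hC, map_add, map_add, e1, e2]
      abel
    have hd : polar Q (d • v) (d' • v) = 0 := hWW _ (smul_mem_ln v d) _ (smul_mem_ln v d')
    have key : sg Q (d • v) (d' • v) (hsingv d) hd * (s' * s) = s * s' := by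
      refine gl_ext fun x => ?_
      have e1 : polar Q (d • v) y' = 0 := hpolar0 d y' hy'v
      have e2 : polar Q (d' • v) y = 0 := hpolar0 d' y y1
      have e3 : polar Q (d • v) y = 0 := hpolar0 d y y1
      have e4 : polar Q (d' • v) y' = 0 := hpolar0 d' y' hy'v
      simp only [s, s', ap_mul, ap_sg, hsingv, polar_add_left, polar_sub_left, polar_smul_left,
        smul_eq_mul, hd, polar_comm Q (d' • v) (d • v), e1, e2, e3, e4, polar_comm Q y' (d • v),
        polar_comm Q y (d' • v), polar_comm Q y (d • v), polar_comm Q y' (d' • v), hκ,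
        polar_comm Q y' y]
      simp only [polar_self' (Q := Q), hsingv]
      match_scalars <;> ring
    rw [show sg Q (d • v) (d' • v) hQa hab = g * g' * g⁻¹ * g'⁻¹ by
      rw [show sg Q (d • v) (d' • v) hQa hab = s * s' * (s' * s)⁻¹ by rw [← key]; group, hgeq, hgeq']
      have c1 := comm d' y' hy'v ρ C hC hCW hCker
      have c2 := comm d y y1 ρ' C' hC' hCW' hCker'
      have l1 : s * ρ * (s' * ρ') = s * s' * (ρ * ρ') := by
        rw [mul_assoc, ← mul_assoc ρ, show ρ * s' = s' * ρ from c1]; group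
      have l2 : s' * ρ' * (s * ρ) = s' * s * (ρ * ρ') := by
        rw [mul_assoc, ← mul_assoc ρ', show ρ' * s = s * ρ' from c2, hρρ]; group
      rw [show s * ρ * (s' * ρ') * (s * ρ)⁻¹ * (s' * ρ')⁻¹ =
        (s * ρ * (s' * ρ')) * (s' * ρ' * (s * ρ))⁻¹ by group, l1, l2]
      group]
    exact mul_mem (mul_mem (mul_mem hg hg') (inv_mem hg)) (inv_mem hg')
  intro d y hy h1 h2
  obtain ⟨g, hg, ρ, hρI, hgeq, C, hC, hCW, hCker⟩ := hsplit d y hy
  have hρ : ρ ∈ M := pure_mem S.nd S.two W hWsing hroot _ ρ C le_rfl hρI hC hCW hCker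
  have := mul_mem hg (inv_mem hρ)
  rwa [hgeq, mul_inv_cancel_right] at this

/-- A full line gives everything. -/
theorem le_of_lineFull (hr : (finrank F E).Prime) (hn : 5 ≤ Fintype.card ι) {v : ι → F} (hv : v ≠ 0)
    (hvv : S.φ v v = 0) (hfull : S.LineFull M v) : Cfsg.Geo.omegaGL (⇑Q) ≤ M := by
  have hline : ∀ w, w ≠ 0 → S.φ w w = 0 → S.LineFull M w := by
    intro w hw hww d y hy h1 h2
    obtain ⟨g, hg, hlin, hform, c, hc, hgv⟩ := S.exists_move hR hv hw hvv hww
    set y' := ap g⁻¹ y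
    have hy' : S.φ y' v = 0 := by
      rw [← hform, ap_ap_inv, hgv, map_smul, hy, smul_zero]
    have e : ap g ((d / c) • v) = d • w := by
      rw [hlin, hgv, smul_smul, div_mul_cancel₀ _ hc]
    have h3 : Q ((d / c) • v) = 0 := S.Q_eq_zero (by simp [hvv])
    have h4 : polar Q ((d / c) • v) y' = 0 := by
      rw [S.polar_smul', S.symm v y', hy', mul_zero, map_zero]
    have h5 := mul_mem (mul_mem hg (hfull (d / c) y' hy' h3 h4)) (inv_mem hg)
    rw [conj_sg (hM hg)] at h5
    convert h5 using 1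
    exact sg_congr e.symm (ap_ap_inv g y).symm _ _
  obtain ⟨v₂, hv₂, hvv₂⟩ := S.exists_partner hv hvv
  have hv₂0 : v₂ ≠ 0 := fun h => by rw [h, map_zero] at hvv₂; exact zero_ne_one hvv₂
  obtain ⟨y₂, y1, y2, hyy⟩ := S.exists_aniso hvv hv₂ (by rw [hvv₂]; exact one_ne_zero)
  have full : ∀ (v v₂ : ι → F), v ≠ 0 → v₂ ≠ 0 → S.φ v v = 0 → S.φ v₂ v₂ = 0 → S.φ v v₂ = 1 →
      S.φ y₂ v = 0 → S.φ y₂ v₂ = 0 → Full Q M v := by
    intro v v₂ hv hv₂0 hvv hv₂ hvv₂ y1 y2 hQv x hvx
    by_contra hx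
    let Y : Submodule F (ι → F) :=
      { carrier := {y | polar Q v y = 0 ∧ ∀ (s : F) (hu : Q v = 0) (h : polar Q v (s • y) = 0),
          sg Q v (s • y) hu h ∈ M}
        zero_mem' := ⟨polar_zero_right _ _, fun s hu h => by
          convert one_mem M
          exact gl_ext fun x => by simp [ap_sg]⟩
        add_mem' := by
          rintro a b ⟨ha, ha'⟩ ⟨hb, hb'⟩
          refine ⟨by rw [polar_add_right, ha, hb, add_zero], fun s hu h => ?_⟩
          convert mul_mem (ha' s hu (by simp [polar_smul_right, ha]))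
            (hb' s hu (by simp [polar_smul_right, hb])) using 1
          simp only [sg, ← map_mul, siegel_mul]
          exact sg_congr rfl (smul_add s a b) _ _
        smul_mem' := by
          rintro c a ⟨ha, ha'⟩
          refine ⟨by simp [polar_smul_right, ha], fun s hu h => ?_⟩
          convert ha' (s * c) hu (by simp [polar_smul_right, ha]) using 1
          exact sg_congr rfl (smul_smul s c a) _ _ }
    have hperp : ∀ y, S.φ y v = 0 → y ∈ Y := by
      intro y hy
      refine ⟨by rw [polar_comm, ← S.T_φ, hy, map_zero], fun s hu h => ?_⟩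
      have hy' : S.φ (s • y) v = 0 := by
        rw [← algebraMap_smul E s y, map_smul, LinearMap.smul_apply, hy, smul_zero]
      have := hline v hv hvv 1 (s • y) hy' (by rwa [one_smul]) (by rwa [one_smul])
      convert this using 1
      exact sg_congr (one_smul E v).symm rfl _ _
    have hxY : x ∉ Y := fun h => hx (by
      have := h.2 1 hQv (by rwa [one_smul])
      rwa [sg_congr rfl (one_smul F x) hQv (by rwa [one_smul])] at this)
    obtain ⟨φ, hφ, hφx⟩ := exists_functional_eq_one hxY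
    obtain ⟨x₀, hx₀⟩ := exists_eq_polar S.nd φ
    have hx₀v : ∀ w, S.φ w v = 0 → polar Q w x₀ = 0 := fun w hw => by rw [hx₀]; exact hφ _ (hperp w hw)
    -- the vector lies on the line
    obtain ⟨a, ha⟩ : ∃ a : E, a • v = x₀ := by
      refine ⟨S.φ x₀ v₂, (sub_eq_zero.mp (S.nondeg fun w => ?_)).symm⟩
      have hw : ∀ w, S.φ w v = 0 → S.φ w x₀ = 0 := fun w hw => S.ext_T fun d => by
        rw [mul_zero, map_zero, ← S.polar_smul', hx₀v _ (by simp [hw])]
      have h1 := hw (w - S.φ w v • v₂) (by simp [S.symm v₂ v, hvv₂])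
      simp only [map_sub, map_smul, LinearMap.sub_apply, LinearMap.smul_apply, smul_eq_mul,
        S.symm x₀ w, S.symm v w] at h1 ⊢
      rw [S.symm v₂ x₀] at h1
      linear_combination h1
    have haF : a ∉ Set.range (algebraMap F E) := by
      rintro ⟨s, rfl⟩
      rw [algebraMap_smul] at ha
      have := hx₀ x
      rw [hφx, ← ha, polar_smul_right, polar_comm, hvx] at this
      simp at this
    -- an element moving the line
    obtain ⟨c₂, hc2, hac2⟩ : ∃ c₂ : E, S.T c₂ = 0 ∧ S.T (a * c₂) ≠ 0 := by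
      by_contra hno
      push Not at hno
      obtain ⟨t, ht⟩ : ∃ t, S.T t ≠ 0 := by
        by_contra hall'
        push Not at hall'
        exact S.T_ne (LinearMap.ext hall')
      refine haF ⟨S.T (a * t) / S.T t, (S.ext_T fun e => ?_)⟩
      have h1 := hno (e - (S.T e / S.T t) • t) (by
        rw [map_sub, map_smul, smul_eq_mul, div_mul_cancel₀ _ ht, sub_self])
      rw [mul_sub, map_sub, mul_smul_comm, map_smul, smul_eq_mul, sub_eq_zero] at h1
      rw [mul_comm e, mul_comm e, ← Algebra.smul_def, map_smul, smul_eq_mul, h1]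
      ring
    have h1 : Q (c₂ • v₂) = 0 := S.Q_eq_zero (by simp [hv₂])
    have h2 : polar Q (c₂ • v₂) y₂ = 0 := by rw [S.polar_smul', S.symm v₂ y₂, y2, mul_zero, map_zero]
    set b := sg Q (c₂ • v₂) y₂ h1 h2 with hb
    have hbM : b ∈ M := hline v₂ hv₂0 hv₂ c₂ y₂ y2 h1 h2
    have hbv : ap b v = v := ap_sg_fix h1 h2 (by rw [S.polar_smul, hvv₂, mul_one, hc2])
      (by rw [← S.T_φ, S.symm, y1, map_zero])
    have hYb : ∀ y, S.φ y v = 0 → ap b y ∈ Y := by
      intro y hy
      obtain ⟨h0, h'⟩ := hperp y hy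
      refine ⟨by rw [← hbv, polar_ap (hM hbM), h0], fun s hu hs => ?_⟩
      have h3 := mul_mem (mul_mem hbM (h' s hu (by simp [polar_smul_right, h0]))) (inv_mem hbM)
      rw [conj_sg (hM hbM)] at h3
      convert h3 using 1
      exact sg_congr hbv.symm (by rw [ap_smul]) _ _
    obtain ⟨t, ht⟩ : ∃ t, S.T t ≠ 0 := by
      by_contra hall'
      push Not at hall'
      exact S.T_ne (LinearMap.ext hall')
    set y := (t / S.φ y₂ y₂) • y₂ with hy
    have hyv : S.φ y v = 0 := by simp [hy, y1]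
    have h3 := hx₀ (ap b y)
    rw [hφ _ (hYb y hyv), ← ha] at h3
    -- compare
    have h5 : polar Q y (c₂ • v₂) = 0 := by
      rw [hy, S.polar_smul]; simp [y2]
    have h6 : polar Q y y₂ = S.T t := by
      rw [hy, S.polar_smul', div_mul_cancel₀ _ hyy]
    have h7 : polar Q y (a • v) = 0 := by
      rw [hy, S.polar_smul]; simp [y1]
    have h8 : polar Q (c₂ • v₂) (a • v) = S.T (a * c₂) := by
      rw [S.polar_smul', map_smul, S.symm v₂, hvv₂, smul_eq_mul, mul_one, mul_comm]
    rw [hb, ap_sg, h5, h6, polar_sub_left, polar_add_left, polar_smul_left, polar_smul_left, h7, h8] at h3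
    simp [ht, hac2] at h3
  obtain ⟨t, ht⟩ : ∃ t, S.T t ≠ 0 := by
    by_contra hall'
    push Not at hall'
    exact S.T_ne (LinearMap.ext hall')
  have ht0 : t ≠ 0 := fun h => ht (by rw [h, map_zero])
  exact Full.le_of_pair S.nd hn hM (y := t • v) (u := v₂)
    (full (t • v) (t⁻¹ • v₂) (smul_ne_zero ht0 hv) (smul_ne_zero (inv_ne_zero ht0) hv₂0)
      (by simp [hvv]) (by simp [hv₂]) (by simp [hvv₂, ht0]) (by simp [y1]) (by simp [y2]))
    (full v₂ v hv₂0 hv hv₂ hvv (by rw [S.symm, hvv₂]) y2 y1)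
    (S.Q_eq_zero (by simp [hvv])) (S.Q_eq_zero hv₂) (by rw [S.polar_smul', hvv₂, mul_one]; exact ht)

end OForm

end CfsgLib.Geometric.ExtF
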