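import Cfsg.Agent.Lib.Geometric.ExtField.OrthStep

/-!
A subgroup of `omegaGL` containing its semilinear elements and one element that is not semilinear is everything:
take a pair whose intersection is as large as possible.
-/

set_option autoImplicit false
set_option linter.unusedSectionVars false

namespace CfsgLib.Geometric.ExtF

open Module Matrix QuadraticMap CfsgLib.ClassicalForms CfsgLib.Geometric.Orth

variable {F : Type*} [Field F] {ι : Type} [Fintype ι] [DecidableEq ι] {E : Type*} [Field E] [Algebra F E]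
  [Module E (ι → F)] [IsScalarTower F E (ι → F)] [Finite F] [Finite E]

namespace OForm

variable {Q : QuadraticForm F (ι → F)} (S : OForm Q E)

include S in
/-- Few equations: an isotropic vector with isotropic image. -/
lemma exists_isotropic_image (h4 : 4 ≤ finrank E (ι → F)) (g : GL ι F) (hg : g ∈ Cfsg.isometryGroup F (⇑Q)) :
    ∃ z, z ≠ 0 ∧ S.φ z z = 0 ∧ S.φ (ap g z) (ap g z) = 0 := by
  classical
  have hfin : Module.Finite F E := Module.Finite.of_finite
  let e := finBasis F E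
  obtain ⟨i₀, hi₀⟩ : ∃ i, e.repr 1 i ≠ 0 := by
    by_contra hall
    push Not at hall
    exact one_ne_zero (α := E) (e.repr.injective (by rw [map_zero]; exact Finsupp.ext hall))
  let mk : E → ((ι → F) →ₗ[F] (ι → F)) → ((ι → F) →ₗ[F] (ι → F) →ₗ[F] F) := fun c A =>
    LinearMap.mk₂ F (fun x y => polar Q (c • A x) (A y))
      (fun x x' y => by rw [map_add, smul_add, polar_add_left])
      (fun s x y => by rw [map_smul, smul_comm, polar_smul_left])
      (fun x y y' => by rw [map_add, polar_add_right])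
      (fun s x y => by rw [map_smul, polar_smul_right])
  let B : Fin (finrank F E) ⊕ {i : Fin (finrank F E) // i ≠ i₀} → (ι → F) →ₗ[F] (ι → F) →ₗ[F] F :=
    Sum.elim (fun i => mk (e i) LinearMap.id) (fun i => mk (e i) (apEquiv g).toLinearMap)
  have := S.finite_E
  have hdim : finrank F (ι → F) = finrank F E * finrank E (ι → F) := (Module.finrank_mul_finrank F E _).symm
  obtain ⟨z, hz, hzB⟩ := exists_common_zero B 0 (by
    rw [Fintype.card_sum, Fintype.card_fin, Fintype.card_subtype_compl, Fintype.card_fin,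
      Fintype.card_subtype_eq, hdim]
    have hb := h4
    have hr := Module.finrank_pos (R := F) (M := E)
    have := Nat.mul_le_mul_left (finrank F E) hb
    omega)
  have hzero : ∀ w : ι → F, (∀ i, polar Q (e i • w) w = 0) → S.φ w w = 0 := fun w hw => S.ext_T fun c => by
    rw [mul_zero, map_zero]
    conv_lhs => rw [← e.sum_repr c, Finset.sum_mul, map_sum]
    refine Finset.sum_eq_zero fun i _ => ?_
    rw [smul_mul_assoc, map_smul, ← S.polar_smul', hw i, smul_zero]
  have h1 : S.φ z z = 0 := hzero z fun i => by simpa [B, mk] using hzB (Sum.inl i)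
  refine ⟨z, hz, h1, hzero _ fun i => ?_⟩
  have hne : ∀ j, j ≠ i₀ → polar Q (e j • ap g z) (ap g z) = 0 := fun j hj => by
    simpa [B, mk] using hzB (Sum.inr ⟨j, hj⟩)
  by_cases hi : i = i₀
  swap
  · exact hne i hi
  subst hi
  have hone : polar Q ((1 : E) • ap g z) (ap g z) = 0 := by
    rw [one_smul, polar_self_mul, mem_isometryGroup_iff.mp hg, S.Q_eq_zero h1, mul_zero]
  rw [← e.sum_repr 1, Finset.sum_smul, ← S.T_φ, map_sum, LinearMap.sum_apply, map_sum] at hone
  rw [Finset.sum_eq_single i (fun j _ hj => by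
    rw [smul_assoc, S.T_φ, polar_smul_left, hne j hj, smul_zero]) (by simp)] at hone
  rw [smul_assoc, S.T_φ, polar_smul_left, smul_eq_mul] at hone
  exact (mul_eq_zero.mp hone).resolve_left hi₀

variable {M : Subgroup (GL ι F)}
  (hR : ∀ g ∈ Cfsg.Geo.omegaGL (⇑Q), IsSemi E g → g ∈ M)
  (hMΩ : M ≤ Cfsg.Geo.omegaGL (⇑Q))

include hR hMΩ

/-- Everything or a pair. -/
lemma le_or_pair (h4 : 4 ≤ finrank E (ι → F)) (hr : (finrank F E).Prime) (hn : 5 ≤ Fintype.card ι) {g : GL ι F} (hg : g ∈ M)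
    (hns : ¬ IsSemi E g) :
    Cfsg.Geo.omegaGL (⇑Q) ≤ M ∨ ∃ g' v u, S.Pair M g' v u := by
  have hM : M ≤ Cfsg.isometryGroup F (⇑Q) := hMΩ.trans omegaGL_le
  obtain ⟨z, hz, hzz, hgz⟩ := S.exists_isotropic_image h4 g (hM hg)
  have hgz0 : ap g z ≠ 0 := fun h => hz (ap_injective g (by rw [h, ap_zero]))
  by_cases him : img g (ln F E z) = ln F E (ap g z)
  swap
  · exact Or.inr ⟨g, z, ap g z, hg, hz, hzz, hgz0, hgz, ⟨z, self_mem_ln z, hz, self_mem_ln _⟩, him⟩
  obtain ⟨k, hk, hklin, -, c, hc, hkz⟩ := S.exists_move hR hgz0 hz hgz hzz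
  have hst : ∀ x ∈ ln F E z, ap (k * g) x ∈ ln F E z := by
    intro x hx
    have h1 : ap g x ∈ ln F E (ap g z) := by rw [← him, mem_img', ap_inv_ap]; exact hx
    obtain ⟨b, hb⟩ := mem_ln.mp h1
    rw [ap_mul, ← hb, hklin, hkz, smul_smul]
    exact smul_mem_ln z _
  obtain ⟨G, hG⟩ := exists_onLine hz hst
  by_cases hN : Nrm G.toLinearMap
  swap
  · exact Or.inl (S.le_of_lineFull hR hM hr hn hz hzz
      (S.lineFull_of_not_nrm hR hM hr hz hzz (mul_mem hk hg) G hG hN))
  have hns' : ¬ IsSemi E (k * g) := fun h => hns (by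
    rw [← inv_mul_cancel_left k g]
    refine (IsSemi.of_linear E fun a x => ap_injective k ?_).mul h
    rw [ap_ap_inv, hklin, ap_ap_inv])
  obtain ⟨u, huM, hu, hus⟩ := S.exists_uni_of_nrm hR hM hMΩ hn hz hzz (mul_mem hk hg) G hG hN hns'
  obtain ⟨ρ, hρ, B, hB0, hB⟩ := S.exists_pure_of_uni hR hM hz hzz huM hu hus
  rcases hr.eq_two_or_odd' with h2 | hodd
  · exact Or.inl (S.le_of_pure_two hR hM h4 h2 hn hz hzz hρ hB0 hB)
  obtain ⟨b, hb, hBb⟩ := S.exists_kernel hodd hB.2
  obtain ⟨p, hpp, hzp⟩ := S.exists_partner hz hzz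
  have hpz : S.φ p z = 1 := by rw [S.symm, hzp]
  have hp0 : p ≠ 0 := fun h => by rw [h, map_zero] at hzp; exact zero_ne_one hzp
  refine Or.inr ⟨ρ, p, p, hρ, hp0, hpp, hp0, hpp, ⟨b • p, smul_mem_ln p b, smul_ne_zero hb hp0, ?_⟩,
    fun h => hB0 (LinearMap.ext fun a => ?_)⟩
  · rw [hB.1, map_smul, LinearMap.smul_apply, hpz, smul_eq_mul, mul_one, hBb, zero_smul, add_zero]
    exact smul_mem_ln p b
  · have h1 : ap ρ (a • p) ∈ ln F E p := by rw [← h, mem_img', ap_inv_ap]; exact smul_mem_ln p a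
    obtain ⟨l, hl⟩ := mem_ln.mp h1
    rw [hB.1, map_smul, LinearMap.smul_apply, hpz, smul_eq_mul, mul_one] at hl
    have h2 := congrArg (fun w => S.φ w z) hl
    simp only [map_smul, map_add, LinearMap.smul_apply, LinearMap.add_apply, hpz, hzz, smul_eq_mul,
      mul_one, mul_zero, add_zero] at h2
    rw [h2] at hl
    have h3 : B a • z = 0 := by
      rw [← add_right_inj (a • p), add_zero]; exact hl.symm
    simpa [hz] using h3

include S in
/-- Everything. -/
theorem omega_le (h4 : 4 ≤ finrank E (ι → F)) (hr : (finrank F E).Prime) (hn : 5 ≤ Fintype.card ι)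
    (hnot : ∃ g ∈ M, ¬ IsSemi E g) : Cfsg.Geo.omegaGL (⇑Q) ≤ M := by
  classical
  have hM : M ≤ Cfsg.isometryGroup F (⇑Q) := hMΩ.trans omegaGL_le
  obtain ⟨g₀, hg₀, hns⟩ := hnot
  rcases S.le_or_pair hR hMΩ h4 hr hn hg₀ hns with h | hpair
  · exact h
  have hfin : Module.Finite F E := Module.Finite.of_finite
  -- the good case
  have good : ∀ g v u, S.IsMax M g v u →
      (∃ w ∈ img g (ln F E v), w ∉ ln F E u ∧ S.φ w u = 0) → Cfsg.Geo.omegaGL (⇑Q) ≤ M := by
    intro g v u hP ⟨w, hw, hwu, hwu'⟩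
    obtain ⟨hg, hv, hvv, hu, huu, ⟨z, hz, hz0, hgz⟩, hne⟩ := hP.1
    obtain ⟨a, ha⟩ := mem_ln.mp hgz
    obtain ⟨a₀, ha₀⟩ := mem_ln.mp hz
    obtain ⟨b₀, hb₀⟩ := mem_ln.mp (mem_img'.mp hw)
    have ha0 : a ≠ 0 := fun h => hz0 (ap_injective g (by rw [← ha, h, zero_smul, ap_zero]))
    have ha₀0 : a₀ ≠ 0 := fun h => hz0 (by rw [← ha₀, h, zero_smul])
    -- an element with the given effect on the line
    have hline : ∀ y, S.φ u y = 0 → ap (S.sE u y) w ∈ img g (ln F E v) →
        ∃ G : E ≃ₗ[F] E, (∀ b : E, ap (g⁻¹ * S.sE u y * g) (b • v) = G b • v) ∧ G a₀ = a₀ := by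
      intro y hy htw
      have hfix : ∀ x ∈ ln F E u, ap (S.sE u y) x = x := by
        intro x hx
        obtain ⟨l, rfl⟩ := mem_ln.mp hx
        rw [S.ap_sE huu hy]; simp [huu, hy]
      have hst : ∀ x ∈ ln F E v, ap (g⁻¹ * S.sE u y * g) x ∈ ln F E v := fun x hx => by
        rw [ap_mul, ap_mul]
        exact mem_img'.mp (S.stab hMΩ hP (S.sE_mem' hR huu hy) hfix hw hwu htw _
          (by rw [mem_img', ap_inv_ap]; exact hx))
      obtain ⟨G, hG⟩ := exists_onLine hv hst
      refine ⟨G, hG, smul_left_injective E hv ?_⟩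
      show G a₀ • v = a₀ • v
      rw [← hG, ap_mul, ap_mul, ha₀, hfix _ hgz, ap_inv_ap]
    -- an element fixing the line of the second vector and `w`
    obtain ⟨p, hpp, hup⟩ := S.exists_partner hu huu
    obtain ⟨y₀, hy₀, hperp⟩ := S.exists_perp ![u, w, p] (by omega)
    have y0u : S.φ y₀ u = 0 := hperp 0
    have y0w : S.φ y₀ w = 0 := hperp 1
    have y0p : S.φ y₀ p = 0 := hperp 2
    have y0u' : S.φ u y₀ = 0 := by rw [S.symm, y0u]
    have hfw : ap (S.sE u y₀) w = w := by
      rw [S.ap_sE huu y0u', hwu', S.symm w y₀, y0w]; simp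
    obtain ⟨G₀, hG₀, hG₀a⟩ := hline y₀ y0u' (by rw [hfw]; exact hw)
    by_cases hN₀ : Nrm G₀.toLinearMap
    swap
    · exact S.le_of_lineFull hR hM hr hn hv hvv (S.lineFull_of_not_nrm hR hM hr hv hvv
        (mul_mem (mul_mem (inv_mem hg) (S.sE_mem' hR huu y0u')) hg) G₀ hG₀ hN₀)
    have hG₀b : G₀ b₀ = b₀ := smul_left_injective E hv (by
      show G₀ b₀ • v = b₀ • v
      rw [← hG₀, ap_mul, ap_mul, hb₀, ap_ap_inv, hfw])
    have hid : ∀ x, G₀ x = x := by
      let C : Subalgebra F E :=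
        { carrier := {c | ∀ x, G₀ (c * x) = c * G₀ x}
          mul_mem' := fun {a b} ha hb x => by rw [mul_assoc, ha, hb, mul_assoc]
          one_mem' := fun x => by rw [one_mul, one_mul]
          add_mem' := fun {a b} ha hb x => by rw [add_mul, map_add, ha, hb, add_mul]
          zero_mem' := fun x => by rw [zero_mul, map_zero, zero_mul]
          algebraMap_mem' := fun c x => by rw [← Algebra.smul_def, map_smul, Algebra.smul_def] }
      have hcC : b₀ / a₀ ∈ C := by
        intro x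
        obtain ⟨b, hb⟩ := hN₀ (b₀ / a₀)
        have h1 : G₀ (b₀ / a₀ * a₀) = b * G₀ a₀ := hb a₀
        rw [div_mul_cancel₀ _ ha₀0, hG₀b, hG₀a] at h1
        have h2 : b₀ / a₀ = b := by rw [h1, mul_div_assoc, div_self ha₀0, mul_one]
        rw [h2]
        exact h2 ▸ hb x
      have hcF : b₀ / a₀ ∉ Set.range (algebraMap F E) := by
        rintro ⟨s, hs⟩
        rw [eq_div_iff ha₀0, ← Algebra.smul_def] at hs
        apply hwu
        rw [← ap_ap_inv g w, ← hb₀, ← hs, smul_assoc, ap_smul, ha₀]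
        exact Submodule.smul_mem _ s hgz
      have htop := subalgebra_eq_top hr hcC hcF
      intro x
      have h1 : x / a₀ ∈ C := htop ▸ Algebra.mem_top
      have h2 := h1 a₀
      rwa [hG₀a, div_mul_cancel₀ _ ha₀0] at h2
    have hperpu : ∀ x ∈ img g (ln F E v), S.φ x u = 0 := by
      intro x hx
      obtain ⟨b, hb⟩ := mem_ln.mp (mem_img'.mp hx)
      have h1 : ap (S.sE u y₀) x = x := by
        have := hG₀ b
        rw [hid, ap_mul, ap_mul, hb, ap_ap_inv] at this
        rw [← ap_ap_inv g (ap (S.sE u y₀) x), this, ap_ap_inv]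
      rw [S.ap_sE huu y0u', add_sub_assoc, add_eq_left, sub_eq_zero] at h1
      by_contra hxu
      have h2 := congrArg (fun t => S.φ t p) h1
      simp only [map_smul, LinearMap.smul_apply, smul_eq_mul, y0p, mul_zero, hup, mul_one] at h2
      rw [← h2, zero_smul] at h1
      exact hy₀ ((smul_eq_zero.mp h1).resolve_left hxu)
    -- a transvection on the line
    obtain ⟨Ψ, hΨw, hΨu⟩ := exists_sep (E := E) (v := w) (u := u) fun l h => hwu (mem_ln.mpr ⟨l, h⟩)
    obtain ⟨y, hy⟩ := S.exists_eq ((-a) • Ψ)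
    have hyu : S.φ u y = 0 := by rw [hy]; simp [hΨu]
    have htw : ap (S.sE u y) w = w + a • u := by
      rw [S.ap_sE huu hyu, hwu', hy]; simp [hΨw]
    obtain ⟨G, hG, hGa⟩ := hline y hyu (by
      rw [htw, ha]
      exact Submodule.add_mem _ hw (by rw [mem_img', ap_inv_ap]; exact hz))
    by_cases hN : Nrm G.toLinearMap
    swap
    · exact S.le_of_lineFull hR hM hr hn hv hvv (S.lineFull_of_not_nrm hR hM hr hv hvv
        (mul_mem (mul_mem (inv_mem hg) (S.sE_mem' hR huu hyu)) hg) G hG hN)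
    have hGG : ∀ x, G (G x) - G x = G x - x := by
      intro x
      have hx : ap g (x • v) ∈ img g (ln F E v) := by rw [mem_img', ap_inv_ap]; exact smul_mem_ln v x
      have h1 := hG x
      have h2 := hG (G x)
      rw [← h1] at h2
      refine smul_left_injective E hv ?_
      show (G (G x) - G x) • v = (G x - x) • v
      rw [sub_smul, sub_smul, ← h2, ← h1]
      simp only [ap_mul, ap_ap_inv]
      have ht : ap (S.sE u y) (ap g (x • v)) = ap g (x • v) + (-S.φ (ap g (x • v)) y) • u := by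
        rw [S.ap_sE huu hyu, hperpu _ hx]; simp [sub_eq_add_neg]
      have htu : ∀ l : E, ap (S.sE u y) (l • u) = l • u := fun l => by
        rw [S.ap_sE huu hyu]; simp [huu, hyu]
      rw [ht, ap_add (S.sE u y), ht, htu, ap_add g⁻¹, ap_add g⁻¹, ap_inv_ap]
      abel
    exfalso
    have hτ : ∀ c x, G (c * x) = G (c * a₀) / a₀ * G x := by
      intro c x
      obtain ⟨b, hb⟩ := hN c
      have h1 : G (c * a₀) = b * G a₀ := hb a₀
      rw [hGa] at h1
      rw [h1, mul_div_assoc, div_self ha₀0, mul_one]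
      exact hb x
    have hid' : ∀ x, G x = x := by
      intro x
      set c := x / a₀ with hc
      have hx : x = c * a₀ := (div_mul_cancel₀ _ ha₀0).symm
      set A := G (c * a₀) / a₀ - c with hA
      have e1 : G (c * a₀) = (c + A) * a₀ := by rw [hA]; field_simp; ring
      have e2 : G ((c + A) * a₀) = (c + 2 * A) * a₀ := by
        have := hGG (c * a₀)
        rw [e1] at this
        linear_combination this
      have e3 : G (c * (c * a₀)) = (c + A) * (c + A) * a₀ := by
        rw [hτ, e1]; field_simp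
      have e4 : G ((c + A) * (c + A) * a₀) = (c + 2 * A) * (c + 2 * A) * a₀ := by
        rw [mul_assoc, hτ, e2]; field_simp
      have h := hGG (c * (c * a₀))
      rw [e3, e4] at h
      have hA0 : A = 0 := by
        have h2 : (2 : E) * (A * A) * a₀ = 0 := by linear_combination h
        simpa [S.two_E, ha₀0] using h2
      rw [hx, e1, hA0, add_zero]
    have := hG b₀
    rw [hid', ap_mul, ap_mul, hb₀, ap_ap_inv, htw] at this
    have h2 := congrArg (ap g) this
    rw [ap_ap_inv, ap_ap_inv] at h2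
    simp [ha0, hu] at h2
  obtain ⟨g, v, u, hmax⟩ := S.exists_isMax hpair
  by_cases hgood : ∃ w ∈ img g (ln F E v), w ∉ ln F E u ∧ S.φ w u = 0
  · exact good g v u hmax hgood
  push Not at hgood
  obtain ⟨g', v', u', hmax', -, hgood'⟩ := S.bad_step hR hMΩ hmax hgood (by
    obtain ⟨-, -, -, -, -, ⟨z, hz, hz0, hgz⟩, -⟩ := hmax.1
    have he : S.psize g v u ≠ 0 := fun h0 => hz0 (ap_injective g (by
      have h1 : ap g z ∈ img g (ln F E v) ⊓ ln F E u :=
        Submodule.mem_inf.mpr ⟨mem_img'.mpr (by rw [ap_inv_ap]; exact hz), hgz⟩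
      rw [Submodule.finrank_eq_zero.mp h0, Submodule.mem_bot] at h1
      rw [h1, ap_zero]))
    have := Nat.mul_le_mul_left (finrank F E) (show 2 ≤ finrank E (ι → F) - 2 by omega)
    omega)
  exact good g' v' u' hmax' hgood'

end OForm

end CfsgLib.Geometric.ExtF
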