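import Cfsg.Agent.Lib.Geometric.ExtField.OrthFull
import Cfsg.Agent.Lib.Geometric.ExtField.CommonZero

/-!
An element that is not semilinear yields either all of `omegaGL` or an isotropic line whose image meets an
isotropic line without being equal to one.
-/

set_option autoImplicit false
set_option linter.unusedSectionVars false

namespace CfsgLib.Geometric.ExtF

open Module Matrix QuadraticMap CfsgLib.ClassicalForms CfsgLib.Geometric.Orth

variable {F : Type*} [Field F] {ι : Type} [Fintype ι] [DecidableEq ι] {E : Type*} [Field E] [Algebra F E]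
  [Module E (ι → F)] [IsScalarTower F E (ι → F)] [Finite F] [Finite E]

namespace OForm

variable {Q : QuadraticForm F (ι → F)} (S : OForm Q E)
variable {M : Subgroup (GL ι F)}
  (hR : ∀ g ∈ Cfsg.Geo.omegaGL (⇑Q), IsSemi E g → g ∈ M)
  (hM : M ≤ Cfsg.isometryGroup F (⇑Q))

/-- An isotropic vector whose line is sent neither to its own image line nor away from it. -/
def Pair (S : OForm Q E) (M : Subgroup (GL ι F)) (g : GL ι F) (v u : ι → F) : Prop :=
  g ∈ M ∧ v ≠ 0 ∧ S.φ v v = 0 ∧ u ≠ 0 ∧ S.φ u u = 0 ∧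
    (∃ z ∈ ln F E v, z ≠ 0 ∧ ap g z ∈ ln F E u) ∧ img g (ln F E v) ≠ ln F E u

/-- Fixes a line and acts trivially on the orthogonal modulo the line. -/
def Uni (S : OForm Q E) (v : ι → F) (u : GL ι F) : Prop :=
  (∀ a : E, ap u (a • v) = a • v) ∧ ∀ w, S.φ w v = 0 → ap u w - w ∈ ln F E v

/-- Moves vectors only along a line, depending only on the pairing with it. -/
def IsPure (S : OForm Q E) (v : ι → F) (ρ : GL ι F) (B : E →ₗ[F] E) : Prop :=
  (∀ x, ap ρ x = x + B (S.φ x v) • v) ∧ ∀ b c, S.T (c * B b) = - S.T (b * B c)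

lemma uni_phi {v : ι → F} {u : GL ι F} (hu : u ∈ Cfsg.isometryGroup F (⇑Q))
    (hfix : ∀ a : E, ap u (a • v) = a • v) (x : ι → F) : S.φ (ap u x) v = S.φ x v :=
  S.ext_T fun a => by
    rw [← S.polar_smul, ← S.polar_smul, ← hfix a, polar_ap hu, hfix]

lemma exists_isPure {v : ι → F} (hv : v ≠ 0) (hvv : S.φ v v = 0) {ρ : GL ι F}
    (hI : ρ ∈ Cfsg.isometryGroup F (⇑Q)) (hfix : ∀ a : E, ap ρ (a • v) = a • v)
    (hsub : ∀ x, ap ρ x - x ∈ ln F E v) : ∃ B, S.IsPure v ρ B := by
  obtain ⟨p, hpp, hvp⟩ := S.exists_partner hv hvv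
  let B : E →ₗ[F] E :=
    { toFun := fun b => S.φ (ap ρ (b • p) - b • p) p
      map_add' := fun a b => by
        simp only [add_smul, ap_add, map_sub, map_add, LinearMap.sub_apply, LinearMap.add_apply]
        ring
      map_smul' := fun c b => by
        rw [smul_assoc, ap_smul, ← smul_sub, RingHom.id_apply, ← algebraMap_smul E c (ap ρ _ - _),
          map_smul, LinearMap.smul_apply, algebraMap_smul] }
  have hker : ∀ w, S.φ w v = 0 → ap ρ w = w := by
    intro w hw
    obtain ⟨l, hl⟩ := mem_ln.mp (hsub w)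
    have hw' : ap ρ w = w + l • v := by rw [hl]; abel
    rw [hw', show l = 0 from S.ext_T fun c => ?_, zero_smul, add_zero]
    obtain ⟨l', hl'⟩ := mem_ln.mp (hsub (c • p))
    have h := polar_ap hI w (c • p)
    rw [hw', show ap ρ (c • p) = c • p + l' • v by rw [hl']; abel, polar_add_left, polar_add_right,
      polar_add_right, S.polar_smul l' w, hw, S.polar_smul' l, map_smul, hvp,
      S.polar_smul' l v (l' • v), map_smul, hvv, smul_eq_mul, smul_eq_mul] at h
    simp only [mul_zero, map_zero, add_zero, mul_one] at h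
    rw [mul_zero, map_zero, mul_comm]
    linear_combination h
  have hform : ∀ x, ap ρ x = x + B (S.φ x v) • v := by
    intro x
    have hw : S.φ (x - S.φ x v • p) v = 0 := by simp [S.symm p v, hvp]
    obtain ⟨l, hl⟩ := mem_ln.mp (hsub (S.φ x v • p))
    have hB : B (S.φ x v) = l := by
      show S.φ _ p = l
      rw [← hl, map_smul, LinearMap.smul_apply, hvp, smul_eq_mul, mul_one]
    conv_lhs => rw [show x = (x - S.φ x v • p) + S.φ x v • p by abel]
    rw [ap_add, hker _ hw, hB, hl]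
    abel
  refine ⟨B, hform, fun b c => ?_⟩
  have h := polar_ap hI (b • p) (c • p)
  rw [hform, hform] at h
  simp only [map_smul, LinearMap.smul_apply, S.symm p v, hvp, smul_eq_mul, mul_one, polar_add_left,
    polar_add_right, S.polar_smul', hvv, mul_zero, map_zero, add_zero, S.symm p p, hpp] at h
  rw [mul_comm c, mul_comm b (B c)] at *
  linear_combination h

include hR hM

/-- A nonlinear element of this kind gives a pure one. -/
lemma exists_pure_of_uni {v : ι → F} (hv : v ≠ 0) (hvv : S.φ v v = 0) {u : GL ι F} (huM : u ∈ M)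
    (hu : S.Uni v u) (hns : ¬ IsSemi E u) :
    ∃ ρ ∈ M, ∃ B, B ≠ 0 ∧ S.IsPure v ρ B := by
  obtain ⟨hfix, hperp⟩ := hu
  have hfinv : ∀ {j : GL ι F}, (∀ a : E, ap j (a • v) = a • v) → ∀ a : E, ap j⁻¹ (a • v) = a • v :=
    fun hj a => ap_injective _ (by rw [ap_ap_inv, hj])
  have hsfix : ∀ y, S.φ v y = 0 → ∀ a : E, ap (S.sE v y) (a • v) = a • v := fun y hy a => by
    rw [S.ap_sE hvv hy]; simp [hvv, hy]
  suffices h : ∃ ρ ∈ M, ρ ≠ 1 ∧ (∀ a : E, ap ρ (a • v) = a • v) ∧ ∀ x, ap ρ x - x ∈ ln F E v by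
    obtain ⟨ρ, hρ, hne, h1, h2⟩ := h
    obtain ⟨B, hB⟩ := S.exists_isPure hv hvv (hM hρ) h1 h2
    refine ⟨ρ, hρ, B, fun h0 => hne (gl_ext fun x => ?_), hB⟩
    rw [hB.1, h0, ap_one]; simp
  by_cases hcomm : ∀ y, S.φ v y = 0 → u * S.sE v y = S.sE v y * u
  swap
  · push Not at hcomm
    obtain ⟨y, hy, hne⟩ := hcomm
    refine ⟨u * S.sE v y * u⁻¹ * (S.sE v y)⁻¹, mul_mem (mul_mem (mul_mem huM (S.sE_mem' hR hvv hy))
      (inv_mem huM)) (inv_mem (S.sE_mem' hR hvv hy)), fun h => hne ?_, fun a => ?_, fun x => ?_⟩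
    · rwa [mul_inv_eq_one, mul_inv_eq_iff_eq_mul] at h
    · rw [ap_mul, ap_mul, ap_mul, hfinv (hsfix y hy), hfinv hfix, hsfix y hy, hfix]
    · obtain ⟨z, rfl⟩ : ∃ z, ap (S.sE v y) (ap u z) = x :=
        ⟨ap u⁻¹ (ap (S.sE v y)⁻¹ x), by rw [ap_ap_inv, ap_ap_inv]⟩
      rw [ap_mul, ap_mul, ap_mul, ap_inv_ap, ap_inv_ap, S.ap_sE hvv hy, S.ap_sE hvv hy, ap_sub, ap_add,
        hfix, S.uni_phi (hM huM) hfix]
      have h1 := hperp (S.φ z v • y) (by simp [S.symm y v, hy])
      convert Submodule.sub_mem _ h1 (smul_mem_ln (F := F) v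
        ((S.φ z y + S.φ y y / 2 * S.φ z v) - (S.φ (ap u z) y + S.φ y y / 2 * S.φ z v))) using 1
      rw [sub_smul]
      abel
  obtain ⟨p, hpp, hvp⟩ := S.exists_partner hv hvv
  have hpv : S.φ p v = 1 := by rw [S.symm, hvp]
  let A : E → ι → F := fun b => ap u (b • p) - b • p
  have hAv : ∀ b, S.φ (A b) v = 0 := fun b => by simp [A, S.uni_phi (hM huM) hfix, hpv]
  have hlin : ∀ b, A b - b • A 1 ∈ ln F E v := by
    intro b
    have hD : ∀ y, S.φ y v = 0 → S.φ (A b - b • A 1) y = 0 := by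
      have key : ∀ c b' : E, ∀ y, S.φ y v = 0 →
          S.T (b' * S.φ (A c) y) = S.T (c * S.φ y (A b')) := by
        intro c b' y hy
        have hy' : S.φ v y = 0 := by rw [S.symm, hy]
        have h1 := congrArg (fun g => ap g (c • p)) (hcomm y hy')
        simp only [ap_mul, S.ap_sE hvv hy', ap_add, ap_sub, hfix, S.uni_phi (hM huM) hfix] at h1
        have h2 : ap u (c • y) = c • y - S.φ (A c) y • v := by
          simp only [map_smul, LinearMap.smul_apply, hpv, smul_eq_mul, mul_one, add_smul] at h1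
          simp only [A, map_sub, LinearMap.sub_apply, map_smul, LinearMap.smul_apply, smul_eq_mul,
            sub_smul]
          rw [← sub_eq_zero] at h1 ⊢
          rw [← h1]
          abel
        have h3 := polar_ap (hM huM) (c • y) (b' • p)
        rw [h2, show ap u (b' • p) = b' • p + A b' by simp [A], polar_sub_left, polar_add_right,
          polar_add_right, S.polar_smul' c y (A b'), S.polar_smul' (S.φ (A c) y) v (b' • p),
          S.polar_smul' (S.φ (A c) y) v (A b'), S.symm v (A b'), hAv, map_smul, hvp] at h3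
        simp only [smul_eq_mul, mul_one, mul_zero, map_zero, add_zero] at h3
        rw [mul_comm]
        linear_combination -h3
      intro y hy
      have h4 : ∀ c b' : E, b' * S.φ (A c) y = c * S.φ y (A b') := fun c b' => S.ext_T fun e => by
        have := key c b' (e • y) (by simp [hy])
        simp only [map_smul, LinearMap.smul_apply, smul_eq_mul] at this
        linear_combination (norm := ring_nf) this
      have h5 := h4 b 1
      rw [one_mul, S.symm y] at h5
      simp [h5]
    refine mem_ln.mpr ⟨S.φ (A b - b • A 1) p, (sub_eq_zero.mp (S.nondeg fun z => ?_)).symm⟩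
    have h6 := hD (z - S.φ z v • p) (by simp [hpv])
    simp only [map_sub, map_smul, LinearMap.sub_apply, LinearMap.smul_apply, smul_eq_mul] at h6 ⊢
    rw [S.symm v z]
    linear_combination h6
  have hy' : S.φ v (A 1) = 0 := by rw [S.symm, hAv]
  refine ⟨(S.sE v (A 1))⁻¹ * u, mul_mem (inv_mem (S.sE_mem' hR hvv hy')) huM, fun h => hns ?_,
    fun a => ?_, fun x => ?_⟩
  · rw [inv_mul_eq_one] at h
    rw [← h]
    exact IsSemi.of_linear E (S.sE_linear hvv hy')
  · rw [ap_mul, hfix, hfinv (hsfix _ hy')]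
  · have hd : ap u x - ap (S.sE v (A 1)) x ∈ ln F E v := by
      have hw := hperp (x - S.φ x v • p) (by simp [hpv])
      convert Submodule.add_mem _ (Submodule.add_mem _ (hlin (S.φ x v)) hw)
        (smul_mem_ln (F := F) v (S.φ x (A 1) + S.φ (A 1) (A 1) / 2 * S.φ x v)) using 1
      simp only [A, S.ap_sE hvv hy', ap_sub]
      abel
    obtain ⟨l, hl⟩ := mem_ln.mp hd
    rw [ap_mul, show ap u x = ap (S.sE v (A 1)) x + l • v by rw [hl]; abel, ap_add, ap_inv_ap,
      hfinv (hsfix _ hy'), add_sub_cancel_left]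
    exact smul_mem_ln v l

omit hR hM

include S in
/-- An isometry of this kind is a square. -/
lemma uni_mem_omega {v : ι → F} {u : GL ι F} (hn : 5 ≤ Fintype.card ι)
    (hI : u ∈ Cfsg.isometryGroup F (⇑Q)) (hu : S.Uni v u) : u ∈ Cfsg.Geo.omegaGL (⇑Q) := by
  obtain ⟨hfix, hperp⟩ := hu
  obtain ⟨p, hp⟩ := CharP.exists F
  have hpp : p.Prime := CharP.char_is_prime F p
  have hp2 : p ≠ 2 := fun h => S.two (by
    have := CharP.cast_eq_zero F p
    rw [h] at this
    exact_mod_cast this)
  have hpow : ∀ k : ℕ, ∀ x, ap (u ^ k) x =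
      x + (k : F) • (ap u x - x) + (k.choose 2 : F) • (ap u (ap u x - x) - (ap u x - x)) := by
    intro k
    induction k with
    | zero => intro x; simp
    | succ k ih =>
      intro x
      have h3 : ap u (ap u (ap u x - x) - (ap u x - x)) = ap u (ap u x - x) - (ap u x - x) := by
        obtain ⟨l, hl⟩ := mem_ln.mp (hperp (ap u x - x) (by simp [S.uni_phi hI hfix]))
        rw [← hl, hfix]
      rw [pow_succ', ap_mul, ih, ap_add, ap_add, ap_smul, ap_smul, h3, Nat.choose_succ_succ' k 1,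
        Nat.choose_one_right, Nat.cast_succ, Nat.cast_add]
      simp only [ap_sub]
      module
  have h1 : u ^ p = 1 := gl_ext fun x => by
    have hc : ((p.choose 2 : ℕ) : F) = 0 :=
      (CharP.cast_eq_zero_iff F p _).mpr (hpp.dvd_choose_self (by norm_num)
        (lt_of_le_of_ne hpp.two_le (Ne.symm hp2)))
    rw [hpow, hc, CharP.cast_eq_zero, ap_one]; simp
  obtain ⟨j, hj⟩ := hpp.odd_of_ne_two hp2
  have h2 : u = u ^ (j + 1) * u ^ (j + 1) := by
    rw [← pow_add, show j + 1 + (j + 1) = p + 1 by omega, pow_succ, h1, one_mul]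
  rw [h2]
  exact S.sq_mem_omega (pow_mem hI _) hn

include hR hM

/-- An element stabilising a line, semilinear on it but not semilinear, gives one fixing the line. -/
lemma exists_uni_of_nrm (hMΩ : M ≤ Cfsg.Geo.omegaGL (⇑Q)) (hn : 5 ≤ Fintype.card ι) {v : ι → F}
    (hv : v ≠ 0) (hvv : S.φ v v = 0) {h : GL ι F} (hh : h ∈ M) (G : E ≃ₗ[F] E)
    (hG : ∀ a : E, ap h (a • v) = G a • v) (hN : Nrm G.toLinearMap) (hns : ¬ IsSemi E h) :
    ∃ u ∈ M, S.Uni v u ∧ ¬ IsSemi E u := by
  set l := G 1 with hl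
  have hl0 : l ≠ 0 := fun h0 => one_ne_zero (α := E) (G.injective (by rw [← hl, h0, map_zero]))
  have hmul : ∀ a x, G (a * x) = G a / l * G x := by
    intro a x
    obtain ⟨b, hb⟩ := hN a
    have h1 : G a = b * l := by simpa using hb 1
    rw [show G (a * x) = b * G x from hb x, h1, mul_div_assoc, div_self hl0, mul_one]
  let σlin : E →ₗ[F] E := l⁻¹ • G.toLinearMap
  have hσ : ∀ a, σlin a = G a / l := fun a => by simp [σlin, div_eq_inv_mul]
  let σh : E →ₐ[F] E := AlgHom.ofLinearMap σlin (by rw [hσ, ← hl, div_self hl0])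
    (fun a b => by rw [hσ, hσ, hσ, hmul]; ring)
  let σ : E ≃ₐ[F] E := AlgEquiv.ofBijective σh (Finite.injective_iff_bijective.mp σh.toRingHom.injective)
  have hσG : ∀ a, G a = l * σ a := fun a => by
    show G a = l * σlin a
    rw [hσ, mul_div_cancel₀ _ hl0]
  have hI := hM hh
  have hhv : ∀ x, S.φ (ap h x) v = σ (S.φ x v) / l := fun x => S.ext_T fun c => by
    obtain ⟨a, rfl⟩ : ∃ a, G a = c := ⟨G.symm c, G.apply_symm_apply c⟩
    rw [← S.polar_smul, ← hG, polar_ap hI, S.polar_smul, hσG, ← S.T_aut σ, map_mul]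
    congr 1
    field_simp
  have hhL : ∀ x ∈ ln F E v, ap h x ∈ ln F E v := by
    intro x hx
    obtain ⟨a, rfl⟩ := mem_ln.mp hx
    rw [hG]; exact smul_mem_ln v _
  by_cases hH : ∀ (a : E) w, S.φ w v = 0 → ap h (a • w) - σ a • ap h w ∈ ln F E v
  swap
  · push Not at hH
    obtain ⟨a, y, hy, hne⟩ := hH
    have hy' : S.φ v y = 0 := by rw [S.symm, hy]
    set g := h * S.sE v y * h⁻¹ with hg
    have hgM : g ∈ M := mul_mem (mul_mem hh (S.sE_mem' hR hvv hy')) (inv_mem hh)
    have hfix : ∀ a : E, ap g (a • v) = a • v := fun a => by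
      obtain ⟨b, rfl⟩ : ∃ b, G b = a := ⟨G.symm a, G.apply_symm_apply a⟩
      rw [hg, ap_mul, ap_mul, ← hG, ap_inv_ap, S.ap_sE hvv hy']
      simp [hvv, hy', hG]
    have hperp : ∀ w, S.φ w v = 0 → ap g w - w ∈ ln F E v := by
      intro w hw
      obtain ⟨z, rfl⟩ : ∃ z, ap h z = w := ⟨ap h⁻¹ w, ap_ap_inv _ _⟩
      have hz : S.φ z v = 0 := by
        rw [hhv, div_eq_zero_iff] at hw
        simpa [hl0] using hw
      rw [hg, ap_mul, ap_mul, ap_inv_ap, S.ap_sE hvv hy', ← ap_sub]
      refine hhL _ ?_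
      simp only [hz, zero_smul, mul_zero, add_zero, sub_sub_cancel_left]
      exact Submodule.neg_mem _ (smul_mem_ln v _)
    refine ⟨g, hgM, ⟨hfix, hperp⟩, fun hsemi => hne ?_⟩
    have hlin : ∀ (a : E) x, ap g (a • x) = a • ap g x := by
      intro a x
      obtain ⟨b, hb⟩ := hsemi a
      have h1 := hb v
      rw [hfix, show ap g v = v by simpa using hfix 1] at h1
      rw [hb, smul_left_injective E hv h1]
    obtain ⟨p, hpp, hvp⟩ := S.exists_partner hv hvv
    have hpv : S.φ p v = 1 := by rw [S.symm, hvp]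
    have key : ∀ b : E, ap g (ap h (b • p)) - ap h (b • p) - ap h (b • y) ∈ ln F E v := by
      intro b
      rw [hg, ap_mul, ap_mul, ap_inv_ap, S.ap_sE hvv hy', ← ap_sub, ← ap_sub]
      refine hhL _ ?_
      simp only [map_smul, LinearMap.smul_apply, hpv, smul_eq_mul, mul_one]
      convert Submodule.neg_mem _ (smul_mem_ln (F := F) v (b * S.φ p y + S.φ y y / 2 * b)) using 1
      abel
    set w' := ap h (a • p) - σ a • ap h p
    have hw' : ap g w' - w' ∈ ln F E v := hperp _ (by
      simp only [w', map_sub, map_smul, LinearMap.sub_apply, LinearMap.smul_apply, hhv, hpv, smul_eq_mul,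
        mul_one, map_one]
      ring)
    have h1 := key 1
    rw [one_smul, one_smul] at h1
    obtain ⟨m, hm⟩ := mem_ln.mp h1
    convert Submodule.sub_mem _ (Submodule.add_mem _ (smul_mem_ln (F := F) v (σ a * m)) hw') (key a)
      using 1
    rw [mul_smul, hm, show w' = ap h (a • p) - σ a • ap h p from rfl, ap_sub, hlin]
    module
  -- a semilinear element with the same action on the graded pieces
  obtain ⟨p, hpp, hvp⟩ := S.exists_partner hv hvv
  have hpv : S.φ p v = 1 := by rw [S.symm, hvp]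
  let π : (ι → F) → (ι → F) := fun x => x - S.φ x p • v - S.φ x v • p
  have π_add : ∀ x z, π (x + z) = π x + π z := fun x z => by
    simp only [π, map_add, LinearMap.add_apply]; module
  have π_smul : ∀ (a : E) x, π (a • x) = a • π x := fun a x => by
    simp only [π, map_smul, LinearMap.smul_apply, smul_eq_mul]; module
  have π_v : ∀ x, S.φ (π x) v = 0 := fun x => by simp [π, hvv, hpv]
  have π_p : ∀ x, S.φ (π x) p = 0 := fun x => by simp [π, hvp, hpp]
  have π_ln : ∀ x ∈ ln F E v, π x = 0 := by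
    intro x hx
    obtain ⟨a, rfl⟩ := mem_ln.mp hx
    simp [π, hvp, hvv]
  have π_π : ∀ x, π (π x) = π x := fun x => by
    show π x - S.φ (π x) p • v - S.φ (π x) v • p = π x
    rw [π_p, π_v]; simp
  have hw0 : ∀ w, S.φ w v = 0 → S.φ (ap h w) v = 0 := fun w hw => by rw [hhv, hw, map_zero, zero_div]
  have hsplit : ∀ w, S.φ w v = 0 → ap h w = π (ap h w) + S.φ (ap h w) p • v := fun w hw => by
    simp [π, hw0 w hw]
  have π_semi : ∀ (a : E) w, S.φ w v = 0 → π (ap h (a • w)) = σ a • π (ap h w) := by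
    intro a w hw
    have h1 := π_ln _ (hH a w hw)
    rw [sub_eq_add_neg, π_add, ← neg_smul, π_smul, neg_smul, add_neg_eq_zero] at h1
    exact h1
  have π_form : ∀ w z, S.φ w v = 0 → S.φ z v = 0 →
      S.φ (π (ap h w)) (π (ap h z)) = σ (S.φ w z) := by
    intro w z hw hz
    refine S.ext_T fun c => ?_
    obtain ⟨a, rfl⟩ := σ.surjective c
    rw [← map_mul, S.T_aut, ← S.polar_smul' a w z, ← polar_ap hI (a • w) z, ← S.T_φ (ap h (a • w)),
      hsplit z hz, hsplit (a • w) (by simp [hw]), π_semi a w hw]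
    simp only [map_add, map_smul, LinearMap.add_apply, LinearMap.smul_apply, smul_eq_mul, hvv,
      S.symm v (π (ap h z)), π_v, mul_zero, add_zero, π_add, π_π, π_ln _ (smul_mem_ln v _)]
  let n₀l : (ι → F) →ₗ[F] (ι → F) :=
    { toFun := fun x => (l * σ (S.φ x p)) • v + (l⁻¹ * σ (S.φ x v)) • p + π (ap h (π x))
      map_add' := fun x z => by
        simp only [map_add, LinearMap.add_apply, π_add, ap_add, mul_add, add_smul]; abel
      map_smul' := fun c x => by
        rw [← algebraMap_smul E c x, π_smul, π_semi _ _ (π_v x), AlgEquiv.commutes, map_smul,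
          LinearMap.smul_apply, LinearMap.smul_apply, smul_eq_mul, smul_eq_mul, map_mul, map_mul,
          AlgEquiv.commutes, RingHom.id_apply, ← algebraMap_smul E c (_ + _ + _), smul_add, smul_add,
          smul_smul, smul_smul, mul_left_comm l, mul_left_comm l⁻¹] }
  have hn₀ : ∀ x, n₀l x = (l * σ (S.φ x p)) • v + (l⁻¹ * σ (S.φ x v)) • p + π (ap h (π x)) :=
    fun x => rfl
  have hform : ∀ x z, S.φ (n₀l x) (n₀l z) = σ (S.φ x z) := by
    intro x z
    have hx : x = S.φ x p • v + S.φ x v • p + π x := by simp only [π]; abel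
    conv_rhs => rw [hx]
    simp only [hn₀, map_add, map_smul, LinearMap.add_apply, LinearMap.smul_apply, smul_eq_mul, hvv, hpp,
      hvp, hpv, S.symm v (π _), S.symm p (π _), π_v, π_p, π_form _ _ (π_v x) (π_v z), mul_zero, mul_one,
      add_zero, zero_add, map_mul, map_zero]
    have hz1 : S.φ v z = S.φ z v := S.symm _ _
    have hz2 : S.φ p z = S.φ z p := S.symm _ _
    have hz3 : S.φ (π x) z = S.φ (π x) (π z) := by
      conv_lhs => rw [show z = S.φ z p • v + S.φ z v • p + π z by simp only [π]; abel]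
      simp [π_v, π_p]
    rw [hz1, hz2, hz3]
    field_simp
    ring
  have hinj : Function.Injective n₀l := by
    rw [injective_iff_map_eq_zero]
    intro x hx
    refine S.nondeg fun z => σ.injective ?_
    rw [← hform, hx]
    simp
  let n₀ : GL ι F := ofEquiv (LinearEquiv.ofInjectiveEndo n₀l hinj)
  have ap_n₀ : ∀ x, ap n₀ x = n₀l x := fun x => by simp only [n₀, ap_ofEquiv]; rfl
  have hn₀I : n₀ ∈ Cfsg.isometryGroup F (⇑Q) := mem_isometryGroup_iff.mpr fun x =>
    mul_left_cancel₀ S.two (by rw [S.two_Q, S.two_Q, ap_n₀, hform, S.T_aut])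
  have hn₀semi : IsSemi E n₀ := fun a => ⟨σ a, fun x => by
    rw [ap_n₀, ap_n₀, hn₀, hn₀, π_smul, π_semi _ _ (π_v x), map_smul, LinearMap.smul_apply,
      LinearMap.smul_apply, smul_eq_mul, smul_eq_mul, map_mul, map_mul, smul_add, smul_add, smul_smul,
      smul_smul, mul_left_comm l, mul_left_comm l⁻¹]⟩
  have hv₀ : ∀ a : E, ap n₀ (a • v) = ap h (a • v) := fun a => by
    rw [ap_n₀, hn₀, hG, hσG, π_ln _ (smul_mem_ln v a)]
    simp [hvp, hvv, π, ap_zero]
  set u := n₀⁻¹ * h with hu
  have huI : u ∈ Cfsg.isometryGroup F (⇑Q) := mul_mem (inv_mem hn₀I) hI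
  have hinvL : ∀ x ∈ ln F E v, ap n₀⁻¹ x ∈ ln F E v := by
    intro x hx
    obtain ⟨a, rfl⟩ := mem_ln.mp hx
    obtain ⟨b, rfl⟩ : ∃ b, G b = a := ⟨G.symm a, G.apply_symm_apply a⟩
    rw [← hG, ← hv₀, ap_inv_ap]
    exact smul_mem_ln v b
  have hUni : S.Uni v u := by
    refine ⟨fun a => by rw [hu, ap_mul, ← hv₀, ap_inv_ap], fun w hw => ?_⟩
    have h1 : ap h w - ap n₀ w ∈ ln F E v := by
      have hπw : π w = w - S.φ w p • v := by simp [π, hw]
      have h2 := hsplit _ (π_v w)
      rw [ap_n₀, hn₀, hw, map_zero, mul_zero, zero_smul, add_zero,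
        show w = S.φ w p • v + π w by rw [hπw]; abel, ap_add, hG, h2]
      simp only [map_add, map_smul, LinearMap.add_apply, LinearMap.smul_apply, hvp, π_p, π_add,
        π_ln _ (smul_mem_ln v _), zero_add, π_π]
      convert smul_mem_ln (F := F) v (G (S.φ w p) + S.φ (ap h (π w)) p - l * σ (S.φ w p)) using 1
      simp
      module
    rw [hu, ap_mul]
    have h3 := hinvL _ h1
    rwa [ap_sub, ap_inv_ap] at h3
  have hn₀Ω : n₀ ∈ Cfsg.Geo.omegaGL (⇑Q) := by
    rw [show n₀ = h * u⁻¹ by rw [hu]; group]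
    exact mul_mem (hMΩ hh) (inv_mem (S.uni_mem_omega hn huI hUni))
  refine ⟨u, mul_mem (inv_mem (hR _ hn₀Ω hn₀semi)) hh, hUni, fun hsemi => hns ?_⟩
  rw [show h = n₀ * u by rw [hu]; group]
  exact hn₀semi.mul hsemi

omit hR hM

include S in
/-- A skew map on an extension of odd degree has a kernel. -/
lemma exists_kernel (hodd : Odd (finrank F E)) {B : E →ₗ[F] E}
    (hB : ∀ b c, S.T (c * B b) = - S.T (b * B c)) : ∃ b : E, b ≠ 0 ∧ B b = 0 := by
  classical
  have : Module.Finite F E := Module.Finite.of_finite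
  let e := finBasis F E
  let A : Matrix (Fin (finrank F E)) (Fin (finrank F E)) F := fun i j => S.T (e i * B (e j))
  have hdet : A.det = 0 := by
    have h1 : A.transpose = -A := by
      ext i j
      exact hB (e i) (e j)
    have h2 := congrArg Matrix.det h1
    rw [Matrix.det_transpose, Matrix.det_neg, Fintype.card_fin, hodd.neg_one_pow, neg_one_mul,
      ← add_eq_zero_iff_eq_neg, ← two_mul] at h2
    exact (mul_eq_zero.mp h2).resolve_left S.two
  obtain ⟨x, hx, hAx⟩ := Matrix.exists_mulVec_eq_zero_iff.mpr hdet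
  refine ⟨∑ j, x j • e j, fun h => hx (funext fun i => ?_), S.ext_T fun c => ?_⟩
  · have := congrArg (fun w => e.repr w i) h
    simpa [e.repr_sum_self, Finsupp.single_apply, Finsupp.finsetSum_apply] using this
  · have key : ∀ i, S.T (e i * B (∑ j, x j • e j)) = 0 := fun i => by
      have := congrFun hAx i
      rw [map_sum, Finset.mul_sum, map_sum]
      simpa [A, Matrix.mulVec, dotProduct, mul_comm] using this
    rw [mul_zero, map_zero]
    conv_lhs => rw [← e.sum_repr c, Finset.sum_mul, map_sum]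
    exact Finset.sum_eq_zero fun i _ => by rw [smul_mul_assoc, map_smul, key i, smul_zero]

end OForm

end CfsgLib.Geometric.ExtF
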