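import Cfsg.Agent.Lib.Geometric.ExtField.OrthRot

/-!
Dimension three over the extension: no pair has its image in a plane over the extension, and an element with two
independent vectors of one isotropic line in another is semilinear.
-/

set_option autoImplicit false
set_option linter.unusedSectionVars false

namespace CfsgLib.Geometric.ExtF

open Module Matrix QuadraticMap CfsgLib.ClassicalForms CfsgLib.Geometric.Orth

variable {F : Type*} [Field F] {ι : Type} [Fintype ι] [DecidableEq ι] {E : Type*} [Field E] [Algebra F E]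
  [Module E (ι → F)] [IsScalarTower F E (ι → F)] [Finite F] [Finite E]

/-- An isometry of a non-degenerate trace form in odd dimension has an eigenvalue one or minus one. -/
lemma exists_eigen (T : E →ₗ[F] F) (hT : T ≠ 0) (h2 : (2 : F) ≠ 0) (hodd : Odd (finrank F E)) {η : E}
    (hη : η ≠ 0) (R : E →ₗ[F] E) (hR : ∀ a b, T (R a * R b * η) = T (a * b * η)) :
    ∃ (a : E) (ε : F), a ≠ 0 ∧ ε * ε = 1 ∧ R a = ε • a := by
  classical
  have : Module.Finite F E := Module.Finite.of_finite
  let β : LinearMap.BilinForm F E := LinearMap.mk₂ F (fun a b => T (a * b * η))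
    (fun a a' b => by rw [add_mul, add_mul, map_add])
    (fun s a b => by rw [smul_mul_assoc, smul_mul_assoc, map_smul])
    (fun a b b' => by rw [mul_add, add_mul, map_add])
    (fun s a b => by rw [mul_smul_comm, smul_mul_assoc, map_smul])
  have hnd : β.Nondegenerate := by
    have hleft : ∀ a, (∀ b, T (a * b * η) = 0) → a = 0 := fun a ha => by
      by_contra hne
      refine hT (LinearMap.ext fun c => ?_)
      have := ha (c / (a * η))
      rwa [mul_right_comm, mul_div_cancel₀ _ (mul_ne_zero hne hη)] at this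
    exact ⟨fun a ha => hleft a ha, fun b hb => hleft b fun a => by rw [mul_comm b a]; exact hb a⟩
  let e := finBasis F E
  set J := LinearMap.BilinForm.toMatrix e β
  have hJ : J.det ≠ 0 := (LinearMap.BilinForm.nondegenerate_iff_det_ne_zero e).mp hnd
  set A := LinearMap.toMatrix e e R
  have hA : A.transpose * J * A = J := by
    have h := LinearMap.BilinForm.toMatrix_comp e e β R R
    rw [show LinearMap.BilinForm.comp β R R = β from LinearMap.ext fun a => LinearMap.ext fun b => hR a b] at h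
    exact h.symm
  have hsq : A.det * A.det = 1 := by
    have h := congrArg Matrix.det hA
    rw [Matrix.det_mul, Matrix.det_mul, Matrix.det_transpose] at h
    exact mul_right_cancel₀ hJ (by rw [one_mul]; linear_combination h)
  set d := A.det with hd
  have key : A.transpose * J * (A - d • 1) = (-d) • ((A - d • 1).transpose * J) := by
    rw [Matrix.mul_sub, hA, Matrix.mul_smul, Matrix.mul_one, Matrix.transpose_sub, Matrix.transpose_smul,
      Matrix.transpose_one, Matrix.sub_mul, Matrix.smul_mul, Matrix.one_mul, smul_sub, smul_smul, neg_mul, hsq,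
      neg_smul, neg_smul, one_smul]
    abel
  have h := congrArg Matrix.det key
  rw [Matrix.det_smul, Matrix.det_mul, Matrix.det_mul, Matrix.det_mul, Matrix.det_transpose,
    Matrix.det_transpose, ← hd, Fintype.card_fin, hodd.neg_pow] at h
  have hdn : d ^ finrank F E = d := by
    obtain ⟨j, hj⟩ := hodd
    rw [hj, pow_succ, pow_mul, pow_two, hsq, one_pow, one_mul]
  rw [hdn] at h
  have h0 : (A - d • 1).det = 0 := by
    have h1 : (2 : F) * (d * J.det) * (A - d • 1).det = 0 := by linear_combination h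
    exact (mul_eq_zero.mp h1).resolve_left
      (mul_ne_zero h2 (mul_ne_zero (fun h0 => by rw [h0] at hsq; simp at hsq) hJ))
  have h3 : LinearMap.det (R - d • LinearMap.id) = 0 := by
    rw [← LinearMap.det_toMatrix e, map_sub, map_smul, LinearMap.toMatrix_id]; exact h0
  obtain ⟨a, ha, ha0⟩ := (Submodule.ne_bot_iff _).mp (LinearMap.bot_lt_ker_of_det_eq_zero h3).ne'
  exact ⟨a, d, ha0, hsq, sub_eq_zero.mp (LinearMap.mem_ker.mp ha)⟩

/-- Inverses of semilinear elements. -/
lemma IsSemi.inv {g : GL ι F} (hg : IsSemi E g) : IsSemi E g⁻¹ := by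
  have hfo : IsOfFinOrder g := isOfFinOrder_of_finite g
  rw [show g⁻¹ = g ^ (orderOf g - 1) from (inv_eq_of_mul_eq_one_right (by
    rw [← pow_succ', Nat.sub_add_cancel hfo.orderOf_pos, pow_orderOf_eq_one]))]
  generalize orderOf g - 1 = e
  induction e with
  | zero => exact IsSemi.of_linear E fun a x => by rw [pow_zero, ap_one, ap_one]
  | succ e ih => rw [pow_succ]; exact ih.mul hg

namespace OForm

variable {Q : QuadraticForm F (ι → F)} (S : OForm Q E)

include S in
/-- The image of an isotropic line inside a line is isotropic. -/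
lemma isotropic_of_line {h : GL ι F} (hh : h ∈ Cfsg.isometryGroup F (⇑Q)) {x y : ι → F}
    (hxx : S.φ x x = 0) (hy : y ∈ ln F E (ap h x)) (him : img h (ln F E x) = ln F E (ap h x)) :
    S.φ y y = 0 := S.ext_T fun c => by
  rw [mul_zero, map_zero, ← S.polar_smul']
  obtain ⟨a, ha⟩ := mem_ln.mp (mem_img'.mp (him.symm ▸ smul_mem_ln' c hy : c • y ∈ img h (ln F E x)))
  obtain ⟨b, hb⟩ := mem_ln.mp (mem_img'.mp (him.symm ▸ hy : y ∈ img h (ln F E x)))
  rw [← polar_ap (inv_mem hh), ← ha, ← hb, S.polar_smul]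
  simp [hxx]

variable {M : Subgroup (GL ι F)}
  (hR : ∀ g ∈ Cfsg.Geo.omegaGL (⇑Q), IsSemi E g → g ∈ M)
  (hMΩ : M ≤ Cfsg.Geo.omegaGL (⇑Q))

variable (h3 : finrank E (ι → F) = 3) (hr : (finrank F E).Prime) (h3r : 3 ≤ finrank F E)
  (hn : 5 ≤ Fintype.card ι) (hnot : ¬ Cfsg.Geo.omegaGL (⇑Q) ≤ M)

include hR hMΩ h3 hr h3r hn hnot

/-- An element sending an isotropic line onto another is semilinear. -/
lemma semi_of_line {h : GL ι F} (hh : h ∈ M) {x x' : ι → F} (hx : x ≠ 0) (hxx : S.φ x x = 0) (hx' : x' ≠ 0)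
    (hx'x' : S.φ x' x' = 0) (him : img h (ln F E x) = ln F E x') : IsSemi E h := by
  obtain ⟨k, hk, hkl, -, c, hc, hkx⟩ := S.exists_move hR hx' hx hx'x' hxx
  have hst : ∀ z ∈ ln F E x, ap (k * h) z ∈ ln F E x := by
    intro z hz
    obtain ⟨b, hb⟩ := mem_ln.mp (show ap h z ∈ ln F E x' by rw [← him, mem_img', ap_inv_ap]; exact hz)
    rw [ap_mul, ← hb, hkl, hkx, smul_smul]
    exact smul_mem_ln x _
  rw [← inv_mul_cancel_left k h]
  exact (IsSemi.of_linear E fun a z => ap_injective k (by rw [ap_ap_inv, hkl, ap_ap_inv])).mul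
    (S.semi_of_stab hR hMΩ hr h3r hn hnot hx hxx (mul_mem hk hh) hst)

/-- Two independent vectors of an isotropic line in another one: semilinear. -/
lemma semi_of_two {h : GL ι F} (hh : h ∈ M) {x x' : ι → F} (hx : x ≠ 0) (hxx : S.φ x x = 0) (hx' : x' ≠ 0)
    (hx'x' : S.φ x' x' = 0) {a : E} (ha : a ∉ Set.range (algebraMap F E)) (h1 : ap h x ∈ ln F E x')
    (h2 : ap h (a • x) ∈ ln F E x') : IsSemi E h := by
  by_cases him : img h (ln F E x) = ln F E x'
  · exact S.semi_of_line hR hMΩ h3 hr h3r hn hnot hh hx hxx hx' hx'x' him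
  exfalso
  have hP : S.Pair M h x x' := ⟨hh, hx, hxx, hx', hx'x', ⟨x, self_mem_ln x, hx, h1⟩, him⟩
  have hsize := S.psize_le_one hR hMΩ h3 hr h3r hn hnot hP
  have hm : ∀ z ∈ ln F E x, ap h z ∈ ln F E x' → ap h z ∈ img h (ln F E x) ⊓ ln F E x' := fun z hz hz' =>
    Submodule.mem_inf.mpr ⟨mem_img'.mpr (by rw [ap_inv_ap]; exact hz), hz'⟩
  have hne : ap h x ≠ 0 := fun h0 => hx (ap_injective h (by rw [h0, ap_zero]))
  have h4 : ap h (a • x) ∈ Submodule.span F {ap h x} := by
    rw [show Submodule.span F {ap h x} = img h (ln F E x) ⊓ ln F E x' from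
      Submodule.eq_of_le_of_finrank_le ((Submodule.span_singleton_le_iff_mem _ _).mpr
        (hm x (self_mem_ln x) h1)) (hsize.trans (by rw [finrank_span_singleton hne]))]
    exact hm _ (smul_mem_ln x a) h2
  obtain ⟨s, hs⟩ := Submodule.mem_span_singleton.mp h4
  refine ha ⟨s, smul_left_injective E hx ?_⟩
  show algebraMap F E s • x = a • x
  rw [algebraMap_smul]
  exact ap_injective h (by rw [ap_smul, hs])

/-- No pair has its image in a plane over the extension. -/
theorem planar_false {g : GL ι F} {v u y : ι → F} (hP : S.Pair M g v u)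
    (hspan : ∀ w ∈ img g (ln F E v), ∃ a d : E, a • u + d • y = w) : False := by
  have hM : M ≤ Cfsg.isometryGroup F (⇑Q) := hMΩ.trans omegaGL_le
  have hfin : Module.Finite F E := Module.Finite.of_finite
  obtain ⟨hg, hv, hvv, hu, huu, ⟨z, hz, hz0, hgz⟩, hne⟩ := hP
  set L := img g (ln F E v) with hL
  obtain ⟨a₀, ha₀⟩ := mem_ln.mp hgz
  have hgz0 : ap g z ≠ 0 := fun h => hz0 (ap_injective g (by rw [h, ap_zero]))
  have ha0 : a₀ ≠ 0 := fun h => hgz0 (by rw [← ha₀, h, zero_smul])
  have hgzL : ap g z ∈ L := mem_img'.mpr (by rw [ap_inv_ap]; exact hz)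
  have hP : S.Pair M g v u := ⟨hg, hv, hvv, hu, huu, ⟨z, hz, hz0, hgz⟩, hne⟩
  have hsize : S.psize g v u = 1 := by
    refine le_antisymm (S.psize_le_one hR hMΩ h3 hr h3r hn hnot hP) (Nat.one_le_iff_ne_zero.mpr fun h0 => ?_)
    have h1 : ap g z ∈ L ⊓ ln F E u := Submodule.mem_inf.mpr ⟨hgzL, hgz⟩
    rw [Submodule.finrank_eq_zero.mp h0, Submodule.mem_bot] at h1
    exact hgz0 h1
  have hmax : S.IsMax M g v u :=
    ⟨hP, fun g' v' u' h => by rw [hsize]; exact S.psize_le_one hR hMΩ h3 hr h3r hn hnot h⟩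
  by_cases hgood : ∃ w ∈ L, w ∉ ln F E u ∧ S.φ w u = 0
  · obtain ⟨w, hw, hwu, hwu'⟩ := hgood
    exact S.false_of_perp hR hMΩ h3 hr h3r hn hnot hmax hw hwu hwu'
  push Not at hgood
  obtain ⟨w₀, hw₀, hw₀u⟩ : ∃ w ∈ L, w ∉ ln F E u := by
    by_contra hall
    push Not at hall
    refine hne (Submodule.eq_of_le_of_finrank_le hall ?_)
    rw [finrank_img, finrank_ln hu, finrank_ln hv]
  have hν : S.φ y u ≠ 0 := by
    intro h0
    obtain ⟨a, d, hw⟩ := hspan w₀ hw₀
    exact hgood w₀ hw₀ hw₀u (by rw [← hw]; simp [huu, h0])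
  set p := (S.φ y u)⁻¹ • y - (S.φ y y / (2 * (S.φ y u) ^ 2)) • u with hp
  have hpu : S.φ p u = 1 := by simp [hp, huu, hν]
  have hpp : S.φ p p = 0 := by
    simp only [hp, map_sub, map_smul, LinearMap.sub_apply, LinearMap.smul_apply, smul_eq_mul, huu,
      S.symm u y]
    have := S.two_E
    field_simp
    ring
  have hspan' : ∀ w ∈ L, ∃ a : E, w = a • u + S.φ w u • p := by
    intro w hw
    obtain ⟨a, d, hwd⟩ := hspan w hw
    refine ⟨a + d * (S.φ y y / (2 * S.φ y u)), ?_⟩
    have h1 : S.φ w u = d * S.φ y u := by rw [← hwd]; simp [huu]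
    rw [h1, hp, ← hwd]
    have := S.two_E
    match_scalars <;> field_simp <;> ring
  obtain ⟨y₀, y0u, y0p, hyy⟩ := S.exists_aniso huu hpp (by rw [S.symm, hpu]; exact one_ne_zero)
  have hLsing : ∀ x ∈ L, ∀ x' ∈ L, polar Q x x' = 0 := by
    intro x hx x' hx'
    obtain ⟨l, hl⟩ := mem_ln.mp (mem_img'.mp hx)
    obtain ⟨l', hl'⟩ := mem_ln.mp (mem_img'.mp hx')
    rw [← ap_ap_inv g x, ← ap_ap_inv g x', polar_ap (hM hg), ← hl, ← hl', S.polar_smul]
    simp [hvv]
  -- a parameter
  let Bq : Unit → E →ₗ[F] E →ₗ[F] F := fun _ => LinearMap.mk₂ F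
    (fun a b => S.T (a₀ * a₀ / S.φ y₀ y₀ * (a * b)))
    (fun a a' b => by rw [add_mul, mul_add, map_add])
    (fun s a b => by rw [smul_mul_assoc, mul_smul_comm, map_smul])
    (fun a b b' => by rw [mul_add, mul_add, map_add])
    (fun s a b => by rw [mul_smul_comm, mul_smul_comm, map_smul])
  obtain ⟨δ, hδ, hδ'⟩ := exists_common_zero Bq 0 (by rw [Fintype.card_unit]; omega)
  replace hδ' : S.T (a₀ * a₀ / S.φ y₀ y₀ * (δ * δ)) = 0 := by simpa [Bq] using hδ' ()
  set c := δ⁻¹ with hc
  set ω₁ := a₀ * δ * δ / S.φ y₀ y₀ with hω₁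
  let ω : L →ₗ[F] E := ((S.φ.flip u).restrictScalars F) ∘ₗ L.subtype
  obtain ⟨⟨w₁, hw₁⟩, hωw₁⟩ : ω₁ ∈ LinearMap.range ω := by
    let χ : E →ₗ[F] F := S.T ∘ₗ LinearMap.mulLeft F a₀
    have hle : LinearMap.range ω ≤ LinearMap.ker χ := by
      rintro _ ⟨w, rfl⟩
      refine LinearMap.mem_ker.mpr ?_
      show S.T (a₀ * S.φ (w : ι → F) u) = 0
      rw [← S.polar_smul, ha₀]
      exact hLsing _ w.2 _ hgzL
    have heq : LinearMap.range ω = LinearMap.ker χ := by
      refine Submodule.eq_of_le_of_finrank_le hle ?_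
      have h1 := ω.finrank_range_add_finrank_ker
      rw [finrank_img, finrank_ln hv] at h1
      have h2 : finrank F (LinearMap.ker ω) ≤ 1 := by
        rw [← hsize]
        let i : LinearMap.ker ω →ₗ[F] ↥(L ⊓ ln F E u) :=
          (L.subtype ∘ₗ (LinearMap.ker ω).subtype).codRestrict _ fun x => Submodule.mem_inf.mpr ⟨x.1.2, by
            by_contra h
            exact hgood _ x.1.2 h (LinearMap.mem_ker.mp x.2)⟩
        exact LinearMap.finrank_le_finrank_of_injective (f := i) fun a b hab =>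
          Subtype.ext (Subtype.ext (show ((i a : ↥(L ⊓ ln F E u)) : ι → F) = i b by rw [hab]))
      obtain ⟨t, ht⟩ : ∃ t, S.T t ≠ 0 := by
        by_contra hall
        push Not at hall
        exact S.T_ne (LinearMap.ext hall)
      have h4 := χ.finrank_range_add_finrank_ker
      rw [LinearMap.range_eq_top.mpr (LinearMap.surjective fun h => ht (by
        have := LinearMap.congr_fun h (t / a₀)
        simpa [χ, mul_div_cancel₀ _ ha0] using this)), finrank_top, Module.finrank_self] at h4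
      omega
    rw [heq]
    refine LinearMap.mem_ker.mpr ?_
    show S.T (a₀ * ω₁) = 0
    rw [hω₁, ← hδ']
    congr 1
    ring
  replace hωw₁ : S.φ w₁ u = ω₁ := hωw₁
  have hω0 : ω₁ ≠ 0 := div_ne_zero (mul_ne_zero (mul_ne_zero ha0 hδ) hδ) hyy
  have hw₁u : w₁ ∉ ln F E u := fun h => hω0 (by
    obtain ⟨l, hl⟩ := mem_ln.mp h
    rw [← hωw₁, ← hl]; simp [huu])
  have huy : S.φ u (c • y₀) = 0 := by rw [map_smul, S.symm u y₀, y0u, smul_zero]
  have hyu : c • y₀ ∉ ln F E u := fun h => by
    obtain ⟨l, hl⟩ := mem_ln.mp h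
    have h1 := congrArg (fun w => S.φ w p) hl
    simp [S.symm u p, hpu, y0p] at h1
    rw [h1, zero_smul, eq_comm, smul_eq_zero] at hl
    rcases hl with hl | hl
    · exact hδ (inv_eq_zero.mp hl)
    · exact hyy (by rw [hl, map_zero])
  obtain ⟨g', v', u', hmax', -, w, hw, hwu, hwu'⟩ := S.conj_pair hR hMΩ hmax hgood huy hyu hw₁ hw₁u
    fun x hx => by
      have hy : ∀ w ∈ L, S.φ y₀ w = 0 := fun w hw => by
        obtain ⟨a, ha⟩ := hspan' w hw
        rw [ha]; simp [y0u, y0p]
      have h1 : S.φ w₁ (c • y₀) = 0 := by rw [map_smul, S.symm, hy _ hw₁, smul_zero]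
      have h2 : S.φ (c • y₀) (c • y₀) / 2 * S.φ w₁ u = (2 : F)⁻¹ • a₀ := by
        simp only [hωw₁, hω₁, hc, map_smul, LinearMap.smul_apply, smul_eq_mul, Algebra.smul_def,
          map_inv₀, map_ofNat]
        have := S.two_E
        field_simp
      rw [S.ap_sE huu huy, h1, zero_add, h2, polar_sub_left, polar_add_left, hLsing _ hw₁ _ hx,
        S.polar_smul', map_smul, LinearMap.smul_apply, hy x hx, smul_zero, mul_zero, map_zero,
        smul_assoc, ha₀, polar_smul_left, hLsing _ hgzL _ hx, smul_zero, add_zero, sub_zero]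
  exact S.false_of_perp hR hMΩ h3 hr h3r hn hnot hmax' hw hwu hwu'

end OForm

end CfsgLib.Geometric.ExtF
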