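import Cfsg.Agent.Lib.Geometric.ExtField.OrthStep

/-!
Degree at least five: a pair of largest intersection with a perpendicular vector gives everything, and so does
one pure element, by counting its conjugates.
-/

set_option autoImplicit false
set_option linter.unusedSectionVars false

namespace CfsgLib.Geometric.ExtF

open Module Matrix QuadraticMap CfsgLib.ClassicalForms CfsgLib.Geometric.Orth

variable {F : Type*} [Field F] {ι : Type} [Fintype ι] [DecidableEq ι] {E : Type*} [Field E] [Algebra F E]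
  [Module E (ι → F)] [IsScalarTower F E (ι → F)] [Finite F] [Finite E]

/-- A map with vanishing cube on a space of dimension at least four has a kernel of dimension two. -/
lemma two_le_finrank_ker {V : Type*} [AddCommGroup V] [Module F V] [FiniteDimensional F V]
    (hV : 4 ≤ finrank F V) (D : V →ₗ[F] V) (hD : ∀ x, D (D (D x)) = 0) :
    2 ≤ finrank F (LinearMap.ker D) := by
  have step : ∀ f : V →ₗ[F] V, finrank F (LinearMap.ker (D ∘ₗ f)) ≤
      finrank F (LinearMap.ker D) + finrank F (LinearMap.ker f) := by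
    intro f
    set W := LinearMap.ker (D ∘ₗ f) with hW
    have h1 := (f.domRestrict W).finrank_range_add_finrank_ker
    have h2 : finrank F (LinearMap.range (f.domRestrict W)) ≤ finrank F (LinearMap.ker D) :=
      Submodule.finrank_mono (by rintro _ ⟨⟨x, hx⟩, rfl⟩; exact hx)
    have h3 : finrank F (LinearMap.ker (f.domRestrict W)) ≤ finrank F (LinearMap.ker f) := by
      let i : LinearMap.ker (f.domRestrict W) →ₗ[F] LinearMap.ker f :=
        (W.subtype ∘ₗ (LinearMap.ker (f.domRestrict W)).subtype).codRestrict _ fun x => x.2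
      exact LinearMap.finrank_le_finrank_of_injective (f := i)
        fun a b hab => Subtype.ext (Subtype.ext (show ((i a : LinearMap.ker f) : V) = i b by rw [hab]))
    omega
  have h1 := step (D ∘ₗ D)
  have h2 := step D
  rw [show D ∘ₗ D ∘ₗ D = 0 from LinearMap.ext hD, LinearMap.ker_zero, finrank_top] at h1
  omega

namespace OForm

variable {Q : QuadraticForm F (ι → F)} (S : OForm Q E)
variable {M : Subgroup (GL ι F)}

/-- Linear isometries preserve the form. -/
lemma form_of_linear {g : GL ι F} (hg : g ∈ Cfsg.isometryGroup F (⇑Q))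
    (hl : ∀ (a : E) x, ap g (a • x) = a • ap g x) (x y : ι → F) :
    S.φ (ap g x) (ap g y) = S.φ x y := S.ext_T fun c => by
  rw [← S.polar_smul', ← S.polar_smul', ← hl, polar_ap hg]

variable (hR : ∀ g ∈ Cfsg.Geo.omegaGL (⇑Q), IsSemi E g → g ∈ M)
  (hMΩ : M ≤ Cfsg.Geo.omegaGL (⇑Q))

include hMΩ

/-- A pure element with kernel gives a pair. -/
lemma pair_of_pure {v p : ι → F} (hvv : S.φ v v = 0) (hpp : S.φ p p = 0) (hvp : S.φ v p = 1)
    {ρ : GL ι F} (hρ : ρ ∈ M) {B : E →ₗ[F] E} (hB : S.IsPure v ρ B) (hB0 : B ≠ 0)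
    {b : E} (hb : b ≠ 0) (hBb : B b = 0) :
    S.Pair M ρ p p ∧ finrank F (LinearMap.ker B) ≤ S.psize ρ p p := by
  have hpv : S.φ p v = 1 := by rw [S.symm, hvp]
  have hp0 : p ≠ 0 := fun h => by rw [h, map_zero] at hvp; exact zero_ne_one hvp
  have hv0 : v ≠ 0 := fun h => by rw [h, map_zero, LinearMap.zero_apply] at hvp; exact zero_ne_one hvp
  have hker : ∀ a, B a = 0 → ap ρ (a • p) = a • p := fun a ha => by
    rw [hB.1, map_smul, LinearMap.smul_apply, hpv, smul_eq_mul, mul_one, ha, zero_smul, add_zero]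
  refine ⟨⟨hρ, hp0, hpp, hp0, hpp, ⟨b • p, smul_mem_ln p b, smul_ne_zero hb hp0,
    by rw [hker b hBb]; exact smul_mem_ln p b⟩, fun h => hB0 (LinearMap.ext fun a => ?_)⟩, ?_⟩
  · have h1 : ap ρ (a • p) ∈ ln F E p := by rw [← h, mem_img', ap_inv_ap]; exact smul_mem_ln p a
    obtain ⟨l, hl⟩ := mem_ln.mp h1
    rw [hB.1, map_smul, LinearMap.smul_apply, hpv, smul_eq_mul, mul_one] at hl
    have h2 := congrArg (fun w => S.φ w v) hl
    simp only [map_smul, map_add, LinearMap.smul_apply, LinearMap.add_apply, hpv, hvv, smul_eq_mul,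
      mul_one, mul_zero, add_zero] at h2
    rw [h2] at hl
    have h3 : B a • v = 0 := by
      rw [← add_right_inj (a • p), add_zero]; exact hl.symm
    simpa [hv0] using h3
  · let i : LinearMap.ker B →ₗ[F] ↥(img ρ (ln F E p) ⊓ ln F E p) :=
      (((LinearMap.toSpanSingleton E (ι → F) p).restrictScalars F) ∘ₗ (LinearMap.ker B).subtype).codRestrict _
        fun x => Submodule.mem_inf.mpr ⟨mem_img'.mpr (by
          show ap ρ⁻¹ (x.1 • p) ∈ _
          rw [← hker x.1 x.2, ap_inv_ap]; exact smul_mem_ln p _), smul_mem_ln p _⟩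
    exact LinearMap.finrank_le_finrank_of_injective (f := i)
      fun x y h => Subtype.ext (smul_left_injective E hp0 (congrArg Subtype.val h))

include hR

/-- An element fixing the second line, stabilising the first image and unipotent of degree three on it fixes
it, unless everything is contained. -/
lemma fix_of_stab (hr : (finrank F E).Prime) (h5 : 5 ≤ finrank F E) (hn : 5 ≤ Fintype.card ι) {g : GL ι F}
    {v u : ι → F} (hP : S.Pair M g v u) {t : GL ι F} (ht : t ∈ M)
    (hst : ∀ x ∈ img g (ln F E v), ap t x ∈ img g (ln F E v))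
    (hfix : ∀ x ∈ ln F E u, ap t x = x)
    (h3 : ∀ x ∈ img g (ln F E v), ap t (ap t (ap t x - x) - (ap t x - x)) = ap t (ap t x - x) - (ap t x - x)) :
    Cfsg.Geo.omegaGL (⇑Q) ≤ M ∨ ∀ x ∈ img g (ln F E v), ap t x = x := by
  have hM : M ≤ Cfsg.isometryGroup F (⇑Q) := hMΩ.trans omegaGL_le
  have hfin : Module.Finite F E := Module.Finite.of_finite
  obtain ⟨hg, hv, hvv, -, -, ⟨z, hz, hz0, hgz⟩, -⟩ := hP
  obtain ⟨G, hG⟩ := exists_onLine (E := E) hv (h := g⁻¹ * t * g) fun x hx => by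
    rw [ap_mul, ap_mul]
    exact mem_img'.mp (hst _ (mem_img'.mpr (by rw [ap_inv_ap]; exact hx)))
  by_cases hN : Nrm G.toLinearMap
  swap
  · exact Or.inl (S.le_of_lineFull hR hM hr hn hv hvv (S.lineFull_of_not_nrm hR hM hr hv hvv
      (mul_mem (mul_mem (inv_mem hg) ht) hg) G hG hN))
  right
  obtain ⟨a₀, ha₀⟩ := mem_ln.mp hz
  have ha0 : a₀ ≠ 0 := fun h => hz0 (by rw [← ha₀, h, zero_smul])
  have hGa : G a₀ = a₀ := smul_left_injective E hv (by
    show G a₀ • v = a₀ • v
    rw [← hG, ap_mul, ap_mul, ha₀, hfix _ hgz, ap_inv_ap])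
  set D := G.toLinearMap - LinearMap.id with hD
  have hDv : ∀ a, ap g (D a • v) = ap t (ap g (a • v)) - ap g (a • v) := fun a => by
    rw [hD, LinearMap.sub_apply, LinearMap.id_apply, sub_smul, LinearEquiv.coe_coe, ← hG, ap_sub, ap_mul,
      ap_mul, ap_ap_inv]
  have hker := two_le_finrank_ker (F := F) (by omega) D fun a => smul_left_injective E hv (ap_injective g (by
    show ap g (D (D (D a)) • v) = ap g ((0 : E) • v)
    rw [zero_smul, ap_zero, hDv, hDv, hDv, sub_eq_zero]
    exact h3 _ (mem_img'.mpr (by rw [ap_inv_ap]; exact smul_mem_ln v a))))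
  obtain ⟨b, hb, hbF⟩ : ∃ b ∈ LinearMap.ker D, b / a₀ ∉ Set.range (algebraMap F E) := by
    by_contra hall
    push Not at hall
    have hle : LinearMap.ker D ≤ Submodule.span F {a₀} := fun b hb => by
      obtain ⟨s, hs⟩ := hall b hb
      refine Submodule.mem_span_singleton.mpr ⟨s, ?_⟩
      rw [Algebra.smul_def, hs, div_mul_cancel₀ _ ha0]
    have h1 := Submodule.finrank_mono hle
    rw [finrank_span_singleton ha0] at h1
    omega
  have hGb : G b = b := sub_eq_zero.mp (LinearMap.mem_ker.mp hb)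
  intro x hx
  obtain ⟨c, hc⟩ := mem_ln.mp (mem_img'.mp hx)
  have h1 : G c = c := nrm_id hr hN ha0 hGa hGb hbF c
  have h2 := hG c
  rw [h1, ap_mul, ap_mul, hc, ap_ap_inv] at h2
  exact ap_injective g⁻¹ h2

/-- A pair of largest intersection with a perpendicular vector gives everything. -/
lemma le_of_perp (hr : (finrank F E).Prime) (h5 : 5 ≤ finrank F E) (hn : 5 ≤ Fintype.card ι) {g : GL ι F}
    {v u : ι → F} (hmax : S.IsMax M g v u) {w : ι → F} (hw : w ∈ img g (ln F E v)) (hwu : w ∉ ln F E u)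
    (hwu' : S.φ w u = 0) : Cfsg.Geo.omegaGL (⇑Q) ≤ M := by
  obtain ⟨hg, hv, hvv, hu, huu, ⟨z, hz, hz0, hgz⟩, hne⟩ := hmax.1
  obtain ⟨a, ha⟩ := mem_ln.mp hgz
  obtain ⟨Ψ, hΨw, hΨu⟩ := exists_sep (E := E) (v := w) (u := u) fun l h => hwu (mem_ln.mpr ⟨l, h⟩)
  obtain ⟨y, hy⟩ := S.exists_eq ((-a) • Ψ)
  have hyu : S.φ u y = 0 := by rw [hy]; simp [hΨu]
  have hfix : ∀ x ∈ ln F E u, ap (S.sE u y) x = x := by
    intro x hx
    obtain ⟨l, rfl⟩ := mem_ln.mp hx
    rw [S.ap_sE huu hyu]; simp [huu, hyu]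
  have htw : ap (S.sE u y) w = w + a • u := by
    rw [S.ap_sE huu hyu, hwu', hy]; simp [hΨw]
  have hmem := S.sE_mem' hR huu hyu
  have hst := S.stab hMΩ hmax hmem hfix hw hwu (by
    rw [htw, ha]
    exact Submodule.add_mem _ hw (mem_img'.mpr (by rw [ap_inv_ap]; exact hz)))
  rcases S.fix_of_stab hR hMΩ hr h5 hn hmax.1 hmem hst hfix (fun x _ => by
    set d := ap (S.sE u y) x - x with hd
    have hdu : S.φ d u = 0 := by
      simp [hd, S.ap_sE huu hyu, S.symm y u, hyu, huu]
    rw [S.ap_sE huu hyu d, hdu]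
    simp only [zero_smul, add_zero, mul_zero, sub_sub_cancel_left]
    rw [← neg_smul]
    exact hfix _ (smul_mem_ln u _)) with h | h
  · exact h
  · have h1 := h w hw
    rw [htw, add_eq_left] at h1
    exact absurd (ap_injective g (by rw [← ha, h1, ap_zero])) hz0

omit hR

/-- Conjugates of pure elements. -/
lemma pure_conj {v u : ι → F} {ρ : GL ι F} (hρ : ρ ∈ M) {B : E →ₗ[F] E} (hB : S.IsPure v ρ B) {k : GL ι F}
    (hk : k ∈ M) (hl : ∀ (a : E) x, ap k (a • x) = a • ap k x) {c : E} (hkv : ap k v = c • u) :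
    ∃ ρ' ∈ M, S.IsPure u ρ' (LinearMap.mulLeft F c ∘ₗ B ∘ₗ LinearMap.mulLeft F c) := by
  have hM : M ≤ Cfsg.isometryGroup F (⇑Q) := hMΩ.trans omegaGL_le
  refine ⟨k * ρ * k⁻¹, mul_mem (mul_mem hk hρ) (inv_mem hk), fun x => ?_, fun b e => ?_⟩
  · obtain ⟨x', rfl⟩ : ∃ x', ap k x' = x := ⟨ap k⁻¹ x, ap_ap_inv _ _⟩
    have h1 : S.φ x' v = c * S.φ (ap k x') u := by
      rw [← S.form_of_linear (hM hk) hl x' v, hkv, map_smul, smul_eq_mul]
    rw [ap_mul, ap_mul, ap_inv_ap, hB.1, ap_add, hl, hkv, smul_smul, h1]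
    simp [mul_comm]
  · simp only [LinearMap.comp_apply, LinearMap.mulLeft_apply]
    rw [← mul_assoc, ← mul_assoc b, hB.2, mul_comm b c, mul_comm e c]

include hR

/-- One pure element gives everything. -/
theorem le_of_pure (hr : (finrank F E).Prime) (h5 : 5 ≤ finrank F E) (hn : 5 ≤ Fintype.card ι) {v : ι → F}
    (hv : v ≠ 0) (hvv : S.φ v v = 0) {ρ : GL ι F} (hρ : ρ ∈ M) {B : E →ₗ[F] E} (hB0 : B ≠ 0)
    (hB : S.IsPure v ρ B) : Cfsg.Geo.omegaGL (⇑Q) ≤ M := by
  classical
  have hM : M ≤ Cfsg.isometryGroup F (⇑Q) := hMΩ.trans omegaGL_le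
  have hfin : Module.Finite F E := Module.Finite.of_finite
  have hodd : Odd (finrank F E) := hr.odd_of_ne_two (by omega)
  obtain ⟨p, hpp, hvp⟩ := S.exists_partner hv hvv
  obtain ⟨b₀, hb₀, hBb₀⟩ := S.exists_kernel hodd hB.2
  obtain ⟨g, v', u, hmax⟩ := S.exists_isMax
    ⟨ρ, p, p, (S.pair_of_pure hMΩ hvv hpp hvp hρ hB hB0 hb₀ hBb₀).1⟩
  obtain ⟨hg, hv', hvv', hu, huu, ⟨z, hz, hz0, hgz⟩, hne⟩ := hmax.1
  set L := img g (ln F E v') with hL
  set e := S.psize g v' u with he
  by_cases hgood : ∃ w ∈ L, w ∉ ln F E u ∧ S.φ w u = 0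
  · obtain ⟨w, hw, hwu, hwu'⟩ := hgood
    exact S.le_of_perp hR hMΩ hr h5 hn hmax hw hwu hwu'
  push Not at hgood
  by_cases hfew : 2 * finrank F E < finrank F E * (finrank E (ι → F) - 2) + 2 * e
  · obtain ⟨g', v'', u', hmax', -, w, hw, hwu, hwu'⟩ := S.bad_step hR hMΩ hmax hgood hfew
    exact S.le_of_perp hR hMΩ hr h5 hn hmax' hw hwu hwu'
  -- the intersection is less than half
  have hek : 2 * e < finrank F E := by
    have h1 := Nat.mul_le_mul_left (finrank F E) (show 1 ≤ finrank E (ι → F) - 2 by have := S.big; omega)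
    obtain ⟨j, hj⟩ := hodd
    omega
  -- pure elements at the second line
  let 𝔅 : Set (E →ₗ[F] E) := {B' | ∃ ρ' ∈ M, S.IsPure u ρ' B'}
  obtain ⟨k, hk, hkl, -, c₀, hc₀, hkv⟩ := S.exists_move hR hv hu hvv huu
  obtain ⟨q, hqq, huq⟩ := S.exists_partner hu huu
  set B₁ := LinearMap.mulLeft F c₀ ∘ₗ B ∘ₗ LinearMap.mulLeft F c₀ with hB₁
  have hB₁0 : B₁ ≠ 0 := fun h => hB0 (LinearMap.ext fun a => by
    have := LinearMap.congr_fun h (a / c₀)
    simpa [hB₁, mul_div_cancel₀ _ hc₀, hc₀] using this)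
  have hB₁mem : B₁ ∈ 𝔅 := S.pure_conj hMΩ hρ hB hk hkl hkv
  have hsub : ∀ B' B'' : E →ₗ[F] E, B' ∈ 𝔅 → B'' ∈ 𝔅 → B' - B'' ∈ 𝔅 := by
    rintro B' B'' ⟨ρ', hρ', h', hs'⟩ ⟨ρ'', hρ'', h'', hs''⟩
    refine ⟨ρ' * ρ''⁻¹, mul_mem hρ' (inv_mem hρ''), fun x => ?_, fun b e => ?_⟩
    · obtain ⟨x', rfl⟩ : ∃ x', ap ρ'' x' = x := ⟨ap ρ''⁻¹ x, ap_ap_inv _ _⟩
      have hxu : S.φ (ap ρ'' x') u = S.φ x' u := by rw [h'']; simp [huu]
      rw [ap_mul, ap_inv_ap, hxu, h', h'' x', LinearMap.sub_apply, sub_smul]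
      abel
    · simp only [LinearMap.sub_apply, mul_sub, map_sub]
      rw [hs' b e, hs'' b e]
      ring
  have horb : ∀ b : Eˣ, LinearMap.mulLeft F ((b : E) * b) ∘ₗ B₁ ∘ₗ LinearMap.mulLeft F ((b : E) * b) ∈ 𝔅 := by
    intro b
    obtain ⟨ρ₁, hρ₁, hpure⟩ := hB₁mem
    exact S.pure_conj hMΩ hρ₁ hpure (S.torus_sq_mem' hR huu hqq huq b.ne_zero)
      (S.torus_linear huu hqq huq (mul_ne_zero b.ne_zero b.ne_zero))
      (S.torus_v huu hqq huq (mul_ne_zero b.ne_zero b.ne_zero))
  have hstab : ∀ c : E, c ≠ 0 → LinearMap.mulLeft F c ∘ₗ B₁ ∘ₗ LinearMap.mulLeft F c = B₁ → c * c = 1 := by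
    intro c hc hcB
    have hBc : ∀ x, B₁ (c * x) = c⁻¹ * B₁ x := fun x => by
      have h1 : c * B₁ (c * x) = B₁ x := LinearMap.congr_fun hcB x
      rw [← h1, inv_mul_cancel_left₀ hc]
    let C : Subalgebra F E :=
      { carrier := {a | ∃ b : E, ∀ x, B₁ (a * x) = b * B₁ x}
        mul_mem' := by
          rintro a a' ⟨b, hb⟩ ⟨b', hb'⟩
          exact ⟨b * b', fun x => by rw [mul_assoc, hb, hb', mul_assoc]⟩
        one_mem' := ⟨1, fun x => by rw [one_mul, one_mul]⟩
        add_mem' := by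
          rintro a a' ⟨b, hb⟩ ⟨b', hb'⟩
          exact ⟨b + b', fun x => by rw [add_mul, map_add, hb, hb', add_mul]⟩
        zero_mem' := ⟨0, fun x => by rw [zero_mul, map_zero, zero_mul]⟩
        algebraMap_mem' := fun s => ⟨algebraMap F E s, fun x => by
          rw [← Algebra.smul_def, map_smul, Algebra.smul_def]⟩ }
    by_cases hcF : c ∈ Set.range (algebraMap F E)
    · obtain ⟨x, hx⟩ : ∃ x, B₁ x ≠ 0 := by
        by_contra hall
        push Not at hall
        exact hB₁0 (LinearMap.ext hall)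
      obtain ⟨s, rfl⟩ := hcF
      have h1 := hBc x
      rw [← Algebra.smul_def, map_smul, Algebra.smul_def] at h1
      have h2 := mul_right_cancel₀ hx h1
      nth_rw 2 [h2]
      exact mul_inv_cancel₀ hc
    · exfalso
      have htop := subalgebra_eq_top hr (show c ∈ C from ⟨c⁻¹, hBc⟩) hcF
      obtain ⟨x₀, hx₀, hBx₀⟩ : ∃ x₀ : E, x₀ ≠ 0 ∧ B₁ x₀ = 0 := by
        obtain ⟨ρ₁, hρ₁, hpure⟩ := hB₁mem
        exact S.exists_kernel hodd hpure.2
      refine hB₁0 (LinearMap.ext fun x => ?_)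
      obtain ⟨b, hb⟩ : x / x₀ ∈ C := htop ▸ Algebra.mem_top
      have := hb x₀
      rw [div_mul_cancel₀ _ hx₀, hBx₀, mul_zero] at this
      simpa using this
  -- functionals on the image
  obtain ⟨w₁, hw₁, hw₁u⟩ : ∃ w ∈ L, w ∉ ln F E u := by
    by_contra hall
    push Not at hall
    refine hne (Submodule.eq_of_le_of_finrank_le hall ?_)
    rw [finrank_img, finrank_ln hu, finrank_ln hv']
  let ω : L →ₗ[F] E := ((S.φ.flip u).restrictScalars F) ∘ₗ L.subtype
  have hω : ∀ w : L, ω w = S.φ w u := fun w => rfl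
  have hkω : finrank F (LinearMap.ker ω) = e := by
    have h1 : LinearMap.ker ω = (L ⊓ ln F E u).comap L.subtype := by
      ext w
      refine ⟨fun hw => ⟨w.2, ?_⟩, fun hw => ?_⟩
      · by_contra h
        exact hgood w w.2 h (LinearMap.mem_ker.mp hw)
      · obtain ⟨l, hl⟩ := mem_ln.mp hw.2
        refine LinearMap.mem_ker.mpr ?_
        rw [hω, ← show l • u = (w : ι → F) from hl]
        simp [huu]
    rw [h1]
    exact LinearEquiv.finrank_eq (Submodule.comapSubtypeEquivOfLe inf_le_left)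
  have hWdim : finrank F (LinearMap.range ω) + e = finrank F E := by
    have h1 := ω.finrank_range_add_finrank_ker
    rw [hkω, finrank_img, finrank_ln hv'] at h1
    exact h1
  set w₁' : L := ⟨w₁, hw₁⟩
  let D₁ : Submodule F L := LinearMap.ker ω ⊔ Submodule.span F {w₁'}
  let Ψ : (E →ₗ[F] E) → Dual F L := fun B' => S.T ∘ₗ LinearMap.mulLeft F (B' (ω w₁')) ∘ₗ ω
  have hΨ : ∀ B' w, Ψ B' w = S.T (B' (ω w₁') * ω w) := fun B' w => rfl
  have hΨmem : ∀ B' ∈ 𝔅, Ψ B' ∈ D₁.dualAnnihilator := by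
    rintro B' ⟨ρ', hρ', hpure⟩
    rw [Submodule.mem_dualAnnihilator]
    intro w hw
    obtain ⟨a, ha, b, hb, rfl⟩ := Submodule.mem_sup.mp hw
    obtain ⟨s, rfl⟩ := Submodule.mem_span_singleton.mp hb
    have h1 : S.T (B' (ω w₁') * ω w₁') = 0 := by
      have h2 := hpure.2 (ω w₁') (ω w₁')
      rw [mul_comm] at h2
      exact (mul_eq_zero.mp (show (2 : F) * S.T (B' (ω w₁') * ω w₁') = 0 by
        linear_combination h2)).resolve_left S.two
    rw [map_add, map_smul, hΨ, hΨ, LinearMap.mem_ker.mp ha, h1, mul_zero, map_zero, smul_zero, add_zero]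
  have hΨ0 : ∀ B' ∈ 𝔅, Ψ B' = 0 → Cfsg.Geo.omegaGL (⇑Q) ≤ M ∨ B' = 0 := by
    rintro B' ⟨ρ', hρ', hpure⟩ h0
    have hfix : ∀ x ∈ ln F E u, ap ρ' x = x := by
      intro x hx
      obtain ⟨l, rfl⟩ := mem_ln.mp hx
      rw [hpure.1]; simp [huu]
    -- the moved vector stays in the image
    have hin : B' (ω w₁') • u ∈ L := by
      let Θ : E →ₗ[F] Dual F L :=
        { toFun := fun a => S.T ∘ₗ LinearMap.mulLeft F a ∘ₗ ω
          map_add' := fun a b => LinearMap.ext fun w => by simp [add_mul]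
          map_smul' := fun s a => LinearMap.ext fun w => by simp }
      let Da : Submodule F E := L.comap ((LinearMap.toSpanSingleton E (ι → F) u).restrictScalars F)
      have hle : Da ≤ LinearMap.ker Θ := by
        intro a ha
        refine LinearMap.mem_ker.mpr (LinearMap.ext fun w => ?_)
        show S.T (a * ω w) = 0
        rw [hω, S.symm, ← S.polar_smul']
        obtain ⟨l₁, hl₁⟩ := mem_ln.mp (mem_img'.mp (show a • u ∈ L from ha))
        obtain ⟨l₂, hl₂⟩ := mem_ln.mp (mem_img'.mp w.2)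
        rw [← ap_ap_inv g (a • u), ← ap_ap_inv g (w : ι → F), polar_ap (hM hg), ← hl₁, ← hl₂, S.polar_smul]
        simp [hvv']
      have hDa : e ≤ finrank F Da := by
        let i : ↥(L ⊓ ln F E u) →ₗ[F] Submodule.map
            ((LinearMap.toSpanSingleton E (ι → F) u).restrictScalars F) Da :=
          (L ⊓ ln F E u).subtype.codRestrict _ fun x => by
            obtain ⟨a, ha⟩ := mem_ln.mp x.2.2
            exact ⟨a, show a • u ∈ L by rw [ha]; exact x.2.1, ha⟩
        exact (LinearMap.finrank_le_finrank_of_injective (f := i) fun x y h =>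
          Subtype.ext (congrArg Subtype.val h :)).trans (Submodule.finrank_map_le _ _)
      have hΘ : finrank F (LinearMap.range ω) ≤ finrank F (LinearMap.range Θ) := by
        have h1 : LinearMap.range ω.dualMap ≤ LinearMap.range Θ := by
          rintro _ ⟨χ, rfl⟩
          obtain ⟨a, ha⟩ := exists_mul_rep S.T_ne χ
          exact ⟨a, LinearMap.ext fun w => by
            show S.T (a * ω w) = χ (ω w)
            rw [mul_comm, ha]⟩
        have h2 := Submodule.finrank_mono h1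
        rwa [LinearMap.finrank_range_dualMap_eq_finrank_range] at h2
      have heq : Da = LinearMap.ker Θ := by
        refine Submodule.eq_of_le_of_finrank_le hle ?_
        have h1 := Θ.finrank_range_add_finrank_ker
        omega
      have h3 : B' (ω w₁') ∈ LinearMap.ker Θ := LinearMap.mem_ker.mpr h0
      rw [← heq] at h3
      exact h3
    have hw' : ap ρ' w₁ ∈ L := by
      rw [hpure.1]
      exact Submodule.add_mem _ hw₁ hin
    rcases S.fix_of_stab hR hMΩ hr h5 hn hmax.1 hρ' (S.stab hMΩ hmax hρ' hfix hw₁ hw₁u hw') hfix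
      (fun x _ => by
        rw [show ap ρ' x - x = B' (S.φ x u) • u by rw [hpure.1, add_sub_cancel_left],
          hfix _ (smul_mem_ln u _), sub_self, ap_zero]) with h | h
    · exact Or.inl h
    · refine Or.inr ?_
      by_contra hB'0
      have hle : LinearMap.range ω ≤ LinearMap.ker B' := by
        rintro _ ⟨w, rfl⟩
        have h1 := h w w.2
        rw [hpure.1, add_eq_left, smul_eq_zero] at h1
        exact LinearMap.mem_ker.mpr (h1.resolve_right hu)
      obtain ⟨b, hb, hb'⟩ := S.exists_kernel hodd hpure.2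
      obtain ⟨hpair, hsize⟩ := S.pair_of_pure hMΩ huu hqq huq hρ' hpure hB'0 hb hb'
      have h1 := (Submodule.finrank_mono hle).trans (hsize.trans (hmax.2 _ _ _ hpair))
      omega
  by_contra hnot
  -- counting
  have : Fintype Eˣ := Fintype.ofFinite _
  have := Fintype.ofFinite F
  have : Finite D₁.dualAnnihilator := Module.finite_of_finite F
  have := Fintype.ofFinite D₁.dualAnnihilator
  let χ : Eˣ → D₁.dualAnnihilator := fun b => ⟨_, hΨmem _ (horb b)⟩
  have hinj : ∀ b b' : Eˣ, χ b = χ b' → (b : E) ^ 4 = (b' : E) ^ 4 := by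
    intro b b' hbb
    have h1 := hΨ0 _ (hsub _ _ (horb b) (horb b')) (LinearMap.ext fun w => by
      have h2 : Ψ (LinearMap.mulLeft F ((b : E) * b) ∘ₗ B₁ ∘ₗ LinearMap.mulLeft F ((b : E) * b)) w =
          Ψ (LinearMap.mulLeft F ((b' : E) * b') ∘ₗ B₁ ∘ₗ LinearMap.mulLeft F ((b' : E) * b')) w :=
        LinearMap.congr_fun (congrArg Subtype.val hbb) w
      rw [hΨ, hΨ] at h2
      simp only [hΨ, LinearMap.sub_apply, sub_mul, map_sub, h2, sub_self, LinearMap.zero_apply])
    rcases h1 with h | h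
    · exact absurd h hnot
    set a := (b : E) * b with ha
    set a' := (b' : E) * b' with ha'
    have ha0 : a ≠ 0 := mul_ne_zero b.ne_zero b.ne_zero
    have ha'0 : a' ≠ 0 := mul_ne_zero b'.ne_zero b'.ne_zero
    have h2 := hstab (a / a') (div_ne_zero ha0 ha'0) (LinearMap.ext fun x => by
      have h3 : a * B₁ (a * (x / a')) = a' * B₁ (a' * (x / a')) :=
        LinearMap.congr_fun (sub_eq_zero.mp h) (x / a')
      simp only [LinearMap.comp_apply, LinearMap.mulLeft_apply]
      rw [mul_div_cancel₀ _ ha'0, ← mul_div_assoc, ← div_mul_eq_mul_div] at h3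
      rw [div_mul_eq_mul_div a a' (B₁ _), h3, mul_div_cancel_left₀ _ ha'0])
    rw [div_mul_div_comm, div_eq_one_iff_eq (mul_ne_zero ha'0 ha'0)] at h2
    linear_combination h2
  have hcard : Fintype.card Eˣ ≤ 4 * Fintype.card D₁.dualAnnihilator := by
    rw [← Finset.card_univ (α := Eˣ), ← Finset.card_univ (α := D₁.dualAnnihilator)]
    refine Finset.card_le_mul_card_image_of_maps_to (f := χ) (fun _ _ => Finset.mem_univ _) 4 fun y _ => ?_
    by_cases hy : ∃ b, χ b = y
    swap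
    · push Not at hy
      rw [Finset.filter_eq_empty_iff.mpr fun b _ => hy b]; simp
    obtain ⟨b₁, hb₁⟩ := hy
    refine (Finset.card_le_card_of_injOn (fun b : Eˣ => (b : E))
      (t := (Polynomial.nthRoots 4 ((b₁ : E) ^ 4)).toFinset) (fun b hb => ?_)
      (fun a _ b _ h => Units.ext h)).trans
      ((Multiset.toFinset_card_le _).trans (Polynomial.card_nthRoots _ _))
    rw [Finset.mem_coe, Multiset.mem_toFinset, Polynomial.mem_nthRoots (by norm_num)]
    exact hinj b b₁ ((Finset.mem_filter.mp hb).2.trans hb₁.symm)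
  have hdim : finrank F D₁.dualAnnihilator + 2 ≤ finrank F E := by
    have h1 := Subspace.finrank_add_finrank_dualAnnihilator_eq D₁
    rw [finrank_img, finrank_ln hv'] at h1
    have h2 : finrank F (LinearMap.ker ω) < finrank F D₁ :=
      Submodule.finrank_lt_finrank_of_lt (lt_of_le_of_ne le_sup_left fun h => hw₁u (by
        have h4 : w₁' ∈ LinearMap.ker ω := by
          rw [h]; exact Submodule.mem_sup_right (Submodule.mem_span_singleton_self _)
        by_contra h3
        exact hgood w₁ hw₁ h3 (LinearMap.mem_ker.mp h4)))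
    have he1 : e ≠ 0 := fun h0 => hz0 (ap_injective g (by
      have h1 : ap g z ∈ L ⊓ ln F E u :=
        Submodule.mem_inf.mpr ⟨mem_img'.mpr (by rw [ap_inv_ap]; exact hz), hgz⟩
      rw [Submodule.finrank_eq_zero.mp h0, Submodule.mem_bot] at h1
      rw [h1, ap_zero]))
    omega
  have hq : 3 ≤ Fintype.card F := by
    have h1 : 1 < Fintype.card F := Fintype.one_lt_card
    by_contra h3
    have h4 : ((Fintype.card F : ℕ) : F) = 0 := FiniteField.cast_card_eq_zero F
    rw [show Fintype.card F = 2 by omega] at h4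
    exact S.two (by exact_mod_cast h4)
  obtain ⟨j, hj⟩ := Nat.le.dest hdim
  rw [← Nat.card_eq_fintype_card, Nat.card_units, Module.natCard_eq_pow_finrank (K := F) (V := E),
    ← Nat.card_eq_fintype_card, Module.natCard_eq_pow_finrank (K := F) (V := D₁.dualAnnihilator),
    Nat.card_eq_fintype_card, ← hj, pow_add, pow_add] at hcard
  set q := Fintype.card F
  set A := q ^ finrank F D₁.dualAnnihilator
  have h1 : 9 ≤ q ^ 2 := Nat.pow_le_pow_left hq 2
  have h2 : 1 ≤ A := Nat.one_le_pow _ _ (by omega)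
  have h3 : 1 ≤ q ^ j := Nat.one_le_pow _ _ (by omega)
  have h4 : A * 9 ≤ A * q ^ 2 := Nat.mul_le_mul_left _ h1
  have h5 : A * q ^ 2 ≤ A * q ^ 2 * q ^ j := Nat.le_mul_of_pos_right _ h3
  omega

end OForm

end CfsgLib.Geometric.ExtF
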