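import Cfsg.Agent.Lib.Geometric.ExtField.OrthPure

/-!
Degree three: one pure element gives everything. A commutator of two pure elements at opposite isotropic
lines stabilises one of them and is not semilinear on it.
-/

set_option autoImplicit false
set_option linter.unusedSectionVars false

namespace CfsgLib.Geometric.ExtF

open Module Matrix QuadraticMap CfsgLib.ClassicalForms CfsgLib.Geometric.Orth

variable {F : Type*} [Field F] {ι : Type} [Fintype ι] [DecidableEq ι] {E : Type*} [Field E] [Algebra F E]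
  [Module E (ι → F)] [IsScalarTower F E (ι → F)] [Finite F] [Finite E]

namespace OForm

variable {Q : QuadraticForm F (ι → F)} (S : OForm Q E)

include S in
/-- The vectors paired to zero with two independent ones form a line, in degree three. -/
lemma mem_span_of_pairing (h3 : finrank F E = 3) {x y z w : E} (hxy : y ∉ Submodule.span F {x})
    (hx : x ≠ 0) (hz : z ≠ 0) (hzx : S.T (z * x) = 0) (hzy : S.T (z * y) = 0)
    (hwx : S.T (w * x) = 0) (hwy : S.T (w * y) = 0) : w ∈ Submodule.span F {z} := by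
  have hfin : Module.Finite F E := Module.Finite.of_finite
  let Φ : E →ₗ[F] Dual F E :=
    { toFun := fun a => S.T ∘ₗ LinearMap.mulLeft F a
      map_add' := fun a b => LinearMap.ext fun t => by simp [add_mul]
      map_smul' := fun c a => LinearMap.ext fun t => by simp }
  have hΦ : Function.Injective Φ := (injective_iff_map_eq_zero Φ).mpr fun a ha => S.ext_T fun t => by
    have := LinearMap.congr_fun ha t
    simp only [Φ, LinearMap.coe_mk, AddHom.coe_mk, LinearMap.comp_apply, LinearMap.mulLeft_apply,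
      LinearMap.zero_apply] at this
    rw [mul_comm, this, mul_zero, map_zero]
  set W := Submodule.span F {x} ⊔ Submodule.span F {y} with hW
  have hW2 : 2 ≤ finrank F W := by
    have hlt : Submodule.span F {x} < W := lt_of_le_of_ne le_sup_left fun h => hxy (by
      rw [h]; exact Submodule.mem_sup_right (Submodule.mem_span_singleton_self _))
    have := Submodule.finrank_lt_finrank_of_lt hlt
    rw [finrank_span_singleton hx] at this
    omega
  have hann : ∀ a, S.T (a * x) = 0 → S.T (a * y) = 0 → Φ a ∈ W.dualAnnihilator := fun a h1 h2 => by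
    rw [Submodule.mem_dualAnnihilator]
    intro t ht
    obtain ⟨t₁, ht₁, t₂, ht₂, rfl⟩ := Submodule.mem_sup.mp ht
    obtain ⟨s₁, rfl⟩ := Submodule.mem_span_singleton.mp ht₁
    obtain ⟨s₂, rfl⟩ := Submodule.mem_span_singleton.mp ht₂
    simp only [Φ, LinearMap.coe_mk, AddHom.coe_mk, LinearMap.comp_apply, LinearMap.mulLeft_apply, mul_add,
      mul_smul_comm, map_add, map_smul, h1, h2, smul_zero, add_zero]
  have hdim := Subspace.finrank_add_finrank_dualAnnihilator_eq W
  have hle : Submodule.span F {Φ z} ≤ W.dualAnnihilator :=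
    (Submodule.span_singleton_le_iff_mem _ _).mpr (hann z hzx hzy)
  have heq := Submodule.eq_of_le_of_finrank_le hle (by
    rw [finrank_span_singleton (fun h => hz (hΦ (by rw [h, map_zero])))]; omega)
  obtain ⟨s, hs⟩ := Submodule.mem_span_singleton.mp (heq ▸ hann w hwx hwy : Φ w ∈ Submodule.span F {Φ z})
  exact Submodule.mem_span_singleton.mpr ⟨s, hΦ (by rw [map_smul, hs])⟩

include S in
/-- The kernel of a skew map other than zero is a line, in degree three. -/
lemma skew_kernel (h3 : finrank F E = 3) {B : E →ₗ[F] E} (hB0 : B ≠ 0)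
    (hB : ∀ b c, S.T (c * B b) = - S.T (b * B c)) {k : E} (hk : k ≠ 0) (hBk : B k = 0) {x : E}
    (hx : B x = 0) : x ∈ Submodule.span F {k} := by
  by_contra hxk
  obtain ⟨w, hw⟩ : ∃ w, B w ≠ 0 := by
    by_contra hall
    push Not at hall
    exact hB0 (LinearMap.ext hall)
  have hperp : ∀ a b, B a = 0 → S.T (B b * a) = 0 := fun a b ha => by
    rw [mul_comm, hB, ha, mul_zero, map_zero, neg_zero]
  have hself : ∀ a, S.T (a * B a) = 0 := fun a => by
    refine (mul_eq_zero.mp (show (2 : F) * S.T (a * B a) = 0 by linear_combination hB a a)).resolve_left S.two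
  have hline : ∀ b, B b ∈ Submodule.span F {B w} := fun b =>
    S.mem_span_of_pairing h3 hxk hk hw (hperp k w hBk) (hperp x w hx) (hperp k b hBk) (hperp x b hx)
  have hzero : ∀ a, S.T (a * B w) ≠ 0 → B a = 0 := fun a ha => by
    obtain ⟨s, hs⟩ := Submodule.mem_span_singleton.mp (hline a)
    have h1 := hself a
    rw [← hs, mul_smul_comm, map_smul, smul_eq_mul] at h1
    rw [← hs, (mul_eq_zero.mp h1).resolve_right ha, zero_smul]
  obtain ⟨e, he⟩ : ∃ e, S.T (e * B w) ≠ 0 := by
    by_contra hall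
    push Not at hall
    exact hw (S.ext_T fun c => by rw [hall, mul_zero, map_zero])
  have he' := hzero e he
  have h1 := hzero (w + e) (by rw [add_mul, map_add, hself, zero_add]; exact he)
  rw [map_add, he', add_zero] at h1
  exact hw h1

variable {M : Subgroup (GL ι F)}
  (hR : ∀ g ∈ Cfsg.Geo.omegaGL (⇑Q), IsSemi E g → g ∈ M)
  (hMΩ : M ≤ Cfsg.Geo.omegaGL (⇑Q))

include hR hMΩ

/-- Pure elements are moved between lines and scaled by squares. -/
lemma pure_transport {v p : ι → F} (hv : v ≠ 0) (hvv : S.φ v v = 0) (hpp : S.φ p p = 0) (hvp : S.φ v p = 1)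
    {ρ : GL ι F} (hρ : ρ ∈ M) {B : E →ₗ[F] E} (hB : S.IsPure v ρ B) :
    ∃ c : E, c ≠ 0 ∧ ∀ b : E, b ≠ 0 → ∃ ρ' ∈ M, ∃ B', S.IsPure p ρ' B' ∧
      ∀ x, B' x = c * (b * b)⁻¹ * B (c * (b * b)⁻¹ * x) := by
  have hM : M ≤ Cfsg.isometryGroup F (⇑Q) := hMΩ.trans omegaGL_le
  have hp : p ≠ 0 := fun h => by rw [h, map_zero] at hvp; exact zero_ne_one hvp
  have hpv : S.φ p v = 1 := by rw [S.symm, hvp]
  obtain ⟨k, hk, hkl, hkf, c, hc, hkv⟩ := S.exists_move hR hv hp hvv hpp
  refine ⟨c, hc, fun b hb => ?_⟩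
  have hbb : b * b ≠ 0 := mul_ne_zero hb hb
  set m := S.torus v p (b * b) * k with hm
  have hml : ∀ (a : E) x, ap m (a • x) = a • ap m x := fun a x => by
    rw [hm, ap_mul, ap_mul, hkl, S.torus_linear hvv hpp hvp hbb]
  have hmv : ap m v = (c * (b * b)⁻¹) • p := by
    rw [hm, ap_mul, hkv, S.torus_linear hvv hpp hvp hbb, S.torus_p hvv hpp hvp hbb, smul_smul]
  obtain ⟨ρ', hρ', hB'⟩ := S.pure_conj hMΩ hρ hB (mul_mem (S.torus_sq_mem' hR hvv hpp hvp hb) hk : m ∈ M)
    hml hmv
  exact ⟨ρ', hρ', _, hB', fun x => rfl⟩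

/-- One pure element gives everything, in degree three. -/
theorem le_of_pure_cubic (h3 : finrank F E = 3) (hn : 5 ≤ Fintype.card ι) {v : ι → F}
    (hv : v ≠ 0) (hvv : S.φ v v = 0) {ρ : GL ι F} (hρ : ρ ∈ M) {B : E →ₗ[F] E} (hB0 : B ≠ 0)
    (hB : S.IsPure v ρ B) : Cfsg.Geo.omegaGL (⇑Q) ≤ M := by
  classical
  have hM : M ≤ Cfsg.isometryGroup F (⇑Q) := hMΩ.trans omegaGL_le
  have hfin : Module.Finite F E := Module.Finite.of_finite
  have hr : (finrank F E).Prime := by rw [h3]; exact Nat.prime_three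
  obtain ⟨k, hk, hBk⟩ := S.exists_kernel (hr.odd_of_ne_two (by omega)) hB.2
  obtain ⟨p, hpp, hvp⟩ := S.exists_partner hv hvv
  have hpv : S.φ p v = 1 := by rw [S.symm, hvp]
  obtain ⟨c, hc, htr⟩ := S.pure_transport hR hMΩ hv hvv hpp hvp hρ hB
  -- the opposite element with kernel paired to zero
  let Bq : Unit → E →ₗ[F] E →ₗ[F] F := fun _ => LinearMap.mk₂ F
    (fun a b => S.T (k * k / c * (a * b)))
    (fun a a' b => by rw [add_mul, mul_add, map_add])
    (fun s a b => by rw [smul_mul_assoc, mul_smul_comm, map_smul])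
    (fun a b b' => by rw [mul_add, mul_add, map_add])
    (fun s a b => by rw [mul_smul_comm, mul_smul_comm, map_smul])
  obtain ⟨β, hβ, hβ'⟩ := exists_common_zero Bq 0 (by rw [Fintype.card_unit]; omega)
  replace hβ' : S.T (k * k / c * (β * β)) = 0 := by simpa [Bq] using hβ' ()
  obtain ⟨ρ', hρ', B', hB', hB'x⟩ := htr β hβ
  set k' := k * (β * β) / c with hk'
  have hk'0 : k' ≠ 0 := div_ne_zero (mul_ne_zero hk (mul_ne_zero hβ hβ)) hc
  have hB'k : B' k' = 0 := by
    rw [hB'x, show c * (β * β)⁻¹ * k' = k by rw [hk']; field_simp, hBk, mul_zero]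
  have hB'0 : B' ≠ 0 := fun h => hB0 (LinearMap.ext fun x => by
    have h1 := hB'x ((c * (β * β)⁻¹)⁻¹ * x)
    rw [h, LinearMap.zero_apply, mul_inv_cancel_left₀ (mul_ne_zero hc (inv_ne_zero (mul_ne_zero hβ hβ)))] at h1
    exact (mul_eq_zero.mp h1.symm).resolve_left (mul_ne_zero hc (inv_ne_zero (mul_ne_zero hβ hβ))))
  have hkk' : S.T (k' * k) = 0 := by
    rw [← hβ', hk']; congr 1; ring
  have hperp : ∀ {C : E →ₗ[F] E}, (∀ b e, S.T (e * C b) = - S.T (b * C e)) → ∀ a b, C a = 0 →
      S.T (C b * a) = 0 := fun {C} hC a b ha => by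
    rw [mul_comm, hC, ha, mul_zero, map_zero, neg_zero]
  have hself : ∀ a, S.T (B a * a) = 0 := fun a => by
    refine (mul_eq_zero.mp (show (2 : F) * S.T (B a * a) = 0 by
      rw [mul_comm (B a)]; linear_combination hB.2 a a)).resolve_left S.two
  have hBBB : ∀ a, B' (B (B' a)) = 0 := by
    intro a
    by_cases hy : B' a ∈ Submodule.span F {k}
    · obtain ⟨s, hs⟩ := Submodule.mem_span_singleton.mp hy
      rw [← hs, map_smul, hBk, smul_zero, map_zero]
    have hy' : S.T (k' * B' a) = 0 := by rw [mul_comm]; exact hperp hB'.2 k' a hB'k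
    obtain ⟨s, hs⟩ := Submodule.mem_span_singleton.mp (S.mem_span_of_pairing h3 hy hk hk'0 hkk' hy'
      (hperp hB.2 k (B' a) hBk) (hself _))
    rw [← hs, map_smul, hB'k, smul_zero]
  set D : E →ₗ[F] E := B ∘ₗ B' with hD
  have hD0 : D ≠ 0 := by
    intro h0
    have hle : LinearMap.range B' ≤ Submodule.span F {k} := by
      rintro _ ⟨a, rfl⟩
      exact S.skew_kernel h3 hB0 hB.2 hk hBk (LinearMap.congr_fun h0 a)
    have h1 := B'.finrank_range_add_finrank_ker
    have h2 := Submodule.finrank_mono hle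
    have h4 : finrank F (LinearMap.ker B') ≤ 1 := by
      rw [← finrank_span_singleton hk'0 (K := F)]
      exact Submodule.finrank_mono fun x hx => S.skew_kernel h3 hB'0 hB'.2 hk'0 hB'k (LinearMap.mem_ker.mp hx)
    rw [finrank_span_singleton hk] at h2
    omega
  -- the commutator
  have hρinv : ∀ a : E, ap ρ⁻¹ (a • v) = a • v := fun a => by
    conv_lhs => rw [show a • v = ap ρ (a • v) by rw [hB.1]; simp [hvv]]
    rw [ap_inv_ap]
  have hρ'inv : ∀ x, ap ρ'⁻¹ x = x - B' (S.φ x p) • p := fun x => by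
    refine ap_injective ρ' ?_
    rw [ap_ap_inv, hB'.1]
    simp [hpp]
  set h := ρ' * ρ * ρ'⁻¹ * ρ⁻¹ with hh
  have hhM : h ∈ M := mul_mem (mul_mem (mul_mem hρ' hρ) (inv_mem hρ')) (inv_mem hρ)
  have hhv : ∀ a : E, ap h (a • v) = (a - D a) • v := fun a => by
    have e1 : S.φ (a • v - B' a • p) v = -B' a := by simp [hvv, hpv]
    have e2 : S.φ (a • v - B' a • p + B (-B' a) • v) p = a - B (B' a) := by simp [hvp, hpp, sub_eq_add_neg]
    rw [hh, ap_mul, ap_mul, ap_mul, hρinv, hρ'inv, show S.φ (a • v) p = a by simp [hvp], hB.1, e1, hB'.1, e2,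
      map_sub, hBBB, sub_zero, hD, LinearMap.comp_apply, map_neg]
    module
  have hst : ∀ x ∈ ln F E v, ap h x ∈ ln F E v := by
    intro x hx
    obtain ⟨a, rfl⟩ := mem_ln.mp hx
    rw [hhv]; exact smul_mem_ln v _
  obtain ⟨G, hG⟩ := exists_onLine hv hst
  have hGa : ∀ a, G a = a - D a := fun a => smul_left_injective E hv (by
    show G a • v = (a - D a) • v
    rw [← hG, hhv])
  have hN : ¬ Nrm G.toLinearMap := by
    intro hN
    have hker : 2 ≤ finrank F (LinearMap.ker D) := by
      have h1 := D.finrank_range_add_finrank_ker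
      have h2 : LinearMap.range D ≤ LinearMap.ker D := by
        rintro _ ⟨a, rfl⟩
        simp [hD, hBBB]
      have h4 := Submodule.finrank_mono h2
      omega
    obtain ⟨a, ha, ha0⟩ := (Submodule.ne_bot_iff (LinearMap.ker D)).mp fun h => by
      rw [h, finrank_bot] at hker; omega
    obtain ⟨b, hb, hbF⟩ : ∃ b ∈ LinearMap.ker D, b / a ∉ Set.range (algebraMap F E) := by
      by_contra hall
      push Not at hall
      have hle : LinearMap.ker D ≤ Submodule.span F {a} := fun b hb => by
        obtain ⟨s, hs⟩ := hall b hb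
        refine Submodule.mem_span_singleton.mpr ⟨s, ?_⟩
        rw [Algebra.smul_def, hs, div_mul_cancel₀ _ ha0]
      have h1 := Submodule.finrank_mono hle
      rw [finrank_span_singleton ha0] at h1
      omega
    refine hD0 (LinearMap.ext fun x => ?_)
    have h1 : G x = x := nrm_id hr hN ha0
      (by show G a = a; rw [hGa, LinearMap.mem_ker.mp ha, sub_zero])
      (by show G b = b; rw [hGa, LinearMap.mem_ker.mp hb, sub_zero]) hbF x
    rw [hGa, sub_eq_self] at h1
    exact h1
  exact S.le_of_lineFull hR hM hr hn hv hvv (S.lineFull_of_not_nrm hR hM hr hv hvv hhM G hG hN)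

end OForm

end CfsgLib.Geometric.ExtF
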