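import Cfsg.Agent.Lib.Geometric.ExtField.OrthFix

/-!
Linear elements of `omegaGL` in dimension three over the extension: their axes, and when a semilinear element is
linear.
-/

set_option autoImplicit false
set_option linter.unusedSectionVars false

namespace CfsgLib.Geometric.ExtF

open Module Matrix QuadraticMap CfsgLib.ClassicalForms CfsgLib.Geometric.Orth

variable {F : Type*} [Field F] {ι : Type} [Fintype ι] [DecidableEq ι] {E : Type*} [Field E] [Algebra F E]
  [Module E (ι → F)] [IsScalarTower F E (ι → F)] [Finite F] [Finite E]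

/-- Independent fixed vectors of a semilinear element stay independent over the extension when only the base
field commutes with it. -/
lemma indep_of_fixed {g : GL ι F} (hg : IsSemi E g) (W : Submodule F (ι → F)) (hW : ∀ x ∈ W, ap g x = x)
    (hC : ∀ c : E, (∀ x, ap g (c • x) = c • ap g x) → c ∈ Set.range (algebraMap F E)) :
    ∀ (k : ℕ) (f : Fin k → ι → F), (∀ i, f i ∈ W) → LinearIndependent F f → LinearIndependent E f := by
  intro k
  induction k with
  | zero => exact fun f _ _ => linearIndependent_empty_type
  | succ k ih =>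
    intro f hf hli
    rw [linearIndependent_fin_succ] at hli ⊢
    have ht := ih (Fin.tail f) (fun i => hf _) hli.1
    refine ⟨ht, fun hmem => hli.2 ?_⟩
    obtain ⟨c, hc⟩ := (Submodule.mem_span_range_iff_exists_fun E).mp hmem
    choose d hd using fun i => hg (c i)
    have h1 : ∑ i, (d i - c i) • Fin.tail f i = 0 := by
      have h2 : ap g (f 0) = f 0 := hW _ (hf 0)
      rw [← hc, ← apEquiv_apply, map_sum] at h2
      rw [← sub_eq_zero.mpr h2, ← Finset.sum_sub_distrib]
      refine Finset.sum_congr rfl fun i _ => ?_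
      rw [apEquiv_apply, hd, show ap g (Fin.tail f i) = Fin.tail f i from hW _ (hf _), sub_smul]
    have h3' := Fintype.linearIndependent_iff.mp ht _ h1
    have hcC : ∀ i, c i ∈ Set.range (algebraMap F E) := fun i => hC _ fun x => by
      rw [hd, sub_eq_zero.mp (h3' i)]
    choose s hs using hcC
    refine (Submodule.mem_span_range_iff_exists_fun F).mpr ⟨s, ?_⟩
    rw [← hc]
    exact Finset.sum_congr rfl fun i _ => by rw [← hs i, algebraMap_smul]

/-- A semilinear element with four independent fixed vectors in dimension three is linear. -/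
lemma linear_of_fixed (hr : (finrank F E).Prime) (h3 : finrank E (ι → F) = 3) {g : GL ι F} (hg : IsSemi E g)
    (W : Submodule F (ι → F)) (hW : ∀ x ∈ W, ap g x = x) (hdim : 4 ≤ finrank F W) (a : E) (x : ι → F) :
    ap g (a • x) = a • ap g x := by
  have : Module.Finite E (ι → F) := Module.Finite.of_restrictScalars_finite F E _
  let C : Subalgebra F E :=
    { carrier := {c | ∀ x, ap g (c • x) = c • ap g x}
      mul_mem' := fun {a b} ha hb x => by rw [mul_smul, ha, hb, mul_smul]
      one_mem' := fun x => by rw [one_smul, one_smul]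
      add_mem' := fun {a b} ha hb x => by rw [add_smul, ap_add, ha, hb, add_smul]
      zero_mem' := fun x => by rw [zero_smul, ap_zero, zero_smul]
      algebraMap_mem' := fun c x => by rw [algebraMap_smul, ap_smul, algebraMap_smul] }
  by_cases hC : ∀ c ∈ C, c ∈ Set.range (algebraMap F E)
  swap
  · push Not at hC
    obtain ⟨c, hc, hcF⟩ := hC
    exact (show a ∈ C from subalgebra_eq_top hr hc hcF ▸ Algebra.mem_top) x
  exfalso
  have key := indep_of_fixed hg W hW fun c hc => hC c hc
  let b := finBasis F W
  have hli : LinearIndependent F (fun i => (b i : ι → F)) :=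
    b.linearIndependent.map' W.subtype W.ker_subtype
  have := (key _ _ (fun i => (b i).2) hli).fintype_card_le_finrank
  rw [Fintype.card_fin, h3] at this
  omega

/-- A semilinear element acts on the scalars by an automorphism. -/
lemma IsSemi.exists_aut {g : GL ι F} (hg : IsSemi E g) {v : ι → F} (hv : v ≠ 0) :
    ∃ σ : E ≃ₐ[F] E, ∀ (a : E) x, ap g (a • x) = σ a • ap g x := by
  choose σ hσ using hg
  have hgv : ap g v ≠ 0 := fun h => hv (ap_injective g (by rw [h, ap_zero]))
  let σlin : E →ₗ[F] E :=
    { toFun := σ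
      map_add' := fun a b => smul_left_injective E hgv (by
        show σ (a + b) • ap g v = (σ a + σ b) • ap g v
        rw [← hσ, add_smul, ap_add, hσ, hσ, add_smul])
      map_smul' := fun s a => smul_left_injective E hgv (by
        show σ (s • a) • ap g v = (s • σ a) • ap g v
        rw [← hσ, smul_assoc, ap_smul, hσ, smul_assoc]) }
  let σh : E →ₐ[F] E := AlgHom.ofLinearMap σlin (smul_left_injective E hgv (by
      show σ 1 • ap g v = (1 : E) • ap g v
      rw [← hσ, one_smul, one_smul]))
    (fun a b => smul_left_injective E hgv (by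
      show σ (a * b) • ap g v = (σ a * σ b) • ap g v
      rw [← hσ, mul_smul, hσ, hσ, smul_smul]))
  exact ⟨AlgEquiv.ofBijective σh (Finite.injective_iff_bijective.mp σh.toRingHom.injective), hσ⟩

namespace OForm

variable {Q : QuadraticForm F (ι → F)} (S : OForm Q E)

include S in
/-- Everything orthogonal to two independent vectors is a multiple of any such vector. -/
lemma perp_unique (h3 : finrank E (ι → F) = 3) {v w y : ι → F} (hv : v ≠ 0) (hw : ∀ a : E, a • v ≠ w)
    (hy : y ≠ 0) (hyv : S.φ y v = 0) (hyw : S.φ y w = 0) {x : ι → F} (hxv : S.φ x v = 0)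
    (hxw : S.φ x w = 0) : ∃ a : E, a • y = x := by
  have := S.finite_E
  let K := LinearMap.ker (LinearMap.pi ![S.φ v, S.φ w])
  have hmem : ∀ z, S.φ z v = 0 → S.φ z w = 0 → z ∈ K := fun z h1 h2 =>
    LinearMap.mem_ker.mpr (funext fun i => by fin_cases i <;> simp [S.symm v z, S.symm w z, h1, h2])
  obtain ⟨Ψ, hΨv⟩ := exists_one (E := E) hv
  obtain ⟨a, ha⟩ := S.exists_eq Ψ
  obtain ⟨Ψ', hΨw, hΨ'v⟩ := exists_sep (E := E) (v := w) (u := v) hw
  obtain ⟨b, hb⟩ := S.exists_eq Ψ'
  have hsurj : LinearMap.range (LinearMap.pi ![S.φ v, S.φ w]) = ⊤ := by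
    refine top_unique fun c _ => ⟨c 0 • a + (c 1 - c 0 * S.φ w a) • b, funext fun i => ?_⟩
    fin_cases i <;> simp [ha v, hb v, hb w, hΨv, hΨw, hΨ'v]
  have h1 : finrank E (LinearMap.range (LinearMap.pi ![S.φ v, S.φ w])) + finrank E K = finrank E (ι → F) :=
    (LinearMap.pi ![S.φ v, S.φ w]).finrank_range_add_finrank_ker
  rw [hsurj, finrank_top, Module.finrank_fintype_fun_eq_card, Fintype.card_fin, h3] at h1
  obtain ⟨l, hl⟩ := (finrank_eq_one_iff_of_nonzero' (⟨y, hmem y hyv hyw⟩ : K)
    (fun h => hy (congrArg Subtype.val h))).mp (by show finrank E K = 1; omega) ⟨x, hmem x hxv hxw⟩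
  exact ⟨l, congrArg Subtype.val hl⟩

variable {n : GL ι F} (hn : n ∈ Cfsg.Geo.omegaGL (⇑Q)) (hl : ∀ (a : E) x, ap n (a • x) = a • ap n x)
include hn hl

include S in
/-- The fixed vectors of a linear element other than one form a line. -/
lemma fixed_line (h3 : finrank E (ι → F) = 3) (hodd : Odd (finrank F E)) (h1 : n ≠ 1) {z x : ι → F}
    (hz0 : z ≠ 0) (hz : ap n z = z) (hx : ap n x = x) : ∃ a : E, a • z = x := by
  classical
  by_contra hne
  push Not at hne
  apply h1
  have := S.finite_E
  have hφ := S.form_of_linear (omegaGL_le hn) hl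
  obtain ⟨y, hy, hperp⟩ := S.exists_perp ![z, x] (by omega)
  have yz : S.φ y z = 0 := hperp 0
  have yx : S.φ y x = 0 := hperp 1
  by_cases hmem : ∃ a b : E, a • z + b • x = y
  · obtain ⟨a, b, hab⟩ := hmem
    have hd : ∀ w, ∃ l : E, l • y = ap n w - w := fun w => by
      refine S.perp_unique h3 hz0 hne hy yz yx ?_ ?_
      · rw [map_sub, LinearMap.sub_apply]; nth_rw 1 [← hz]; rw [hφ, sub_self]
      · rw [map_sub, LinearMap.sub_apply]; nth_rw 1 [← hx]; rw [hφ, sub_self]
    have hyy : S.φ y y = 0 := by
      nth_rw 2 [← hab]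
      simp [yz, yx]
    choose f hf using hd
    have hrel : ∀ v w, f v * S.φ y w + f w * S.φ y v = 0 := fun v w => by
      have h := hφ v w
      rw [show ap n v = v + f v • y by rw [hf]; abel, show ap n w = w + f w • y by rw [hf]; abel] at h
      simp only [map_add, map_smul, LinearMap.add_apply, LinearMap.smul_apply, smul_eq_mul, hyy,
        S.symm v y] at h
      linear_combination h
    obtain ⟨q, hq⟩ := S.nondeg_ne hy
    have hfq : f q = 0 := by
      have h := hrel q q
      have : (2 : E) * (f q * S.φ y q) = 0 := by linear_combination h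
      simpa [S.two_E, hq] using this
    refine gl_ext fun w => ?_
    have h := hrel w q
    rw [hfq, zero_mul, add_zero] at h
    rw [ap_one, ← sub_eq_zero, ← hf, (mul_eq_zero.mp h).resolve_right hq, zero_smul]
  · push Not at hmem
    have hli : LinearIndependent E ![z, x, y] := by
      rw [Fintype.linearIndependent_iff]
      intro c hc
      simp [Fin.sum_univ_three] at hc
      have c2 : c 2 = 0 := by
        by_contra h2
        refine hmem (-(c 2)⁻¹ * c 0) (-(c 2)⁻¹ * c 1) ?_
        linear_combination (norm := (match_scalars <;> field_simp <;> ring)) (-(c 2)⁻¹) • hc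
      rw [c2, zero_smul, add_zero] at hc
      have c1 : c 1 = 0 := by
        by_contra h1'
        refine hne (-(c 1)⁻¹ * c 0) ?_
        linear_combination (norm := (match_scalars <;> field_simp <;> ring)) (-(c 1)⁻¹) • hc
      rw [c1, zero_smul, add_zero, smul_eq_zero] at hc
      intro i
      fin_cases i
      exacts [hc.resolve_right hz0, c1, c2]
    obtain ⟨l, hly⟩ := S.perp_unique h3 hz0 hne hy yz yx (x := ap n y)
      (by rw [← hz, hφ, yz]) (by rw [← hx, hφ, yx])
    let b := basisOfLinearIndependentOfCardEqFinrank hli (by simp [h3])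
    have hm : LinearMap.toMatrix b b (eLin n hl) = Matrix.diagonal ![1, 1, l] := by
      ext i j
      have hb : eLin n hl (b j) = (![1, 1, l] : Fin 3 → E) j • b j := by
        simp only [eLin_apply, b, coe_basisOfLinearIndependentOfCardEqFinrank]
        fin_cases j <;> simp [hz, hx, hly]
      rw [LinearMap.toMatrix_apply, hb, map_smul, b.repr_self, Finsupp.smul_single, smul_eq_mul, mul_one,
        Matrix.diagonal_apply, Finsupp.single_apply]
      by_cases hij : i = j
      · subst hij; simp
      · simp [hij, Ne.symm hij]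
    have hdet := S.det_eLin hodd hn hl
    rw [← LinearMap.det_toMatrix b, hm, Matrix.det_diagonal] at hdet
    have hl1 : l = 1 := by simpa [Fin.prod_univ_three] using hdet
    refine gl_ext fun w => ?_
    have h := b.sum_repr w
    simp only [Fin.sum_univ_three, b, coe_basisOfLinearIndependentOfCardEqFinrank, Matrix.cons_val_zero,
      Matrix.cons_val_one, Matrix.cons_val] at h
    rw [ap_one, ← h, ap_add, ap_add, hl, hl, hl, hz, hx, ← hly, hl1, one_smul]

include S in
/-- A linear element other than one with an anisotropic axis: its sum with the inverse is a scalar on the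
orthogonal of the axis, and the scalar is not two. -/
lemma rotation (h3 : finrank E (ι → F) = 3) (hodd : Odd (finrank F E)) (h1 : n ≠ 1) {y : ι → F}
    (hy : ap n y = y) (hyy : S.φ y y ≠ 0) :
    LinearMap.trace E (ι → F) (eLin n hl) - 1 ≠ 2 ∧ ∀ z, S.φ z y = 0 →
      ap n z + ap n⁻¹ z = (LinearMap.trace E (ι → F) (eLin n hl) - 1) • z := by
  classical
  have := S.finite_E
  have hφ := S.form_of_linear (omegaGL_le hn) hl
  have hy0 : y ≠ 0 := fun h => hyy (by rw [h, map_zero])
  let K : Submodule E (ι → F) := LinearMap.ker (S.φ y)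
  have hK : finrank E K = 2 := by
    have h : finrank E (LinearMap.range (S.φ y)) + finrank E K = finrank E (ι → F) :=
      (S.φ y).finrank_range_add_finrank_ker
    rw [LinearMap.range_eq_top.mpr (LinearMap.surjective fun h => hyy (by rw [h, LinearMap.zero_apply])),
      finrank_top, Module.finrank_self, h3] at h
    omega
  let bK := Module.finBasisOfFinrankEq E K hK
  have z1 : ∀ i, S.φ y (bK i : ι → F) = 0 := fun i => LinearMap.mem_ker.mp (bK i).2
  have hnz : ∀ i, ∃ a b : E, ap n (bK i : ι → F) = a • (bK 0 : ι → F) + b • (bK 1 : ι → F) := by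
    intro i
    have hmem : ap n (bK i : ι → F) ∈ K := LinearMap.mem_ker.mpr (by rw [← hy, hφ, z1])
    refine ⟨bK.repr ⟨_, hmem⟩ 0, bK.repr ⟨_, hmem⟩ 1, ?_⟩
    have h := congrArg K.subtype (bK.sum_repr ⟨_, hmem⟩)
    simp only [map_sum, map_smul, Submodule.coe_subtype, Fin.sum_univ_two] at h
    exact h.symm
  obtain ⟨a, b, hab⟩ := hnz 0
  obtain ⟨c, d, hcd⟩ := hnz 1
  have hli : LinearIndependent E ![y, (bK 0 : ι → F), (bK 1 : ι → F)] := by
    rw [Fintype.linearIndependent_iff]
    intro k hk
    simp [Fin.sum_univ_three] at hk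
    have k0 : k 0 = 0 := by
      have := congrArg (fun w => S.φ y w) hk
      simpa [z1, hyy] using this
    rw [k0, zero_smul, zero_add] at hk
    have h2 := Fintype.linearIndependent_iff.mp bK.linearIndependent ![k 1, k 2]
      (Subtype.ext (by simpa [Fin.sum_univ_two] using hk))
    intro i
    fin_cases i
    exacts [k0, h2 0, h2 1]
  let B := basisOfLinearIndependentOfCardEqFinrank hli (by simp [h3])
  have hm : LinearMap.toMatrix B B (eLin n hl) = !![1, 0, 0; 0, a, c; 0, b, d] := by
    ext i j
    have hb : eLin n hl (B j) = ∑ i, (!![1, 0, 0; 0, a, c; 0, b, d] : Matrix (Fin 3) (Fin 3) E) i j • B i := by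
      simp only [eLin_apply, B, coe_basisOfLinearIndependentOfCardEqFinrank]
      fin_cases j <;> simp [Fin.sum_univ_three, hy, hab, hcd]
    rw [LinearMap.toMatrix_apply, hb, B.repr_sum_self]
  have hdet : a * d - b * c = 1 := by
    have h := S.det_eLin hodd hn hl
    rw [← LinearMap.det_toMatrix B, hm, Matrix.det_fin_three] at h
    simp at h
    linear_combination h
  have htr : LinearMap.trace E (ι → F) (eLin n hl) - 1 = a + d := by
    rw [LinearMap.trace_eq_matrix_trace E B, hm, Matrix.trace_fin_three]
    simp; ring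
  rw [htr]
  refine ⟨fun h => ?_, fun z hz => ?_⟩
  · -- a fixed vector in the orthogonal
    have hfix : ∀ s t : E, (a - 1) * s + c * t = 0 → b * s + (d - 1) * t = 0 → s = 0 ∧ t = 0 := by
      intro s t e1 e2
      have hf : ap n (s • (bK 0 : ι → F) + t • (bK 1 : ι → F)) = s • (bK 0 : ι → F) + t • (bK 1 : ι → F) := by
        rw [ap_add, hl, hl, hab, hcd]
        match_scalars
        · linear_combination e1
        · linear_combination e2
      obtain ⟨l, hly⟩ := S.fixed_line hn hl h3 hodd h1 hy0 hy hf
      have h2 := congrArg (S.φ y) hly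
      simp [z1, hyy] at h2
      rw [h2, zero_smul, eq_comm] at hly
      have h4 := Fintype.linearIndependent_iff.mp bK.linearIndependent ![s, t]
        (Subtype.ext (by simpa [Fin.sum_univ_two] using hly))
      exact ⟨h4 0, h4 1⟩
    obtain ⟨-, e1⟩ := hfix (-c) (a - 1) (by ring) (by linear_combination hdet - h)
    obtain ⟨-, e2⟩ := hfix (d - 1) (-b) (by linear_combination hdet - h) (by ring)
    rw [sub_eq_zero] at e1
    rw [neg_eq_zero] at e2
    have hd : d = 1 := by linear_combination h - e1
    exact one_ne_zero (hfix 1 0 (by rw [e1]; ring) (by rw [e2, hd]; ring)).1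
  · obtain ⟨s, t, rfl⟩ : ∃ s t : E, z = s • (bK 0 : ι → F) + t • (bK 1 : ι → F) := by
      have hmem : z ∈ K := LinearMap.mem_ker.mpr (by rw [S.symm]; exact hz)
      refine ⟨bK.repr ⟨z, hmem⟩ 0, bK.repr ⟨z, hmem⟩ 1, ?_⟩
      have h := congrArg K.subtype (bK.sum_repr ⟨z, hmem⟩)
      simp only [map_sum, map_smul, Submodule.coe_subtype, Fin.sum_univ_two] at h
      exact h.symm
    have hinv : ap n⁻¹ (s • (bK 0 : ι → F) + t • (bK 1 : ι → F)) =
        (s * d - t * c) • (bK 0 : ι → F) + (t * a - s * b) • (bK 1 : ι → F) := by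
      refine ap_injective n ?_
      rw [ap_ap_inv, ap_add n ((s * d - t * c) • _), hl, hl, hab, hcd]
      match_scalars
      · linear_combination -s * hdet
      · linear_combination -t * hdet
    rw [hinv, ap_add, hl, hl, hab, hcd]
    match_scalars <;> ring

end OForm

end CfsgLib.Geometric.ExtF
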