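import Cfsg.Agent.Lib.Geometric.ExtField.OrthTwo

/-!
Pairs with the largest intersection: stabilisation, and passing to one with a perpendicular vector.
-/

set_option autoImplicit false
set_option linter.unusedSectionVars false

namespace CfsgLib.Geometric.ExtF

open Module Matrix QuadraticMap CfsgLib.ClassicalForms CfsgLib.Geometric.Orth

variable {F : Type*} [Field F] {ι : Type} [Fintype ι] [DecidableEq ι] {E : Type*} [Field E] [Algebra F E]
  [Module E (ι → F)] [IsScalarTower F E (ι → F)] [Finite F] [Finite E]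

lemma mem_img' {g : GL ι F} {S : Submodule F (ι → F)} {x : ι → F} :
    x ∈ img g S ↔ ap g⁻¹ x ∈ S :=
  mem_img.trans ⟨fun ⟨y, hy, h⟩ => by rwa [← h, ap_inv_ap], fun h => ⟨_, h, ap_ap_inv g x⟩⟩

/-- The action on a stabilised line. -/
lemma exists_onLine {v : ι → F} (hv : v ≠ 0) {h : GL ι F}
    (hst : ∀ x ∈ ln F E v, ap h x ∈ ln F E v) :
    ∃ G : E ≃ₗ[F] E, ∀ a : E, ap h (a • v) = G a • v := by
  have : Module.Finite F E := Module.Finite.of_finite
  choose f hf using fun a : E => mem_ln.mp (hst _ (smul_mem_ln v a))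
  let Gl : E →ₗ[F] E :=
    { toFun := f
      map_add' := fun a b => smul_left_injective E hv (by
        simp only [add_smul, hf, ap_add])
      map_smul' := fun c a => smul_left_injective E hv (by
        simp only [RingHom.id_apply, smul_assoc, hf, ap_smul]) }
  have hinj : Function.Injective Gl := fun a b e => smul_left_injective E hv (ap_injective h (by
    rw [← hf a, ← hf b]; exact congrArg (· • v) e))
  exact ⟨LinearEquiv.ofInjectiveEndo Gl hinj, fun a => (hf a).symm⟩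

lemma smul_mem_ln' {v x : ι → F} (a : E) (hx : x ∈ ln F E v) : a • x ∈ ln F E v := by
  obtain ⟨b, rfl⟩ := mem_ln.mp hx
  rw [smul_smul]
  exact smul_mem_ln v _

/-- A map normalising the multiplications with two independent fixed points is the identity. -/
lemma nrm_id (hr : (finrank F E).Prime) {G : E →ₗ[F] E} (hN : Nrm G) {a b : E} (ha : a ≠ 0)
    (hGa : G a = a) (hGb : G b = b) (hab : b / a ∉ Set.range (algebraMap F E)) (x : E) : G x = x := by
  let C : Subalgebra F E :=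
    { carrier := {c | ∀ x, G (c * x) = c * G x}
      mul_mem' := fun {a b} ha hb x => by rw [mul_assoc, ha, hb, mul_assoc]
      one_mem' := fun x => by rw [one_mul, one_mul]
      add_mem' := fun {a b} ha hb x => by rw [add_mul, map_add, ha, hb, add_mul]
      zero_mem' := fun x => by rw [zero_mul, map_zero, zero_mul]
      algebraMap_mem' := fun c x => by rw [← Algebra.smul_def, map_smul, Algebra.smul_def] }
  have hcC : b / a ∈ C := by
    intro x
    obtain ⟨d, hd⟩ := hN (b / a)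
    have h1 := hd a
    rw [div_mul_cancel₀ _ ha, hGb, hGa] at h1
    have h2 : b / a = d := by rw [h1, mul_div_assoc, div_self ha, mul_one]
    rw [h2]
    exact h2 ▸ hd x
  have htop := subalgebra_eq_top hr hcC hab
  have h1 : x / a ∈ C := htop ▸ Algebra.mem_top
  have h2 := h1 a
  rwa [hGa, div_mul_cancel₀ _ ha] at h2

namespace OForm

variable {Q : QuadraticForm F (ι → F)} (S : OForm Q E)
variable {M : Subgroup (GL ι F)}

/-- The dimension of the intersection of a pair. -/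
noncomputable def psize (_S : OForm Q E) (g : GL ι F) (v u : ι → F) : ℕ :=
  finrank F ↥(img g (ln F E v) ⊓ ln F E u)

/-- A pair of largest intersection. -/
def IsMax (S : OForm Q E) (M : Subgroup (GL ι F)) (g : GL ι F) (v u : ι → F) : Prop :=
  S.Pair M g v u ∧ ∀ g' v' u', S.Pair M g' v' u' → S.psize g' v' u' ≤ S.psize g v u

lemma exists_isMax (h : ∃ g v u, S.Pair M g v u) : ∃ g v u, S.IsMax M g v u := by
  classical
  have := Fintype.ofFinite (GL ι F × (ι → F) × (ι → F))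
  obtain ⟨⟨g₁, v₁, u₁⟩, hmem, hmax⟩ := Finset.exists_max_image
    (Finset.univ.filter fun t : GL ι F × (ι → F) × (ι → F) => S.Pair M t.1 t.2.1 t.2.2)
    (fun t => S.psize t.1 t.2.1 t.2.2)
    (by obtain ⟨g, v, u, h⟩ := h; exact ⟨(g, v, u), by simpa using h⟩)
  simp only [Finset.mem_filter, Finset.mem_univ, true_and] at hmem hmax
  exact ⟨g₁, v₁, u₁, hmem, fun g v u h => hmax (g, v, u) h⟩

variable (hR : ∀ g ∈ Cfsg.Geo.omegaGL (⇑Q), IsSemi E g → g ∈ M)
  (hMΩ : M ≤ Cfsg.Geo.omegaGL (⇑Q))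

include hMΩ

/-- An element fixing the second line and keeping one further vector in the first image stabilises it. -/
lemma stab {g : GL ι F} {v u : ι → F} (hmax : S.IsMax M g v u) {t : GL ι F} (ht : t ∈ M)
    (hfix : ∀ x ∈ ln F E u, ap t x = x) {w : ι → F} (hw : w ∈ img g (ln F E v)) (hwu : w ∉ ln F E u)
    (htw : ap t w ∈ img g (ln F E v)) : ∀ x ∈ img g (ln F E v), ap t x ∈ img g (ln F E v) := by
  have hM : M ≤ Cfsg.isometryGroup F (⇑Q) := hMΩ.trans omegaGL_le
  intro x hx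
  obtain ⟨hP, hmax⟩ := hmax
  obtain ⟨hg, hv, hvv, hu, huu, ⟨z, hz, hz0, hgz⟩, hne⟩ := hP
  by_contra hbad
  set g' := g⁻¹ * t * g with hg'
  have hP' : S.Pair M g' v v := by
    refine ⟨mul_mem (mul_mem (inv_mem hg) ht) hg, hv, hvv, hv, hvv, ⟨z, hz, hz0, ?_⟩, fun h => hbad ?_⟩
    · rw [hg', ap_mul, ap_mul, hfix _ hgz, ap_inv_ap]; exact hz
    · have h1 : ap g' (ap g⁻¹ x) ∈ ln F E v := by
        rw [← h, mem_img', ap_inv_ap]; exact mem_img'.mp hx
      rw [hg', ap_mul, ap_mul, ap_ap_inv] at h1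
      exact mem_img'.mpr h1
  have h1 := hmax _ _ _ hP'
  set D := img g (ln F E v) ⊓ ln F E u with hD
  have hle : img g⁻¹ (D ⊔ Submodule.span F {ap t w}) ≤ img g' (ln F E v) ⊓ ln F E v := by
    intro y hy
    rw [mem_img', inv_inv] at hy
    obtain ⟨d, hd, y', hy', hsum⟩ := Submodule.mem_sup.mp hy
    obtain ⟨s, rfl⟩ := Submodule.mem_span_singleton.mp hy'
    have e1 : y = ap g⁻¹ (d + s • ap t w) := by rw [hsum, ap_inv_ap]
    refine ⟨?_, ?_⟩
    · show y ∈ img g' (ln F E v)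
      have e2 : y = ap g' (ap g⁻¹ (d + s • w)) := by
        rw [e1, hg', ap_mul, ap_mul, ap_ap_inv, ap_add t, ap_smul t, hfix d (Submodule.mem_inf.mp hd).2]
      rw [mem_img', e2, ap_inv_ap]
      exact mem_img'.mp (Submodule.add_mem _ (Submodule.mem_inf.mp hd).1 (Submodule.smul_mem _ s hw))
    · show y ∈ ln F E v
      rw [e1]
      exact mem_img'.mp (Submodule.add_mem _ (Submodule.mem_inf.mp hd).1 (Submodule.smul_mem _ s htw))
  have hlt : D < D ⊔ Submodule.span F {ap t w} := by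
    refine lt_of_le_of_ne le_sup_left fun h => hwu ?_
    have h2 : ap t w ∈ D := by
      rw [h]; exact Submodule.mem_sup_right (Submodule.mem_span_singleton_self _)
    have h3 := hfix _ h2.2
    rw [ap_injective t h3] at h2
    exact h2.2
  have h2 := Submodule.finrank_mono hle
  rw [finrank_img] at h2
  have h3 := Submodule.finrank_lt_finrank_of_lt hlt
  change finrank F ↥(img g' (ln F E v) ⊓ ln F E v) ≤ finrank F ↥D at h1
  omega
include hR

/-- Conjugating by a Siegel element gives a pair as large, with a perpendicular vector. -/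
lemma conj_pair {g₀ : GL ι F} {v₀ u₀ : ι → F} (hmax : S.IsMax M g₀ v₀ u₀)
    (hgood : ∀ w ∈ img g₀ (ln F E v₀), w ∉ ln F E u₀ → S.φ w u₀ ≠ 0) {y : ι → F}
    (huy : S.φ u₀ y = 0) (hyu : y ∉ ln F E u₀) {w₁ : ι → F} (hw₁ : w₁ ∈ img g₀ (ln F E v₀))
    (hw₁u : w₁ ∉ ln F E u₀)
    (hperp : ∀ x ∈ img g₀ (ln F E v₀), polar Q (ap (S.sE u₀ y) w₁) x = 0) :
    ∃ g v u, S.IsMax M g v u ∧ S.psize g v u = S.psize g₀ v₀ u₀ ∧
      ∃ w ∈ img g (ln F E v), w ∉ ln F E u ∧ S.φ w u = 0 := by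
  have hM : M ≤ Cfsg.isometryGroup F (⇑Q) := hMΩ.trans omegaGL_le
  obtain ⟨⟨hg, hv, hvv, hu, huu, ⟨z, hz, hz0, hgz⟩, hne⟩, hmax⟩ := hmax
  set e := S.psize g₀ v₀ u₀ with he
  set L := img g₀ (ln F E v₀) with hL
  set s := S.sE u₀ y with hs
  have hfix : ∀ x ∈ ln F E u₀, ap s x = x := by
    intro x hx
    obtain ⟨l, rfl⟩ := mem_ln.mp hx
    rw [hs, S.ap_sE huu huy]; simp [huu, huy]
  have hw₁u' : S.φ w₁ u₀ ≠ 0 := hgood w₁ hw₁ hw₁u
  have hnot : ap s w₁ ∉ L := by
    intro hsw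
    have h1 := Submodule.sub_mem _ hsw hw₁
    rw [hs, S.ap_sE huu huy, add_sub_assoc, add_sub_cancel_left] at h1
    have h2 : S.φ w₁ u₀ • y - (S.φ w₁ y + S.φ y y / 2 * S.φ w₁ u₀) • u₀ ∈ ln F E u₀ := by
      by_contra h3
      exact hgood _ h1 h3 (by simp [S.symm y u₀, huy, huu])
    have h4 := Submodule.add_mem _ h2 (smul_mem_ln u₀ (S.φ w₁ y + S.φ y y / 2 * S.φ w₁ u₀))
    rw [sub_add_cancel] at h4
    have h5 := smul_mem_ln' (S.φ w₁ u₀)⁻¹ h4
    rw [smul_smul, inv_mul_cancel₀ hw₁u', one_smul] at h5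
    exact hyu h5
  set g := g₀⁻¹ * s * g₀ with hgdef
  have hwmem : ap g₀⁻¹ (ap s w₁) ∈ img g (ln F E v₀) := by
    rw [mem_img', hgdef, show ap g₀⁻¹ (ap s w₁) = ap (g₀⁻¹ * s * g₀) (ap g₀⁻¹ w₁) by
      rw [ap_mul, ap_mul, ap_ap_inv], ap_inv_ap]
    exact mem_img'.mp hw₁
  have hwnot : ap g₀⁻¹ (ap s w₁) ∉ ln F E v₀ := fun h => hnot (mem_img'.mpr h)
  have hP : S.Pair M g v₀ v₀ := ⟨mul_mem (mul_mem (inv_mem hg) (S.sE_mem' hR huu huy)) hg, hv, hvv, hv, hvv,
    ⟨z, hz, hz0, by rw [hgdef, ap_mul, ap_mul, hfix _ hgz, ap_inv_ap]; exact hz⟩,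
    fun h => hwnot (h ▸ hwmem)⟩
  have hsz : S.psize g v₀ v₀ = e := by
    refine le_antisymm (hmax _ _ _ hP) ?_
    have hle : img g₀⁻¹ (L ⊓ ln F E u₀) ≤ img g (ln F E v₀) ⊓ ln F E v₀ := by
      intro x hx
      rw [mem_img', inv_inv] at hx
      have h1 : x ∈ ln F E v₀ := by
        have := mem_img'.mp (show ap g₀ x ∈ img g₀ (ln F E v₀) from hx.1)
        rwa [ap_inv_ap] at this
      refine ⟨?_, h1⟩
      show x ∈ img g (ln F E v₀)
      rw [mem_img', show x = ap g x by rw [hgdef, ap_mul, ap_mul, hfix _ hx.2, ap_inv_ap], ap_inv_ap]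
      exact h1
    have := Submodule.finrank_mono hle
    rw [finrank_img] at this
    simpa [psize, he, ← hL] using this
  refine ⟨g, v₀, v₀, ⟨hP, fun g' v u h => hsz ▸ hmax g' v u h⟩, hsz, _, hwmem, hwnot, S.ext_T fun c => ?_⟩
  rw [mul_zero, map_zero, ← S.polar_smul, ← polar_ap (hM hg), ap_ap_inv]
  exact hperp _ (by rw [hL, mem_img', ap_inv_ap]; exact smul_mem_ln v₀ c)

/-- From a pair without perpendicular vector to one with, if the equations are few. -/
lemma bad_step {g₀ : GL ι F} {v₀ u₀ : ι → F} (hmax : S.IsMax M g₀ v₀ u₀)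
    (hgood : ∀ w ∈ img g₀ (ln F E v₀), w ∉ ln F E u₀ → S.φ w u₀ ≠ 0)
    (hfew : 2 * finrank F E < finrank F E * (finrank E (ι → F) - 2) + 2 * S.psize g₀ v₀ u₀) :
    ∃ g v u, S.IsMax M g v u ∧ S.psize g v u = S.psize g₀ v₀ u₀ ∧
      ∃ w ∈ img g (ln F E v), w ∉ ln F E u ∧ S.φ w u = 0 := by
  have hM : M ≤ Cfsg.isometryGroup F (⇑Q) := hMΩ.trans omegaGL_le
  have hfin : Module.Finite F E := Module.Finite.of_finite
  have hmax₀ := hmax
  obtain ⟨⟨hg, hv, hvv, hu, huu, ⟨z, hz, hz0, hgz⟩, hne⟩, hmax⟩ := hmax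
  set e := S.psize g₀ v₀ u₀ with he
  set L := img g₀ (ln F E v₀) with hL
  obtain ⟨w₁, hw₁, hw₁u⟩ : ∃ w ∈ L, w ∉ ln F E u₀ := by
    by_contra hall
    push Not at hall
    refine hne (Submodule.eq_of_le_of_finrank_le hall ?_)
    rw [finrank_img, finrank_ln hu, finrank_ln hv]
  obtain ⟨C₀, hC₀⟩ := Submodule.exists_isCompl (L ⊓ ln F E u₀)
  let C := L ⊓ C₀
  have hsup : (L ⊓ ln F E u₀) ⊔ C = L := by
    show (L ⊓ ln F E u₀) ⊔ L ⊓ C₀ = L
    rw [inf_comm L C₀, ← sup_inf_assoc_of_le C₀ (inf_le_left : L ⊓ ln F E u₀ ≤ L), hC₀.sup_eq_top, top_inf_eq]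
  have hdC : finrank F C + e = finrank F E := by
    have h1 := Submodule.finrank_sup_add_finrank_inf_eq (L ⊓ ln F E u₀) C
    have h2 : (L ⊓ ln F E u₀) ⊓ C = ⊥ := le_bot_iff.mp
      (le_trans (inf_le_inf_left _ inf_le_right) hC₀.inf_eq_bot.le)
    rw [hsup, h2, finrank_bot, add_zero, finrank_img, finrank_ln hv] at h1
    have h3 : e = finrank F ↥(L ⊓ ln F E u₀) := he
    omega
  have he1 : 1 ≤ e := by
    simp only [he, psize]
    refine Nat.one_le_iff_ne_zero.mpr fun h0 => hz0 (ap_injective g₀ ?_)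
    have h1 : ap g₀ z ∈ img g₀ (ln F E v₀) ⊓ ln F E u₀ :=
      Submodule.mem_inf.mpr ⟨mem_img'.mpr (by rw [ap_inv_ap]; exact hz), hgz⟩
    rw [Submodule.finrank_eq_zero.mp h0, Submodule.mem_bot] at h1
    rw [h1, ap_zero]
  obtain ⟨p, hpp, hup⟩ := S.exists_partner hu huu
  have := S.finite_E
  let K : Submodule E (ι → F) := LinearMap.ker (LinearMap.pi ![S.φ u₀, S.φ p])
  have hK : finrank F E * (finrank E (ι → F) - 2) ≤ finrank F (K.restrictScalars F) := by
    have h1 : finrank E (LinearMap.range (LinearMap.pi ![S.φ u₀, S.φ p])) + finrank E K = finrank E (ι → F) :=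
      (LinearMap.pi ![S.φ u₀, S.φ p]).finrank_range_add_finrank_ker
    have h2 := Submodule.finrank_le (LinearMap.range (LinearMap.pi ![S.φ u₀, S.φ p]))
    rw [Module.finrank_fintype_fun_eq_card, Fintype.card_fin] at h2
    have h3 : finrank F K = finrank F E * finrank E K := (Module.finrank_mul_finrank F E K).symm
    calc _ ≤ finrank F E * finrank E K := Nat.mul_le_mul_left _ (by omega)
      _ = _ := h3.symm
  let W := K.restrictScalars F
  let cb := finBasis F C
  let Bq : Fin (finrank F C) → W →ₗ[F] W →ₗ[F] F := fun i =>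
    LinearMap.mk₂ F (fun y y' => -S.T (S.φ y.1 y'.1 / 2 * S.φ w₁ u₀ * S.φ u₀ (cb i).1))
      (fun a b c => by
        simp only [Submodule.coe_add, map_add, LinearMap.add_apply, add_div, add_mul, neg_add])
      (fun s a b => by
        simp only [Submodule.coe_smul, ← algebraMap_smul E s (a : ι → F), map_smul, LinearMap.smul_apply,
          smul_eq_mul, mul_assoc, mul_div_assoc]
        simp only [← Algebra.smul_def, map_smul, smul_eq_mul, mul_neg])
      (fun a b c => by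
        simp only [Submodule.coe_add, map_add, add_div, add_mul, neg_add])
      (fun s a b => by
        simp only [Submodule.coe_smul, ← algebraMap_smul E s (b : ι → F), map_smul, smul_eq_mul, mul_assoc,
          mul_div_assoc]
        simp only [← Algebra.smul_def, map_smul, smul_eq_mul, mul_neg])
  let lq : Fin (finrank F C) → W →ₗ[F] F := fun i =>
    { toFun := fun y => S.T (S.φ w₁ u₀ * S.φ y.1 (cb i).1 - S.φ w₁ y.1 * S.φ u₀ (cb i).1)
      map_add' := fun a b => by
        rw [← map_add]; congr 1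
        simp only [Submodule.coe_add, map_add, LinearMap.add_apply]; ring
      map_smul' := fun s a => by
        rw [RingHom.id_apply, ← map_smul]; congr 1
        simp only [Submodule.coe_smul, ← algebraMap_smul E s (a : ι → F), map_smul, LinearMap.smul_apply,
          smul_eq_mul, Algebra.smul_def]
        ring }
  obtain ⟨⟨y, hy⟩, hy0, hyeq⟩ := exists_common_zero Bq lq (by
    rw [Fintype.card_fin]
    refine lt_of_lt_of_le ?_ hK
    omega)
  have hy' : ∀ i, (LinearMap.pi ![S.φ u₀, S.φ p] : (ι → F) →ₗ[E] Fin 2 → E) y i = 0 :=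
    fun i => congrFun (LinearMap.mem_ker.mp hy) i
  have huy : S.φ u₀ y = 0 := hy' 0
  have hpy : S.φ p y = 0 := hy' 1
  set s := S.sE u₀ y with hs
  have hfix : ∀ x ∈ ln F E u₀, ap s x = x := by
    intro x hx
    obtain ⟨l, rfl⟩ := mem_ln.mp hx
    rw [hs, S.ap_sE huu huy]; simp [huu, huy]
  have hyu : y ∉ ln F E u₀ := by
    intro h
    obtain ⟨l, hl⟩ := mem_ln.mp h
    rw [← hl, map_smul, S.symm p u₀, hup, smul_eq_mul, mul_one] at hpy
    exact hy0 (Subtype.ext (show y = 0 by rw [← hl, hpy, zero_smul]))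
  refine S.conj_pair hR hMΩ hmax₀ hgood huy hyu hw₁ hw₁u fun x hx => ?_
  replace hx : x ∈ L := hx
  rw [← hsup] at hx
  obtain ⟨d, hd, c', hc', hdc⟩ := Submodule.mem_sup.mp hx
  have hLsing : ∀ x ∈ L, Q x = 0 := by
    intro x hx
    obtain ⟨l, hl⟩ := mem_ln.mp (mem_img'.mp hx)
    rw [← ap_ap_inv g₀ x, mem_isometryGroup_iff.mp (hM hg), ← hl]
    exact S.Q_eq_zero (by simp [hvv])
  have hLL : ∀ x ∈ L, ∀ x' ∈ L, polar Q x x' = 0 := fun x hx x' hx' => by
    rw [QuadraticMap.polar, hLsing _ (L.add_mem hx hx'), hLsing x hx, hLsing x' hx', sub_zero, sub_zero]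
  have e1 : polar Q (ap s w₁) d = 0 := by
    conv_lhs => rw [← hfix d hd.2]
    rw [polar_ap (hM (S.sE_mem' hR huu huy))]
    exact hLL _ hw₁ _ hd.1
  have e2 : polar Q (ap s w₁) c' = 0 := by
    have hb : ∀ i, polar Q (ap s w₁) (cb i : ι → F) = 0 := by
      intro i
      have h := hyeq i
      simp only [Bq, lq, LinearMap.mk₂_apply, LinearMap.coe_mk, AddHom.coe_mk] at h
      rw [hs, S.ap_sE huu huy, polar_sub_left, polar_add_left, hLL _ hw₁ _ (cb i).2.1, S.polar_smul',
        S.polar_smul', zero_add]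
      simp only [map_sub, add_mul, map_add] at h ⊢
      linear_combination h
    have h1 : c' = ∑ i, cb.repr ⟨c', hc'⟩ i • (cb i : ι → F) := by
      have h0 := congrArg C.subtype (cb.sum_repr ⟨c', hc'⟩)
      simp only [map_sum, map_smul, Submodule.coe_subtype] at h0
      exact h0.symm
    rw [h1, polar_comm]
    change Q.polarBilin (∑ i, _) _ = 0
    rw [map_sum, LinearMap.sum_apply]
    refine Finset.sum_eq_zero fun i _ => ?_
    rw [map_smul, LinearMap.smul_apply, polarBilin_apply_apply, polar_comm, hb, smul_zero]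
  rw [← hdc, polar_add_right, e1, e2, add_zero]

end OForm

end CfsgLib.Geometric.ExtF
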