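import Cfsg.Agent.Lib.Geometric.ExtField.OrthPlanar

/-!
Dimension three over the extension: if `g` is not semilinear, few linear elements stay semilinear after
conjugation by `g`.
-/

set_option autoImplicit false
set_option linter.unusedSectionVars false

namespace CfsgLib.Geometric.ExtF

open Module Matrix QuadraticMap CfsgLib.ClassicalForms CfsgLib.Geometric.Orth

variable {F : Type*} [Field F] {ι : Type} [Fintype ι] [DecidableEq ι] {E : Type*} [Field E] [Algebra F E]
  [Module E (ι → F)] [IsScalarTower F E (ι → F)] [Finite F] [Finite E]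

variable (E) in
/-- The linear elements of `omegaGL` whose conjugate by `g` is semilinear. -/
def conjSemi (Q : QuadraticForm F (ι → F)) (g : GL ι F) : Subgroup (GL ι F) where
  carrier := {n | n ∈ Cfsg.Geo.omegaGL (⇑Q) ∧ (∀ (a : E) x, ap n (a • x) = a • ap n x) ∧
    IsSemi E (g * n * g⁻¹)}
  one_mem' := ⟨one_mem _, fun a x => by rw [ap_one, ap_one], IsSemi.of_linear E fun a x => by
    rw [mul_one, mul_inv_cancel, ap_one, ap_one]⟩
  mul_mem' := fun {m n} hm hn => ⟨mul_mem hm.1 hn.1, fun a x => by rw [ap_mul, hn.2.1, hm.2.1, ap_mul], by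
    rw [show g * (m * n) * g⁻¹ = (g * m * g⁻¹) * (g * n * g⁻¹) by group]
    exact hm.2.2.mul hn.2.2⟩
  inv_mem' := fun {n} hn => ⟨inv_mem hn.1, fun a x => ap_injective n (by rw [ap_ap_inv, hn.2.1, ap_ap_inv]), by
    rw [show g * n⁻¹ * g⁻¹ = (g * n * g⁻¹)⁻¹ by group]
    exact hn.2.2.inv⟩

variable (E) in
/-- The linear elements of `omegaGL` whose conjugate by `g` is linear. -/
def conjLin (Q : QuadraticForm F (ι → F)) (g : GL ι F) : Subgroup (GL ι F) where
  carrier := {n | n ∈ Cfsg.Geo.omegaGL (⇑Q) ∧ (∀ (a : E) x, ap n (a • x) = a • ap n x) ∧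
    ∀ (a : E) x, ap (g * n * g⁻¹) (a • x) = a • ap (g * n * g⁻¹) x}
  one_mem' := ⟨one_mem _, fun a x => by rw [ap_one, ap_one], fun a x => by
    rw [mul_one, mul_inv_cancel, ap_one, ap_one]⟩
  mul_mem' := fun {m n} hm hn => ⟨mul_mem hm.1 hn.1, fun a x => by rw [ap_mul, hn.2.1, hm.2.1, ap_mul],
    fun a x => by
      rw [show g * (m * n) * g⁻¹ = (g * m * g⁻¹) * (g * n * g⁻¹) by group, ap_mul (g * m * g⁻¹), hn.2.2, hm.2.2, ← ap_mul]⟩
  inv_mem' := fun {n} hn => ⟨inv_mem hn.1, fun a x => ap_injective n (by rw [ap_ap_inv, hn.2.1, ap_ap_inv]),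
    fun a x => by
      rw [show g * n⁻¹ * g⁻¹ = (g * n * g⁻¹)⁻¹ by group]
      exact ap_injective (g * n * g⁻¹) (by rw [ap_ap_inv, hn.2.2, ap_ap_inv])⟩

namespace OForm

variable {Q : QuadraticForm F (ι → F)} (S : OForm Q E)
variable {M : Subgroup (GL ι F)}
  (hR : ∀ g ∈ Cfsg.Geo.omegaGL (⇑Q), IsSemi E g → g ∈ M)
  (hMΩ : M ≤ Cfsg.Geo.omegaGL (⇑Q))

variable (h3 : finrank E (ι → F) = 3) (hr : (finrank F E).Prime) (h3r : 3 ≤ finrank F E)
  (hn : 5 ≤ Fintype.card ι) (hnot : ¬ Cfsg.Geo.omegaGL (⇑Q) ≤ M) {g : GL ι F} (hg : g ∈ M)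
  (hns : ¬ IsSemi E g)

include hR hMΩ h3 hr h3r hn hnot hg hns

include S in
/-- The conjugates are linear, and with a common fixed vector the image of the axis is the axis. -/
lemma conj_facts {n : GL ι F} (hn' : n ∈ conjLin E Q g) :
    g * n * g⁻¹ ∈ M ∧ g * n * g⁻¹ ∈ Cfsg.Geo.omegaGL (⇑Q) ∧
      (∀ (a : E) x, ap (g * n * g⁻¹) (a • x) = a • ap (g * n * g⁻¹) x) ∧
      ∀ z, z ≠ 0 → ap n z = z → n ≠ 1 → img g (ln F E z) = ln F E (ap g z) ∧ S.φ z z ≠ 0 ∧
        S.φ (ap g z) (ap g z) ≠ 0 := by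
  have hM : M ≤ Cfsg.isometryGroup F (⇑Q) := hMΩ.trans omegaGL_le
  have hodd : Odd (finrank F E) := hr.odd_of_ne_two (by omega)
  obtain ⟨hnΩ, hnl, hlin⟩ := hn'
  set m := g * n * g⁻¹ with hm
  have hmM : m ∈ M := mul_mem (mul_mem hg (hR n hnΩ (IsSemi.of_linear E hnl))) (inv_mem hg)
  have hfix : ∀ z, ap n z = z → ∀ x ∈ img g (ln F E z), ap m x = x := by
    intro z hz x hx
    obtain ⟨a, ha⟩ := mem_ln.mp (mem_img'.mp hx)
    rw [hm, ap_mul, ap_mul, ← ha, hnl, hz, ha, ap_ap_inv]
  refine ⟨hmM, hMΩ hmM, hlin, fun z hz hzf h1 => ?_⟩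
  have hm1 : m ≠ 1 := fun h => h1 (by rwa [hm, mul_inv_eq_one, mul_eq_left] at h)
  have hgz : ap g z ≠ 0 := fun h => hz (ap_injective g (by rw [h, ap_zero]))
  have hgzi : ap g z ∈ img g (ln F E z) := mem_img'.mpr (by rw [ap_inv_ap]; exact self_mem_ln z)
  have him : img g (ln F E z) = ln F E (ap g z) := by
    refine Submodule.eq_of_le_of_finrank_le (fun x hx => ?_) (by rw [finrank_img, finrank_ln hz, finrank_ln hgz])
    exact mem_ln.mpr (S.fixed_line (hMΩ hmM) hlin h3 hodd hm1 hgz (hfix z hzf _ hgzi) (hfix z hzf x hx))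
  have hzz : S.φ z z ≠ 0 := fun h0 => hns (S.semi_of_line hR hMΩ h3 hr h3r hn hnot hg hz h0 hgz
    (S.isotropic_of_line (hM hg) h0 (self_mem_ln _) him) him)
  refine ⟨him, hzz, fun h0 => hzz ?_⟩
  have h2 := S.isotropic_of_line (inv_mem (hM hg)) h0 (y := z) (by rw [ap_inv_ap]; exact self_mem_ln z) (by
    rw [ap_inv_ap]
    refine Submodule.eq_of_le_of_finrank_le (fun x hx => ?_)
      (by rw [finrank_img, finrank_ln hz, finrank_ln hgz])
    have h4 : ap g x ∈ ln F E (ap g z) := by simpa [mem_img'] using hx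
    rw [← him, mem_img', ap_inv_ap] at h4
    exact h4)
  exact h2

include S in
/-- All traces lie in the base field. -/
lemma trace_mem {n : GL ι F} (hn' : n ∈ conjLin E Q g) :
    LinearMap.trace E (ι → F) (eLin n hn'.2.1) ∈ Set.range (algebraMap F E) := by
  classical
  have hM : M ≤ Cfsg.isometryGroup F (⇑Q) := hMΩ.trans omegaGL_le
  have hodd : Odd (finrank F E) := hr.odd_of_ne_two (by omega)
  have := S.finite_E
  have hfin : Module.Finite F E := Module.Finite.of_finite
  by_cases h1 : n = 1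
  · refine ⟨3, ?_⟩
    subst h1
    rw [show eLin (1 : GL ι F) hn'.2.1 = LinearMap.id from LinearMap.ext fun x => by simp, LinearMap.trace_id,
      h3, map_ofNat, Nat.cast_ofNat]
  obtain ⟨hmM, hmΩ, hml, hfacts⟩ := S.conj_facts hR hMΩ h3 hr h3r hn hnot hg hns hn'
  obtain ⟨hnΩ, hnl, -⟩ := id hn'
  obtain ⟨y, hy, hyf⟩ := S.exists_fixed h3 hodd hnΩ hnl
  obtain ⟨him, hyy, hyy'⟩ := hfacts y hy hyf h1
  set m := g * n * g⁻¹ with hm
  set y' := ap g y with hy'
  have hy'0 : y' ≠ 0 := fun h => hy (ap_injective g (by rw [← hy', h, ap_zero]))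
  have hy'f : ap m y' = y' := by rw [hm, hy', ap_mul, ap_mul, ap_inv_ap, hyf]
  have hm1 : m ≠ 1 := fun h => h1 (by rwa [hm, mul_inv_eq_one, mul_eq_left] at h)
  obtain ⟨-, hrot⟩ := S.rotation hnΩ hnl h3 hodd h1 hyf hyy
  obtain ⟨-, hrot'⟩ := S.rotation hmΩ hml h3 hodd hm1 hy'f hyy'
  set t := LinearMap.trace E (ι → F) (eLin n hnl) - 1 with ht
  set t' := LinearMap.trace E (ι → F) (eLin m hml) - 1 with ht'
  show LinearMap.trace E (ι → F) (eLin n hnl) ∈ Set.range (algebraMap F E)
  by_contra htr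
  have htF : t ∉ Set.range (algebraMap F E) := fun ⟨s, hs⟩ => htr ⟨s + 1, by
    rw [map_add, map_one, hs, ht, sub_add_cancel]⟩
  -- the image of the orthogonal of the axis
  have himy : ∀ b : E, ∃ c : E, ap g (b • y) = c • y' := fun b => by
    obtain ⟨c, hc⟩ := mem_ln.mp (show ap g (b • y) ∈ ln F E y' by
      rw [hy', ← him, mem_img', ap_inv_ap]; exact smul_mem_ln y b)
    exact ⟨c, hc.symm⟩
  have hperp : ∀ z, S.φ z y = 0 → S.φ (ap g z) y' = 0 := by
    intro z hz
    refine S.ext_T fun c => ?_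
    obtain ⟨b, hb⟩ := mem_ln.mp (mem_img'.mp (show c • y' ∈ img g (ln F E y) by
      rw [him]; exact smul_mem_ln y' c))
    rw [mul_zero, map_zero, ← S.polar_smul, ← ap_ap_inv g (c • y'), polar_ap (hM hg), ← hb, S.polar_smul, hz,
      mul_zero, map_zero]
  let C : Subalgebra F E :=
    { carrier := {a | ∃ b : E, ∀ z, S.φ z y = 0 → ap g (a • z) = b • ap g z}
      mul_mem' := by
        rintro a a' ⟨b, hb⟩ ⟨b', hb'⟩
        exact ⟨b * b', fun z hz => by rw [mul_smul, hb _ (by simp [hz]), hb' z hz, smul_smul]⟩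
      one_mem' := ⟨1, fun z _ => by rw [one_smul, one_smul]⟩
      add_mem' := by
        rintro a a' ⟨b, hb⟩ ⟨b', hb'⟩
        exact ⟨b + b', fun z hz => by rw [add_smul, ap_add, hb z hz, hb' z hz, add_smul]⟩
      zero_mem' := ⟨0, fun z _ => by rw [zero_smul, ap_zero, zero_smul]⟩
      algebraMap_mem' := fun s => ⟨algebraMap F E s, fun z _ => by rw [algebraMap_smul, ap_smul, algebraMap_smul]⟩ }
  have htop := subalgebra_eq_top hr (show t ∈ C from ⟨t', fun z hz => by
    rw [← hrot z hz, ← hrot' _ (hperp z hz), hm, ap_add g]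
    simp only [ap_mul, _root_.mul_inv_rev, inv_inv, ap_inv_ap]⟩) htF
  choose f hf using fun a : E => (show a ∈ C from htop ▸ Algebra.mem_top)
  -- an orthogonal basis
  obtain ⟨z, hzy, hzz⟩ : ∃ z, S.φ z y = 0 ∧ S.φ z z ≠ 0 := by
    obtain ⟨z, hz, hzp⟩ := S.exists_perp ![y] (by omega)
    have hzy : S.φ z y = 0 := hzp 0
    by_cases hzz : S.φ z z = 0
    swap
    · exact ⟨z, hzy, hzz⟩
    obtain ⟨q, hq⟩ := S.nondeg_ne hz
    set q' := q - (S.φ q y / S.φ y y) • y with hq'
    have e1 : S.φ q' y = 0 := by simp [hq', div_mul_cancel₀ _ hyy]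
    have e2 : S.φ z q' = S.φ z q := by simp [hq', hzy]
    by_cases hqq : S.φ q' q' = 0
    swap
    · exact ⟨q', e1, hqq⟩
    refine ⟨z + q', by simp [hzy, e1], ?_⟩
    simp only [map_add, LinearMap.add_apply, hzz, hqq, S.symm q' z, e2, zero_add, add_zero, ← two_mul]
    exact mul_ne_zero S.two_E hq
  obtain ⟨z', hz'0, hz'p⟩ := S.exists_perp ![y, z] (by omega)
  have hz'y : S.φ z' y = 0 := hz'p 0
  have hz'z : S.φ z' z = 0 := hz'p 1
  have hli : LinearIndependent E ![y, z, z'] := by
    rw [Fintype.linearIndependent_iff]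
    intro k hk
    simp [Fin.sum_univ_three] at hk
    have k0 : k 0 = 0 := by
      have := congrArg (fun w => S.φ w y) hk
      simpa [hzy, hz'y, hyy] using this
    have k1 : k 1 = 0 := by
      have := congrArg (fun w => S.φ w z) hk
      simpa [S.symm y z, hzy, hz'z, hzz] using this
    rw [k0, k1] at hk
    simp at hk
    intro i
    fin_cases i
    exacts [k0, k1, hk.resolve_right hz'0]
  let b := basisOfLinearIndependentOfCardEqFinrank hli (by simp [h3])
  have hz'z' : S.φ z' z' ≠ 0 := by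
    intro h0
    refine hz'0 (S.nondeg fun w => ?_)
    have h := b.sum_repr w
    simp only [Fin.sum_univ_three, b, coe_basisOfLinearIndependentOfCardEqFinrank, Matrix.cons_val_zero,
      Matrix.cons_val_one, Matrix.cons_val] at h
    rw [← h]
    simp [hz'y, hz'z, h0]
  have hfm : ∀ a a', f (a * a') = f a * f a' := fun a a' => smul_left_injective E
    (show ap g z ≠ 0 from fun h => hzz (by rw [ap_injective g (h.trans (ap_zero g).symm), map_zero])) (by
      show f (a * a') • ap g z = (f a * f a') • ap g z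
      rw [← hf _ z hzy, mul_smul a a', hf a _ (by simp [hzy]), hf a' z hzy, smul_smul])
  have hgz0 : ap g z ≠ 0 := fun h => hzz (by rw [ap_injective g (h.trans (ap_zero g).symm), map_zero])
  let σl : E →ₗ[F] E :=
    { toFun := f
      map_add' := fun a a' => smul_left_injective E hgz0 (by
        show f (a + a') • ap g z = (f a + f a') • ap g z
        rw [← hf _ z hzy, add_smul, ap_add, hf a z hzy, hf a' z hzy, add_smul])
      map_smul' := fun s a => smul_left_injective E hgz0 (by
        show f (s • a) • ap g z = (s • f a) • ap g z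
        rw [← hf _ z hzy, smul_assoc, ap_smul, hf a z hzy, smul_assoc]) }
  let σh : E →ₐ[F] E := AlgHom.ofLinearMap σl (smul_left_injective E hgz0 (by
    show f 1 • ap g z = (1 : E) • ap g z
    rw [← hf _ z hzy, one_smul, one_smul])) hfm
  let σ : E ≃ₐ[F] E := AlgEquiv.ofBijective σh (Finite.injective_iff_bijective.mp σh.toRingHom.injective)
  have hσ : ∀ a z, S.φ z y = 0 → ap g (a • z) = σ a • ap g z := fun a z hz => hf a z hz
  have hform : ∀ v w, S.φ v y = 0 → S.φ w y = 0 → S.φ (ap g v) (ap g w) = σ (S.φ v w) := by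
    intro v w hv hw
    refine S.ext_T fun c => ?_
    obtain ⟨a, rfl⟩ := σ.surjective c
    rw [← map_mul, S.T_aut, ← S.polar_smul' a v w, ← S.polar_smul' (σ a), ← hσ a v hv, polar_ap (hM hg)]
  -- discriminants
  obtain ⟨s, hs0, hs⟩ : ∃ s : E, s ≠ 0 ∧ S.φ y' y' = s * s * σ (S.φ y y) := by
    let L := b.constr E ![y', ap g z, ap g z']
    have hJ : LinearMap.BilinForm.toMatrix b S.φ = Matrix.diagonal ![S.φ y y, S.φ z z, S.φ z' z'] := by
      ext i j
      rw [LinearMap.BilinForm.toMatrix_apply]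
      fin_cases i <;> fin_cases j <;>
        simp [b, coe_basisOfLinearIndependentOfCardEqFinrank, hzy, hz'y, hz'z, S.symm y z, S.symm y z',
          S.symm z z']
    have hJ' : LinearMap.BilinForm.toMatrix b (LinearMap.BilinForm.comp S.φ L L) =
        Matrix.diagonal ![S.φ y' y', σ (S.φ z z), σ (S.φ z' z')] := by
      ext i j
      rw [LinearMap.BilinForm.toMatrix_apply, LinearMap.BilinForm.comp_apply, Basis.constr_basis,
        Basis.constr_basis]
      fin_cases i <;> fin_cases j <;>
        simp [hperp z hzy, hperp z' hz'y, hform z z hzy hzy, hform z' z' hz'y hz'y, hform z' z hz'y hzy, hz'z,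
          hform z z' hzy hz'y, S.symm y' (ap g z), S.symm y' (ap g z'), S.symm z z']
    have h := congrArg Matrix.det (LinearMap.BilinForm.toMatrix_comp b b S.φ L L)
    rw [hJ', Matrix.det_mul, Matrix.det_mul, Matrix.det_transpose, hJ, Matrix.det_diagonal,
      Matrix.det_diagonal] at h
    simp [Fin.prod_univ_three] at h
    set P := LinearMap.det L
    set X := S.φ y y * S.φ z z * S.φ z' z' with hX
    have hX0 : X ≠ 0 := mul_ne_zero (mul_ne_zero hyy hzz) hz'z'
    have hσ0 : ∀ {x : E}, x ≠ 0 → σ x ≠ 0 := fun hx h0 => hx (σ.injective (h0.trans (map_zero σ).symm))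
    obtain ⟨s, hs⟩ : IsSquare (S.φ y' y' / σ (S.φ y y)) := by
      have hXσ : IsSquare (X * σ X) := by
        by_cases hsq : IsSquare X
        · exact hsq.mul (hsq.map σ)
        · have := Fintype.ofFinite E
          have hσX : ¬ IsSquare (σ X) := fun h' => hsq (by simpa using h'.map σ.symm)
          have h2' : ringChar E ≠ 2 := fun h => S.two_E (by
            have := ringChar.of_eq h
            exact_mod_cast CharP.cast_eq_zero E 2)
          rw [← quadraticChar_one_iff_isSquare (mul_ne_zero hX0 (hσ0 hX0)), map_mul,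
            (quadraticChar_neg_one_iff_not_isSquare).mpr hsq,
            (quadraticChar_neg_one_iff_not_isSquare).mpr hσX]
          norm_num
      have hp : P ≠ 0 := fun h0 => by
        rw [h0] at h
        simp [hyy', hσ0 hzz, hσ0 hz'z'] at h
      rw [show S.φ y' y' / σ (S.φ y y) = (P / σ X) * (P / σ X) * (X * σ X) by
        have hσy := hσ0 hyy
        have hσz := hσ0 hzz
        have hσz' := hσ0 hz'z'
        rw [hX, map_mul, map_mul]
        field_simp
        linear_combination h]
      exact (IsSquare.mul_self _).mul hXσ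
    refine ⟨s, fun h0 => ?_, ?_⟩
    · rw [h0, mul_zero, div_eq_zero_iff] at hs
      rcases hs with h | h
      · exact hyy' h
      · exact hσ0 hyy h
    · rw [← hs, div_mul_cancel₀ _ (hσ0 hyy)]
  -- an eigenvalue on the axis
  choose R hR' using himy
  have hyne : Function.Injective fun c : E => c • y' := smul_left_injective E hy'0
  let Rl : E →ₗ[F] E :=
    { toFun := fun c => σ.symm (s * R c)
      map_add' := fun a a' => by
        rw [← map_add, ← mul_add, show R (a + a') = R a + R a' from hyne (by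
          show R (a + a') • y' = (R a + R a') • y'
          rw [← hR', add_smul, ap_add, hR', hR', add_smul])]
      map_smul' := fun c a => by
        rw [show R (c • a) = c • R a from hyne (by
          show R (c • a) • y' = (c • R a) • y'
          rw [← hR', smul_assoc, ap_smul, hR', smul_assoc]), mul_smul_comm, map_smul, RingHom.id_apply] }
  obtain ⟨β, ε, hβ, hε, hRβ⟩ := exists_eigen S.T S.T_ne S.two hodd hyy Rl fun a a' => by
    rw [← S.T_aut σ, map_mul σ, map_mul σ, show σ (Rl a) = s * R a from σ.apply_symm_apply _,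
      show σ (Rl a') = s * R a' from σ.apply_symm_apply _,
      show s * R a * (s * R a') * σ (S.φ y y) = R a * (R a' * S.φ y' y') by rw [hs]; ring]
    have h2 := polar_ap (hM hg) (a • y) (a' • y)
    rw [hR', hR', S.polar_smul', S.polar_smul', map_smul, map_smul, smul_eq_mul, smul_eq_mul] at h2
    rw [h2]; congr 1; ring
  have hRβ' : s * R β = ε • σ β := by
    have h := congrArg σ hRβ
    rw [map_smul] at h
    rwa [show σ (Rl β) = s * R β from σ.apply_symm_apply _] at h
  obtain ⟨w, hwy, hww⟩ : ∃ w, S.φ w y = 0 ∧ S.φ w w = -(β * β * S.φ y y) := by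
    have := Fintype.ofFinite E
    have hc : Fintype.card E % 2 = 1 := FiniteField.odd_card_of_char_ne_two (fun h => S.two_E (by
      have := ringChar.of_eq h
      exact_mod_cast CharP.cast_eq_zero E 2))
    obtain ⟨a, a', haa⟩ := FiniteField.exists_root_sum_quadratic
      (f := Polynomial.C (S.φ z z) * Polynomial.X ^ 2 - Polynomial.C (-(β * β * S.φ y y)))
      (g := Polynomial.C (S.φ z' z') * Polynomial.X ^ 2)
      (by rw [Polynomial.degree_sub_C] <;> simp [Polynomial.degree_C, hzz])
      (by simp [Polynomial.degree_C, hz'z']) hc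
    simp at haa
    refine ⟨a • z + a' • z', by simp [hzy, hz'y], ?_⟩
    simp only [map_add, map_smul, LinearMap.add_apply, LinearMap.smul_apply, smul_eq_mul, S.symm z z', hz'z]
    linear_combination haa
  set x := w + β • y with hx
  have hxx : S.φ x x = 0 := by
    simp [hx, hww, hwy, S.symm y w]; ring
  have hx0 : x ≠ 0 := fun h => by
    have := congrArg (fun v => S.φ v y) h
    simp [hx, hwy, hβ, hyy] at this
  have hgx : ap g x = ap g w + R β • y' := by rw [hx, ap_add, hR']
  have hgxx : S.φ (ap g x) (ap g x) = 0 := by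
    have h2 : s * R β * (s * R β) = σ β * σ β := by
      rw [hRβ', smul_mul_smul_comm, hε, one_smul]
    rw [hgx]
    simp only [map_add, map_smul, LinearMap.add_apply, LinearMap.smul_apply, smul_eq_mul,
      hform w w hwy hwy, hww, hperp w hwy, S.symm y' (ap g w), map_neg, map_mul, hs]
    linear_combination σ (S.φ y y) * h2
  have hgx0 : ap g x ≠ 0 := fun h => hx0 (ap_injective g (by rw [h, ap_zero]))
  by_cases himx : img g (ln F E x) = ln F E (ap g x)
  · exact hns (S.semi_of_line hR hMΩ h3 hr h3r hn hnot hg hx0 hxx hgx0 hgxx himx)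
  refine S.planar_false hR hMΩ h3 hr h3r hn hnot (g := g) (v := x) (u := ap g x) (y := y')
    ⟨hg, hx0, hxx, hgx0, hgxx, ⟨x, self_mem_ln x, hx0, self_mem_ln _⟩, himx⟩ fun v hv => ?_
  obtain ⟨c, hc⟩ := mem_ln.mp (mem_img'.mp hv)
  refine ⟨σ c, R (c * β) - σ c * R β, ?_⟩
  rw [← ap_ap_inv g v, ← hc, hgx, hx, smul_add c, smul_smul c, ap_add g, hσ c w hwy, hR']
  module

include S in
/-- Few linear elements have a semilinear conjugate. -/
theorem card_conjLin [Fintype F] [Fintype (conjLin E Q g)] :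
    Fintype.card (conjLin E Q g) ≤ 4 * Fintype.card F - 4 := by
  classical
  have hM : M ≤ Cfsg.isometryGroup F (⇑Q) := hMΩ.trans omegaGL_le
  have hodd : Odd (finrank F E) := hr.odd_of_ne_two (by omega)
  have := Fintype.ofFinite E
  have := S.finite_E
  have hq : 2 ≤ Fintype.card F := Fintype.one_lt_card
  have hax : ∀ n ∈ conjLin E Q g, n ≠ 1 → ∃ y, y ≠ 0 ∧ ap n y = y ∧ S.φ y y ≠ 0 := fun n hn' h1 => by
    obtain ⟨y, hy, hyf⟩ := S.exists_fixed h3 hodd hn'.1 hn'.2.1
    exact ⟨y, hy, hyf, ((S.conj_facts hR hMΩ h3 hr h3r hn hnot hg hns hn').2.2.2 y hy hyf h1).2.1⟩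
  have hiso : ∀ n ∈ conjLin E Q g, ∀ y, y ≠ 0 → S.φ y y = 0 → ap n y = y → n = 1 := fun n hn' y hy hyy hyf => by
    by_contra h1
    exact ((S.conj_facts hR hMΩ h3 hr h3r hn hnot hg hns hn').2.2.2 y hy hyf h1).2.1 hyy
  have htr := fun n (hn' : n ∈ conjLin E Q g) => S.trace_mem hR hMΩ h3 hr h3r hn hnot hg hns hn'
  have hφ := fun n (hn' : n ∈ conjLin E Q g) => S.form_of_linear (omegaGL_le hn'.1) hn'.2.1
  by_cases hline : ∃ y, y ≠ 0 ∧ ∀ n ∈ conjLin E Q g, ∃ c : E, ap n y = c • y
  · obtain ⟨y, hy, hpres⟩ := hline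
    choose c hc using hpres
    by_cases hyy : S.φ y y = 0
    · -- an isotropic line
      let roots : Finset E := (Finset.univ : Finset F).biUnion fun t =>
        (Polynomial.X ^ 2 - Polynomial.C (algebraMap F E t) * Polynomial.X + 1 : Polynomial E).roots.toFinset
      have hmem : ∀ (n : GL ι F) (hn' : n ∈ conjLin E Q g), c n hn' ∈ roots := by
        intro n hn'
        obtain ⟨t, ht⟩ : ∃ t : F, c n hn' * c n hn' - algebraMap F E t * c n hn' + 1 = 0 := by
          by_cases h1 : n = 1
          · refine ⟨2, ?_⟩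
            have h2 : c n hn' = 1 := smul_left_injective E hy (by
              show c n hn' • y = (1 : E) • y
              rw [← hc, h1, ap_one, one_smul])
            rw [h2, map_ofNat]; ring
          obtain ⟨yn, hyn, hynf, hynn⟩ := hax n hn' h1
          obtain ⟨-, hrot⟩ := S.rotation hn'.1 hn'.2.1 h3 hodd h1 hynf hynn
          obtain ⟨t, ht⟩ := htr n hn'
          have hc1 : c n hn' ≠ 1 := fun h => h1 (hiso n hn' y hy hyy (by rw [hc n hn', h, one_smul]))
          have hc0 : c n hn' ≠ 0 := fun h => hy (ap_injective n (by rw [hc n hn', h, zero_smul, ap_zero]))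
          have hperp : S.φ y yn = 0 := by
            have h2 := hφ n hn' y yn
            rw [hc n hn', hynf, map_smul, LinearMap.smul_apply, smul_eq_mul] at h2
            by_contra h0
            exact hc1 (mul_right_cancel₀ h0 (by rw [one_mul]; exact h2))
          have hinv : ap n⁻¹ y = (c n hn')⁻¹ • y := ap_injective n (by
            rw [ap_ap_inv, hn'.2.1, hc n hn', smul_smul, inv_mul_cancel₀ hc0, one_smul])
          have h2 := hrot y hperp
          rw [hc n hn', hinv, ← add_smul] at h2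
          refine ⟨t - 1, ?_⟩
          have h4 : c n hn' + (c n hn')⁻¹ = LinearMap.trace E (ι → F) (eLin n hn'.2.1) - 1 :=
            smul_left_injective E hy h2
          rw [map_sub, map_one, ht, ← h4]
          field_simp
          ring
        refine Finset.mem_biUnion.mpr ⟨t, Finset.mem_univ _, ?_⟩
        rw [Multiset.mem_toFinset, Polynomial.mem_roots']
        refine ⟨fun h0 => ?_, ?_⟩
        · have := congrArg (fun p => Polynomial.coeff p 2) h0
          simp [Polynomial.coeff_one] at this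
        · simp [Polynomial.IsRoot]
          linear_combination ht
      have hinj : Function.Injective fun n : conjLin E Q g => (⟨c n.1 n.2, hmem n.1 n.2⟩ : roots) := by
        intro n₁ n₂ he
        have he' : c n₁.1 n₁.2 = c n₂.1 n₂.2 := congrArg Subtype.val he
        refine (Subtype.ext (inv_mul_eq_one.mp (hiso _ (mul_mem (inv_mem n₂.2) n₁.2) y hy hyy ?_))).symm
        rw [ap_mul, hc n₁.1 n₁.2, he', ← hc n₂.1 n₂.2, ap_inv_ap]
      refine (Fintype.card_le_of_injective _ hinj).trans ?_
      rw [Fintype.card_coe]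
      refine (Finset.card_biUnion_le_card_mul _ _ 2 fun t _ =>
        (Multiset.toFinset_card_le _).trans ((Polynomial.card_roots' _).trans ?_)).trans ?_
      · compute_degree
      · rw [Finset.card_univ]; omega
    -- an anisotropic line
    have hc' : ∀ n (hn' : n ∈ conjLin E Q g), c n hn' = 1 ∨ c n hn' = -1 := fun n hn' => by
      have h := hφ n hn' y y
      rw [hc n hn', map_smul, map_smul, LinearMap.smul_apply, smul_eq_mul, smul_eq_mul] at h
      exact mul_self_eq_one_iff.mp (mul_right_cancel₀ hyy (by rw [one_mul]; linear_combination h))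
    let St : Finset (conjLin E Q g) := Finset.univ.filter fun n => ap n.1 y = y
    have hsplit : Fintype.card (conjLin E Q g) ≤ 2 * St.card := by
      have h1 : (Finset.univ.filter fun n : conjLin E Q g => ¬ ap n.1 y = y).card ≤ St.card := by
        by_cases hne : ∃ n₀ : conjLin E Q g, ¬ ap n₀.1 y = y
        swap
        · push Not at hne
          rw [Finset.filter_eq_empty_iff.mpr fun n _ => not_not.mpr (hne n)]; simp
        obtain ⟨n₀, hn₀⟩ := hne
        have hneg : ∀ n : conjLin E Q g, ¬ ap n.1 y = y → ap n.1 y = (-1 : E) • y := fun n h => by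
          rcases hc' n.1 n.2 with h' | h'
          · exact absurd (by rw [hc n.1 n.2, h', one_smul]) h
          · rw [hc n.1 n.2, h']
        refine Finset.card_le_card_of_injOn (fun n => n₀ * n) (fun n hn' => ?_)
          (fun a _ b _ h => mul_left_cancel h)
        refine Finset.mem_filter.mpr ⟨Finset.mem_univ _, ?_⟩
        rw [Subgroup.coe_mul, ap_mul, hneg n (Finset.mem_filter.mp hn').2, n₀.2.2.1, hneg n₀ hn₀, smul_smul]
        simp
      have h2 := Finset.card_filter_add_card_filter_not (s := (Finset.univ : Finset (conjLin E Q g)))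
        (fun n => ap n.1 y = y)
      rw [Finset.card_univ] at h2
      have h3' : (Finset.univ.filter fun n : conjLin E Q g => ap n.1 y = y).card = St.card := rfl
      omega
    obtain ⟨z, hzy, hzz⟩ : ∃ z, S.φ z y = 0 ∧ S.φ z z ≠ 0 := by
      obtain ⟨z, hz, hzp⟩ := S.exists_perp ![y] (by omega)
      have hzy : S.φ z y = 0 := hzp 0
      by_cases hzz : S.φ z z = 0
      swap
      · exact ⟨z, hzy, hzz⟩
      obtain ⟨q, hq'⟩ := S.nondeg_ne hz
      set q' := q - (S.φ q y / S.φ y y) • y with hqd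
      have e1 : S.φ q' y = 0 := by simp [hqd, div_mul_cancel₀ _ hyy]
      have e2 : S.φ z q' = S.φ z q := by simp [hqd, hzy]
      by_cases hqq : S.φ q' q' = 0
      swap
      · exact ⟨q', e1, hqq⟩
      refine ⟨z + q', by simp [hzy, e1], ?_⟩
      simp only [map_add, LinearMap.add_apply, hzz, hqq, S.symm q' z, e2, zero_add, add_zero, ← two_mul]
      exact mul_ne_zero S.two_E hq'
    obtain ⟨z', hz'0, hz'p⟩ := S.exists_perp ![y, z] (by omega)
    have hz'y : S.φ z' y = 0 := hz'p 0
    have hz'z : S.φ z' z = 0 := hz'p 1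
    have hspan : ∀ w, S.φ w y = 0 → ∃ a : E, a • z' = w - (S.φ w z / S.φ z z) • z := fun w hw => by
      refine S.perp_unique h3 hy (fun a ha => ?_) hz'0 hz'y hz'z (by simp [hw, hzy])
        (by simp [div_mul_cancel₀ _ hzz])
      rw [← ha, map_smul, LinearMap.smul_apply, smul_eq_mul] at hzy
      rw [← ha, (mul_eq_zero.mp hzy).resolve_right hyy, zero_smul, map_zero] at hzz
      exact hzz rfl
    have hz'z' : S.φ z' z' ≠ 0 := fun h0 => hz'0 (S.nondeg fun w => by
      obtain ⟨a, ha⟩ := hspan (w - (S.φ w y / S.φ y y) • y) (by simp [div_mul_cancel₀ _ hyy])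
      have h := congrArg (S.φ z') ha
      simpa [h0, hz'y, hz'z] using h.symm)
    let sols : Finset (F × E) := Finset.univ.filter fun p =>
      S.φ z' z' * (p.2 * p.2) = S.φ z z * (1 - algebraMap F E p.1 * algebraMap F E p.1)
    have hsol : sols.card + 2 ≤ 2 * Fintype.card F := by
      have hne : (1 : F) ≠ -1 := fun h => S.two (by linear_combination h)
      have h1 : ∀ a : F, (sols.filter fun p => p.1 = a).card ≤ if a = 1 ∨ a = -1 then 1 else 2 := by
        intro a
        split_ifs with ha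
        · refine Finset.card_le_one.mpr fun p hp p' hp' => ?_
          have key : ∀ p : F × E, p ∈ sols.filter (fun p => p.1 = a) → p = (a, 0) := by
            intro p hp
            obtain ⟨hps, rfl⟩ := Finset.mem_filter.mp hp
            have h : S.φ z' z' * (p.2 * p.2) = S.φ z z * (1 - algebraMap F E p.1 * algebraMap F E p.1) :=
              (Finset.mem_filter.mp hps).2
            rw [show algebraMap F E p.1 * algebraMap F E p.1 = 1 by
              rcases ha with ha | ha <;> simp [ha], sub_self, mul_zero] at h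
            exact Prod.ext rfl (mul_self_eq_zero.mp ((mul_eq_zero.mp h).resolve_left hz'z'))
          rw [key p hp, key p' hp']
        · by_cases hempty : (sols.filter fun p => p.1 = a).Nonempty
          swap
          · rw [Finset.not_nonempty_iff_eq_empty.mp hempty]; simp
          obtain ⟨p₀, hp₀⟩ := hempty
          refine (Finset.card_le_card (t := {(a, p₀.2), (a, -p₀.2)}) fun p hp => ?_).trans Finset.card_le_two
          obtain ⟨hps, rfl⟩ := Finset.mem_filter.mp hp
          obtain ⟨hp₀, hpa⟩ := Finset.mem_filter.mp hp₀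
          have h : S.φ z' z' * (p.2 * p.2) = S.φ z z * (1 - algebraMap F E p.1 * algebraMap F E p.1) :=
            (Finset.mem_filter.mp hps).2
          have h' : S.φ z' z' * (p₀.2 * p₀.2) = S.φ z z * (1 - algebraMap F E p₀.1 * algebraMap F E p₀.1) :=
            (Finset.mem_filter.mp hp₀).2
          rw [hpa] at h'
          rcases mul_self_eq_mul_self_iff.mp (mul_left_cancel₀ hz'z' (h.trans h'.symm)) with e | e
          · exact Finset.mem_insert.mpr (Or.inl (Prod.ext rfl e))
          · exact Finset.mem_insert.mpr (Or.inr (Finset.mem_singleton.mpr (Prod.ext rfl e)))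
      rw [Finset.card_eq_sum_card_fiberwise (f := fun p : F × E => p.1) (t := (Finset.univ : Finset F))
        (fun _ _ => Finset.mem_univ _)]
      refine (Nat.add_le_add_right (Finset.sum_le_sum fun a _ => h1 a) 2).trans ?_
      rw [Finset.sum_ite, Finset.sum_const, Finset.sum_const, smul_eq_mul, smul_eq_mul, mul_one]
      have h2 := Finset.card_filter_add_card_filter_not (s := (Finset.univ : Finset F)) (fun a => a = 1 ∨ a = -1)
      rw [Finset.card_univ] at h2
      have h3' : (Finset.univ.filter fun a : F => a = 1 ∨ a = -1).card = 2 := by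
        rw [show (Finset.univ.filter fun a : F => a = 1 ∨ a = -1) = {1, -1} by ext; simp,
          Finset.card_pair hne]
      omega
    choose ta hta using htr
    let code : (n : conjLin E Q g) → F × E := fun n =>
      ((ta n.1 n.2 - 1) / 2, S.φ (ap n.1 z) z' / S.φ z' z')
    have hval : ∀ n ∈ St, ap n.1 z = algebraMap F E (code n).1 • z + (code n).2 • z' := by
      intro n hn'
      have hyf := (Finset.mem_filter.mp hn').2
      have hwy : S.φ (ap n.1 z) y = 0 := by rw [← hyf, hφ _ n.2, hzy]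
      have h1 : S.φ (ap n.1 z) z = algebraMap F E (code n).1 * S.φ z z := by
        by_cases hne : n.1 = 1
        · have h2 := hta n.1 n.2
          have h4 : algebraMap F E (ta n.1 n.2) = algebraMap F E 3 := by
            rw [h2, show eLin n.1 n.2.2.1 = LinearMap.id from LinearMap.ext fun x => by simp [hne],
              LinearMap.trace_id, h3, map_ofNat, Nat.cast_ofNat]
          have h5' : ta n.1 n.2 = 3 := (algebraMap F E).injective h4
          simp only [code]
          rw [h5', hne, ap_one, show ((3 : F) - 1) / 2 = 1 by norm_num; exact S.two, map_one, one_mul]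
        · obtain ⟨-, hrot⟩ := S.rotation n.2.1 n.2.2.1 h3 hodd hne hyf hyy
          have h2 := congrArg (fun w => S.φ w z) (hrot z hzy)
          simp only [map_add, map_smul, LinearMap.add_apply, LinearMap.smul_apply, smul_eq_mul] at h2
          have h4 : S.φ (ap n.1⁻¹ z) z = S.φ (ap n.1 z) z := by
            have := hφ _ n.2 (ap n.1⁻¹ z) z
            rw [ap_ap_inv] at this
            rw [← this, S.symm]
          rw [h4, ← hta n.1 n.2] at h2
          simp only [code, map_div₀, map_sub, map_one, map_ofNat]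
          have := S.two_E
          field_simp
          linear_combination h2
      obtain ⟨a, ha⟩ := hspan _ hwy
      rw [h1, mul_div_assoc, div_self hzz, mul_one] at ha
      have h6 : (code n).2 = a := by
        have h := congrArg (fun w => S.φ w z') ha
        simp [S.symm z z', hz'z] at h
        simp only [code]
        rw [← h, mul_div_assoc, div_self hz'z', mul_one]
      rw [h6, ha]; abel
    have hmaps : ∀ n ∈ St, code n ∈ sols := fun n hn' => by
      refine Finset.mem_filter.mpr ⟨Finset.mem_univ _, ?_⟩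
      have h := hφ _ n.2 z z
      rw [hval n hn'] at h
      simp only [map_add, map_smul, LinearMap.add_apply, LinearMap.smul_apply, smul_eq_mul, S.symm z z',
        hz'z] at h
      linear_combination h
    have hSt : St.card ≤ sols.card := by
      refine Finset.card_le_card_of_injOn code hmaps fun a ha b hb he => ?_
      refine (Subtype.ext (inv_mul_eq_one.mp ?_)).symm
      by_contra h1
      have hab := mul_mem (inv_mem b.2) a.2
      have hza : ap a.1 z = ap b.1 z := by rw [hval a ha, hval b hb, he]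
      obtain ⟨l, hl⟩ := S.fixed_line hab.1 hab.2.1 h3 hodd h1 hy
        (by
          rw [ap_mul, (Finset.mem_filter.mp ha).2]
          nth_rw 1 [← (Finset.mem_filter.mp hb).2]
          rw [ap_inv_ap])
        (show ap (b.1⁻¹ * a.1) z = z by rw [ap_mul, hza, ap_inv_ap])
      rw [← hl, map_smul, LinearMap.smul_apply, smul_eq_mul] at hzy
      rw [← hl, (mul_eq_zero.mp hzy).resolve_right hyy, zero_smul, map_zero] at hzz
      exact hzz rfl
    omega
  -- no invariant line: an isotropic line is carried to a line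
  push Not at hline
  exfalso
  obtain ⟨n₀, hn₀, hn₀1⟩ : ∃ n ∈ conjLin E Q g, n ≠ 1 := by
    have : Nontrivial (ι → F) := Module.nontrivial_of_finrank_pos (R := E) (by omega)
    obtain ⟨y, hy⟩ := exists_ne (0 : ι → F)
    obtain ⟨n, hn', h⟩ := hline y hy
    exact ⟨n, hn', fun h1 => h 1 (by rw [h1, ap_one, one_smul])⟩
  obtain ⟨y, hy, hyf, hyy⟩ := hax n₀ hn₀ hn₀1
  obtain ⟨n₁, hn₁, hn₁y⟩ := hline y hy
  -- the orbit of the axis spans
  obtain ⟨n₂, hn₂, hn₂y⟩ : ∃ n₂ ∈ conjLin E Q g,
      ∀ a b : E, a • y + b • ap n₁ y ≠ ap n₂ y := by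
    by_contra hall
    push Not at hall
    obtain ⟨v, hv, hperp⟩ := S.exists_perp ![y, ap n₁ y] (by omega)
    have hvy : S.φ v y = 0 := hperp 0
    have hv1 : S.φ v (ap n₁ y) = 0 := hperp 1
    obtain ⟨n, hn', hnv⟩ := hline v hv
    have hz : ∀ m ∈ conjLin E Q g, S.φ v (ap m y) = 0 := fun m hm => by
      obtain ⟨a, b, hab⟩ := hall m hm
      rw [← hab]; simp [hvy, hv1]
    obtain ⟨l, hl⟩ := S.perp_unique h3 hy (fun a ha => hn₁y a ha.symm) hv hvy hv1 (x := ap n v)
      (by
        have h := hφ n hn' v (ap n⁻¹ y)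
        rw [ap_ap_inv] at h
        rw [h, hz _ (inv_mem hn')])
      (by
        have h := hφ n hn' v (ap (n⁻¹ * n₁) y)
        rw [ap_mul n⁻¹, ap_ap_inv] at h
        rw [h, ← ap_mul, hz _ (mul_mem (inv_mem hn') hn₁)])
    exact hnv l hl.symm
  have hli : LinearIndependent E ![y, ap n₁ y, ap n₂ y] := by
    rw [Fintype.linearIndependent_iff]
    intro k hk
    simp [Fin.sum_univ_three] at hk
    have k2 : k 2 = 0 := by
      by_contra h2
      refine hn₂y (-(k 2)⁻¹ * k 0) (-(k 2)⁻¹ * k 1) ?_
      linear_combination (norm := (match_scalars <;> field_simp <;> ring)) (-(k 2)⁻¹) • hk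
    rw [k2, zero_smul, add_zero] at hk
    have k1 : k 1 = 0 := by
      by_contra h1
      refine hn₁y (-(k 1)⁻¹ * k 0) ?_
      linear_combination (norm := (match_scalars <;> field_simp <;> ring)) (k 1)⁻¹ • hk
    rw [k1, zero_smul, add_zero, smul_eq_zero] at hk
    intro i
    fin_cases i
    exacts [hk.resolve_right hy, k1, k2]
  -- the Gram coefficients lie in the base field
  have hgram : ∀ n ∈ conjLin E Q g, ∃ e : F, S.φ (ap n y) y = algebraMap F E e * S.φ y y := by
    intro n hn'
    obtain ⟨ht2, hrot⟩ := S.rotation hn₀.1 hn₀.2.1 h3 hodd hn₀1 hyf hyy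
    set t := LinearMap.trace E (ι → F) (eLin n₀ hn₀.2.1) - 1 with ht
    have hop : eLin n hn'.2.1 ∘ₗ ((eLin n₀ hn₀.2.1 ∘ₗ eLin n₀ hn₀.2.1) - t • eLin n₀ hn₀.2.1 + LinearMap.id) =
        ((2 - t) / S.φ y y) • (S.φ y).smulRight (ap n y) := by
      refine LinearMap.ext fun w => ?_
      set a := S.φ w y / S.φ y y with ha
      set w' := w - a • y with hw'
      have hw'y : S.φ w' y = 0 := by simp [hw', ha, div_mul_cancel₀ _ hyy]
      have h := congrArg (ap n₀) (hrot w' hw'y)
      rw [ap_add, ap_ap_inv, hn₀.2.1] at h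
      have hw : w = w' + a • y := by rw [hw', sub_add_cancel]
      have hkey : ap n₀ (ap n₀ w) - t • ap n₀ w + w = ((2 - t) * a) • y := by
        rw [hw, ap_add, ap_add n₀ (ap n₀ w'), hn₀.2.1 a, hyf, hn₀.2.1 a, hyf]
        linear_combination (norm := (match_scalars <;> ring)) h
      simp only [LinearMap.comp_apply, LinearMap.add_apply, LinearMap.sub_apply, LinearMap.smul_apply,
        LinearMap.id_apply, eLin_apply, LinearMap.smulRight_apply]
      rw [hkey, hn'.2.1, smul_smul, S.symm y w, ha]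
      congr 1
      field_simp
    have hmul : ∀ (a b : GL ι F) (ha : a ∈ conjLin E Q g) (hb : b ∈ conjLin E Q g),
        eLin a ha.2.1 ∘ₗ eLin b hb.2.1 = eLin (a * b) (mul_mem ha hb).2.1 := fun a b ha hb =>
      LinearMap.ext fun x => by simp [ap_mul]
    have h := congrArg (LinearMap.trace E (ι → F)) hop
    rw [LinearMap.comp_add, LinearMap.comp_sub, LinearMap.comp_smul, LinearMap.comp_id, ← LinearMap.comp_assoc,
      hmul n n₀ hn' hn₀, hmul _ n₀ (mul_mem hn' hn₀) hn₀, map_add, map_sub, map_smul, map_smul,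
      LinearMap.trace_smulRight, S.symm y (ap n y)] at h
    obtain ⟨e1, he1⟩ := htr _ (mul_mem (mul_mem hn' hn₀) hn₀)
    obtain ⟨e2, he2⟩ := htr _ (mul_mem hn' hn₀)
    obtain ⟨e3, he3⟩ := htr _ hn'
    obtain ⟨e4, he4⟩ := htr _ hn₀
    rw [← he1, ← he2, ← he3, smul_eq_mul, smul_eq_mul] at h
    have ht' : t = algebraMap F E (e4 - 1) := by rw [ht, ← he4, map_sub, map_one]
    have hne : (2 : E) - t ≠ 0 := sub_ne_zero.mpr (Ne.symm ht2)
    refine ⟨(e1 - (e4 - 1) * e2 + e3) / (2 - (e4 - 1)), ?_⟩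
    rw [ht'] at h hne
    simp only [map_div₀, map_add, map_sub, map_mul, map_one, map_ofNat] at h hne ⊢
    field_simp at h ⊢
    linear_combination -h
  let yv : Fin 3 → (ι → F) := ![y, ap n₁ y, ap n₂ y]
  have hyv : ∀ i, ∃ n ∈ conjLin E Q g, ap n y = yv i := fun i => by
    fin_cases i
    exacts [⟨1, one_mem _, ap_one y⟩, ⟨n₁, hn₁, rfl⟩, ⟨n₂, hn₂, rfl⟩]
  choose ns hns' hnsy using hyv
  have hG : ∀ i j, ∃ e : F, S.φ (yv i) (yv j) = algebraMap F E e * S.φ y y := fun i j => by
    obtain ⟨e, he⟩ := hgram _ (mul_mem (inv_mem (hns' j)) (hns' i))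
    refine ⟨e, ?_⟩
    rw [← he, ← hnsy i, ← hnsy j, ap_mul]
    have := hφ _ (hns' j) (ap (ns j)⁻¹ (ap (ns i) y)) y
    rw [ap_ap_inv] at this
    exact this
  choose G hG' using hG
  let Bq : Unit → (Fin 3 → F) →ₗ[F] (Fin 3 → F) →ₗ[F] F := fun _ =>
    Matrix.toLinearMap₂' F (Matrix.of G)
  obtain ⟨cv, hcv, hcv'⟩ := exists_common_zero Bq 0 (by
    rw [Fintype.card_unit, Module.finrank_fintype_fun_eq_card, Fintype.card_fin]; omega)
  replace hcv' : ∑ i, ∑ j, cv i * (G i j * cv j) = 0 := by
    have := hcv' ()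
    simpa [Bq, Matrix.toLinearMap₂'_apply, mul_comm, mul_left_comm] using this
  set v₀ := ∑ i, cv i • yv i with hv₀
  have hv00 : v₀ ≠ 0 := by
    intro h0
    refine hcv (funext fun i => ?_)
    have h1 : ∑ i, algebraMap F E (cv i) • yv i = 0 := by simpa [algebraMap_smul] using h0
    exact (algebraMap F E).injective (by
      rw [Fintype.linearIndependent_iff.mp hli _ h1 i, Pi.zero_apply, map_zero])
  have hvv : S.φ v₀ v₀ = 0 := by
    have h1 : S.φ v₀ v₀ = ∑ i, ∑ j, algebraMap F E (cv i * (G i j * cv j)) * S.φ y y := by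
      simp only [hv₀, ← algebraMap_smul E (cv _) (yv _), map_sum, map_smul, LinearMap.sum_apply,
        LinearMap.smul_apply, smul_eq_mul, hG', map_mul, Finset.mul_sum]
      rw [Finset.sum_comm]
      exact Finset.sum_congr rfl fun i _ => Finset.sum_congr rfl fun j _ => by ring
    rw [h1]
    simp only [← Finset.sum_mul, ← map_sum, hcv', map_zero, zero_mul]
  obtain ⟨him, -, -⟩ := (S.conj_facts hR hMΩ h3 hr h3r hn hnot hg hns hn₀).2.2.2 y hy hyf hn₀1
  have hgv : ap g v₀ ≠ 0 := fun h => hv00 (ap_injective g (by rw [h, ap_zero]))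
  have hgen : ∀ a : E, ∃ b : E, ap g (a • v₀) = b • ∑ i, cv i • ap (g * ns i * g⁻¹) (ap g y) := by
    intro a
    obtain ⟨b, hb⟩ := mem_ln.mp (show ap g (a • y) ∈ ln F E (ap g y) by
      rw [← him, mem_img', ap_inv_ap]; exact smul_mem_ln y a)
    refine ⟨b, ?_⟩
    rw [hv₀, Finset.smul_sum, Finset.smul_sum, ← apEquiv_apply, map_sum]
    refine Finset.sum_congr rfl fun i _ => ?_
    have hl := (S.conj_facts hR hMΩ h3 hr h3r hn hnot hg hns (hns' i)).2.2.1
    rw [apEquiv_apply, smul_comm a, ap_smul, smul_comm b, ← hnsy i, ← (hns' i).2.1, ← hl, hb, ap_mul, ap_mul,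
      ap_inv_ap]
  obtain ⟨b₁, hb₁⟩ := hgen 1
  rw [one_smul] at hb₁
  have hb₁0 : b₁ ≠ 0 := fun h => hgv (by rw [hb₁, h, zero_smul])
  have himv : img g (ln F E v₀) = ln F E (ap g v₀) := by
    refine Submodule.eq_of_le_of_finrank_le (fun x hx => ?_)
      (by rw [finrank_img, finrank_ln hv00, finrank_ln hgv])
    obtain ⟨a, ha⟩ := mem_ln.mp (mem_img'.mp hx)
    obtain ⟨b, hb⟩ := hgen a
    refine mem_ln.mpr ⟨b / b₁, ?_⟩
    rw [hb₁, smul_smul, div_mul_cancel₀ _ hb₁0, ← hb, ha, ap_ap_inv]
  exact hns (S.semi_of_line hR hMΩ h3 hr h3r hn hnot hg hv00 hvv hgv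
    (S.isotropic_of_line (hM hg) hvv (self_mem_ln _) himv) himv)

include S in
/-- Semilinear conjugates of linear elements are linear, unless the degree and the characteristic are small. -/
lemma conjSemi_le (hsmall : finrank F E = 3 → (3 : F) = 0) : conjSemi E Q g ≤ conjLin E Q g := by
  classical
  have hM : M ≤ Cfsg.isometryGroup F (⇑Q) := hMΩ.trans omegaGL_le
  have hodd : Odd (finrank F E) := hr.odd_of_ne_two (by omega)
  have hfin : Module.Finite F E := Module.Finite.of_finite
  intro n hn'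
  obtain ⟨hnΩ, hnl, hsemi⟩ := hn'
  refine ⟨hnΩ, hnl, ?_⟩
  set m := g * n * g⁻¹ with hm
  obtain ⟨z₁, hz₁, hz₁f⟩ := S.exists_fixed h3 hodd hnΩ hnl
  set W := img g (ln F E z₁) with hW
  have hfix : ∀ x ∈ W, ap m x = x := by
    intro x hx
    obtain ⟨a, ha⟩ := mem_ln.mp (mem_img'.mp hx)
    rw [hm, ap_mul, ap_mul, ← ha, hnl, hz₁f, ha, ap_ap_inv]
  by_cases hr3 : finrank F E = 3
  swap
  · refine linear_of_fixed hr h3 hsemi W hfix ?_
    rw [hW, finrank_img, finrank_ln hz₁]
    omega
  by_contra hlin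
  push Not at hlin
  have h30 : (3 : E) = 0 := by rw [← map_ofNat (algebraMap F E) 3, hsmall hr3, map_zero]
  have hmI : m ∈ Cfsg.isometryGroup F (⇑Q) := mul_mem (mul_mem (hM hg) (omegaGL_le hnΩ)) (inv_mem (hM hg))
  have hW3 : finrank F W = 3 := by rw [hW, finrank_img, finrank_ln hz₁, hr3]
  have hCF : ∀ c : E, (∀ x, ap m (c • x) = c • ap m x) → c ∈ Set.range (algebraMap F E) := by
    intro c hc
    by_contra hcF
    let C : Subalgebra F E :=
      { carrier := {c | ∀ x, ap m (c • x) = c • ap m x}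
        mul_mem' := fun {a b} ha hb x => by rw [mul_smul, ha, hb, mul_smul]
        one_mem' := fun x => by rw [one_smul, one_smul]
        add_mem' := fun {a b} ha hb x => by rw [add_smul, ap_add, ha, hb, add_smul]
        zero_mem' := fun x => by rw [zero_smul, ap_zero, zero_smul]
        algebraMap_mem' := fun c x => by rw [algebraMap_smul, ap_smul, algebraMap_smul] }
    obtain ⟨c₁, x, hx⟩ := hlin
    exact hx ((show c₁ ∈ C from subalgebra_eq_top hr (show c ∈ C from hc) hcF ▸ Algebra.mem_top) x)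
  obtain ⟨σ, hσ⟩ := hsemi.exists_aut hz₁
  have hσ3 : ∀ a, σ (σ (σ a)) = a := by
    intro a
    have hcard : Nat.card (E ≃ₐ[F] E) = 3 := by rw [IsGalois.card_aut_eq_finrank, hr3]
    have h := pow_card_eq_one' (G := E ≃ₐ[F] E) (x := σ)
    rw [hcard] at h
    exact congrArg (fun τ : E ≃ₐ[F] E => τ a) h
  -- the cube is one
  have := S.finite_E
  let bW := finBasisOfFinrankEq F W hW3
  have hliE := indep_of_fixed hsemi W hfix hCF 3 (fun i => (bW i : ι → F)) (fun i => (bW i).2)
    (bW.linearIndependent.map' W.subtype W.ker_subtype)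
  let bE := basisOfLinearIndependentOfCardEqFinrank hliE (by simp [h3])
  have hbE : ∀ i, ap m (bE i) = bE i := fun i => by
    simp only [bE, coe_basisOfLinearIndependentOfCardEqFinrank]
    exact hfix _ (bW i).2
  have hm3 : ∀ x, ap m (ap m (ap m x)) = x := fun x => by
    have hx := bE.sum_repr x
    simp only [Fin.sum_univ_three] at hx
    rw [← hx]
    simp only [ap_add, hσ, hbE, hσ3]
  have hn3 : ∀ x, ap n (ap n (ap n x)) = x := fun x => ap_injective g (by
    have h := hm3 (ap g x)
    simp only [hm, ap_mul, ap_inv_ap] at h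
    exact h)
  -- the axis is isotropic
  have hzz : S.φ z₁ z₁ = 0 := by
    by_contra hη
    have hφ := S.form_of_linear (omegaGL_le hnΩ) hnl
    have hn1 : n ≠ 1 := fun h1 => by
      obtain ⟨c₁, x, hx⟩ := hlin
      exact hx (by simp [hm, h1])
    have hP : ∀ x, S.φ x z₁ = 0 → S.φ (ap n x - x) z₁ = 0 := fun x hx => by
      rw [map_sub, LinearMap.sub_apply, hx, sub_zero]
      nth_rw 1 [← hz₁f]
      rw [hφ, hx]
    have hzero : ∀ x, S.φ x z₁ = 0 → ap n x = x → x = 0 := fun x hx hxf => by
      obtain ⟨a, rfl⟩ := S.fixed_line hnΩ hnl h3 hodd hn1 hz₁ hz₁f hxf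
      rw [map_smul, LinearMap.smul_apply, smul_eq_mul] at hx
      rw [(mul_eq_zero.mp hx).resolve_right hη, zero_smul]
    obtain ⟨x, hx0, hx⟩ := S.exists_perp ![z₁] (by omega)
    have hx' : S.φ x z₁ = 0 := hx 0
    have h1 := hP x hx'
    have h2 := hP _ h1
    have hD3 : ap n (ap n (ap n x - x) - (ap n x - x)) = ap n (ap n x - x) - (ap n x - x) := by
      simp only [ap_sub, hn3]
      have e : ∀ y : ι → F, (3 : E) • y = 0 := fun y => by rw [h30, zero_smul]
      linear_combination (norm := module) -(e (ap n (ap n x))) + e (ap n x)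
    have e1 := hzero _ h2 hD3
    rw [sub_eq_zero] at e1
    have e2 := hzero _ h1 e1
    rw [sub_eq_zero] at e2
    exact hx0 (hzero _ hx' e2)
  -- an isotropic vector of the fixed space
  obtain ⟨c₀, hc₀⟩ : ∃ c, S.T c ≠ 0 := by
    by_contra hall
    push Not at hall
    exact S.T_ne (LinearMap.ext hall)
  let Bq : Unit → W →ₗ[F] W →ₗ[F] F := fun _ => LinearMap.mk₂ F
    (fun a b => S.T (c₀ * S.φ (a : ι → F) (b : ι → F)))
    (fun a a' b => by simp only [Submodule.coe_add, map_add, LinearMap.add_apply, mul_add])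
    (fun s a b => by
      simp only [Submodule.coe_smul, ← algebraMap_smul E s (a : ι → F), map_smul, LinearMap.smul_apply,
        smul_eq_mul, ← Algebra.smul_def, mul_smul_comm])
    (fun a b b' => by simp only [Submodule.coe_add, map_add, mul_add])
    (fun s a b => by
      simp only [Submodule.coe_smul, ← algebraMap_smul E s (b : ι → F), map_smul,
        smul_eq_mul, ← Algebra.smul_def, mul_smul_comm])
  obtain ⟨⟨w, hwW⟩, hw0, hw⟩ := exists_common_zero Bq 0 (by rw [Fintype.card_unit, hW3]; omega)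
  replace hw : S.T (c₀ * S.φ w w) = 0 := by simpa [Bq] using hw ()
  have hwF : S.φ w w ∈ Set.range (algebraMap F E) := hCF _ fun x => by
    rw [hσ, show σ (S.φ w w) = S.φ w w from S.ext_T fun c => by
      obtain ⟨c', rfl⟩ := σ.surjective c
      rw [← map_mul, S.T_aut, ← S.polar_smul', ← polar_ap hmI, hσ, hfix w hwW, S.polar_smul']]
  obtain ⟨s, hs⟩ := hwF
  rw [← hs, mul_comm, ← Algebra.smul_def, map_smul, smul_eq_mul] at hw
  have hww : S.φ w w = 0 := by rw [← hs, (mul_eq_zero.mp hw).resolve_right hc₀, map_zero]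
  exact S.false_of_fixed_form hR hMΩ h3 hr3 hn hnot hmI hsemi hlin W hW3 hfix hwW
    (fun h => hw0 (Subtype.ext h)) hww (inv_mem hg) hz₁ hzz fun x => by rw [hW, mem_img']

omit hR hMΩ h3 hr h3r hn hnot hg hns

/-- There are few cosets of the linear conjugates among the semilinear ones. -/
theorem card_conjSemi {v : ι → F} (hv : v ≠ 0) :
    Nat.card (conjSemi E Q g) ≤ Nat.card (E ≃ₐ[F] E) * Nat.card (conjLin E Q g) := by
  classical
  choose σ hσ using fun n : conjSemi E Q g => n.2.2.2.exists_aut hv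
  let rep : (E ≃ₐ[F] E) → conjSemi E Q g := Function.invFun σ
  have hrep : ∀ n, σ (rep (σ n)) = σ n := fun n => Function.invFun_eq ⟨n, rfl⟩
  have hmem : ∀ n, (rep (σ n) : GL ι F)⁻¹ * n.1 ∈ conjLin E Q g := by
    intro n
    have hs := mul_mem (inv_mem (rep (σ n)).2) n.2
    refine ⟨hs.1, hs.2.1, fun a x => ?_⟩
    have e : g * ((rep (σ n) : GL ι F)⁻¹ * n.1) * g⁻¹ =
        (g * (rep (σ n) : GL ι F) * g⁻¹)⁻¹ * (g * n.1 * g⁻¹) := by group
    refine ap_injective (g * (rep (σ n) : GL ι F) * g⁻¹) ?_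
    simp only [e, ap_mul _ (g * n.1 * g⁻¹), ap_ap_inv, hσ (rep (σ n)), hrep]
    rw [hσ n]
  rw [← Nat.card_prod]
  refine Nat.card_le_card_of_injective (fun n => (σ n, (⟨_, hmem n⟩ : conjLin E Q g))) fun n n' he => ?_
  simp only [Prod.mk.injEq, Subtype.mk.injEq] at he
  obtain ⟨he, hc⟩ := he
  rw [he] at hc
  exact Subtype.ext (mul_left_cancel hc)

end OForm

end CfsgLib.Geometric.ExtF
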