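import Cfsg.Agent.Lib.Geometric.ExtField.OrthPair
import Cfsg.Agent.Lib.Geometric.ExtField.Normaliser

/-!
In degree two a pure element gives all long root elements of the isotropic lines, and with them all of
`omegaGL`.
-/

set_option autoImplicit false
set_option linter.unusedSectionVars false

namespace CfsgLib.Geometric.ExtF

open Module Matrix QuadraticMap CfsgLib.ClassicalForms CfsgLib.Geometric.Orth

variable {F : Type*} [Field F] {ι : Type} [Fintype ι] [DecidableEq ι] {E : Type*} [Field E] [Algebra F E]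
  [Module E (ι → F)] [IsScalarTower F E (ι → F)] [Finite F] [Finite E]

namespace OForm

variable {Q : QuadraticForm F (ι → F)} (S : OForm Q E)

include S in
/-- Orthogonally to a hyperbolic pair every value is taken. -/
lemma exists_value (h4 : 4 ≤ finrank E (ι → F)) {v p : ι → F} (hvv : S.φ v v = 0) (hpp : S.φ p p = 0) (hvp : S.φ v p = 1) (η : E) :
    ∃ x, S.φ x v = 0 ∧ S.φ x p = 0 ∧ S.φ x x = η := by
  obtain ⟨y₁, h1, h1', hy₁⟩ := S.exists_aniso hvv hpp (by rw [hvp]; exact one_ne_zero)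
  obtain ⟨y₂, hy₂, hperp⟩ := S.exists_perp ![v, p, y₁] (by omega)
  have h2 : S.φ y₂ v = 0 := hperp 0
  have h2' : S.φ y₂ p = 0 := hperp 1
  have h12 : S.φ y₂ y₁ = 0 := hperp 2
  have htwo := S.two_E
  by_cases hyy : S.φ y₂ y₂ = 0
  · obtain ⟨q, hq⟩ := S.nondeg_ne hy₂
    set q' := q - S.φ q p • v - S.φ q v • p with hq'
    have e1 : S.φ q' v = 0 := by simp [hq', hvv, S.symm p v, hvp]
    have e2 : S.φ q' p = 0 := by simp [hq', hvp, hpp]
    have e3 : S.φ y₂ q' = S.φ y₂ q := by simp [hq', h2, h2']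
    refine ⟨q' + ((η - S.φ q' q') / (2 * S.φ y₂ q)) • y₂, by simp [e1, h2], by simp [e2, h2'], ?_⟩
    simp only [map_add, map_smul, LinearMap.add_apply, LinearMap.smul_apply, smul_eq_mul, hyy,
      S.symm q' y₂, e3]
    field_simp
    ring
  · have := Fintype.ofFinite E
    have hc : Fintype.card E % 2 = 1 := FiniteField.odd_card_of_char_ne_two (fun h => htwo (by
      have := ringChar.of_eq h
      exact_mod_cast CharP.cast_eq_zero E 2))
    obtain ⟨s, t, hst⟩ := FiniteField.exists_root_sum_quadratic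
      (f := Polynomial.C (S.φ y₁ y₁) * Polynomial.X ^ 2 - Polynomial.C η)
      (g := Polynomial.C (S.φ y₂ y₂) * Polynomial.X ^ 2)
      (by rw [Polynomial.degree_sub_C] <;> simp [Polynomial.degree_C, hy₁])
      (by simp [Polynomial.degree_C, hyy]) hc
    simp at hst
    refine ⟨s • y₁ + t • y₂, by simp [h1, h2], by simp [h1', h2'], ?_⟩
    simp only [map_add, map_smul, LinearMap.add_apply, LinearMap.smul_apply, smul_eq_mul, S.symm y₁ y₂, h12]
    linear_combination hst

variable {M : Subgroup (GL ι F)}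
  (hR : ∀ g ∈ Cfsg.Geo.omegaGL (⇑Q), IsSemi E g → g ∈ M)
  (hM : M ≤ Cfsg.isometryGroup F (⇑Q))

include hR hM

/-- In degree two one pure element gives everything. -/
theorem le_of_pure_two (h4 : 4 ≤ finrank E (ι → F)) (h2 : finrank F E = 2) (hn : 5 ≤ Fintype.card ι) {v : ι → F} (hv : v ≠ 0)
    (hvv : S.φ v v = 0) {ρ : GL ι F} (hρ : ρ ∈ M) {B : E →ₗ[F] E} (hB0 : B ≠ 0)
    (hB : S.IsPure v ρ B) : Cfsg.Geo.omegaGL (⇑Q) ≤ M := by
  obtain ⟨hBρ, hBskew⟩ := hB
  have htwo := S.two_E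
  -- a basis
  obtain ⟨β, d, hβF, hββ⟩ : ∃ (β : E) (d : F), β ∉ Set.range (algebraMap F E) ∧
      β * β = algebraMap F E d := by
    obtain ⟨β₀, hβ₀⟩ := exists_notMem_range (F := F) (E := E) (by rw [h2]; exact Nat.prime_two)
    have hli : LinearIndependent F ![(1 : E), β₀] := LinearIndependent.pair_iff.mpr fun s t hst => by
      by_cases ht : t = 0
      · subst ht; simpa using hst
      · refine absurd ⟨-s / t, ?_⟩ hβ₀
        simp only [Algebra.smul_def, mul_one] at hst
        have ht' : algebraMap F E t ≠ 0 := by simpa using ht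
        rw [map_div₀, map_neg, div_eq_iff ht']
        linear_combination -hst
    let b := basisOfLinearIndependentOfCardEqFinrank hli (by simp [h2])
    have hb := b.sum_repr (β₀ * β₀)
    simp only [Fin.sum_univ_two, b, coe_basisOfLinearIndependentOfCardEqFinrank, Matrix.cons_val_zero,
      Matrix.cons_val_one, Algebra.smul_def, mul_one] at hb
    generalize hs : b.repr (β₀ * β₀) 0 = s at hb
    generalize ht : b.repr (β₀ * β₀) 1 = t at hb
    refine ⟨β₀ - algebraMap F E (t / 2), s + t ^ 2 / 4, fun ⟨u, hu⟩ => hβ₀ ⟨u + t / 2, by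
      rw [map_add, hu, sub_add_cancel]⟩, ?_⟩
    simp only [map_add, map_div₀, map_pow, map_ofNat]
    have : (4 : E) ≠ 0 := by
      rw [show (4 : E) = 2 * 2 by norm_num]; exact mul_ne_zero htwo htwo
    field_simp
    linear_combination (-16 : E) * hb
  have hli : LinearIndependent F ![(1 : E), β] := LinearIndependent.pair_iff.mpr fun s t hst => by
    by_cases ht : t = 0
    · subst ht; simpa using hst
    · refine absurd ⟨-s / t, ?_⟩ hβF
      simp only [Algebra.smul_def, mul_one] at hst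
      have ht' : algebraMap F E t ≠ 0 := by simpa using ht
      rw [map_div₀, map_neg, div_eq_iff ht']
      linear_combination -hst
  have hbase : ∀ c : E, ∃ s t : F, c = s • (1 : E) + t • β := by
    intro c
    let b := basisOfLinearIndependentOfCardEqFinrank hli (by simp [h2])
    refine ⟨b.repr c 0, b.repr c 1, ?_⟩
    conv_lhs => rw [← b.sum_repr c]
    simp [b, Fin.sum_univ_two]
  have halt : ∀ B' : E →ₗ[F] E, (∀ b c, S.T (c * B' b) = - S.T (b * B' c)) → ∀ s t s' t' : F,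
      S.T ((s • (1 : E) + t • β) * B' (s' • (1 : E) + t' • β)) = (t * s' - s * t') * S.T (β * B' 1) := by
    intro B' hB' s t s' t'
    have e0 : ∀ b, S.T (b * B' b) = 0 := fun b =>
      (mul_eq_zero.mp (show (2 : F) * S.T (b * B' b) = 0 by linear_combination hB' b b)).resolve_left S.two
    have e1 := e0 1
    rw [one_mul] at e1
    have e2 := hB' β 1
    rw [one_mul] at e2
    simp only [map_add, map_smul, add_mul, mul_add, smul_mul_assoc, mul_smul_comm, one_mul, smul_eq_mul,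
      e0, e1, e2]
    ring
  have hκ₀ : S.T (β * B 1) ≠ 0 := by
    intro h0
    refine hB0 (LinearMap.ext fun b => S.ext_T fun c => ?_)
    obtain ⟨s, t, rfl⟩ := hbase c
    obtain ⟨s', t', rfl⟩ := hbase b
    rw [halt B hBskew, h0]
    simp
  have hprop : ∀ B' : E →ₗ[F] E, (∀ b c, S.T (c * B' b) = - S.T (b * B' c)) →
      B' = (S.T (β * B' 1) / S.T (β * B 1)) • B := by
    intro B' hB'
    refine LinearMap.ext fun b => S.ext_T fun c => ?_
    obtain ⟨s, t, rfl⟩ := hbase c
    obtain ⟨s', t', rfl⟩ := hbase b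
    rw [halt B' hB', LinearMap.smul_apply, mul_smul_comm, map_smul, halt B hBskew, smul_eq_mul]
    field_simp
  obtain ⟨p, hpp, hvp⟩ := S.exists_partner hv hvv
  have hpv : S.φ p v = 1 := by rw [S.symm, hvp]
  -- all pure elements at the line
  let P : (E →ₗ[F] E) → Prop := fun B' => ∃ ρ' ∈ M, ∀ x, ap ρ' x = x + B' (S.φ x v) • v
  have hadd : ∀ B' B'', P B' → P B'' → P (B' + B'') := by
    rintro B' B'' ⟨ρ', hρ', h'⟩ ⟨ρ'', hρ'', h''⟩
    refine ⟨ρ' * ρ'', mul_mem hρ' hρ'', fun x => ?_⟩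
    rw [ap_mul, h'', h', map_add, map_smul, LinearMap.add_apply, LinearMap.smul_apply, hvv, smul_zero,
      add_zero, LinearMap.add_apply, add_smul]
    abel
  have hP0 : P 0 := ⟨1, one_mem M, fun x => by simp⟩
  have hsq : ∀ s : F, P (s ^ 2 • B) := by
    intro s
    by_cases hs : s = 0
    · rw [hs, zero_pow two_ne_zero, zero_smul]; exact hP0
    have := Fintype.ofFinite F
    have hd0 : d ≠ 0 := fun h0 => hβF ⟨0, by rw [map_zero]; exact (mul_self_eq_zero.mp
      (by rw [hββ, h0, map_zero])).symm⟩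
    obtain ⟨x, y, hxy⟩ := FiniteField.exists_root_sum_quadratic
      (f := Polynomial.X ^ 2 - Polynomial.C s) (g := Polynomial.C (-d) * Polynomial.X ^ 2)
      (by rw [Polynomial.degree_sub_C] <;> simp)
      (by simp [Polynomial.degree_C, hd0])
      (FiniteField.odd_card_of_char_ne_two (fun h => S.two (by
        have := ringChar.of_eq h
        exact_mod_cast CharP.cast_eq_zero F 2)))
    simp at hxy
    set c : E := x • (1 : E) + y • β with hc
    have hc0 : c ≠ 0 := fun h0 => by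
      obtain ⟨rfl, rfl⟩ := LinearIndependent.pair_iff.mp hli x y h0
      exact hs (by simpa using hxy)
    have hcc : c * c = (x ^ 2 + d * y ^ 2) • (1 : E) + (2 * x * y) • β := by
      simp only [hc, Algebra.smul_def, map_add, map_mul, map_pow, map_ofNat, mul_one]
      linear_combination (algebraMap F E y) ^ 2 * hββ
    set k := S.torus v p (c * c) with hk
    refine ⟨k * ρ * k⁻¹, mul_mem (mul_mem (S.torus_sq_mem' hR hvv hpp hvp hc0) hρ)
      (inv_mem (S.torus_sq_mem' hR hvv hpp hvp hc0)), fun z => ?_⟩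
    have hkf := S.torus_form hvv hpp hvp (mul_ne_zero hc0 hc0)
    have e1 : S.φ (ap k⁻¹ z) v = c * c * S.φ z v := by
      rw [← hkf, ← hk, ap_ap_inv, hk, S.torus_v hvv hpp hvp (mul_ne_zero hc0 hc0), map_smul, smul_eq_mul]
    have e2 : (s ^ 2 • B) = LinearMap.mulLeft F (c * c) ∘ₗ B ∘ₗ LinearMap.mulLeft F (c * c) := by
      have hsk : ∀ b e, S.T (e * (LinearMap.mulLeft F (c * c) ∘ₗ B ∘ₗ LinearMap.mulLeft F (c * c)) b) =
          - S.T (b * (LinearMap.mulLeft F (c * c) ∘ₗ B ∘ₗ LinearMap.mulLeft F (c * c)) e) := by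
        intro b e
        simp only [LinearMap.comp_apply, LinearMap.mulLeft_apply]
        rw [← mul_assoc, ← mul_assoc b, hBskew, mul_comm (c * c) b, mul_comm e (c * c)]
      rw [hprop _ hsk]
      congr 1
      simp only [LinearMap.comp_apply, LinearMap.mulLeft_apply, mul_one]
      rw [← mul_assoc, hcc, show β * ((x ^ 2 + d * y ^ 2) • (1 : E) + (2 * x * y) • β) =
        (2 * x * y * d) • (1 : E) + (x ^ 2 + d * y ^ 2) • β by
          rw [mul_add, mul_smul_comm, mul_smul_comm, mul_one, hββ, add_comm, Algebra.smul_def,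
            ← map_mul, Algebra.algebraMap_eq_smul_one],
        halt B hBskew, eq_div_iff hκ₀]
      rw [show s = x ^ 2 - d * y ^ 2 by linear_combination -hxy]
      ring
    rw [ap_mul, ap_mul, hBρ, ap_add, ap_ap_inv, e1, e2, hk,
      S.torus_linear hvv hpp hvp (mul_ne_zero hc0 hc0), S.torus_v hvv hpp hvp (mul_ne_zero hc0 hc0),
      smul_smul, LinearMap.comp_apply, LinearMap.comp_apply, LinearMap.mulLeft_apply,
      LinearMap.mulLeft_apply, mul_comm (B _)]
  have hrootv : ∀ (a b : E) (h : Q (a • v) = 0) (h' : polar Q (a • v) (b • v) = 0),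
      sg Q (a • v) (b • v) h h' ∈ M := by
    intro a b h h'
    let B' : E →ₗ[F] E := (S.T ∘ₗ LinearMap.mulLeft F a).smulRight b -
      (S.T ∘ₗ LinearMap.mulLeft F b).smulRight a
    have hB' : ∀ x e, S.T (e * B' x) = - S.T (x * B' e) := fun x e => by
      simp only [B', LinearMap.sub_apply, LinearMap.smulRight_apply, LinearMap.comp_apply,
        LinearMap.mulLeft_apply, mul_sub, mul_smul_comm, map_sub, map_smul, smul_eq_mul]
      rw [mul_comm e b, mul_comm e a, mul_comm x b, mul_comm x a]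
      ring
    obtain ⟨s, t, hst⟩ := exists_sq_add_sq (S.T (β * B' 1) / S.T (β * B 1))
    obtain ⟨ρ', hρ', h1⟩ : P B' := by
      rw [hprop B' hB', ← hst, add_smul]
      exact hadd _ _ (hsq s) (hsq t)
    convert hρ' using 1
    refine gl_ext fun x => ?_
    rw [h1, ap_sg, S.Q_eq_zero (x := b • v) (by simp [hvv]), zero_mul, add_zero, S.polar_smul, S.polar_smul]
    simp only [B', LinearMap.sub_apply, LinearMap.smulRight_apply, LinearMap.comp_apply,
      LinearMap.mulLeft_apply, sub_smul, smul_assoc]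
    abel
  have hrootp : ∀ (a b : E) (h : Q (a • p) = 0) (h' : polar Q (a • p) (b • p) = 0),
      sg Q (a • p) (b • p) h h' ∈ M := by
    intro a b h h'
    have hp0 : p ≠ 0 := fun h0 => by rw [h0, map_zero] at hvp; exact zero_ne_one hvp
    obtain ⟨g, hg, hlin, hform, c, hc, hgv⟩ := S.exists_move hR hv hp0 hvv hpp
    have h3 : Q ((a / c) • v) = 0 := S.Q_eq_zero (by simp [hvv])
    have h4 : polar Q ((a / c) • v) ((b / c) • v) = 0 := by rw [S.polar_smul]; simp [hvv]
    have e : ∀ d : E, ap g ((d / c) • v) = d • p := fun d => by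
      rw [hlin, hgv, smul_smul, div_mul_cancel₀ _ hc]
    have h5 := mul_mem (mul_mem hg (hrootv _ _ h3 h4)) (inv_mem hg)
    rw [conj_sg (hM hg)] at h5
    convert h5 using 1
    exact sg_congr (e a).symm (e b).symm _ _
  -- the anisotropic singular vector
  have hT1 : S.T (B 1) = 0 := by
    have := hBskew 1 1
    rw [one_mul] at this
    exact (mul_eq_zero.mp (show (2 : F) * S.T (B 1) = 0 by linear_combination this)).resolve_left S.two
  have hB1 : B 1 ≠ 0 := fun h0 => hκ₀ (by rw [h0, mul_zero, map_zero])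
  set p₀ := ap ρ p with hp₀
  set p₁ := ap ρ (β • p) with hp₁
  have ep₀ : p₀ = p + B 1 • v := by rw [hp₀, hBρ, hpv]
  have ep₁ : p₁ = β • p + B β • v := by
    rw [hp₁, hBρ, map_smul, LinearMap.smul_apply, hpv, smul_eq_mul, mul_one]
  have h00 : S.φ p₀ p₀ = 2 * B 1 := by
    simp [ep₀, hpp, hvp, hpv, hvv]; ring
  have hQ₀ : Q p₀ = 0 := by rw [hp₀, mem_isometryGroup_iff.mp (hM hρ)]; exact S.Q_eq_zero hpp
  let Y : Submodule F (ι → F) :=
    { carrier := {y | polar Q p₀ y = 0 ∧ ∀ (s : F) (hu : Q p₀ = 0) (h : polar Q p₀ (s • y) = 0),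
        sg Q p₀ (s • y) hu h ∈ M}
      zero_mem' := ⟨polar_zero_right _ _, fun s hu h => by
        convert one_mem M
        exact gl_ext fun x => by simp [ap_sg]⟩
      add_mem' := by
        rintro a b ⟨ha, ha'⟩ ⟨hb, hb'⟩
        refine ⟨by rw [polar_add_right, ha, hb, add_zero], fun s hu h => ?_⟩
        convert mul_mem (ha' s hu (by simp [polar_smul_right, ha]))
          (hb' s hu (by simp [polar_smul_right, hb])) using 1
        simp only [sg, ← map_mul, siegel_mul]
        exact sg_congr rfl (smul_add s a b) _ _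
      smul_mem' := by
        rintro c a ⟨ha, ha'⟩
        refine ⟨by simp [polar_smul_right, ha], fun s hu h => ?_⟩
        convert ha' (s * c) hu (by simp [polar_smul_right, ha]) using 1
        exact sg_congr rfl (smul_smul s c a) _ _ }
  have hp₀Y : p₀ ∈ Y := by
    have h0 : polar Q p₀ p₀ = 0 := by rw [polar_self_mul, hQ₀, mul_zero]
    refine ⟨h0, fun s hu h => ?_⟩
    convert one_mem M
    refine gl_ext fun x => ?_
    rw [ap_sg, ap_one, polar_smul_right, QuadraticMap.map_smul, hQ₀]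
    simp only [smul_eq_mul, mul_zero, zero_mul, add_zero]
    module
  have hp₁Y : p₁ ∈ Y := by
    have h0 : polar Q p₀ p₁ = 0 := by
      rw [hp₀, hp₁, polar_ap (hM hρ), S.polar_smul]; simp [hpp]
    refine ⟨h0, fun s hu h => ?_⟩
    have h5 := mul_mem (mul_mem hρ (hrootp 1 (s • β) (S.Q_eq_zero (by simp [hpp]))
      (by rw [S.polar_smul]; simp [hpp]))) (inv_mem hρ)
    rw [conj_sg (hM hρ)] at h5
    convert h5 using 1
    exact sg_congr (by rw [one_smul, hp₀]) (by rw [hp₁, smul_assoc, ap_smul]) _ _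
  have hinv : ∀ g ∈ M, ap g p₀ = p₀ → ∀ z ∈ Y, ap g z ∈ Y := by
    rintro g hg hgp z ⟨h0, h'⟩
    refine ⟨by rw [← hgp, polar_ap (hM hg), h0], fun s hu hs => ?_⟩
    have h3 := mul_mem (mul_mem hg (h' s hu (by simp [polar_smul_right, h0]))) (inv_mem hg)
    rw [conj_sg (hM hg)] at h3
    convert h3 using 1
    exact sg_congr hgp.symm (by rw [ap_smul]) _ _
  have hdiff : ∀ v₃ y, S.φ v₃ v₃ = 0 → S.φ v₃ p₀ = 0 → S.φ y v₃ = 0 → S.φ y p₀ = 0 → ∀ z ∈ Y,
      S.φ z v₃ • y - S.φ z y • v₃ ∈ Y := by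
    intro v₃ y h33 h30 hy3 hy0 z hz
    have hy : S.φ v₃ y = 0 := by rw [S.symm, hy3]
    have hy' : S.φ v₃ (-y) = 0 := by rw [map_neg, hy, neg_zero]
    have hfix : ∀ y', S.φ v₃ y' = 0 → S.φ y' p₀ = 0 → ap (S.sE v₃ y') p₀ = p₀ := fun y' h1 h2 => by
      rw [S.ap_sE h33 h1, S.symm p₀ v₃, h30, S.symm p₀ y', h2]; simp
    have hd := Y.smul_mem (2 : F)⁻¹ (Y.sub_mem
      (hinv _ (S.sE_mem' hR h33 hy) (hfix y hy hy0) z hz)
      (hinv _ (S.sE_mem' hR h33 hy') (hfix (-y) hy' (by simp [hy0])) z hz))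
    convert hd using 1
    rw [S.ap_sE h33 hy, S.ap_sE h33 hy', ← algebraMap_smul E (2 : F)⁻¹, map_inv₀, map_ofNat]
    simp only [map_neg, LinearMap.neg_apply, neg_neg]
    match_scalars <;> field_simp <;> ring
  have hgen : ∀ v₃, S.φ v₃ v₃ = 0 → S.φ v₃ p₀ = 0 → S.φ v₃ p₁ ≠ 0 →
      (∀ e : E, e • v₃ ∈ Y) ∧ ∀ z, S.φ z p₀ = 0 → S.φ z v₃ = 0 → z ∈ Y := by
    intro v₃ h33 h30 h31
    have step : ∀ z, S.φ z v₃ = 0 → S.φ z p₀ = 0 → S.φ z p₁ = 0 → z ∈ Y := by
      intro z z3 z0 z1
      have := hdiff v₃ ((S.φ v₃ p₁)⁻¹ • z) h33 h30 (by simp [z3]) (by simp [z0]) p₁ hp₁Y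
      convert this using 1
      rw [map_smul, S.symm p₁ z, z1, smul_eq_mul, mul_zero, zero_smul, sub_zero, S.symm p₁ v₃, smul_smul,
        mul_inv_cancel₀ h31, one_smul]
    obtain ⟨z₀, hz₀, hzp⟩ := S.exists_perp ![v₃, p₀, p₁] (by omega)
    have z3 : S.φ z₀ v₃ = 0 := hzp 0
    have z0 : S.φ z₀ p₀ = 0 := hzp 1
    have z1 : S.φ z₀ p₁ = 0 := hzp 2
    have hnot : z₀ ∉ Submodule.span E {v₃, p₀} := by
      rw [Submodule.mem_span_pair]
      rintro ⟨a, b, hab⟩
      have hb : b = 0 := by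
        rw [← hab] at z0
        simp [h30, h00, htwo, hB1] at z0
        exact z0
      rw [hb, zero_smul, add_zero] at hab
      have ha : a = 0 := by
        rw [← hab] at z1
        simpa [h31] using z1
      exact hz₀ (by rw [← hab, ha, zero_smul])
    obtain ⟨Ψ, hΨ, hΨ0⟩ := Submodule.exists_dual_map_eq_bot_of_notMem hnot inferInstance
    obtain ⟨y₀, hy₀⟩ := S.exists_eq Ψ
    have hΨ' : ∀ w ∈ ({v₃, p₀} : Set (ι → F)), Ψ w = 0 := fun w hw => by
      have : Ψ w ∈ Submodule.map Ψ (Submodule.span E {v₃, p₀}) := ⟨w, Submodule.subset_span hw, rfl⟩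
      rwa [hΨ0, Submodule.mem_bot] at this
    have y3 : S.φ y₀ v₃ = 0 := by rw [S.symm, hy₀, hΨ' _ (by simp)]
    have y0 : S.φ y₀ p₀ = 0 := by rw [S.symm, hy₀, hΨ' _ (by simp)]
    have hline : ∀ e : E, e • v₃ ∈ Y := by
      intro e
      have := Y.neg_mem (hdiff v₃ ((e / Ψ z₀) • y₀) h33 h30 (by simp [y3]) (by simp [y0]) z₀ (step z₀ z3 z0 z1))
      convert this using 1
      rw [z3, zero_smul, zero_sub, neg_neg, map_smul, hy₀, smul_eq_mul, div_mul_cancel₀ _ hΨ]
    refine ⟨hline, fun z z0 z3 => ?_⟩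
    have := Y.add_mem (step (z - (S.φ z p₁ / S.φ v₃ p₁) • v₃) (by simp [z3, h33]) (by simp [z0, h30])
      (by simp [h31])) (hline (S.φ z p₁ / S.φ v₃ p₁))
    rwa [sub_add_cancel] at this
  set k := p - B 1 • v with hk
  have hk0 : S.φ k p₀ = 0 := by
    simp [hk, ep₀, hpp, hpv, hvp, hvv]
  have hk1 : S.φ k p₁ ≠ 0 := by
    simp [hk, ep₁, hpp, hpv, hvp, hvv]
    intro h0
    apply hκ₀
    have e2 := hBskew β 1
    rw [one_mul, show B β = β * B 1 by linear_combination h0] at e2
    exact (mul_eq_zero.mp (show (2 : F) * S.T (β * B 1) = 0 by linear_combination e2)).resolve_left S.two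
  have hkk : S.φ k k = -(2 * B 1) := by
    simp [hk, hpp, hpv, hvp, hvv]; ring
  obtain ⟨x, xv, xp, xx⟩ := S.exists_value h4 hvv hpp hvp (2 * B 1)
  have xk : S.φ x k = 0 := by simp [hk, xv, xp]
  have x0 : S.φ x p₀ = 0 := by simp [ep₀, xv, xp]
  have x1 : S.φ x p₁ = 0 := by simp [ep₁, xv, xp]
  obtain ⟨-, hY1⟩ := hgen (k + x) (by simp [hkk, xx, xk, S.symm k x]) (by simp [hk0, x0])
    (by simpa [x1] using hk1)
  obtain ⟨hY2, -⟩ := hgen (k - x) (by simp [hkk, xx, xk, S.symm k x]) (by simp [hk0, x0])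
    (by simpa [x1] using hk1)
  have hperp : ∀ z, S.φ z p₀ = 0 → z ∈ Y := by
    intro z hz
    set c := S.φ z (k + x) / S.φ (k - x) (k + x)
    have hne : S.φ (k - x) (k + x) ≠ 0 := by
      simp [hkk, xx, xk, S.symm k x]
      rw [show -(2 * B 1) - 2 * B 1 = -(2 * 2 * B 1) by ring, neg_eq_zero]
      exact mul_ne_zero (mul_ne_zero htwo htwo) hB1
    have := Y.add_mem (hY1 (z - c • (k - x)) (by simp [hz, hk0, x0])
      (by rw [map_sub, LinearMap.sub_apply, map_smul, LinearMap.smul_apply, smul_eq_mul,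
        div_mul_cancel₀ _ hne, sub_self])) (hY2 c)
    rwa [sub_add_cancel] at this
  have hfull : Full Q M p₀ := by
    intro hu w hw
    suffices h : w ∈ Y by
      have := h.2 1 hu (by rwa [one_smul])
      rwa [sg_congr rfl (one_smul F w) hu (by rwa [one_smul])] at this
    set e := S.φ w p₀ / S.φ p₀ p₀
    have h000 : S.φ p₀ p₀ ≠ 0 := by rw [h00]; exact mul_ne_zero htwo hB1
    obtain ⟨s, t, hst⟩ := hbase e
    have hTw : S.T (S.φ w p₀) = 0 := by rw [S.T_φ, polar_comm, hw]
    have ht : t = 0 := by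
      rw [← div_mul_cancel₀ (S.φ w p₀) h000, show S.φ w p₀ / S.φ p₀ p₀ = e from rfl, hst, h00,
        ← map_ofNat (algebraMap F E) 2, ← Algebra.smul_def] at hTw
      simp only [add_mul, smul_mul_assoc, mul_smul_comm, one_mul, map_add, map_smul, smul_eq_mul, hT1,
        mul_zero, zero_add] at hTw
      simpa [S.two, hκ₀] using hTw
    have h1 := hperp (w - e • p₀) (by simp [e, h000])
    have h2 : e • p₀ ∈ Y := by
      rw [hst, ht, zero_smul, add_zero, smul_assoc, one_smul]
      exact Y.smul_mem s hp₀Y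
    simpa using Y.add_mem h1 h2
  have hfp : Full Q M p := by
    have := Full.ap hM (inv_mem hρ) hfull
    rwa [hp₀, ap_inv_ap] at this
  have hp0 : p ≠ 0 := fun h0 => by rw [h0, map_zero] at hvp; exact zero_ne_one hvp
  obtain ⟨g, hg, -, -, c, hc, hgv⟩ := S.exists_move hR hp0 hv hpp hvv
  have hfcv : Full Q M (c • v) := hgv ▸ Full.ap hM hg hfp
  obtain ⟨a, ha⟩ : ∃ a : E, S.T a ≠ 0 := by
    by_contra hall
    push Not at hall
    exact S.T_ne (LinearMap.ext hall)
  obtain ⟨b, b', hbb⟩ := exists_sq_add_sq (a / c)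
  obtain ⟨b, hb⟩ : ∃ b : E, S.T (b * b * c) ≠ 0 := by
    by_contra hall
    push Not at hall
    apply ha
    rw [show a = b * b * c + b' * b' * c by
      rw [← add_mul, ← pow_two, ← pow_two, hbb, div_mul_cancel₀ _ hc], map_add, hall, hall, add_zero]
  have hb0 : b ≠ 0 := fun h0 => hb (by rw [h0]; simp)
  have hfb := Full.ap hM (S.torus_sq_mem' hR hvv hpp hvp hb0) hfcv
  rw [S.torus_linear hvv hpp hvp (mul_ne_zero hb0 hb0), S.torus_v hvv hpp hvp (mul_ne_zero hb0 hb0),
    smul_smul] at hfb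
  exact Full.le_of_pair S.nd hn hM hfb hfp (S.Q_eq_zero (by simp [hvv])) (S.Q_eq_zero hpp)
    (by rw [S.polar_smul', hvp, mul_one, mul_comm]; exact hb)

end OForm

end CfsgLib.Geometric.ExtF
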