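import Cfsg.Agent.Lib.Geometric.ExtField.Normaliser

/-!
Subalgebras of matrices that are fields of degree two: spanned by one and any other element, which has no
eigenvector, and whose normaliser is described by that element.
-/

set_option autoImplicit false
set_option linter.unusedSectionVars false

namespace CfsgLib.Geometric.ExtF

open Matrix Module

variable {F : Type*} [Field F] {ι : Type} [Fintype ι] [DecidableEq ι]
variable {K : Subalgebra F (Matrix ι ι F)} (hK : Cfsg.Geo.IsFieldSubalgebra 2 K)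
variable {δ : Matrix ι ι F} (hδ : δ ∈ K) (hns : ∀ c : F, δ ≠ c • 1)
include hK hδ hns

lemma quad_span {k : Matrix ι ι F} (hk : k ∈ K) : ∃ a b : F, k = a • 1 + b • δ := by
  have hone : (1 : K) ≠ 0 := fun h => by
    have h1 : (1 : Matrix ι ι F) = 0 := congrArg Subtype.val h
    exact hns 0 (by rw [zero_smul, ← mul_one δ, h1, mul_zero])
  have hind : LinearIndependent F ![(1 : K), ⟨δ, hδ⟩] := by
    rw [LinearIndependent.pair_iff' hone]
    intro a ha
    exact hns a (congrArg Subtype.val ha).symm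
  have hm : (⟨k, hk⟩ : K) ∈ Submodule.span F (Set.range ![(1 : K), ⟨δ, hδ⟩]) := by
    rw [hind.span_eq_top_of_card_eq_finrank (by simp [show finrank F K = 2 from hK.finrank_eq])]
    exact Submodule.mem_top
  rw [Submodule.mem_span_range_iff_exists_fun] at hm
  obtain ⟨c, hc⟩ := hm
  refine ⟨c 0, c 1, ?_⟩
  simpa [Fin.sum_univ_two] using (congrArg Subtype.val hc).symm

lemma quad_irred {x : ι → F} (hx : x ≠ 0) (c : F) : δ *ᵥ x ≠ c • x := by
  intro hc
  obtain ⟨y, hy, hxy⟩ := hK.inv _ (K.sub_mem hδ (K.smul_mem K.one_mem c))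
    (sub_ne_zero.mpr (hns c))
  rw [hK.comm _ (K.sub_mem hδ (K.smul_mem K.one_mem c)) y hy] at hxy
  refine hx ?_
  rw [← Matrix.one_mulVec x, ← hxy, ← Matrix.mulVec_mulVec, Matrix.sub_mulVec, Matrix.smul_mulVec,
    Matrix.one_mulVec, hc, sub_self, Matrix.mulVec_zero]

lemma quad_normalizer_iff [Finite F] (g : GL ι F) :
    g ∈ Cfsg.Geo.subalgebraNormalizer K ↔
      ∃ a b : F, ∀ x, ap g (δ *ᵥ x) = a • ap g x + b • (δ *ᵥ ap g x) := by
  have key : ∀ a b : F, (∀ x, ap g (δ *ᵥ x) = a • ap g x + b • (δ *ᵥ ap g x)) ↔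
      (g : Matrix ι ι F) * δ = (a • 1 + b • δ) * g := by
    intro a b
    simp only [ap_def, Matrix.mulVec_mulVec]
    constructor
    · intro h
      refine Matrix.ext_of_mulVec_single fun i => ?_
      rw [h, Matrix.add_mul, Matrix.smul_mul, Matrix.smul_mul, Matrix.one_mul, Matrix.add_mulVec,
        Matrix.smul_mulVec, Matrix.smul_mulVec]
    · intro h x
      rw [h, Matrix.add_mul, Matrix.smul_mul, Matrix.smul_mul, Matrix.one_mul, Matrix.add_mulVec,
        Matrix.smul_mulVec, Matrix.smul_mulVec]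
  simp only [key]
  constructor
  · intro hg
    obtain ⟨a, b, hab⟩ := quad_span hK hδ hns ((hg δ).mp hδ)
    exact ⟨a, b, by rw [← hab, Matrix.mul_assoc, Units.inv_mul, Matrix.mul_one]⟩
  · rintro ⟨a, b, hab⟩
    have hfwd : ∀ k ∈ K, (g : Matrix ι ι F) * k * ((g⁻¹ : GL ι F) : Matrix ι ι F) ∈ K := by
      intro k hk
      obtain ⟨c, e, rfl⟩ := quad_span hK hδ hns hk
      rw [Matrix.mul_add, Matrix.mul_smul, Matrix.mul_smul, Matrix.mul_one, hab, Matrix.add_mul,
        Matrix.smul_mul, Matrix.smul_mul, Matrix.mul_assoc, Units.mul_inv, Matrix.mul_one]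
      exact K.add_mem (K.smul_mem K.one_mem c)
        (K.smul_mem (K.add_mem (K.smul_mem K.one_mem a) (K.smul_mem hδ b)) e)
    have : Finite K := Finite.of_injective (fun x : K => (x : Matrix ι ι F)) Subtype.val_injective
    let φ : K → K := fun k => ⟨_, hfwd k k.2⟩
    have hcan : ∀ k k' : Matrix ι ι F, (g : Matrix ι ι F) * k * ((g⁻¹ : GL ι F) : Matrix ι ι F) =
        g * k' * ((g⁻¹ : GL ι F) : Matrix ι ι F) → k = k' := fun k k' h => by
      rwa [Units.mul_left_inj, Units.mul_right_inj] at h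
    have hφ : Function.Injective φ := fun x y h => Subtype.ext (hcan _ _ (congrArg Subtype.val h))
    intro k
    refine ⟨hfwd k, fun hk => ?_⟩
    obtain ⟨k', hk'⟩ := (Finite.injective_iff_surjective.mp hφ) ⟨_, hk⟩
    exact hcan _ _ (congrArg Subtype.val hk') ▸ k'.2

end CfsgLib.Geometric.ExtF
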