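import Cfsg.Agent.Lib.Geometric.ExtField.Core

/-!
A symplectic form over a field extension of prime degree: a group containing its isometries and one more isometry
of the form over the base field contains a symplectic transvection over the base field.
-/

set_option autoImplicit false
set_option linter.unusedSectionVars false

namespace CfsgLib.Geometric.ExtF

open Module Matrix

variable {F : Type*} [Field F] {ι : Type} [Fintype ι] [DecidableEq ι] {E : Type*} [Field E] [Algebra F E]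
  [Module E (ι → F)] [IsScalarTower F E (ι → F)] [Finite F] [Finite E]

/-- A symplectic form over `E` on `ι → F`, with a functional to `F`. -/
structure KForm (F : Type*) [Field F] (E : Type*) [Field E] [Algebra F E] (ι : Type)
    [Module E (ι → F)] where
  /-- The functional. -/
  T : E →ₗ[F] F
  T_ne : T ≠ 0
  /-- The form. -/
  φ : (ι → F) → (ι → F) → E
  add_left : ∀ x y z, φ (x + y) z = φ x z + φ y z
  smul_left : ∀ (a : E) x y, φ (a • x) y = a * φ x y
  self : ∀ x, φ x x = 0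
  smul_right : ∀ (a : E) x y, φ x (a • y) = a * φ x y
  add_right : ∀ x y z, φ x (y + z) = φ x y + φ x z
  nondeg : ∀ x, x ≠ 0 → ∃ y, φ x y ≠ 0

namespace KForm

variable (S : KForm F E ι)

lemma skew (x y : ι → F) : S.φ y x = -S.φ x y := by
  have h := S.self (x + y)
  rw [S.add_left, S.add_right, S.add_right, S.self, S.self] at h
  linear_combination h

/-- The functional `x ↦ φ x y`. -/
def l (y : ι → F) : (ι → F) →ₗ[E] E where
  toFun x := S.φ x y
  map_add' x z := S.add_left x z y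
  map_smul' a x := S.smul_left a x y

@[simp] lemma l_apply (y x : ι → F) : S.l y x = S.φ x y := rfl

lemma zero_left (y : ι → F) : S.φ 0 y = 0 := (S.l y).map_zero

lemma sub_left (x y z : ι → F) : S.φ (x - y) z = S.φ x z - S.φ y z := (S.l z).map_sub x y

lemma zero_right (y : ι → F) : S.φ y 0 = 0 := by rw [S.skew, S.zero_left, neg_zero]

lemma sub_right (x y z : ι → F) : S.φ x (y - z) = S.φ x y - S.φ x z := by
  rw [S.skew (y - z) x, S.sub_left, S.skew y x, S.skew z x]
  ring

lemma T_mul_ext {e e' : E} (h : ∀ a, S.T (a * e) = S.T (a * e')) : e = e' := by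
  by_contra hne
  apply S.T_ne
  refine LinearMap.ext fun a => ?_
  have h1 := h (a / (e - e'))
  rw [← sub_eq_zero, ← map_sub, ← mul_sub, div_mul_cancel₀ _ (sub_ne_zero.mpr hne)] at h1
  simpa using h1

/-- An element linear over `E` preserving the form. -/
def IsIsom (g : GL ι F) : Prop :=
  (∀ (a : E) x, ap g (a • x) = a • ap g x) ∧ ∀ x y, S.φ (ap g x) (ap g y) = S.φ x y

/-- The position `A` at `v` lies in `X`. -/
def P (X : Subgroup (GL ι F)) (v : ι → F) (A : E →ₗ[F] E) : Prop :=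
  ∃ g ∈ X, ∀ x, ap g x = x + A (S.φ x v) • v

variable {X : Subgroup (GL ι F)}
  (hX : ∀ g, S.IsIsom g → g ∈ X)
  (hXf : ∀ g ∈ X, ∀ x y, S.T (S.φ (ap g x) (ap g y)) = S.T (S.φ x y))
include hX

lemma p_mul (v : ι → F) (a : E) : S.P X v (LinearMap.mulLeft F a) := by
  let C : (ι → F) →ₗ[F] (ι → F) := dyad F (LinearMap.mulLeft F a) v (S.l v)
  refine ⟨qT C (dyad_sq _ v (S.l v) (S.self v)), hX _ ⟨fun b x => ?_, fun x y => ?_⟩,
    fun x => by simp [C]⟩
  · simp [C, S.smul_left, smul_add, smul_smul, mul_left_comm]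
  · simp [C, S.add_left, S.add_right, S.smul_left, S.smul_right, S.self, S.skew y v]
    ring

omit hX in
lemma p_add {v : ι → F} {A B : E →ₗ[F] E} (hA : S.P X v A) (hB : S.P X v B) : S.P X v (A + B) := by
  obtain ⟨g, hg, hg'⟩ := hA
  obtain ⟨h, hh, hh'⟩ := hB
  refine ⟨g * h, mul_mem hg hh, fun x => ?_⟩
  rw [ap_mul, hh', hg', S.add_left, S.smul_left, S.self, mul_zero, add_zero, LinearMap.add_apply,
    add_smul]
  abel

omit hX in
lemma p_neg {v : ι → F} {A : E →ₗ[F] E} (hA : S.P X v A) : S.P X v (-A) := by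
  obtain ⟨g, hg, hg'⟩ := hA
  refine ⟨g⁻¹, inv_mem hg, fun x => ap_injective g ?_⟩
  rw [ap_ap_inv, hg', S.add_left, S.smul_left, S.self, mul_zero, add_zero, LinearMap.neg_apply,
    neg_smul]
  abel

/-- An element scaling the line of `v` by `b`. -/
lemma exists_diag {v w : ι → F} (hvw : S.φ v w = 1) {b : E} (hb : b ≠ 0) :
    ∃ g ∈ X, S.IsIsom g ∧ ap g v = b • v := by
  have hwv : S.φ w v = -1 := by rw [S.skew v w, hvw]
  let g : GL ι F := ofEquiv
    { toFun := fun x => x + ((b - 1) * S.φ x w) • v + ((b⁻¹ - 1) * S.φ v x) • w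
      map_add' := fun x y => by
        simp only [S.add_left, S.add_right, mul_add, add_smul]; abel
      map_smul' := fun s x => by
        simp only [RingHom.id_apply, ← algebraMap_smul E s x, S.smul_left, S.smul_right,
          ← algebraMap_smul E s (x + ((b - 1) * S.φ x w) • v + ((b⁻¹ - 1) * S.φ v x) • w)]
        module
      invFun := fun x => x + ((b⁻¹ - 1) * S.φ x w) • v + ((b - 1) * S.φ v x) • w
      left_inv := fun x => by
        simp only [S.add_left, S.add_right, S.smul_left, S.smul_right, S.self, hvw, hwv]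
        match_scalars <;> field_simp <;> ring
      right_inv := fun x => by
        simp only [S.add_left, S.add_right, S.smul_left, S.smul_right, S.self, hvw, hwv]
        match_scalars <;> field_simp <;> ring }
  have hg : ∀ x, ap g x = x + ((b - 1) * S.φ x w) • v + ((b⁻¹ - 1) * S.φ v x) • w := fun x => by
    simp only [g, ap_ofEquiv]; rfl
  have hiso : S.IsIsom g := by
    refine ⟨fun a x => ?_, fun x y => ?_⟩
    · simp only [hg, S.smul_left, S.smul_right]
      module
    · simp only [hg, S.add_left, S.add_right, S.smul_left, S.smul_right, S.self, hvw, hwv,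
        S.skew v x, S.skew y w]
      field_simp
      ring
  refine ⟨g, hX g hiso, hiso, ?_⟩
  rw [hg, S.self, hvw, mul_zero, zero_smul, add_zero, mul_one]
  module

/-- Positions are stable under congruence by a scalar. -/
lemma p_scale {v w : ι → F} (hvw : S.φ v w = 1) {A : E →ₗ[F] E} (hA : S.P X v A) (b : E) :
    S.P X v (LinearMap.mulLeft F b ∘ₗ A ∘ₗ LinearMap.mulLeft F b) := by
  by_cases hb : b = 0
  · refine ⟨1, one_mem X, fun x => ?_⟩
    simp [hb]
  obtain ⟨g, hgX, hg, hgv⟩ := S.exists_diag hX hvw hb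
  obtain ⟨t, ht, ht'⟩ := hA
  refine ⟨g * t * g⁻¹, mul_mem (mul_mem hgX ht) (inv_mem hgX), fun x => ?_⟩
  have h1 : S.φ (ap g⁻¹ x) v = b * S.φ x v := by
    rw [← hg.2, ap_ap_inv, hgv, S.smul_right]
  simp [ap_mul, ap_add, ap_ap_inv, ht', hg.1, hgv, h1, smul_smul, mul_comm]

/-- Transitivity on non-zero vectors. -/
lemma exists_move {v u : ι → F} (hv : v ≠ 0) (hu : u ≠ 0) :
    ∃ g ∈ X, S.IsIsom g ∧ ap g v = u := by
  have one : ∀ v u, S.φ v u ≠ 0 → ∃ g ∈ X, S.IsIsom g ∧ ap g v = u := by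
    intro v u h
    let C : (ι → F) →ₗ[F] (ι → F) :=
      dyad F (LinearMap.mulLeft F (S.φ v u)⁻¹) (u - v) (S.l (u - v))
    have hC := dyad_sq (F := F) (LinearMap.mulLeft F (S.φ v u)⁻¹) (u - v) (S.l (u - v)) (S.self _)
    have hiso : S.IsIsom (qT C hC) := by
      refine ⟨fun b x => ?_, fun x y => ?_⟩
      · simp [C, S.smul_left, smul_add, smul_smul, mul_left_comm]
      · simp [C, S.add_left, S.add_right, S.smul_left, S.smul_right, S.self, S.skew y (u - v)]
        ring
    refine ⟨qT C hC, hX _ hiso, hiso, ?_⟩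
    have h2 : S.φ v (u - v) = S.φ v u := by
      have := S.add_right v (u - v) v
      rw [sub_add_cancel, S.self, add_zero] at this
      exact this.symm
    simp [C, h2, h]
  by_cases h : S.φ v u = 0
  swap
  · exact one v u h
  obtain ⟨a, ha⟩ := S.nondeg v hv
  obtain ⟨b, hb⟩ := S.nondeg u hu
  obtain ⟨z, hvz, huz⟩ : ∃ z, S.φ v z ≠ 0 ∧ S.φ u z ≠ 0 := by
    by_cases h1 : S.φ u a = 0
    · by_cases h2 : S.φ v b = 0
      · exact ⟨a + b, by rwa [S.add_right, h2, add_zero], by rwa [S.add_right, h1, zero_add]⟩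
      · exact ⟨b, h2, hb⟩
    · exact ⟨a, ha, h1⟩
  obtain ⟨g₁, hg₁, hi₁, hm₁⟩ := one v z hvz
  obtain ⟨g₂, hg₂, hi₂, hm₂⟩ := one z u (by rwa [S.skew, neg_ne_zero])
  exact ⟨g₂ * g₁, mul_mem hg₂ hg₁, ⟨fun b x => by rw [ap_mul, hi₁.1, hi₂.1, ap_mul],
    fun x y => by rw [ap_mul, ap_mul, hi₂.2, hi₁.2]⟩, by rw [ap_mul, hm₁, hm₂]⟩

omit hX in
lemma apEq_ln_sub {v u : ι → F} (C : (ι → F) →ₗ[F] (ι → F)) {g : GL ι F}
    (h : ∀ x ∈ img g (ln F E v), x + C x ∈ img g (ln F E v)) (hr : ∀ x, C x ∈ ln F E u)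
    {x : ι → F} (hx : x ∈ img g (ln F E v)) : C x ∈ img g (ln F E v) ⊓ ln F E u :=
  ⟨by simpa using (img g (ln F E v)).sub_mem (h x hx) hx, hr x⟩

omit hX in
/-- A subspace of `E` stable under multiplication by `ρ` with `ρ ∉ F` is trivial. -/
lemma ratio_mem_range (hr : (finrank F E).Prime) {D : Submodule F E} {δ : E} (hδ : δ ∈ D)
    (hδ0 : δ ≠ 0) (hD : D ≠ ⊤) {ρ : E} (hρ : ∀ d ∈ D, ρ * d ∈ D) :
    ρ ∈ Set.range (algebraMap F E) := by
  let M : Subalgebra F E :=
    { carrier := {a | ∀ d ∈ D, a * d ∈ D}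
      mul_mem' := fun {a b} ha hb d hd => by rw [mul_assoc]; exact ha _ (hb d hd)
      one_mem' := fun d hd => by rwa [one_mul]
      add_mem' := fun {a b} ha hb d hd => by rw [add_mul]; exact D.add_mem (ha d hd) (hb d hd)
      zero_mem' := fun d _ => by rw [zero_mul]; exact D.zero_mem
      algebraMap_mem' := fun c d hd => by rw [← Algebra.smul_def]; exact D.smul_mem c hd }
  by_contra hF
  have htop := subalgebra_eq_top hr (show ρ ∈ M from hρ) hF
  refine hD (eq_top_iff.mpr fun e _ => ?_)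
  have he : e * δ⁻¹ ∈ M := htop ▸ Algebra.mem_top
  simpa [mul_assoc, inv_mul_cancel₀ hδ0] using he δ hδ

include hXf in
/-- Elements stabilising a line and inducing a transvection there. -/
theorem exists_step (hr : (finrank F E).Prime)
    (hm : ∀ v : ι → F, ∃ w : ι → F, ∀ a : E, a • v ≠ w) (hnot : ∃ g ∈ X, ¬ IsSemi E g) :
    ∃ (v : ι → F) (C : (ι → F) →ₗ[F] (ι → F)) (hC : ∀ x, C (C x) = 0) (ψ : E →ₗ[F] F) (z : E),
      v ≠ 0 ∧ z ≠ 0 ∧ ψ z = 0 ∧ ψ ≠ 0 ∧ (∀ a : E, C (a • v) = (algebraMap F E (ψ a) * z) • v) ∧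
      (∀ c : F, qT (c • C) (smul_sq hC c) ∈ X) ∧
      finrank F (LinearMap.range C) ≤ 2 * finrank F E := by
  classical
  let P' : ℕ → Prop := fun e => ∃ g ∈ X, ∃ v u : ι → F, v ≠ 0 ∧ u ≠ 0 ∧
    img g (ln F E v) ≠ ln F E u ∧ finrank F ↥(img g (ln F E v) ⊓ ln F E u) = e
  have hbound : ∀ e, P' e → e ≤ finrank F E := by
    rintro e ⟨g, -, v, u, hv, hu, -, rfl⟩
    exact le_trans (Submodule.finrank_mono inf_le_right) (finrank_ln hu).le
  obtain ⟨e₀, hPe₀, he₀⟩ : ∃ e, P' e ∧ 0 < e := by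
    obtain ⟨g, hgX, hg⟩ := hnot
    by_contra hno
    push Not at hno
    refine hg (isSemi_of_lines hm fun v a => ?_)
    by_cases hv : v = 0
    · exact ⟨0, by rw [hv, _root_.smul_zero, ap_zero, zero_smul]⟩
    by_cases he : img g (ln F E v) = ln F E (ap g v)
    · obtain ⟨b, hb⟩ := mem_ln.mp (he ▸ mem_img.mpr ⟨a • v, smul_mem_ln v a, rfl⟩)
      exact ⟨b, hb.symm⟩
    · exfalso
      have h0 := hno _ ⟨g, hgX, v, ap g v, hv, ap_ne_zero g hv, he, rfl⟩
      have : finrank F ↥(img g (ln F E v) ⊓ ln F E (ap g v)) ≠ 0 := by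
        rw [Ne, Submodule.finrank_eq_zero]
        intro hbot
        have hmem : ap g v ∈ img g (ln F E v) ⊓ ln F E (ap g v) :=
          ⟨mem_img.mpr ⟨v, self_mem_ln v, rfl⟩, self_mem_ln _⟩
        rw [hbot, Submodule.mem_bot] at hmem
        exact ap_ne_zero g hv hmem
      omega
  set e := Nat.findGreatest P' (finrank F E) with he
  have hPe : P' e := Nat.findGreatest_spec (hbound _ hPe₀) hPe₀
  have hee : e₀ ≤ e := Nat.le_findGreatest (hbound _ hPe₀) hPe₀
  obtain ⟨g, hgX, v, u, hv, hu, hne, hdim⟩ := hPe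
  set L' := img g (ln F E v) with hL'
  set D := L' ⊓ ln F E u with hD
  obtain ⟨d, hdD, hd⟩ := Submodule.exists_mem_ne_zero_of_ne_bot (p := D) (by
    intro h
    rw [h, finrank_bot] at hdim
    omega)
  obtain ⟨δ, hδ⟩ := mem_ln.mp hdD.2
  have hδ0 : δ ≠ 0 := fun h => hd (by rw [← hδ, h, zero_smul])
  let DK : Submodule F E :=
    D.comap ((LinearMap.toSpanSingleton E (ι → F) u).restrictScalars F)
  have hDK : ∀ a : E, a ∈ DK ↔ a • u ∈ D := fun a => Iff.rfl
  have hrank : finrank F L' = finrank F (ln F E u) := by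
    rw [finrank_img, finrank_ln hv, finrank_ln hu]
  have hDKtop : DK ≠ ⊤ := by
    intro h
    refine hne (Submodule.eq_of_le_of_finrank_eq (fun x hx => ?_) hrank.symm).symm
    obtain ⟨a, rfl⟩ := mem_ln.mp hx
    have : a ∈ DK := h ▸ Submodule.mem_top
    exact ((hDK a).mp this).1
  -- maximality
  have hmax : ∀ t ∈ X, ∀ d' ∈ D, d' ≠ 0 → ∀ w ∈ L', w ∉ ln F E u → ap t w = w + d' →
      (∀ x ∈ D, ap t x = x) → ∀ x ∈ L', ap t x ∈ L' := by
    intro t htX d hdD hd w hw hwu htw htD
    set h := g⁻¹ * t * g with hh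
    have hhX : h ∈ X := mul_mem (mul_mem (inv_mem hgX) htX) hgX
    have hline : ∀ x ∈ L', ap g⁻¹ x ∈ ln F E v := by
      intro x hx
      obtain ⟨y, hy, rfl⟩ := mem_img.mp hx
      rwa [ap_inv_ap]
    have hstab : img h (ln F E v) = ln F E v := by
      by_contra hne'
      let S' := D ⊔ Submodule.span F {w + d}
      have hwd : w + d ∉ ln F E u := fun hc => hwu (by
        simpa using (ln F E u).sub_mem hc hdD.2)
      have hlt : D < S' := lt_of_le_of_ne le_sup_left fun heq => hwd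
        ((show D ≤ ln F E u from inf_le_right)
          (heq ▸ Submodule.mem_sup_right (Submodule.mem_span_singleton_self _)))
      have hle : img g⁻¹ S' ≤ img h (ln F E v) ⊓ ln F E v := by
        rw [img, Submodule.map_sup, Submodule.map_span, sup_le_iff, Submodule.span_le,
          Set.image_singleton, Set.singleton_subset_iff]
        refine ⟨?_, ⟨mem_img.mpr ⟨ap g⁻¹ w, hline w hw, ?_⟩, ?_⟩⟩
        · rintro _ ⟨x, hx, rfl⟩
          exact ⟨mem_img.mpr ⟨ap g⁻¹ x, hline x hx.1, by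
            simp [hh, ap_mul, ap_ap_inv, htD x hx]⟩, hline x hx.1⟩
        · simp [hh, ap_mul, ap_ap_inv, htw]
        · simp only [LinearEquiv.coe_coe, apEquiv_apply]
          exact hline _ (L'.add_mem hw hdD.1)
      have h1 := Submodule.finrank_mono hle
      rw [finrank_img] at h1
      have h2 := Submodule.finrank_lt_finrank_of_lt hlt
      have hP : P' (finrank F ↥(img h (ln F E v) ⊓ ln F E v)) := ⟨h, hhX, v, v, hv, hv, hne', rfl⟩
      have := Nat.le_findGreatest (hbound _ hP) hP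
      omega
    intro x hx
    have h3 : ap h (ap g⁻¹ x) ∈ ln F E v := hstab ▸ mem_img.mpr ⟨_, hline x hx, rfl⟩
    refine mem_img.mpr ⟨_, h3, ?_⟩
    rw [hh, ap_mul, ap_mul, ap_ap_inv, ap_ap_inv]
  -- a family of elements
  obtain ⟨Ca, hCsq, hCX, κ, hCκ, hCD, hCr, w, hwL, hwu, hκw⟩ :
      ∃ (Ca : E → (ι → F) →ₗ[F] (ι → F)) (hCsq : ∀ a x, Ca a (Ca a x) = 0),
      (∀ a (c : F), qT (c • Ca a) (smul_sq (hCsq a) c) ∈ X) ∧
      ∃ κ : (ι → F) → E, (∀ a, ∀ x ∈ L', Ca a x = (a * κ x) • u) ∧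
        (∀ a (b : E), Ca a (b • u) = 0) ∧
        (∀ a, finrank F (LinearMap.range (Ca a)) ≤ 2 * finrank F E) ∧
        ∃ w ∈ L', w ∉ ln F E u ∧ κ w = 1 := by
    by_cases hcase : ∃ w ∈ L', S.φ w u ≠ 0
    · obtain ⟨w, hw, hwu⟩ := hcase
      have hwl : w ∉ ln F E u := fun h => by
        obtain ⟨a, rfl⟩ := mem_ln.mp h
        exact hwu (by rw [S.smul_left, S.self, mul_zero])
      refine ⟨fun a => dyad F (LinearMap.mulLeft F (a / S.φ w u)) u (S.l u),
        fun a => dyad_sq _ u (S.l u) (S.self u), fun a c => ?_,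
        fun x => S.φ x u / S.φ w u, fun a x _ => ?_, fun a b => ?_, fun a => ?_, w, hw, hwl,
        div_self hwu⟩
      · have key : ∀ b : E, qT (dyad F (LinearMap.mulLeft F b) u (S.l u))
            (dyad_sq _ u (S.l u) (S.self u)) ∈ X := fun b => hX _
          ⟨fun e x => by simp [S.smul_left, smul_smul, smul_add, mul_left_comm],
          fun x y => by
            simp [S.add_left, S.add_right, S.smul_left, S.smul_right, S.self, S.skew y u]
            ring⟩
        convert key (c • (a / S.φ w u)) using 1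
        exact gl_ext fun x => by simp [← smul_assoc, smul_mul_assoc]
      · simp [div_mul_eq_mul_div, mul_div_assoc]
      · simp [S.smul_left, S.self]
      · refine le_trans (le_trans (Submodule.finrank_mono ?_) (LinearMap.finrank_range_le
          ((LinearMap.toSpanSingleton E (ι → F) u).restrictScalars F))) (by omega)
        rintro _ ⟨x, rfl⟩
        exact ⟨_, rfl⟩
    · push Not at hcase
      obtain ⟨w, hw, hwu⟩ : ∃ w ∈ L', w ∉ ln F E u := by
        by_contra h
        push Not at h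
        exact hne (Submodule.eq_of_le_of_finrank_eq h hrank)
      obtain ⟨y, hyu, hwy⟩ : ∃ y, S.φ y u = 0 ∧ S.φ w y = 1 := by
        obtain ⟨p, hp⟩ : ∃ p, S.φ p u = 1 := by
          obtain ⟨p, hp⟩ := S.nondeg u hu
          exact ⟨(-(S.φ u p))⁻¹ • p, by rw [S.smul_left, S.skew u p, inv_mul_cancel₀ (neg_ne_zero.mpr hp)]⟩
        obtain ⟨y, hy, hwy⟩ : ∃ y, S.φ y u = 0 ∧ S.φ w y ≠ 0 := by
          by_contra h
          push Not at h
          refine hwu (mem_ln.mpr ⟨S.φ p w, (sub_eq_zero.mp ?_).symm⟩)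
          by_contra hne0
          obtain ⟨x, hx⟩ := S.nondeg _ hne0
          refine hx ?_
          have h1 := h (x - S.φ x u • p) (by rw [S.sub_left, S.smul_left, hp, mul_one, sub_self])
          rw [S.sub_right, S.smul_right] at h1
          rw [S.sub_left, S.smul_left, S.skew x u]
          linear_combination h1 + S.φ x u * S.skew p w
        exact ⟨(S.φ w y)⁻¹ • y, by rw [S.smul_left, hy, mul_zero],
          by rw [S.smul_right, inv_mul_cancel₀ hwy]⟩
      let Ca : E → (ι → F) →ₗ[F] (ι → F) := fun a =>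
        dyad F (LinearMap.mulLeft F a) y (S.l u) + dyad F (LinearMap.mulLeft F a) u (S.l y)
      have huy : S.φ u y = 0 := by rw [S.skew y u, hyu, neg_zero]
      have hsq : ∀ a x, Ca a (Ca a x) = 0 := fun a x => by
        simp [Ca, S.add_left, S.smul_left, S.self, hyu, huy]
      refine ⟨Ca, hsq, fun a c => ?_,
        fun x => S.φ x y, fun a x hx => ?_, fun a b => ?_, fun a => ?_, w, hw, hwu, hwy⟩
      · have key : ∀ b : E, qT (Ca b) (hsq b) ∈ X := fun b => hX _
          ⟨fun e x => by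
            simp [Ca, S.smul_left, smul_smul, smul_add, mul_left_comm],
          fun x z => by
            simp [Ca, S.add_left, S.add_right, S.smul_left, S.smul_right, S.self, hyu, huy,
              S.skew z u, S.skew z y]
            ring⟩
        convert key (c • a) using 1
        exact gl_ext fun x => by simp [Ca, ← smul_assoc, smul_add, smul_mul_assoc]
      · simp [Ca, hcase x hx]
      · simp [Ca, S.smul_left, S.self, huy]
      · refine le_trans (le_trans (Submodule.finrank_mono ?_) (LinearMap.finrank_range_le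
          (((LinearMap.toSpanSingleton E (ι → F) y).restrictScalars F).coprod
            ((LinearMap.toSpanSingleton E (ι → F) u).restrictScalars F))))
          (by rw [Module.finrank_prod]; omega)
        rintro _ ⟨x, rfl⟩
        exact ⟨(a * S.φ x u, a * S.φ x y), rfl⟩
  -- they act through a line
  have hpres : ∀ a ∈ DK, ∀ x ∈ L', a * κ x ∈ DK := by
    intro a ha x hx
    rw [hDK]
    by_cases ha0 : a = 0
    · simp [ha0]
    have had : a • u ∈ D := (hDK a).mp ha
    have hm' := hmax (qT (Ca a) (hCsq a)) (by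
        convert hCX a 1 using 1
        exact gl_ext fun y => by simp) (a • u) had (smul_ne_zero ha0 hu) w hwL hwu
      (by rw [ap_qT, hCκ a w hwL, hκw, mul_one]) (fun y hy => by
        obtain ⟨b, rfl⟩ := mem_ln.mp hy.2
        rw [ap_qT, hCD, add_zero]) x hx
    rw [ap_qT, hCκ a x hx] at hm'
    exact ⟨by simpa using L'.sub_mem hm' hx, smul_mem_ln u _⟩
  have hsc : ∀ x ∈ L', ∃ s : F, Ca δ x = s • d := by
    intro x hx
    obtain ⟨s, hs⟩ := ratio_mem_range hr ((hDK δ).mpr (hδ.symm ▸ hdD)) hδ0 hDKtop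
      (ρ := κ x) (fun a ha => by rw [mul_comm]; exact hpres a ha x hx)
    exact ⟨s, by rw [hCκ δ x hx, ← algebraMap_smul E s d, hs, ← hδ, smul_smul, mul_comm]⟩
  set C : (ι → F) →ₗ[F] (ι → F) :=
    (apEquiv g⁻¹).toLinearMap ∘ₗ Ca δ ∘ₗ (apEquiv g).toLinearMap with hCdef
  have hC : ∀ x, C (C x) = 0 := fun x => by simp [hCdef, ap_ap_inv, hCsq, ap_zero]
  obtain ⟨z, hz⟩ : ∃ z : E, z • v = ap g⁻¹ d := by
    obtain ⟨y, hy, hyd⟩ := mem_img.mp hdD.1
    rw [← hyd, ap_inv_ap]
    exact mem_ln.mp hy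
  have hz0 : z ≠ 0 := fun h => ap_ne_zero g⁻¹ hd (by rw [← hz, h, zero_smul])
  have hCv : ∀ b : E, ∃ s : F, C (b • v) = (algebraMap F E s * z) • v := by
    intro b
    obtain ⟨s, hs⟩ := hsc (ap g (b • v)) (mem_img.mpr ⟨_, smul_mem_ln v b, rfl⟩)
    refine ⟨s, ?_⟩
    simp [hCdef, hs, ap_smul, mul_smul, hz]
  choose ψ₀ hψ₀ using hCv
  have hinj : ∀ s t : F, (algebraMap F E s * z) • v = (algebraMap F E t * z) • v → s = t :=
    fun s t h => (algebraMap F E).injective (mul_right_cancel₀ hz0 (smul_left_injective E hv h))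
  let ψ : E →ₗ[F] F :=
    { toFun := ψ₀
      map_add' := fun a b => hinj _ _ (by
        rw [map_add, add_mul, add_smul, ← hψ₀, ← hψ₀, ← hψ₀, add_smul, map_add])
      map_smul' := fun c a => hinj _ _ (by
        rw [← hψ₀, RingHom.id_apply, smul_assoc, map_smul, hψ₀, smul_eq_mul, map_mul, mul_assoc,
          mul_smul (algebraMap F E c), algebraMap_smul]) }
  refine ⟨v, C, hC, ψ, z, hv, hz0, ?_, ?_, hψ₀, fun c => ?_, ?_⟩
  · refine hinj _ 0 ?_
    show (algebraMap F E (ψ₀ z) * z) • v = _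
    rw [← hψ₀, map_zero, zero_mul, zero_smul, hz]
    simp [hCdef, ap_ap_inv, ← hδ, hCD, ap_zero]
  · intro hψ
    obtain ⟨b, hb⟩ : ∃ b : E, b • v = ap g⁻¹ w := by
      obtain ⟨y, hy, hyd⟩ := mem_img.mp hwL
      rw [← hyd, ap_inv_ap]
      exact mem_ln.mp hy
    have h1 := hψ₀ b
    have h2 : ψ₀ b = 0 := LinearMap.congr_fun hψ b
    rw [h2, map_zero, zero_mul, zero_smul, hb] at h1
    simp [hCdef, ap_ap_inv, hCκ δ w hwL, hκw, hδ] at h1
    exact ap_ne_zero g⁻¹ hd h1
  · convert mul_mem (mul_mem (inv_mem hgX) (hCX δ c)) hgX using 1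
    refine gl_ext fun x => ?_
    simp [hCdef, ap_mul, ap_add, ap_inv_ap, ap_smul]
  · calc finrank F (LinearMap.range C)
        ≤ finrank F ↥((LinearMap.range (Ca δ)).map (apEquiv g⁻¹).toLinearMap) :=
          Submodule.finrank_mono (by
            rintro _ ⟨x, rfl⟩
            exact ⟨_, ⟨ap g x, rfl⟩, rfl⟩)
      _ ≤ finrank F (LinearMap.range (Ca δ)) := Submodule.finrank_map_le _ _
      _ ≤ _ := hCr δ

end KForm

end CfsgLib.Geometric.ExtF
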