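import Cfsg.Agent.Lib.Geometric.ExtField.SympTransv
import Cfsg.Agent.Lib.Geometric.ExtField.Normaliser
import Cfsg.Agent.Lib.Geometric.Symp

/-!
Maximality of the extension field subgroup in a symplectic group.
-/

set_option autoImplicit false
set_option linter.unusedSectionVars false

namespace CfsgLib.Geometric.ExtF

open Matrix Module

theorem symp_maximal' {F : Type*} [Field F] [Fintype F] {ι : Type} [Fintype ι] [DecidableEq ι]
    {f : (ι → F) → (ι → F) → F} (hf : Cfsg.Geo.IsSymplecticForm f)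
    {E : Type*} [Field E] [Algebra F E] [Finite E] (hr : (finrank F E).Prime)
    (hn : 8 ≤ Fintype.card ι ∨ 0 < Fintype.card ι ∧ (3 ≤ finrank F E ∨ ∃ μ : F, μ ≠ 0 ∧ μ ≠ 1))
    (ρ : E →ₐ[F] Matrix ι ι F) (K : Subalgebra F (Matrix ι ι F))
    (hρK : ∀ k, k ∈ K ↔ ∃ a, ρ a = k) (hsa : Cfsg.Geo.IsSelfAdjointFor f K)
    (halt : ∀ k ∈ K, ∀ v : ι → F, f (k *ᵥ v) v = 0) :
    Cfsg.Geo.IsMaximalIn (isom f) (Cfsg.Geo.subalgebraNormalizer K ⊓ isom f) := by
  classical
  letI : Module E (ι → F) := Module.compHom _ ((Matrix.toLinAlgEquiv'.toAlgHom.comp ρ).toRingHom)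
  have hsmul : ∀ (a : E) (v : ι → F), a • v = ρ a *ᵥ v := fun a v => rfl
  haveI : IsScalarTower F E (ι → F) := ⟨fun c a v => by
    rw [hsmul, hsmul, map_smul, Matrix.smul_mulVec]⟩
  have hmem : ∀ a, ρ a ∈ K := fun a => (hρK _).mpr ⟨a, rfl⟩
  have hsa' : ∀ (a : E) x y, f (a • x) y = f x (a • y) := fun a x y => hsa _ (hmem a) x y
  have halt' : ∀ (a : E) x, f (a • x) x = 0 := fun a x => halt _ (hmem a) x
  obtain ⟨T, hT⟩ := exists_functional_ne_zero (F := F) E
  let ψ : (ι → F) → (ι → F) → (E →ₗ[F] F) := fun x y =>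
    { toFun := fun a => f (a • x) y
      map_add' := fun a b => by rw [add_smul, hf.bilinear.add_left]
      map_smul' := fun c a => by rw [smul_assoc, hf.bilinear.smul_left, RingHom.id_apply, smul_eq_mul] }
  choose φ hφ using fun x y => exists_mul_rep hT (ψ x y)
  have ext : ∀ {e e' : E}, (∀ a, T (a * e) = T (a * e')) → e = e' := by
    intro e e' h
    by_contra hne
    refine hT (LinearMap.ext fun a => ?_)
    have h1 := h (a / (e - e'))
    rw [← sub_eq_zero, ← map_sub, ← mul_sub, div_mul_cancel₀ _ (sub_ne_zero.mpr hne)] at h1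
    simpa using h1
  have hφ' : ∀ x y a, T (a * φ x y) = f (a • x) y := fun x y a => hφ x y a
  let S : KForm F E ι :=
    { T := T
      T_ne := hT
      φ := φ
      add_left := fun x y z => ext fun a => by
        rw [mul_add, map_add, hφ', hφ', hφ', smul_add, hf.bilinear.add_left]
      smul_left := fun b x y => ext fun a => by rw [hφ', ← mul_assoc, hφ', mul_smul]
      self := fun x => ext fun a => by rw [hφ', halt', mul_zero, map_zero]
      smul_right := fun b x y => ext fun a => by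
        rw [hφ', ← mul_assoc, hφ', ← hsa', smul_smul, mul_comm b a]
      add_right := fun x y z => ext fun a => by
        rw [mul_add, map_add, hφ', hφ', hφ', hf.bilinear.add_right]
      nondeg := fun x hx => by
        obtain ⟨y, hy⟩ := (hf.nondegenerate x hx).2
        exact ⟨y, fun h => hy (by rw [← one_smul E x, ← hφ', h, mul_zero, map_zero])⟩ }
  have hTφ : ∀ x y, S.T (S.φ x y) = f x y := fun x y => by
    have := hφ' x y 1
    rwa [one_mul, one_smul] at this
  have hne : Nonempty ι := Fintype.card_pos_iff.mp (by omega)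
  have hm : ∀ v : ι → F, ∃ w : ι → F, ∀ a : E, a • v ≠ w := by
    intro v
    by_contra h
    push Not at h
    by_cases hv : v = 0
    · obtain ⟨w, hw⟩ := exists_ne (0 : ι → F)
      obtain ⟨a, ha⟩ := h w
      exact hw (by rw [← ha, hv, smul_zero])
    · obtain ⟨y, hy⟩ := S.nondeg v hv
      obtain ⟨a, rfl⟩ := h y
      exact hy (by rw [S.smul_right, S.self, mul_zero])
  have hiff : ∀ g : GL ι F, g ∈ Cfsg.Geo.subalgebraNormalizer K ↔ IsSemi E g :=
    mem_normalizer_iff_isSemi K ρ hρK hsmul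
  refine ⟨lt_of_le_of_ne inf_le_right fun h => ?_, fun M hNM hMI => ?_⟩
  · -- a transvection is not semilinear
    obtain ⟨a, ha⟩ := exists_notMem_range (F := F) hr
    obtain ⟨w, hw⟩ := exists_ne (0 : ι → F)
    obtain ⟨x, hx⟩ := (hf.nondegenerate w hw).1
    obtain ⟨b, hb⟩ := (hiff _).mp (inf_eq_right.mp h (Symp.T_mem_isom hf w 1)) a
    have h1 := hb w
    rw [Symp.ap_T hf, Symp.ap_T hf, halt', hf.alternating w, mul_zero, zero_smul, add_zero,
      add_zero] at h1
    obtain rfl : a = b := smul_left_injective E hw h1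
    have h2 := hb x
    rw [Symp.ap_T hf, Symp.ap_T hf, smul_add, add_right_inj, one_mul, one_mul,
      ← algebraMap_smul E (f x w), smul_smul, ← algebraMap_smul E (f (a • x) w)] at h2
    have h3 := smul_left_injective E hw h2
    refine ha ⟨f (a • x) w / f x w, ?_⟩
    rw [map_div₀, h3, mul_div_assoc, div_self (by simpa using hx), mul_one]
  by_cases h : M ≤ Cfsg.Geo.subalgebraNormalizer K
  · exact Or.inl (le_antisymm (le_inf h hMI) hNM)
  obtain ⟨g, hg, hgN⟩ := SetLike.not_le_iff_exists.mp h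
  have hX : ∀ g, S.IsIsom g → g ∈ M := fun g hg => hNM
    ⟨(hiff g).mpr (IsSemi.of_linear E hg.1), fun x y => by rw [← hTφ, ← hTφ]; exact congrArg _ (hg.2 x y)⟩
  have hXf : ∀ g ∈ M, ∀ x y, S.T (S.φ (ap g x) (ap g y)) = S.T (S.φ x y) := fun g hg x y => by
    rw [hTφ, hTφ]; exact hMI hg x y
  have htv : S.HasTv M := by
    rcases hn with hn | ⟨-, hμ⟩
    · exact S.hasTv hX hXf hr hn hm ⟨g, hg, fun hs => hgN ((hiff g).mpr hs)⟩
    · exact S.hasTv_general hX hXf hr hμ hm ⟨g, hg, fun hs => hgN ((hiff g).mpr hs)⟩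
  refine Or.inr (le_antisymm hMI (Symp.isom_le_of_T_mem hf fun v c => ?_))
  obtain ⟨t, ht, ht'⟩ := S.all_transvections hX htv v c
  rwa [show Symp.T hf v c = t from gl_ext fun x => by rw [Symp.ap_T hf, ht', hTφ]]

theorem symp_maximal {F : Type*} [Field F] [Fintype F] {ι : Type} [Fintype ι] [DecidableEq ι]
    {f : (ι → F) → (ι → F) → F} (hf : Cfsg.Geo.IsSymplecticForm f)
    {E : Type*} [Field E] [Algebra F E] [Finite E] (hr : (finrank F E).Prime)
    (hn : 13 ≤ Fintype.card ι) (ρ : E →ₐ[F] Matrix ι ι F) (K : Subalgebra F (Matrix ι ι F))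
    (hρK : ∀ k, k ∈ K ↔ ∃ a, ρ a = k) (hsa : Cfsg.Geo.IsSelfAdjointFor f K)
    (halt : ∀ k ∈ K, ∀ v : ι → F, f (k *ᵥ v) v = 0) :
    Cfsg.Geo.IsMaximalIn (isom f) (Cfsg.Geo.subalgebraNormalizer K ⊓ isom f) :=
  symp_maximal' hf hr (Or.inl (by omega)) ρ K hρK hsa halt

end CfsgLib.Geometric.ExtF
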