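import Cfsg.Agent.Lib.Geometric.Orth.ExtQuad
import Cfsg.Agent.Lib.Geometric.Symp

/-!
A group of symplectic isometries containing those commuting with a quadratic extension field on which the
adjoint map is non-trivial, and one element not normalising that field, contains every symplectic isometry.
-/

set_option autoImplicit false
set_option linter.unusedSectionVars false

namespace CfsgLib.Geometric.ExtF.SympQuadExt

open Matrix QuadraticMap Module CfsgLib.Geometric.Orth CfsgLib.ClassicalForms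

variable {ι : Type} [Fintype ι] [DecidableEq ι] {F : Type*} [Field F] [Finite F]
variable {f : (ι → F) → (ι → F) → F}

/-- The data of a quadratic field with non-trivial adjoint map. -/
structure Data (f : (ι → F) → (ι → F) → F) where
  symp : Cfsg.Geo.IsSymplecticForm f
  /-- The anti-self-adjoint generator. -/
  D : (ι → F) →ₗ[F] (ι → F)
  /-- Its square. -/
  ε : F
  sq : ∀ x, D (D x) = ε • x
  anti : ∀ x y, f (D x) y = -f x (D y)
  irred : ∀ x, x ≠ 0 → ∀ c : F, D x ≠ c • x
  two : (2 : F) ≠ 0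
  big : 10 ≤ Fintype.card ι

namespace Data

variable (S : Data f)

/-- The associated symmetric form. -/
def hform : (ι → F) →ₗ[F] (ι → F) →ₗ[F] F :=
  LinearMap.mk₂ F (fun x y => f x (S.D y))
    (fun x x' y => S.symp.bilinear.add_left x x' _)
    (fun c x y => S.symp.bilinear.smul_left c x _)
    (fun x y y' => by rw [map_add, S.symp.bilinear.add_right])
    (fun c x y => by rw [map_smul, S.symp.bilinear.smul_right]; rfl)

@[simp] lemma hform_apply (x y : ι → F) : S.hform x y = f x (S.D y) := rfl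

lemma hform_symm (x y : ι → F) : f y (S.D x) = f x (S.D y) := by
  rw [S.symp.skew, S.anti, neg_neg]

/-- The associated quadratic form. -/
def R : QuadraticForm F (ι → F) := LinearMap.BilinMap.toQuadraticMap S.hform

@[simp] lemma R_apply (x : ι → F) : S.R x = f x (S.D x) := rfl

lemma polar_R (x y : ι → F) : polar S.R x y = 2 * f x (S.D y) := by
  rw [R, LinearMap.BilinMap.polar_toQuadraticMap, hform_apply, hform_apply, S.hform_symm x y]
  ring

lemma eps_ne : S.ε ≠ 0 := by
  intro h
  have hne : Nonempty ι := Fintype.card_pos_iff.mp (by have := S.big; omega)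
  obtain ⟨x, hx⟩ := exists_ne (0 : ι → F)
  have hDx : S.D x ≠ 0 := fun h0 => S.irred x hx 0 (by rw [h0, zero_smul])
  exact S.irred _ hDx 0 (by rw [S.sq, h, zero_smul, zero_smul])

lemma norm_ne (a : F) : 1 - S.ε * a ^ 2 ≠ 0 := by
  intro h
  have hne : Nonempty ι := Fintype.card_pos_iff.mp (by have := S.big; omega)
  obtain ⟨x, hx⟩ := exists_ne (0 : ι → F)
  have ha : a ≠ 0 := by rintro rfl; simp at h
  by_cases hv : S.D x + a⁻¹ • x = 0
  · refine S.irred x hx (-a⁻¹) ?_
    rw [neg_smul]; exact eq_neg_of_add_eq_zero_left hv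
  · refine S.irred _ hv a⁻¹ ?_
    rw [map_add, map_smul, S.sq]
    match_scalars
    · field_simp
      linear_combination -h
    · ring

lemma nondeg_R : Nondeg S.R := fun x hx => by
  by_contra h
  obtain ⟨y, hy⟩ := (S.symp.nondegenerate x h).2
  have := hx (S.ε⁻¹ • S.D y)
  rw [S.polar_R, map_smul, S.sq, smul_smul, inv_mul_cancel₀ S.eps_ne, one_smul] at this
  exact hy ((mul_eq_zero.mp this).resolve_left S.two)

/-- The quadratic extension acting on the associated form. -/
def ext : QuadExtData S.R where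
  D := S.D
  t := 0
  N := -S.ε
  sq x := by rw [S.sq, zero_smul, neg_smul, sub_neg_eq_add, zero_add]
  adj x y := by
    rw [S.polar_R, S.polar_R, S.anti, zero_smul, zero_sub, map_neg, ← neg_one_smul F (S.D (S.D y)),
      S.symp.bilinear.smul_right]
    ring
  map x := by rw [R_apply, R_apply, S.anti, S.sq, S.symp.bilinear.smul_right]; ring
  self x := by rw [S.polar_R, S.sq, S.symp.bilinear.smul_right, S.symp.alternating]; ring
  irred := S.irred

lemma f_D_D (x y : ι → F) : f (S.D x) (S.D y) = -(S.ε * f x y) := by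
  rw [S.anti, S.sq, S.symp.bilinear.smul_right]

/-- A singular vector with prescribed values of the form, outside a given span. -/
lemma exists_val {k : ℕ} (b : Fin k → ι → F) (θ : (ι → F) →ₗ[F] F)
    (hk : 2 * k + 3 ≤ Fintype.card ι) :
    ∃ z, S.R z = 0 ∧ (∀ i, f z (b i) = θ (b i)) ∧
      z ∉ Submodule.span F (Set.range fun i => S.D (b i)) := by
  set v : Fin k → ι → F := fun i => S.ε⁻¹ • S.D (b i) with hv
  have hDv : ∀ i, S.D (v i) = b i := fun i => by
    rw [hv, map_smul, S.sq, smul_smul, inv_mul_cancel₀ S.eps_ne, one_smul]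
  have hspan : Submodule.span F (Set.range fun i => S.D (b i)) ≤ Submodule.span F (Set.range v) := by
    rw [Submodule.span_le]
    rintro _ ⟨i, rfl⟩
    have h : S.ε • v i ∈ Submodule.span F (Set.range v) :=
      Submodule.smul_mem _ _ (Submodule.subset_span ⟨i, rfl⟩)
    simpa [hv, smul_smul, mul_inv_cancel₀ S.eps_ne] using h
  obtain ⟨z, hz, hzv⟩ := exists_singular_val S.nondeg_R v ((2 : F) • θ ∘ₗ S.D) hk
  have hval : ∀ (z : ι → F) i, polar S.R z (v i) = ((2 : F) • θ ∘ₗ S.D) (v i) →
      f z (b i) = θ (b i) := by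
    intro z i h
    rw [S.polar_R, LinearMap.smul_apply, LinearMap.comp_apply, hDv, smul_eq_mul] at h
    exact mul_left_cancel₀ S.two h
  by_cases hmem : z ∈ Submodule.span F (Set.range v)
  · obtain ⟨z', hz', hQz', hperp⟩ := exists_singular_off (Q := S.R) v hk
    have hzz : polar S.R z z' = 0 := by
      rw [Submodule.mem_span_range_iff_exists_fun] at hmem
      obtain ⟨c, hc⟩ := hmem
      rw [← hc, polar_comm]
      have : ∀ x ∈ Submodule.span F (Set.range v), polar S.R z' x = 0 := by
        intro x hx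
        induction hx using Submodule.span_induction with
        | mem x hx => obtain ⟨i, rfl⟩ := hx; exact hperp i
        | zero => exact polar_zero_right _ _
        | add x y _ _ hx hy => rw [polar_add_right, hx, hy, add_zero]
        | smul a x _ hx => rw [polar_smul_right, hx, smul_zero]
      exact this _ (Submodule.sum_mem _ fun i _ =>
        Submodule.smul_mem _ _ (Submodule.subset_span ⟨i, rfl⟩))
    refine ⟨z + z', by rw [QuadraticMap.map_add (⇑S.R), hz, hQz', hzz]; simp,
      fun i => hval _ i (by rw [polar_add_left, hperp, add_zero, hzv]), fun h => hz' ?_⟩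
    have := Submodule.sub_mem _ (hspan h) hmem
    simpa using this
  · exact ⟨z, hz, fun i => hval z i (hzv i), fun h => hmem (hspan h)⟩

/-- The unitary transvection at a singular vector. -/
def τ (z : ι → F) (s : F) : GL ι F :=
  Symp.T S.symp (S.D z) s * Symp.T S.symp z (-(S.ε * s))

lemma ap_τ {z : ι → F} (hz : S.R z = 0) (s : F) (x : ι → F) :
    ap (S.τ z s) x = x + (s * f x (S.D z)) • S.D z - (S.ε * s * f x z) • z := by
  rw [R_apply] at hz
  rw [τ, ap_mul, Symp.ap_T, Symp.ap_T, S.symp.bilinear.add_left, S.symp.bilinear.smul_left, hz]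
  module

lemma τ_comm {z : ι → F} (hz : S.R z = 0) (s : F) (x : ι → F) :
    S.D (ap (S.τ z s) x) = ap (S.τ z s) (S.D x) := by
  rw [S.ap_τ hz, S.ap_τ hz, map_sub, map_add, map_smul, map_smul, S.sq, S.anti x z, S.f_D_D]
  module

lemma τ_isom (z : ι → F) (s : F) : S.τ z s ∈ isom f :=
  mul_mem (Symp.T_mem_isom S.symp _ _) (Symp.T_mem_isom S.symp _ _)

variable {M : Subgroup (GL ι F)}
  (hR : ∀ g ∈ isom f, (∀ x, S.D (ap g x) = ap g (S.D x)) → g ∈ M)
  (hM : M ≤ isom f)

/-- All transvections at `x` lie in `M`. -/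
def Cen (M : Subgroup (GL ι F)) (x : ι → F) : Prop := ∀ c, Symp.T S.symp x c ∈ M

include hR in
lemma τ_mem {z : ι → F} (hz : S.R z = 0) (s : F) : S.τ z s ∈ M :=
  hR _ (S.τ_isom z s) (S.τ_comm hz s)

include hM

lemma cen_ap {x : ι → F} (hx : S.Cen M x) {g : GL ι F} (hg : g ∈ M) : S.Cen M (ap g x) := fun c => by
  rw [← Symp.conj_T S.symp (hM hg)]
  exact mul_mem (mul_mem hg (hx c)) (inv_mem hg)

omit hM in
lemma cen_smul {x : ι → F} (hx : S.Cen M x) (a : F) : S.Cen M (a • x) := fun c => by
  rw [Symp.T_smul]; exact hx _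

lemma cen_add {x y : ι → F} (hx : S.Cen M x) (hy : S.Cen M y) (h : f x y ≠ 0) (c : F) :
    S.Cen M (x + c • y) := by
  have := S.cen_ap hM hx (hy (c / f x y))
  rwa [Symp.ap_T, div_mul_cancel₀ _ h] at this

include hR

/-- A transvection at a singular vector, from one at any vector. -/
lemma exists_singular_cen {d : ι → F} (hd : d ≠ 0) (hc : S.Cen M d) :
    ∃ x, x ≠ 0 ∧ S.R x = 0 ∧ S.Cen M x := by
  obtain ⟨θ, -, hθ⟩ := exists_functional_eq_one
    (show S.D d ∉ Submodule.span F {d} from fun h => by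
      obtain ⟨a, ha⟩ := Submodule.mem_span_singleton.mp h
      exact S.irred d hd a ha.symm)
  obtain ⟨z, hz, hzv, -⟩ := S.exists_val ![S.D d] θ (by have := S.big; omega)
  have h1 : f d (S.D z) = 1 := by rw [S.hform_symm z d]; simpa [hθ] using hzv 0
  set e := S.D z - (S.ε * f d z) • z with he
  have hde : f d e = 1 - S.ε * f d z ^ 2 := by
    rw [he, Symp.sub_right S.symp, S.symp.bilinear.smul_right, h1]; ring
  have hmem : S.Cen M (d + e) := by
    have := S.cen_ap hM hc (S.τ_mem hR hz 1)
    rw [S.ap_τ hz, h1, one_mul, one_smul, mul_one, add_sub_assoc] at this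
    exact this
  have h2 := S.cen_add hM hmem hc (by
    rw [S.symp.bilinear.add_left, S.symp.alternating, zero_add, S.symp.skew, hde, neg_ne_zero]
    exact S.norm_ne _) (-1)
  rw [neg_one_smul, add_neg_cancel_comm] at h2
  refine ⟨e, fun h => S.norm_ne (f d z) (by rw [← hde, h, Symp.zero_right S.symp]), ?_, h2⟩
  rw [R_apply] at hz ⊢
  rw [he, map_sub, map_smul, S.sq]
  simp only [Symp.sub_left S.symp, Symp.sub_right S.symp, S.symp.bilinear.smul_left,
    S.symp.bilinear.smul_right, S.symp.alternating, S.symp.skew (S.D z) z, hz]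
  ring

/-- One transvection gives all. -/
theorem cen_all {d : ι → F} (hd : d ≠ 0) (hc : S.Cen M d) (v : ι → F) : S.Cen M v := by
  obtain ⟨x, hx0, hRx, hx⟩ := S.exists_singular_cen hR hM hd hc
  have hone : ∀ x y, S.Cen M x → S.R y = 0 → f x y ≠ 0 → f x (S.D y) = 0 → S.R x = 0 →
      S.Cen M y := by
    intro x y hx hy hne h0 hRx
    have hRp : S.R (S.ε⁻¹ • S.D y) = 0 := by
      rw [QuadraticMap.map_smul]
      have := S.ext.map y
      rw [show S.ext.D y = S.D y from rfl] at this
      rw [this, hy]; simp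
    have h3 := S.cen_ap hM hx (S.τ_mem hR hRp ((f x y)⁻¹))
    have e : ap (S.τ (S.ε⁻¹ • S.D y) (f x y)⁻¹) x = x + y := by
      rw [S.ap_τ hRp, map_smul, S.sq, inv_smul_smul₀ S.eps_ne, S.symp.bilinear.smul_right, h0,
        inv_mul_cancel₀ hne]
      simp
    rw [e] at h3
    have := S.cen_add hM h3 hx (by
      rw [S.symp.bilinear.add_left, S.symp.alternating, zero_add, S.symp.skew, neg_ne_zero]
      exact hne) (-1)
    rwa [neg_one_smul, add_neg_cancel_comm] at this
  have hpair : ∀ x y, S.R x = 0 → S.Cen M x → S.R y = 0 → (f x y ≠ 0 ∨ f x (S.D y) ≠ 0) →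
      S.Cen M y := by
    intro x y hRx hx hRy hab
    have hxx : f x (S.D x) = 0 := hRx
    have hyy : f y (S.D y) = 0 := hRy
    have hDxy : f (S.D x) y = -f x (S.D y) := S.anti x y
    have hdet : f x (S.D y) ^ 2 - S.ε * f x y ^ 2 ≠ 0 := by
      intro h
      by_cases hb : f x (S.D y) = 0
      · rw [hb] at h
        rcases hab with h1 | h1
        · exact h1 (by simpa [S.eps_ne] using h)
        · exact h1 hb
      · refine S.norm_ne (f x y / f x (S.D y)) ?_
        field_simp
        linear_combination h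
    have e1 : S.D x ∉ Submodule.span F (Set.range ![x, y]) := by
      intro h
      rw [Submodule.mem_span_range_iff_exists_fun] at h
      obtain ⟨c, hc⟩ := h
      simp [Fin.sum_univ_two] at hc
      have hc1 : c 1 = 0 := by
        rcases hab with h1 | h1
        · have := congrArg (f x) hc
          simpa [S.symp.bilinear.add_right, S.symp.bilinear.smul_right, S.symp.alternating, hxx, h1]
            using this
        · have := congrArg (fun z => f x (S.D z)) hc
          simpa [S.sq, S.symp.bilinear.add_right, S.symp.bilinear.smul_right, S.symp.alternating,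
            hxx, h1] using this
      have hx0 : x ≠ 0 := by rintro rfl; simp [Symp.zero_left S.symp] at hdet
      exact S.irred x hx0 (c 0) (by rw [← hc, hc1, zero_smul, add_zero])
    have e2 : S.D y ∉ Submodule.span F (Set.range ![x, y]) := by
      intro h
      rw [Submodule.mem_span_range_iff_exists_fun] at h
      obtain ⟨c, hc⟩ := h
      simp [Fin.sum_univ_two] at hc
      have hc0 : c 0 = 0 := by
        rcases hab with h1 | h1
        · have := congrArg (fun z => f z y) hc
          simpa [S.symp.bilinear.add_left, S.symp.bilinear.smul_left, S.symp.alternating, S.anti y y,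
            hyy, h1] using this
        · have := congrArg (fun z => f (S.D z) y) hc
          simpa [S.sq, S.symp.bilinear.add_left, S.symp.bilinear.smul_left, S.symp.alternating,
            S.anti y y, hyy, hDxy, h1] using this
      have hy0 : y ≠ 0 := by rintro rfl; simp [Symp.zero_right S.symp] at hdet
      exact S.irred y hy0 (c 1) (by rw [← hc, hc0, zero_smul, zero_add])
    obtain ⟨θ, hθ, hθx, hθy⟩ : ∃ θ : (ι → F) →ₗ[F] F,
        (∀ a ∈ Submodule.span F (Set.range ![x, y]), θ a = 0) ∧ θ (S.D x) ≠ 0 ∧ θ (S.D y) ≠ 0 :=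
      QuadExtData.exists_functional_two e1 e2
    set v : Fin 4 → ι → F := ![x, y, S.D x, S.D y] with hv
    obtain ⟨z₀, hz₀, hz₀0, hQz₀⟩ := exists_singular_mem (Q := S.R) (perpOf S.R v) (by
      have h1 := card_le_finrank_perpOf (Q := S.R) v
      have h2 := S.big
      omega)
    have hperp := mem_perpOf.mp hz₀
    have hz₀v : z₀ ∉ Submodule.span F (Set.range v) := by
      intro h
      rw [Submodule.mem_span_range_iff_exists_fun] at h
      obtain ⟨c, hc⟩ := h
      simp [Fin.sum_univ_four, hv] at hc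
      have q : ∀ w, polar S.R z₀ w = 0 → f z₀ (S.D w) = 0 := fun w hw => by
        rw [S.polar_R] at hw; exact (mul_eq_zero.mp hw).resolve_left S.two
      have p0 : f z₀ (S.D x) = 0 := q x (hperp 0)
      have p1 : f z₀ (S.D y) = 0 := q y (hperp 1)
      have p2 : f z₀ x = 0 := by
        have := q _ (hperp 2)
        rw [show v 2 = S.D x from rfl, S.sq, S.symp.bilinear.smul_right] at this
        exact (mul_eq_zero.mp this).resolve_left S.eps_ne
      have p3 : f z₀ y = 0 := by
        have := q _ (hperp 3)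
        rw [show v 3 = S.D y from rfl, S.sq, S.symp.bilinear.smul_right] at this
        exact (mul_eq_zero.mp this).resolve_left S.eps_ne
      rw [← hc] at p0 p1 p2 p3
      simp only [S.symp.bilinear.add_left, S.symp.bilinear.smul_left, S.symp.alternating, hxx, hyy,
        S.f_D_D, hDxy, S.anti x x, S.anti y y, S.anti y x, S.hform_symm x y, S.symp.skew y x,
        mul_zero, neg_zero, add_zero, zero_add] at p0 p1 p2 p3
      have c0 : c 0 = 0 := by
        refine (mul_eq_zero.mp (?_ : c 0 * (f x (S.D y) ^ 2 - S.ε * f x y ^ 2) = 0)).resolve_right hdet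
        linear_combination f x (S.D y) * p1 - S.ε * f x y * p3
      have c2 : c 2 = 0 := by
        refine (mul_eq_zero.mp (?_ : c 2 * (f x (S.D y) ^ 2 - S.ε * f x y ^ 2) = 0)).resolve_right hdet
        linear_combination f x y * p1 - f x (S.D y) * p3
      have c1 : c 1 = 0 := by
        refine (mul_eq_zero.mp (?_ : c 1 * (f x (S.D y) ^ 2 - S.ε * f x y ^ 2) = 0)).resolve_right hdet
        linear_combination f x (S.D y) * p0 + S.ε * f x y * p2
      have c3 : c 3 = 0 := by
        refine (mul_eq_zero.mp (?_ : c 3 * (f x (S.D y) ^ 2 - S.ε * f x y ^ 2) = 0)).resolve_right hdet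
        linear_combination -f x y * p0 - f x (S.D y) * p2
      rw [c0, c1, c2, c3] at hc
      simp at hc
      exact hz₀0 hc.symm
    obtain ⟨z, hz, hzv⟩ := exists_singular_val_of S.nondeg_R v θ hz₀v hQz₀ hperp
    have z1 : f z (S.D x) = 0 := by
      have : polar S.R z x = θ x := hzv 0
      rw [S.polar_R, hθ x (Submodule.subset_span ⟨0, rfl⟩)] at this
      exact (mul_eq_zero.mp this).resolve_left S.two
    have z2 : f z (S.D y) = 0 := by
      have : polar S.R z y = θ y := hzv 1
      rw [S.polar_R, hθ y (Submodule.subset_span ⟨1, rfl⟩)] at this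
      exact (mul_eq_zero.mp this).resolve_left S.two
    have z3 : f z x ≠ 0 := by
      intro h
      have : polar S.R z (S.D x) = θ (S.D x) := hzv 2
      rw [S.polar_R, S.sq, S.symp.bilinear.smul_right, h, mul_zero, mul_zero] at this
      exact hθx this.symm
    have z4 : f z y ≠ 0 := by
      intro h
      have : polar S.R z (S.D y) = θ (S.D y) := hzv 3
      rw [S.polar_R, S.sq, S.symp.bilinear.smul_right, h, mul_zero, mul_zero] at this
      exact hθy this.symm
    refine hone z y (hone x z hx hz ?_ ?_ hRx) hRy z4 z2 hz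
    · rwa [S.symp.skew, neg_ne_zero]
    · rw [S.hform_symm z x]; exact z1
  have hsing : ∀ y, S.R y = 0 → S.Cen M y := by
    intro y hy
    by_cases hy0 : y = 0
    · intro c
      rw [hy0, ← zero_smul F x, Symp.T_smul, zero_mul, zero_mul, Symp.T_zero_right]
      exact one_mem M
    obtain ⟨θ, -, hθx, hθy⟩ := QuadExtData.exists_functional_two (U := (⊥ : Submodule F (ι → F)))
      (a := x) (b := y) (by simpa using hx0) (by simpa using hy0)
    obtain ⟨z, hz, hzv, -⟩ := S.exists_val ![x, y] θ (by have := S.big; omega)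
    have zx : f z x = θ x := hzv 0
    have zy : f z y = θ y := hzv 1
    refine hpair z y hz (hpair x z hRx hx hz (Or.inl ?_)) hy (Or.inl (by rw [zy]; exact hθy))
    rw [S.symp.skew, neg_ne_zero, zx]; exact hθx
  by_cases hv : v = 0
  · rw [hv, ← zero_smul F x]; exact S.cen_smul hx 0
  have hvD : S.D v ∉ Submodule.span F {v} := fun h => by
    obtain ⟨a, ha⟩ := Submodule.mem_span_singleton.mp h
    exact S.irred v hv a ha.symm
  have hvD' : v ∉ Submodule.span F {S.D v} := fun h => by
    obtain ⟨a, ha⟩ := Submodule.mem_span_singleton.mp h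
    by_cases ha0 : a = 0
    · rw [ha0, zero_smul] at ha; exact hv ha.symm
    · refine S.irred v hv a⁻¹ ?_
      nth_rw 2 [← ha]
      rw [smul_smul, inv_mul_cancel₀ ha0, one_smul]
  obtain ⟨θ₁, hθ₁, hθ₁'⟩ := exists_functional_eq_one hvD
  obtain ⟨θ₂, hθ₂, hθ₂'⟩ := exists_functional_eq_one hvD'
  obtain ⟨p, hp, hpv, -⟩ := S.exists_val ![v, S.D v] (θ₁ + θ₂) (by have := S.big; omega)
  have p1 : f p v = 1 := by
    have := hpv 0
    simpa [hθ₂', hθ₁ v (Submodule.mem_span_singleton_self v)] using this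
  have p2 : f p (S.D v) = 1 := by
    have := hpv 1
    simpa [hθ₁', hθ₂ _ (Submodule.mem_span_singleton_self (S.D v))] using this
  set a := S.R v / 2 with ha
  have hy : S.R (v - a • p) = 0 := by
    rw [map_sub_eq, QuadraticMap.map_smul, hp, polar_smul_right, polar_comm, S.polar_R, p2]
    have := S.two
    simp [ha]
    field_simp
    ring
  have hne : f (v - a • p) p ≠ 0 := by
    rw [Symp.sub_left S.symp, S.symp.bilinear.smul_left, S.symp.alternating, S.symp.skew, p1]
    simp
  have := S.cen_add hM (hsing _ hy) (hsing _ hp) hne a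
  rwa [sub_add_cancel] at this

/-- The element `x ↦ x + k (f(x,d) b + f(x,b) d)` lies in `M` for all `k`. -/
def HasE (M : Subgroup (GL ι F)) (d b : ι → F) : Prop :=
  ∀ k : F, ∃ g ∈ M, ∀ x, ap g x = x + k • (f x d • b + f x b • d)

lemma exists_pair
    (hnot : ∃ g ∈ M, ¬ ∃ a b : F, ∀ x, ap g (S.D x) = a • ap g x + b • S.D (ap g x)) :
    ∃ d b, d ≠ 0 ∧ b ∉ S.ext.L d ∧ f d b = 0 ∧ HasE (f := f) M d b := by
  obtain ⟨g, hg, hgn⟩ := hnot
  have hn := S.big
  have hne : Nonempty ι := Fintype.card_pos_iff.mp (by omega)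
  obtain ⟨v, hv, hvL⟩ : ∃ v, S.R v = 0 ∧ ap g (S.D v) ∉ S.ext.L (ap g v) := by
    by_contra h
    push Not at h
    obtain ⟨a, b, hab⟩ := S.ext.eq_combination S.nondeg_R (by omega)
      (P := (apEquiv g⁻¹).toLinearMap ∘ₗ S.D ∘ₗ (apEquiv g).toLinearMap) fun x hx => by
        obtain ⟨a, b, hab⟩ := S.ext.mem_L.mp (h x hx)
        change a • ap g x + b • S.D (ap g x) = ap g (S.D x) at hab
        by_cases hb : b = 0
        · by_cases hx0 : x = 0
          · simp [hx0, ap_zero]
          · rw [hb, zero_smul, add_zero, ← ap_smul] at hab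
            exact absurd (ap_injective g hab).symm (S.irred x hx0 a)
        refine S.ext.mem_L.mpr ⟨-(a / b), b⁻¹, ap_injective g ?_⟩
        simp only [LinearMap.comp_apply, LinearEquiv.coe_coe, apEquiv_apply, ap_ap_inv, ap_add,
          ap_smul]
        change -(a / b) • ap g x + b⁻¹ • ap g (S.D x) = _
        rw [← hab]
        match_scalars <;> field_simp <;> ring
    have hab' : ∀ x, S.D (ap g x) = a • ap g x + b • ap g (S.D x) := fun x => by
      have := congrArg (ap g) (hab x)
      simpa [ap_ap_inv, ap_add, ap_smul, Data.ext] using this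
    have hb : b ≠ 0 := by
      intro hb
      obtain ⟨y, hy⟩ := exists_ne (0 : ι → F)
      have := hab' y
      rw [hb, zero_smul, add_zero] at this
      exact S.irred _ (ap_ne_zero g hy) a this
    refine hgn ⟨-(a / b), b⁻¹, fun x => ?_⟩
    rw [hab' x]
    match_scalars <;> field_simp <;> ring
  set u := ap g v
  set w := ap g (S.D v)
  rw [R_apply] at hv
  have huw : f u w = 0 := (hM hg v (S.D v)).trans hv
  have hA : ∀ s, Symp.T S.symp w s * Symp.T S.symp u (-(S.ε * s)) ∈ M := fun s => by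
    have h3 := mul_mem (mul_mem hg (S.τ_mem hR (z := v) (by rw [R_apply, hv]) s)) (inv_mem hg)
    rwa [τ, show ∀ A B : GL ι F, g * (A * B) * g⁻¹ = (g * A * g⁻¹) * (g * B * g⁻¹) from
      fun A B => by group, Symp.conj_T S.symp (hM hg), Symp.conj_T S.symp (hM hg)] at h3
  have hDw : S.D w ∉ Submodule.span F (Set.range ![u, S.D u]) := fun h =>
    hvL (S.ext.mem_of_sub_mem 0 (by rw [zero_smul, sub_zero]; exact h))
  obtain ⟨θ, hθ, hθ1⟩ := exists_functional_eq_one hDw
  obtain ⟨z₁, hz₁, hz₁v, -⟩ := S.exists_val ![u, S.D u, S.D w] θ (by omega)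
  have a1 : f z₁ u = 0 := (hz₁v 0).trans (hθ _ (Submodule.subset_span ⟨0, rfl⟩))
  have a2 : f z₁ (S.D u) = 0 := (hz₁v 1).trans (hθ _ (Submodule.subset_span ⟨1, rfl⟩))
  have a3 : f z₁ (S.D w) = 1 := (hz₁v 2).trans hθ1
  have hz₁' : f z₁ (S.D z₁) = 0 := hz₁
  -- a second vector, from a singular one orthogonal to the first line and to `u`
  obtain ⟨t, htL, ht, htp⟩ := exists_singular_off' (Q := S.R) ![u, S.D u, z₁, S.D z₁]
    ![z₁, S.D z₁] (by omega)
  have q : ∀ y, polar S.R t y = 0 → f t (S.D y) = 0 := fun y hy => by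
    rw [S.polar_R] at hy; exact (mul_eq_zero.mp hy).resolve_left S.two
  have q' : ∀ y, polar S.R t (S.D y) = 0 → f t y = 0 := fun y hy => by
    have := q _ hy
    rw [S.sq, S.symp.bilinear.smul_right] at this
    exact (mul_eq_zero.mp this).resolve_left S.eps_ne
  have t1 : f t u = 0 := q' u (htp 1)
  have t2 : f t (S.D u) = 0 := q u (htp 0)
  have t3 : f t z₁ = 0 := q' z₁ (htp 3)
  have t4 : f t (S.D z₁) = 0 := q z₁ (htp 2)
  have ht' : f t (S.D t) = 0 := ht
  obtain ⟨α, hα, hδ⟩ : ∃ α : F, α ≠ 0 ∧ 1 + α * f t (S.D w) ≠ 0 := by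
    by_cases h : 1 + 1 * f t (S.D w) = 0
    · refine ⟨-1, by simp, fun h' => S.two ?_⟩
      linear_combination h + h'
    · exact ⟨1, one_ne_zero, h⟩
  set z₂ := (1 + α * f t (S.D w))⁻¹ • (z₁ + α • t) with hz₂def
  have b1 : f z₂ u = 0 := by
    simp [hz₂def, S.symp.bilinear.add_left, S.symp.bilinear.smul_left, a1, t1]
  have b2 : f z₂ (S.D u) = 0 := by
    simp [hz₂def, S.symp.bilinear.add_left, S.symp.bilinear.smul_left, a2, t2]
  have b3 : f z₂ z₁ = 0 := by
    simp [hz₂def, S.symp.bilinear.add_left, S.symp.bilinear.smul_left, S.symp.alternating, t3]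
  have b4 : f z₂ (S.D z₁) = 0 := by
    simp [hz₂def, S.symp.bilinear.add_left, S.symp.bilinear.smul_left, hz₁', t4]
  have b5 : f z₂ (S.D w) = 1 := by
    rw [hz₂def, S.symp.bilinear.smul_left, S.symp.bilinear.add_left, S.symp.bilinear.smul_left, a3,
      inv_mul_cancel₀ hδ]
  have hz₂' : f z₂ (S.D z₂) = 0 := by
    simp [hz₂def, map_add, map_smul, S.symp.bilinear.add_left, S.symp.bilinear.smul_left,
      S.symp.bilinear.add_right, S.symp.bilinear.smul_right, hz₁', ht', t4, S.hform_symm t z₁]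
  have hz₂ : S.R z₂ = 0 := hz₂'
  have hz₂n : z₂ ∉ S.ext.L z₁ := by
    intro h
    refine htL ?_
    have h1 : (1 + α * f t (S.D w)) • z₂ - z₁ ∈ S.ext.L z₁ :=
      Submodule.sub_mem _ (Submodule.smul_mem _ _ h)
        (S.ext.mem_L.mpr ⟨1, 0, by simp⟩)
    rw [hz₂def, smul_smul, mul_inv_cancel₀ hδ, one_smul, add_sub_cancel_left,
      Submodule.smul_mem_iff _ hα] at h1
    exact h1
  have w1 : f w (S.D z₁) = 1 := by rw [S.hform_symm z₁ w]; exact a3
  have w2 : f w (S.D z₂) = 1 := by rw [S.hform_symm z₂ w]; exact b5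
  set N₁ := 1 - S.ε * f w z₁ ^ 2
  set N₂ := 1 - S.ε * f w z₂ ^ 2
  set k := S.τ z₁ N₂ * S.τ z₂ (-N₁) with hk
  have hkM : k ∈ M := mul_mem (S.τ_mem hR hz₁ _) (S.τ_mem hR hz₂ _)
  have hku : ap k u = u := by
    rw [hk, ap_mul, S.ap_τ hz₂, S.ap_τ hz₁]
    simp [S.symp.skew u z₂, S.symp.skew u z₁, b1, a1, S.hform_symm z₂ u, S.hform_symm z₁ u, b2, a2,
      S.symp.bilinear.add_left, S.symp.bilinear.smul_left, Symp.sub_left S.symp]
  set d := (N₂ • S.D z₁ - (S.ε * N₂ * f w z₁) • z₁) +
    ((-N₁) • S.D z₂ - (S.ε * -N₁ * f w z₂) • z₂) with hd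
  have hkw : ap k w = w + d := by
    rw [hk, ap_mul, S.ap_τ hz₂, S.ap_τ hz₁]
    simp only [S.symp.bilinear.add_left, S.symp.bilinear.smul_left, Symp.sub_left S.symp, w1, w2,
      mul_one, b3, b4, S.f_D_D, S.anti z₂ z₁, mul_zero, neg_zero]
    rw [hd]
    module
  have hwd : f w d = 0 := by
    rw [hd]
    simp only [S.symp.bilinear.add_right, Symp.sub_right S.symp, S.symp.bilinear.smul_right, w1, w2]
    ring
  have hdw : f d w = 0 := by rw [S.symp.skew, hwd, neg_zero]
  have e1 : f z₁ d = 0 := by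
    rw [hd]
    simp [S.symp.bilinear.add_right, Symp.sub_right S.symp, S.symp.bilinear.smul_right, hz₁',
      S.symp.alternating, S.symp.skew z₁ z₂, b3, S.hform_symm z₂ z₁, b4, Symp.neg_right S.symp]
  have e2 : f z₁ (S.D d) = 0 := by
    rw [hd]
    simp [map_add, map_sub, S.sq, S.symp.bilinear.add_right, Symp.sub_right S.symp,
      S.symp.bilinear.smul_right, hz₁', S.symp.alternating, S.symp.skew z₁ z₂, b3,
      S.hform_symm z₂ z₁, b4, Symp.neg_right S.symp]
  refine ⟨d, (2 : F) • w + d, ?_, ?_, ?_, fun t => ?_⟩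
  · intro h0
    -- the component at the second vector
    refine hz₂n ?_
    have hc : S.D z₂ - (S.ε * f w z₂) • z₂ ∈ S.ext.L z₁ := by
      refine S.ext.mem_L.mpr ⟨-(S.ε * N₂ * f w z₁ / N₁), N₂ / N₁, ?_⟩
      change _ • z₁ + _ • S.D z₁ = _
      have hN₁ : N₁ ≠ 0 := S.norm_ne _
      have := congrArg (fun x => N₁⁻¹ • x) (hd.symm.trans h0)
      linear_combination (norm := skip) this
      match_scalars <;> field_simp <;> ring
    exact S.ext.mem_of_sub_mem (w := z₂) (S.ε * f w z₂) hc
  · intro hb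
    obtain ⟨a, b, hab⟩ := S.ext.mem_L.mp hb
    change a • d + b • S.D d = _ at hab
    have h1 := congrArg (fun x => f z₁ (S.D x)) hab
    simp [map_add, S.sq, S.symp.bilinear.add_right, S.symp.bilinear.smul_right, e1, e2, a3] at h1
    exact S.two h1.symm
  · rw [S.symp.bilinear.add_right, S.symp.bilinear.smul_right, hdw, S.symp.alternating]; ring
  · set A := Symp.T S.symp w (2 * t) * Symp.T S.symp u (-(S.ε * (2 * t))) with hAdef
    refine ⟨k * A * k⁻¹ * A⁻¹, mul_mem (mul_mem (mul_mem hkM (hA (2 * t))) (inv_mem hkM))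
      (inv_mem (hA (2 * t))), fun x => ?_⟩
    have hconj : k * A * k⁻¹ =
        Symp.T S.symp (w + d) (2 * t) * Symp.T S.symp u (-(S.ε * (2 * t))) := by
      rw [hAdef, show k * (Symp.T S.symp w (2 * t) * Symp.T S.symp u (-(S.ε * (2 * t)))) * k⁻¹ =
        (k * Symp.T S.symp w (2 * t) * k⁻¹) * (k * Symp.T S.symp u (-(S.ε * (2 * t))) * k⁻¹) by group,
        Symp.conj_T S.symp (hM hkM), Symp.conj_T S.symp (hM hkM), hku, hkw]
    have hAinv : A⁻¹ = Symp.T S.symp u (S.ε * (2 * t)) * Symp.T S.symp w (-(2 * t)) := by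
      refine inv_eq_of_mul_eq_one_right ?_
      rw [hAdef, mul_assoc, ← mul_assoc (Symp.T S.symp u _) (Symp.T S.symp u _), Symp.T_mul,
        neg_add_cancel, Symp.T_zero_right, one_mul, Symp.T_mul, add_neg_cancel, Symp.T_zero_right]
    rw [hconj, hAinv]
    have hwu : f w u = 0 := by rw [S.symp.skew, huw, neg_zero]
    simp only [ap_mul, Symp.ap_T, S.symp.bilinear.add_left, S.symp.bilinear.smul_left,
      S.symp.bilinear.add_right, S.symp.bilinear.smul_right, S.symp.alternating, huw, hwu, hwd, hdw]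
    module

/-- The group is the whole isometry group. -/
theorem le_of_not_normalize
    (hnot : ∃ g ∈ M, ¬ ∃ a b : F, ∀ x, ap g (S.D x) = a • ap g x + b • S.D (ap g x)) :
    isom f ≤ M := by
  obtain ⟨d, b, hd, hbd, hdb, hE⟩ := S.exists_pair hR hM hnot
  have hn := S.big
  have hDb : S.D b ∉ Submodule.span F (Set.range ![d, S.D d]) := fun h =>
    hbd (S.ext.mem_of_sub_mem 0 (by rw [zero_smul, sub_zero]; exact h))
  obtain ⟨θ, hθ, hθ1⟩ := exists_functional_eq_one hDb
  obtain ⟨z, hz, hzv, -⟩ := S.exists_val ![d, S.D d, S.D b] θ (by omega)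
  have c1 : f z d = 0 := (hzv 0).trans (hθ _ (Submodule.subset_span ⟨0, rfl⟩))
  have c2 : f z (S.D d) = 0 := (hzv 1).trans (hθ _ (Submodule.subset_span ⟨1, rfl⟩))
  have c3 : f b (S.D z) = 1 := by rw [S.hform_symm z b]; exact (hzv 2).trans hθ1
  set k := S.τ z 1
  have hkM : k ∈ M := S.τ_mem hR hz 1
  have hkd : ap k d = d := by
    rw [S.ap_τ hz]
    simp [S.symp.skew d z, c1, S.hform_symm z d, c2]
  set b' := ap k b with hb'
  have hbb' : f b b' = 1 - S.ε * f b z ^ 2 := by
    rw [hb', S.ap_τ hz]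
    simp only [Symp.sub_right S.symp, S.symp.bilinear.add_right, S.symp.bilinear.smul_right,
      S.symp.alternating, c3]
    ring
  have hdb' : f d b' = 0 := by
    have := hM hkM d b
    change f (ap k d) b' = _ at this
    rw [hkd] at this
    rw [this, hdb]
  obtain ⟨G', hG', hG'ap⟩ := hE 1
  have hG2 : ∀ x, ap (k * G' * k⁻¹) x = x + (f x d • b' + f x b' • d) := by
    intro x
    have h1 : f (ap k⁻¹ x) d = f x d := by
      have := hM hkM (ap k⁻¹ x) d
      change f (ap k (ap k⁻¹ x)) (ap k d) = _ at this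
      rw [ap_ap_inv, hkd] at this
      exact this.symm
    have h2 : f (ap k⁻¹ x) b = f x b' := by
      have := hM hkM (ap k⁻¹ x) b
      change f (ap k (ap k⁻¹ x)) (ap k b) = _ at this
      rw [ap_ap_inv] at this
      exact this.symm
    rw [ap_mul, ap_mul, hG'ap, one_smul, ap_add, ap_ap_inv, ap_add, ap_smul, ap_smul, h1, h2, hkd]
  have hcen : S.Cen M d := by
    intro c
    have hκ : f b b' ≠ 0 := by rw [hbb']; exact S.norm_ne _
    obtain ⟨G, hG, hGap⟩ := hE (-c / (2 * f b b'))
    set B := k * G' * k⁻¹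
    have hB : B ∈ M := mul_mem (mul_mem hkM hG') (inv_mem hkM)
    have key : Symp.T S.symp d c * (B * G) = G * B := by
      refine gl_ext fun x => ?_
      have hbd' : f b d = 0 := by rw [S.symp.skew, hdb, neg_zero]
      have hb'd : f b' d = 0 := by rw [S.symp.skew, hdb', neg_zero]
      simp only [ap_mul, hGap, hG2, Symp.ap_T, S.symp.bilinear.add_left, S.symp.bilinear.smul_left,
        S.symp.alternating, hdb, hdb', hbd', hb'd, S.symp.skew b' b]
      have := S.two
      match_scalars <;> field_simp <;> ring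
    rw [show Symp.T S.symp d c = G * B * (B * G)⁻¹ by rw [← key]; group]
    exact mul_mem (mul_mem hG hB) (inv_mem (mul_mem hB hG))
  exact Symp.isom_le_of_T_mem S.symp fun v c => S.cen_all hR hM hd hcen v c

omit hR hM in
/-- Some isometry does not normalise the field. -/
theorem exists_not_normalize : ∃ g ∈ isom f,
    ¬ ∃ a b : F, ∀ x, ap g (S.D x) = a • ap g x + b • S.D (ap g x) := by
  have hne : Nonempty ι := Fintype.card_pos_iff.mp (by have := S.big; omega)
  obtain ⟨x, hx, -, hRx⟩ : ∃ x : ι → F, x ≠ 0 ∧ True ∧ S.R x = 0 := by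
    obtain ⟨z, -, hz, hQz⟩ := exists_singular_mem (Q := S.R) ⊤
      (by rw [finrank_top, Module.finrank_fintype_fun_eq_card]; have := S.big; omega)
    exact ⟨z, hz, trivial, hQz⟩
  obtain ⟨p, hp⟩ := (S.symp.nondegenerate _ (show S.D x ≠ 0 from fun h =>
    S.irred x hx 0 (by rw [h, zero_smul]))).1
  obtain ⟨w, hxw, hDxw⟩ : ∃ w, f x w = 0 ∧ f (S.D x) w ≠ 0 := by
    have hD : S.D x ∉ Submodule.span F {x} := fun h => by
      obtain ⟨a, ha⟩ := Submodule.mem_span_singleton.mp h
      exact S.irred x hx a ha.symm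
    obtain ⟨w, hw, hne⟩ := Symp.exists_perp_ne S.symp hD
    exact ⟨w, by rw [S.symp.skew, (Symp.mem_perp_span S.symp).mp hw, neg_zero], hne⟩
  refine ⟨Symp.T S.symp w 1, Symp.T_mem_isom S.symp _ _, ?_⟩
  rintro ⟨a, b, hab⟩
  have h := hab x
  rw [Symp.ap_T_fix S.symp (x := x) 1 hxw, Symp.ap_T, one_mul] at h
  have h' : f (S.D x) w • w ∈ S.ext.L x := S.ext.mem_L.mpr ⟨a, b - 1, by
    change a • x + (b - 1) • S.D x = _
    linear_combination (norm := module) -h⟩
  rw [Submodule.smul_mem_iff _ hDxw] at h'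
  obtain ⟨α, β, hw⟩ := S.ext.mem_L.mp h'
  change α • x + β • S.D x = w at hw
  rw [← hw, S.symp.bilinear.add_right, S.symp.bilinear.smul_right, S.symp.bilinear.smul_right,
    S.symp.alternating, S.symp.skew] at hDxw
  rw [R_apply] at hRx
  simp [hRx] at hDxw

end Data

end CfsgLib.Geometric.ExtF.SympQuadExt
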