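import Cfsg.Agent.Lib.Geometric.ExtField.Quadratic
import Cfsg.Agent.Lib.Geometric.Orth.ExtQuad
import Cfsg.Agent.Lib.Geometric.SOTensor.Max

/-!
A group of symplectic isometries of a space of dimension four containing those commuting with a
quadratic extension field on which the adjoint map is non-trivial, and one element not normalising
that field, contains every symplectic isometry, for fields of odd order at least five.
-/

set_option autoImplicit false
set_option linter.unusedSectionVars false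

namespace CfsgLib.Geometric.ExtF.SympQuadExtFour

open Matrix QuadraticMap Module CfsgLib.Geometric.Orth CfsgLib.ClassicalForms

variable {ι : Type} [Fintype ι] [DecidableEq ι] {F : Type*} [Field F] [Fintype F]
variable {f : (ι → F) → (ι → F) → F}

/-- The data of a quadratic field with non-trivial adjoint map in dimension four. -/
structure Data (f : (ι → F) → (ι → F) → F) where
  symp : Cfsg.Geo.IsSymplecticForm f
  /-- The anti-self-adjoint generator. -/
  D : (ι → F) →ₗ[F] (ι → F)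
  /-- Its square. -/
  ε : F
  sq : ∀ x, D (D x) = ε • x
  anti : ∀ x y, f (D x) y = -f x (D y)
  irred : ∀ x, x ≠ 0 → ∀ c : F, D x ≠ c • x
  two : (2 : F) ≠ 0
  four : Fintype.card ι = 4
  five : 5 ≤ Fintype.card F

namespace Data

variable (S : Data f)

include S in
lemma nonempty : Nonempty ι := Fintype.card_pos_iff.mp (by rw [S.four]; omega)

lemma eps_ne_sq (a : F) : a * a ≠ S.ε := by
  intro h
  have := S.nonempty
  obtain ⟨x, hx⟩ := exists_ne (0 : ι → F)
  by_cases hv : S.D x + a • x = 0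
  · exact S.irred x hx (-a) (by rw [neg_smul]; exact eq_neg_of_add_eq_zero_left hv)
  · refine S.irred _ hv a ?_
    rw [map_add, map_smul, S.sq, ← h]
    module

lemma eps_ne : S.ε ≠ 0 := fun h => S.eps_ne_sq 0 (by simp [h])

lemma norm_ne {a b : F} (h : a ≠ 0 ∨ b ≠ 0) : a * a - S.ε * (b * b) ≠ 0 := by
  intro he
  by_cases hb : b = 0
  · subst hb
    simp at he h
    exact h he
  · refine S.eps_ne_sq (a / b) ?_
    field_simp
    linear_combination he

lemma f_D_D (x y : ι → F) : f (S.D x) (S.D y) = -(S.ε * f x y) := by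
  rw [S.anti, S.sq, S.symp.bilinear.smul_right]

lemma hform_symm (x y : ι → F) : f y (S.D x) = f x (S.D y) := by
  rw [S.symp.skew, S.anti, neg_neg]

/-- The associated quadratic form. -/
def R : QuadraticForm F (ι → F) := LinearMap.BilinMap.toQuadraticMap
  (LinearMap.mk₂ F (fun x y => f x (S.D y))
    (fun x x' y => S.symp.bilinear.add_left x x' _)
    (fun c x y => S.symp.bilinear.smul_left c x _)
    (fun x y y' => by rw [map_add, S.symp.bilinear.add_right])
    (fun c x y => by rw [map_smul, S.symp.bilinear.smul_right]; rfl))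

lemma R_apply (x : ι → F) : S.R x = f x (S.D x) := rfl

/-- An element normalising the field. -/
def Nm (g : GL ι F) : Prop := ∃ σ : F, σ * σ = 1 ∧ ∀ x, ap g (S.D x) = σ • S.D (ap g x)

lemma nm_mul {g h : GL ι F} (hg : S.Nm g) (hh : S.Nm h) : S.Nm (g * h) := by
  obtain ⟨σ, hσ, hσ'⟩ := hg
  obtain ⟨τ, hτ, hτ'⟩ := hh
  refine ⟨σ * τ, by linear_combination (τ * τ) * hσ + hτ, fun x => ?_⟩
  rw [ap_mul, ap_mul, hτ', ap_smul, hσ', smul_smul, mul_comm]

lemma nm_inv {g : GL ι F} (hg : S.Nm g) : S.Nm g⁻¹ := by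
  obtain ⟨σ, hσ, hσ'⟩ := hg
  refine ⟨σ, hσ, fun x => ap_injective g ?_⟩
  rw [ap_ap_inv, ap_smul, hσ', smul_smul, hσ, one_smul, ap_ap_inv]

lemma nm_of_comm {g : GL ι F} (h : ∀ x, S.D (ap g x) = ap g (S.D x)) : S.Nm g :=
  ⟨1, one_mul 1, fun x => by rw [one_smul, h]⟩

lemma nm_of_combination {g : GL ι F} (hg : g ∈ isom f)
    (h : ∃ a b : F, ∀ x, ap g (S.D x) = a • ap g x + b • S.D (ap g x)) : S.Nm g := by
  obtain ⟨a, b, hab⟩ := h
  have := S.nonempty
  have bl := S.symp.bilinear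
  have hg' : ∀ x y, f (ap g x) (ap g y) = f x y := fun x y => hg x y
  obtain ⟨x, hx⟩ := exists_ne (0 : ι → F)
  have ha : a = 0 := by
    obtain ⟨y, hy⟩ := (S.symp.nondegenerate x hx).2
    have e1 := hg' (S.D x) y
    have e2 := hg' x (S.D y)
    rw [hab, bl.add_left, bl.smul_left, bl.smul_left, hg', S.anti (ap g x)] at e1
    rw [hab, bl.add_right, bl.smul_right, bl.smul_right, hg'] at e2
    have h0 : (2 : F) * (a * f x y) = 0 := by linear_combination e1 + e2 + S.anti x y
    exact (mul_eq_zero.mp ((mul_eq_zero.mp h0).resolve_left S.two)).resolve_right hy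
  simp only [ha, zero_smul, zero_add] at hab
  refine ⟨b, ?_, hab⟩
  have e := hab (S.D x)
  rw [S.sq, ap_smul, hab, map_smul, S.sq, smul_smul, smul_smul] at e
  have e' := smul_left_injective F (ap_ne_zero g hx) e
  exact mul_left_cancel₀ S.eps_ne (by linear_combination -e')

variable {M : Subgroup (GL ι F)}
  (hR : ∀ g ∈ isom f, (∀ x, S.D (ap g x) = ap g (S.D x)) → g ∈ M)
  (hM : M ≤ isom f)

/-- All transvections at `x` lie in `M`. -/
def Cen (M : Subgroup (GL ι F)) (x : ι → F) : Prop := ∀ c, Symp.T S.symp x c ∈ M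

/-- Two opposite null vectors. -/
structure Frame (z w : ι → F) : Prop where
  z0 : z ≠ 0
  zz : f z (S.D z) = 0
  ww : f w (S.D w) = 0
  zw : f z w = 1
  Dzw : f (S.D z) w = 0

namespace Frame

variable {S} {z w : ι → F} (h : S.Frame z w)
include h

lemma wz : f w z = -1 := by rw [S.symp.skew, h.zw]
lemma zDw : f z (S.D w) = 0 := by rw [← neg_eq_zero, ← S.anti, h.Dzw]
lemma wDz : f w (S.D z) = 0 := by rw [S.symp.skew, h.Dzw, neg_zero]
lemma Dww : f (S.D w) w = 0 := by rw [S.anti, h.ww, neg_zero]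
lemma Dzz : f (S.D z) z = 0 := by rw [S.anti, h.zz, neg_zero]
lemma Dwz : f (S.D w) z = 0 := by rw [S.anti, h.wDz, neg_zero]
lemma DzDw : f (S.D z) (S.D w) = -S.ε := by rw [S.f_D_D, h.zw, mul_one]
lemma DwDz : f (S.D w) (S.D z) = S.ε := by rw [S.f_D_D, h.wz, mul_neg, mul_one, neg_neg]

/-- The coordinates of a vector. -/
lemma decomp (x : ι → F) : x = f x w • z + (-(f x (S.D w) / S.ε)) • S.D z + (-f x z) • w +
    (f x (S.D z) / S.ε) • S.D w := by
  have bl := S.symp.bilinear
  have he := S.eps_ne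
  have hli : LinearIndependent F ![z, S.D z, w, S.D w] := by
    rw [Fintype.linearIndependent_iff]
    intro c hc
    simp only [Fin.sum_univ_four, Matrix.cons_val_zero, Matrix.cons_val_one, Matrix.cons_val] at hc
    have k : ∀ y, f (c 0 • z + c 1 • S.D z + c 2 • w + c 3 • S.D w) y = 0 := fun y => by
      rw [hc, Symp.zero_left S.symp]
    have k1 := k w; have k2 := k (S.D w); have k3 := k z; have k4 := k (S.D z)
    simp [bl.add_left, bl.smul_left, h.zw, h.Dzw, S.symp.alternating, h.Dww] at k1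
    simp [bl.add_left, bl.smul_left, h.zDw, h.DzDw, S.symp.alternating, h.ww, he] at k2
    simp [bl.add_left, bl.smul_left, h.wz, S.symp.alternating, h.Dzz, h.Dwz] at k3
    simp [bl.add_left, bl.smul_left, h.zz, h.DwDz, S.symp.alternating, h.wDz, he] at k4
    intro i; fin_cases i <;> assumption
  have hspan := hli.span_eq_top_of_card_eq_finrank' (by
    simp [Module.finrank_fintype_fun_eq_card, S.four])
  have hx : x ∈ Submodule.span F (Set.range ![z, S.D z, w, S.D w]) := hspan ▸ Submodule.mem_top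
  obtain ⟨c, hc⟩ := (Submodule.mem_span_range_iff_exists_fun F).1 hx
  simp only [Fin.sum_univ_four, Matrix.cons_val_zero, Matrix.cons_val_one, Matrix.cons_val] at hc
  rw [← hc]
  simp only [bl.add_left, bl.smul_left, h.zw, h.Dzw, h.Dww, S.symp.alternating, h.zDw, h.DzDw, h.ww,
    h.wz, h.Dzz, h.Dwz, h.zz, h.DwDz, h.wDz]
  match_scalars <;> field_simp <;> ring

/-- The reverse frame. -/
lemma symm : S.Frame w (-z) where
  z0 := fun h0 => one_ne_zero (α := F) (by rw [← h.zw, h0, Symp.zero_right S.symp])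
  zz := h.ww
  ww := by rw [map_neg, Symp.neg_left S.symp, Symp.neg_right S.symp, neg_neg, h.zz]
  zw := by rw [Symp.neg_right S.symp, h.wz, neg_neg]
  Dzw := by rw [Symp.neg_right S.symp, h.Dwz, neg_zero]

end Frame

lemma exists_frame {z : ι → F} (hz0 : z ≠ 0) (hzz : f z (S.D z) = 0) : ∃ w, S.Frame z w := by
  have bl := S.symp.bilinear
  have hz : z ∉ Submodule.span F {S.D z} := fun h => by
    obtain ⟨a, ha⟩ := Submodule.mem_span_singleton.mp h
    have ha0 : a ≠ 0 := fun h0 => hz0 (by rw [← ha, h0, zero_smul])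
    refine S.irred z hz0 a⁻¹ ?_
    nth_rw 2 [← ha]
    rw [smul_smul, inv_mul_cancel₀ ha0, one_smul]
  obtain ⟨p, hp, hzp⟩ := Symp.exists_perp_ne S.symp hz
  have hp' : f (S.D z) p = 0 := by rw [S.symp.skew, (Symp.mem_perp_span S.symp).mp hp, neg_zero]
  set y := (f z p)⁻¹ • p with hy
  have hzy : f z y = 1 := by rw [hy, bl.smul_right, inv_mul_cancel₀ hzp]
  have hDy : f (S.D z) y = 0 := by rw [hy, bl.smul_right, hp', mul_zero]
  have hyz : f y z = -1 := by rw [S.symp.skew, hzy]
  have hyDz : f y (S.D z) = 0 := by rw [S.symp.skew, hDy, neg_zero]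
  have hDz : f (S.D z) z = 0 := by rw [S.anti, hzz, neg_zero]
  refine ⟨y + (f y (S.D y) / (2 * S.ε)) • S.D z, hz0, hzz, ?_, ?_, ?_⟩
  · have hDzDy : f (S.D z) (S.D y) = -S.ε := by rw [S.f_D_D, hzy, mul_one]
    simp only [map_add, map_smul, S.sq, bl.add_left, bl.add_right, bl.smul_left, bl.smul_right,
      hyz, hDz, hDzDy]
    have := S.two; have := S.eps_ne
    field_simp
    ring
  · rw [bl.add_right, hzy, bl.smul_right, hzz, mul_zero, add_zero]
  · rw [bl.add_right, hDy, bl.smul_right, S.symp.alternating, mul_zero, add_zero]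

lemma exists_null : ∃ z : ι → F, z ≠ 0 ∧ f z (S.D z) = 0 := by
  obtain ⟨z, -, hz, hQz⟩ := exists_singular_mem (Q := S.R) ⊤
    (by rw [finrank_top, Module.finrank_fintype_fun_eq_card, S.four]; omega)
  exact ⟨z, hz, by rwa [S.R_apply] at hQz⟩

/-- The isometries fixing the plane of a null vector pointwise. -/
def Φ (z : ι → F) (α β γ : F) : GL ι F :=
  Symp.T S.symp z (α - γ) * Symp.T S.symp (S.D z) (β - γ) * Symp.T S.symp (z + S.D z) γ

lemma Φ_isom (z : ι → F) (α β γ : F) : S.Φ z α β γ ∈ isom f :=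
  mul_mem (mul_mem (Symp.T_mem_isom S.symp _ _) (Symp.T_mem_isom S.symp _ _))
    (Symp.T_mem_isom S.symp _ _)

variable {z w : ι → F}

lemma ap_Φ (hz : f z (S.D z) = 0) (α β γ : F) (x : ι → F) :
    ap (S.Φ z α β γ) x = x + (α * f x z + γ * f x (S.D z)) • z +
      (γ * f x z + β * f x (S.D z)) • S.D z := by
  have hDz : f (S.D z) z = 0 := by rw [S.anti, hz, neg_zero]
  simp only [Φ, ap_mul, Symp.ap_T, S.symp.bilinear.add_left, S.symp.bilinear.add_right,
    S.symp.bilinear.smul_left, S.symp.alternating, hz, hDz]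
  match_scalars <;> ring

lemma Φ_mul (hz : f z (S.D z) = 0) (α β γ α' β' γ' : F) :
    S.Φ z α β γ * S.Φ z α' β' γ' = S.Φ z (α + α') (β + β') (γ + γ') := by
  have hDz : f (S.D z) z = 0 := by rw [S.anti, hz, neg_zero]
  refine gl_ext fun x => ?_
  simp only [ap_mul, S.ap_Φ hz, S.symp.bilinear.add_left, S.symp.bilinear.smul_left,
    S.symp.alternating, hz, hDz]
  match_scalars <;> ring

lemma Φ_T (hz : f z (S.D z) = 0) (c : F) : Symp.T S.symp z c = S.Φ z c 0 0 := by
  refine gl_ext fun x => ?_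
  rw [Symp.ap_T, S.ap_Φ hz]
  match_scalars <;> ring

include hR in
lemma Φ_base (hz : f z (S.D z) = 0) (s : F) : S.Φ z (-(S.ε * s)) s 0 ∈ M := by
  refine hR _ (S.Φ_isom _ _ _ _) fun x => ?_
  simp only [S.ap_Φ hz, map_add, map_smul, S.sq, S.f_D_D, S.anti x z]
  module

/-- Conjugation of these isometries. -/
lemma conj_Φ (hz : f z (S.D z) = 0) {g : GL ι F} (hg : g ∈ isom f) {u : ι → F}
    (hu : f u (S.D u) = 0) {p q r s : F} (h1 : ap g z = p • u + q • S.D u)
    (h2 : ap g (S.D z) = r • u + s • S.D u) (α β γ : F) :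
    g * S.Φ z α β γ * g⁻¹ = S.Φ u (α * p * p + β * r * r + 2 * γ * p * r)
      (α * q * q + β * s * s + 2 * γ * q * s) (α * p * q + β * r * s + γ * (p * s + q * r)) := by
  refine gl_ext fun y => ?_
  obtain ⟨x, rfl⟩ : ∃ x, y = ap g x := ⟨ap g⁻¹ y, (ap_ap_inv g y).symm⟩
  have e1 : f x z = p * f (ap g x) u + q * f (ap g x) (S.D u) := by
    rw [← show f (ap g x) (ap g z) = f x z from hg x z, h1, S.symp.bilinear.add_right,
      S.symp.bilinear.smul_right, S.symp.bilinear.smul_right]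
  have e2 : f x (S.D z) = r * f (ap g x) u + s * f (ap g x) (S.D u) := by
    rw [← show f (ap g x) (ap g (S.D z)) = f x (S.D z) from hg x (S.D z), h2,
      S.symp.bilinear.add_right, S.symp.bilinear.smul_right, S.symp.bilinear.smul_right]
  rw [ap_mul, ap_mul, ap_inv_ap, S.ap_Φ hz, S.ap_Φ hu, ap_add, ap_add, ap_smul, ap_smul, h1, h2,
    e1, e2]
  module

lemma exists_levi (h : S.Frame z w) {a b : F} (hν : a * a - S.ε * (b * b) ≠ 0) :
    ∃ g ∈ isom f, (∀ x, S.D (ap g x) = ap g (S.D x)) ∧ ap g z = a • z + b • S.D z ∧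
      ap g (S.D z) = (b * S.ε) • z + a • S.D z := by
  have bl := S.symp.bilinear
  have he := S.eps_ne
  set ν := a * a - S.ε * (b * b) with hνdef
  let L : F → F → F → (ι → F) → (ι → F) := fun a b n x =>
    (a * f x w + b * -f x (S.D w)) • z + (b * f x w + a * -(f x (S.D w) / S.ε)) • S.D z +
      (n * (a * -f x z + b * f x (S.D z))) • w +
      (n * (b * -f x z + a * (f x (S.D z) / S.ε))) • S.D w
  have hval : ∀ a b n x, f (L a b n x) z = n * (a * f x z - b * f x (S.D z)) ∧
      f (L a b n x) (S.D z) = n * (a * f x (S.D z) - b * S.ε * f x z) ∧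
      f (L a b n x) w = a * f x w - b * f x (S.D w) ∧
      f (L a b n x) (S.D w) = a * f x (S.D w) - b * S.ε * f x w := by
    intro a b n x
    simp only [L, bl.add_left, bl.smul_left, h.zw, h.Dzw, h.Dww, S.symp.alternating, h.zDw, h.DzDw,
      h.ww, h.wz, h.Dzz, h.Dwz, h.zz, h.DwDz, h.wDz]
    refine ⟨?_, ?_, ?_, ?_⟩ <;> field_simp <;> ring
  have hinv : ∀ a' b' n n', a * a' + S.ε * b * b' = 1 → a * b' + b * a' = 0 →
      n * n' = 1 → ∀ x, L a b n (L a' b' n' x) = x := by
    intro a' b' n n' h1 h2 h3 x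
    obtain ⟨v1, v2, v3, v4⟩ := hval a' b' n' x
    nth_rw 2 [h.decomp x]
    simp only [L, v1, v2, v3, v4]
    match_scalars
    · field_simp; linear_combination f x w * h1 - f x (S.D w) * h2
    · field_simp; linear_combination (S.ε * f x w) * h2 - f x (S.D w) * h1
    · field_simp
      linear_combination (-(n * n' * f x z)) * h1 + (n * n' * f x (S.D z)) * h2 - f x z * h3
    · field_simp
      linear_combination (n * n' * f x (S.D z)) * h1 - (n * n' * S.ε * f x z) * h2 +
        f x (S.D z) * h3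
  have hlin : ∀ a b n, ∃ l : (ι → F) →ₗ[F] (ι → F), ∀ x, l x = L a b n x := fun a b n =>
    ⟨{ toFun := L a b n
       map_add' := fun x y => by simp only [L, bl.add_left]; match_scalars <;> field_simp <;> ring
       map_smul' := fun c x => by
         simp only [L, bl.smul_left, RingHom.id_apply]; match_scalars <;> field_simp <;> ring },
      fun x => rfl⟩
  obtain ⟨l, hl⟩ := hlin a b ν⁻¹
  obtain ⟨l', hl'⟩ := hlin (a / ν) (-b / ν) ν
  have hll : l ∘ₗ l' = LinearMap.id := LinearMap.ext fun x => by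
    rw [LinearMap.comp_apply, LinearMap.id_apply, hl, hl']
    exact hinv _ _ _ _ (by field_simp; rw [hνdef]; ring) (by field_simp; ring)
      (inv_mul_cancel₀ hν) x
  have hll' : l' ∘ₗ l = LinearMap.id := (LinearMap.comp_eq_id_comm ..).1 hll
  obtain ⟨g, hg⟩ : ∃ g : GL ι F, ∀ x, ap g x = L a b ν⁻¹ x := by
    refine ⟨⟨LinearMap.toMatrix' l, LinearMap.toMatrix' l', ?_, ?_⟩, fun x => ?_⟩
    · rw [← LinearMap.toMatrix'_comp, hll, LinearMap.toMatrix'_id]
    · rw [← LinearMap.toMatrix'_comp, hll', LinearMap.toMatrix'_id]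
    · rw [← hl]; exact LinearMap.toMatrix'_mulVec l x
  refine ⟨g, ?_, fun x => ?_, ?_, ?_⟩
  · rw [mem_isom_iff]
    intro x y
    show f (ap g x) (ap g y) = f x y
    obtain ⟨v1, v2, v3, v4⟩ := hval a b ν⁻¹ x
    rw [hg y]
    conv_rhs => rw [h.decomp y]
    simp only [L, bl.add_right, bl.smul_right, hg, v1, v2, v3, v4]
    field_simp
    rw [hνdef]
    ring
  · rw [hg, hg]
    simp only [L, map_add, map_smul, S.sq, S.f_D_D, S.anti x w, S.anti x z]
    match_scalars <;> field_simp <;> ring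
  · rw [hg]
    simp only [L, S.symp.alternating, h.zw, h.zDw, h.zz]
    match_scalars <;> ring
  · rw [hg]
    simp only [L, S.symp.alternating, h.Dzw, h.DzDw, h.Dzz]
    match_scalars <;> field_simp <;> ring

variable (hz : f z (S.D z) = 0)

include hR in
/-- Membership is stable under scalars. -/
lemma Φ_smul (h : S.Frame z w) {α β γ : F} (hm : S.Φ z α β γ ∈ M) (c : F) :
    S.Φ z (c * α) (c * β) (c * γ) ∈ M := by
  have h2 := S.two
  have hsq : ∀ t : F, t ≠ 0 → S.Φ z (t * t * α) (t * t * β) (t * t * γ) ∈ M := by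
    intro t ht
    obtain ⟨g, hg, hgD, g1, g2⟩ := S.exists_levi h (a := t) (b := 0) (by simpa using ht)
    have := mul_mem (mul_mem (hR g hg hgD) hm) (inv_mem (hR g hg hgD))
    rw [S.conj_Φ h.zz hg h.zz g1 g2] at this
    convert this using 2 <;> ring
  have hsq' : ∀ t : F, S.Φ z (t * t * α) (t * t * β) (t * t * γ) ∈ M := by
    intro t
    by_cases ht : t = 0
    · subst ht
      convert S.Φ_base hR h.zz 0 using 2 <;> ring
    · exact hsq t ht
  have h1 := mul_mem (hsq' ((c + 1) / 2)) (inv_mem (hsq' ((c - 1) / 2)))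
  have hinv : (S.Φ z ((c - 1) / 2 * ((c - 1) / 2) * α) ((c - 1) / 2 * ((c - 1) / 2) * β)
      ((c - 1) / 2 * ((c - 1) / 2) * γ))⁻¹ =
      S.Φ z (-((c - 1) / 2 * ((c - 1) / 2) * α)) (-((c - 1) / 2 * ((c - 1) / 2) * β))
        (-((c - 1) / 2 * ((c - 1) / 2) * γ)) := by
    refine inv_eq_of_mul_eq_one_right ?_
    rw [S.Φ_mul h.zz, add_neg_cancel, add_neg_cancel, add_neg_cancel, ← S.Φ_T h.zz,
      Symp.T_zero_right]
  rw [hinv, S.Φ_mul h.zz] at h1
  convert h1 using 2 <;> field_simp <;> ring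

include hR in
/-- A radical element outside the base line gives all transvections at the centre. -/
lemma cen_of_Φ (h : S.Frame z w) {α β γ : F} (hm : S.Φ z α β γ ∈ M)
    (hne : α + S.ε * β ≠ 0 ∨ γ ≠ 0) : S.Cen M z := by
  have h2 := S.two
  set δ := α + S.ε * β with hδ
  have hm0 : S.Φ z δ 0 γ ∈ M := by
    have := mul_mem hm (S.Φ_base hR h.zz (-β))
    rw [S.Φ_mul h.zz] at this
    convert this using 2 <;> simp [δ] <;> ring
  have h1 : (1 : F) * 1 - S.ε * (1 * 1) ≠ 0 := S.norm_ne (Or.inl one_ne_zero)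
  have h1' : (1 : F) * 1 - S.ε * (-1 * -1) ≠ 0 := S.norm_ne (Or.inl one_ne_zero)
  obtain ⟨g, hg, hgD, g1, g2⟩ := S.exists_levi h h1
  obtain ⟨g', hg', hgD', g1', g2'⟩ := S.exists_levi h h1'
  have hA := mul_mem (mul_mem (hR g hg hgD) hm0) (inv_mem (hR g hg hgD))
  rw [S.conj_Φ h.zz hg h.zz g1 g2] at hA
  have hB := mul_mem (mul_mem (hR g' hg' hgD') hm0) (inv_mem (hR g' hg' hgD'))
  rw [S.conj_Φ h.zz hg' h.zz g1' g2'] at hB
  have hC := mul_mem hA (S.Φ_smul hR h hB (-1))
  rw [S.Φ_mul h.zz] at hC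
  have hD := mul_mem (S.Φ_smul hR h hC (2 : F)⁻¹) (S.Φ_base hR h.zz (-(2 * γ)))
  rw [S.Φ_mul h.zz] at hD
  have hE := mul_mem (S.Φ_smul hR h hm0 δ) (S.Φ_smul hR h hD (-γ))
  rw [S.Φ_mul h.zz] at hE
  intro c
  have hN : δ * δ - S.ε * (2 * γ * (2 * γ)) ≠ 0 := S.norm_ne (hne.imp id fun h => mul_ne_zero h2 h)
  have hE' : S.Φ z (δ * δ - S.ε * (2 * γ * (2 * γ))) 0 0 ∈ M := by
    convert hE using 2 <;> field_simp <;> ring
  have := S.Φ_smul hR h hE' (c / (δ * δ - S.ε * (2 * γ * (2 * γ))))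
  rw [S.Φ_T h.zz]
  rwa [div_mul_cancel₀ _ hN, mul_zero] at this

include hM

lemma cen_ap {x : ι → F} (hx : S.Cen M x) {g : GL ι F} (hg : g ∈ M) : S.Cen M (ap g x) := fun c => by
  rw [← Symp.conj_T S.symp (hM hg)]
  exact mul_mem (mul_mem hg (hx c)) (inv_mem hg)

omit hM in
lemma cen_smul {x : ι → F} (hx : S.Cen M x) (a : F) : S.Cen M (a • x) := fun c => by
  rw [Symp.T_smul]; exact hx _

lemma cen_add {x y : ι → F} (hx : S.Cen M x) (hy : S.Cen M y) (h : f x y ≠ 0) :
    S.Cen M (x + y) := by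
  have := S.cen_ap hM hx (hy (f x y)⁻¹)
  rwa [Symp.ap_T, inv_mul_cancel₀ h, one_smul] at this

include hR in
/-- Transvections at a null vector give all transvections. -/
theorem isom_le_of_cen (h : S.Frame z w) (hc : S.Cen M z) : isom f ≤ M := by
  have bl := S.symp.bilinear
  have he := S.eps_ne
  have hline : ∀ {z w : ι → F}, S.Frame z w → S.Cen M z →
      ∀ a b : F, S.Cen M (a • z + b • S.D z) := by
    intro z w h hc a b
    by_cases h0 : a = 0 ∧ b = 0
    · rw [h0.1, h0.2]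
      simpa using S.cen_smul hc 0
    · obtain ⟨g, hg, hgD, g1, -⟩ := S.exists_levi h (S.norm_ne (by tauto : a ≠ 0 ∨ b ≠ 0))
      exact g1 ▸ S.cen_ap hM hc (hR g hg hgD)
  have hw : S.Cen M w := by
    have h' := h.symm
    have hA := S.Φ_base hR h.zz S.ε⁻¹
    have hB := S.Φ_base hR h'.zz S.ε⁻¹
    have := S.cen_smul (S.cen_ap hM hc (mul_mem (mul_mem hA hB) hA)) (-1)
    convert this using 1
    simp only [ap_mul, S.ap_Φ h.zz, S.ap_Φ h.ww, bl.add_left, bl.smul_left, S.symp.alternating,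
      h.zw, h.zDw, h.zz, h.wz, h.wDz, h.Dzz, h.Dwz, h.DwDz]
    match_scalars <;> field_simp <;> ring
  refine Symp.isom_le_of_T_mem S.symp fun v c => ?_
  suffices S.Cen M v from this c
  set l1 := f v w • z + (-(f v (S.D w) / S.ε)) • S.D z with hl1
  set l2 := (-f v z) • w + (f v (S.D z) / S.ε) • S.D w with hl2
  have hv : v = l1 + l2 := by
    rw [hl1, hl2]; conv_lhs => rw [h.decomp v]
    module
  have c1 : ∀ a b : F, S.Cen M (a • z + b • S.D z) := hline h hc
  have c2 : S.Cen M l2 := hline h.symm hw _ _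
  rw [hv]
  by_cases hl0 : f v z = 0 ∧ f v (S.D z) = 0
  · rw [show l2 = 0 by rw [hl2, hl0.1, hl0.2]; simp, add_zero]
    exact c1 _ _
  by_cases hp : f l1 l2 = 0
  swap
  · exact S.cen_add hM (c1 _ _) c2 hp
  obtain ⟨a, b, hab⟩ : ∃ a b : F, f (a • z + b • S.D z) l2 ≠ 0 := by
    rcases not_and_or.mp hl0 with h0 | h0
    · exact ⟨1, 0, by simp [hl2, bl.add_right, bl.smul_right, h.zw, h.zDw, h0, -neg_smul]⟩
    · exact ⟨0, 1, by simp [hl2, bl.add_right, bl.smul_right, h.Dzw, h.DzDw, h0, he, -neg_smul]⟩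
  set l3 := a • z + b • S.D z with hl3
  have hz13 : f l1 l3 = 0 := by
    simp [hl1, hl3, bl.add_left, bl.add_right, bl.smul_left, bl.smul_right, S.symp.alternating,
      h.zz, h.Dzz, -neg_smul]
  have c13 : S.Cen M (l1 - l3) := by
    convert c1 (f v w - a) (-(f v (S.D w) / S.ε) - b) using 1
    rw [hl1, hl3]; module
  have c32 : S.Cen M (l3 + l2) := S.cen_add hM (c1 a b) c2 hab
  have := S.cen_add hM c13 c32 (by
    rw [Symp.sub_left S.symp, bl.add_right l1 l3 l2, bl.add_right l3 l3 l2, hz13, hp, S.symp.alternating]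
    simpa using hab)
  rwa [show l1 - l3 + (l3 + l2) = l1 + l2 by abel] at this

include hR in
/-- Some element outside the normaliser maps a null vector to a null vector. -/
lemma exists_null_map (hnot : ∃ g ∈ M, ¬ S.Nm g) :
    ∃ m ∈ M, ¬ S.Nm m ∧ ∃ u, u ≠ 0 ∧ f u (S.D u) = 0 ∧ f (ap m u) (S.D (ap m u)) = 0 := by
  classical
  obtain ⟨g, hg, hgn⟩ := hnot
  by_contra hc
  push Not at hc
  have bl := S.symp.bilinear
  have he := S.eps_ne
  obtain ⟨z, hz0, hz⟩ := S.exists_null
  obtain ⟨w, h⟩ := S.exists_frame hz0 hz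
  set τ : F → GL ι F := fun s => S.Φ z (-(S.ε * s)) s 0 with hτdef
  have hτM : ∀ s, τ s ∈ M := fun s => S.Φ_base hR hz s
  have hτN : ∀ s, S.Nm (τ s) := fun s => S.nm_of_comm fun x => by
    simp only [hτdef, S.ap_Φ hz, map_add, map_smul, S.sq, S.f_D_D, S.anti x z]
    module
  have hτinv : ∀ s, (τ s)⁻¹ = τ (-s) := fun s => by
    refine inv_eq_of_mul_eq_one_right ?_
    simp only [hτdef, S.Φ_mul hz]
    rw [show -(S.ε * s) + -(S.ε * -s) = 0 by ring, add_neg_cancel, add_zero, ← S.Φ_T hz,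
      Symp.T_zero_right]
  let k : Option F → GL ι F := fun o => o.elim 1 fun s => τ s * g
  have hkM : ∀ o, k o ∈ M := by rintro (_ | s) <;> [exact one_mem M; exact mul_mem (hτM s) hg]
  have hkN : ∀ o o', o ≠ o' → ¬ S.Nm ((k o)⁻¹ * k o') := by
    have hconj : ∀ r : F, r ≠ 0 → ¬ S.Nm (g⁻¹ * τ r * g) := by
      rintro r hr ⟨σ, hσ, hσ'⟩
      set u := ap g⁻¹ z with hu
      set v := ap g⁻¹ (S.D z) with hv
      have hgz : ∀ x, f (ap g x) z = f x u ∧ f (ap g x) (S.D z) = f x v := fun x => by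
        have hg' : ∀ x y, f (ap g x) (ap g y) = f x y := hM hg
        exact ⟨by rw [hu, ← hg' x, ap_ap_inv], by rw [hv, ← hg' x, ap_ap_inv]⟩
      have hform : ∀ x, ap (g⁻¹ * τ r * g) x =
          x + (-(S.ε * r) * f x u) • u + (r * f x v) • v := fun x => by
        rw [ap_mul, ap_mul]
        simp only [hτdef, S.ap_Φ hz, (hgz x).1, (hgz x).2, ap_add, ap_smul, ap_inv_ap, zero_mul,
          add_zero, zero_add, ← hu, ← hv]
      have huv : f u v = 0 := by
        rw [← (hgz u).2, hu, ap_ap_inv, hz]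
      have hfix : ap (g⁻¹ * τ r * g) u = u := by
        rw [hform, S.symp.alternating, huv]; simp
      have e := hσ' u
      rw [hfix, hform] at e
      have hu0 : u ≠ 0 := ap_ne_zero _ hz0
      refine hc g hg hgn u hu0 ?_ (by rw [hu, ap_ap_inv]; exact hz)
      by_cases hσ1 : σ = 1
      · rw [hσ1, one_smul, add_assoc, add_eq_left] at e
        have e' := congrArg (fun y => f (ap g y) w) e
        simp only [ap_add, ap_smul, hu, hv, ap_ap_inv, bl.add_left, bl.smul_left, h.zw, h.Dzw,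
          ap_zero, Symp.zero_left S.symp] at e'
        have e'' : (S.ε * r) * f (S.D u) u = 0 := by
          rw [← hu] at e'
          linear_combination -e'
        have h0 : f (S.D u) u = 0 := by simpa [he, hr] using e''
        rwa [S.anti, neg_eq_zero] at h0
      · have hσm : σ = -1 := (mul_self_eq_one_iff.mp hσ).resolve_left hσ1
        have e' := congrArg (fun y => f y u) e
        simp only [bl.add_left, bl.smul_left, S.symp.alternating, S.symp.skew v u, huv, hσm] at e'
        have e'' : (2 : F) * f u (S.D u) = 0 := by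
          linear_combination -e' + 2 * S.anti u u
        exact (mul_eq_zero.mp e'').resolve_left S.two
    rintro (_ | s) (_ | t) hne hN
    · exact hne rfl
    · simp only [k, Option.elim, inv_one, one_mul] at hN
      exact hgn (by simpa using S.nm_mul (S.nm_inv (hτN t)) hN)
    · simp only [k, Option.elim, mul_one] at hN
      exact hgn (by simpa using S.nm_mul (S.nm_inv (hτN s)) (S.nm_inv hN))
    · simp only [k, Option.elim, _root_.mul_inv_rev, hτinv] at hN
      refine hconj (-s + t) (fun h0 => hne (by rw [eq_of_sub_eq_zero (a := t) (b := s)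
        (by linear_combination h0)])) ?_
      convert hN using 1
      simp only [hτdef, mul_assoc]
      congr 1
      rw [← mul_assoc, S.Φ_mul hz]
      congr 2
      · ring
      · ring
  let l : Option F → F × F → (ι → F) := fun o p => o.elim (p.1 • z + p.2 • S.D z)
    fun s => p.1 • w + p.2 • S.D w + (s * p.1) • z + (s * p.2) • S.D z
  have hlnull : ∀ o p, f (l o p) (S.D (l o p)) = 0 := by
    rintro (_ | s) p <;>
      simp only [l, Option.elim, map_add, map_smul, S.sq, bl.add_left, bl.add_right, bl.smul_left,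
        bl.smul_right, S.symp.alternating, h.zz, h.Dzz, h.ww, h.Dww, h.zDw, h.zw, h.wz, h.Dzw,
        h.wDz, h.Dwz, h.DzDw, h.DwDz] <;> ring
  have hval : ∀ o p, f (l o p) z = (o.elim 0 fun _ => -p.1) ∧
      f (l o p) (S.D z) = (o.elim 0 fun _ => S.ε * p.2) ∧
      f (l o p) w = (o.elim p.1 fun s => s * p.1) ∧
      f (l o p) (S.D w) = (o.elim (-(S.ε * p.2)) fun s => -(S.ε * (s * p.2))) := by
    rintro (_ | s) p <;>
      simp [l, bl.add_left, bl.smul_left, S.symp.alternating, h.zz, h.Dzz, h.ww, h.Dww, h.zDw,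
        h.zw, h.wz, h.Dzw, h.wDz, h.Dwz, h.DzDw, h.DwDz] <;> ring_nf <;> simp
  have hinj : ∀ o o' (p p' : F × F), p ≠ 0 → p' ≠ 0 → l o p = l o' p' → o = o' ∧ p = p' := by
    intro o o' p p' hp hp' he'
    obtain ⟨a1, a2, a3, a4⟩ := hval o p
    obtain ⟨b1, b2, b3, b4⟩ := hval o' p'
    rw [he'] at a1 a2 a3 a4
    have e1 := a1.symm.trans b1; have e2 := a2.symm.trans b2
    have e3 := a3.symm.trans b3; have e4 := a4.symm.trans b4
    rcases o with _ | s <;> rcases o' with _ | t <;>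
      simp only [Option.elim, neg_inj, mul_eq_mul_left_iff, he, or_false] at e1 e2 e3 e4
    · exact ⟨rfl, Prod.ext e3 e4⟩
    · exact absurd (Prod.ext (neg_eq_zero.mp e1.symm) ((mul_eq_zero.mp e2.symm).resolve_left he)) hp'
    · exact absurd (Prod.ext (neg_eq_zero.mp e1) ((mul_eq_zero.mp e2).resolve_left he)) hp
    · refine ⟨?_, Prod.ext e1 e2⟩
      congr 1
      by_cases hp1 : p.1 = 0
      · have hp2 : p.2 ≠ 0 := fun h0 => hp (Prod.ext hp1 h0)
        rw [← e2] at e4
        exact mul_right_cancel₀ hp2 e4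
      · rw [← e1] at e3
        exact mul_right_cancel₀ hp1 e3
  let Ψ : Option F × Option F × {p : F × F // p ≠ 0} → (ι → F) := fun x => ap (k x.1) (l x.2.1 x.2.2)
  have hΨ : Function.Injective Ψ := by
    rintro ⟨i, o, p, hp⟩ ⟨j, o', p', hp'⟩ heq
    simp only [Ψ] at heq
    by_cases hij : i = j
    · subst hij
      obtain ⟨rfl, rfl⟩ := hinj o o' p p' hp hp' (ap_injective _ heq)
      rfl
    exfalso
    refine hc _ (mul_mem (inv_mem (hkM i)) (hkM j)) (hkN i j hij) (l o' p') ?_ (hlnull _ _) ?_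
    · intro h0
      obtain ⟨b1, b2, b3, b4⟩ := hval o' p'
      rw [h0, Symp.zero_left S.symp] at b1 b2 b3 b4
      rcases o' with _ | t <;> simp only [Option.elim, zero_eq_neg, zero_eq_mul, mul_eq_zero, he, false_or] at b1 b2 b3 b4
      · exact hp' (Prod.ext b3.symm b4)
      · exact hp' (Prod.ext b1 b2)
    · rw [ap_mul, ← heq, ap_inv_ap]
      exact hlnull _ _
  have hcard := Fintype.card_le_of_injective Ψ hΨ
  simp only [Fintype.card_prod, Fintype.card_option, Fintype.card_fun, S.four,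
    Fintype.card_subtype_compl, Fintype.card_subtype_eq] at hcard
  have hq := S.five
  have h1 : 1 ≤ Fintype.card F * Fintype.card F := by nlinarith
  zify [h1] at hcard
  nlinarith

include hR in
/-- The group is the whole isometry group. -/
theorem le_of_not_normalize
    (hnot : ∃ g ∈ M, ¬ ∃ a b : F, ∀ x, ap g (S.D x) = a • ap g x + b • S.D (ap g x)) :
    isom f ≤ M := by
  obtain ⟨m, hm, hmn, u, hu0, hu, hx⟩ := S.exists_null_map hR hM (by
    obtain ⟨g, hg, hgn⟩ := hnot
    exact ⟨g, hg, fun ⟨σ, _, hσ⟩ => hgn ⟨0, σ, fun x => by rw [hσ]; simp⟩⟩)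
  have bl := S.symp.bilinear
  have he := S.eps_ne
  have hmi : m ∈ isom f := hM hm
  have hm' : ∀ a b, f (ap m a) (ap m b) = f a b := hmi
  set x := ap m u with hxdef
  have hx0 : x ≠ 0 := ap_ne_zero m hu0
  obtain ⟨w, h⟩ := S.exists_frame hx0 hx
  set b := ap m (S.D u) with hbdef
  have hbx : f b x = 0 := by rw [hbdef, hxdef, hm', S.anti, hu, neg_zero]
  have hbd := h.decomp b
  rw [hbx, neg_zero, zero_smul, add_zero] at hbd
  set r := f b w
  set p := -(f b (S.D w) / S.ε)
  set e := f b (S.D x) / S.ε with hedef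
  by_cases hb0 : e = 0
  swap
  · -- a torus element fixing the null vector
    set c := f b (S.D x) with hcdef
    have hc : c ≠ 0 := fun h0 => hb0 (by rw [hedef, h0, zero_div])
    have hcDb : f (S.D x) b = -c := by rw [S.symp.skew]
    have hA : ∀ s, S.Φ x (-(S.ε * s)) s 0 ∈ M := S.Φ_base hR hx
    have hB : ∀ s, m * S.Φ u (-(S.ε * s)) s 0 * m⁻¹ ∈ M := fun s =>
      mul_mem (mul_mem hm (S.Φ_base hR hu s)) (inv_mem hm)
    have apA : ∀ s, ap (S.Φ x (-(S.ε * s)) s 0) x = x ∧
        ap (S.Φ x (-(S.ε * s)) s 0) (S.D x) = S.D x ∧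
        ap (S.Φ x (-(S.ε * s)) s 0) b = b + (s * c) • S.D x := fun s => by
      simp only [S.ap_Φ hx, S.symp.alternating, hx, h.Dzz, hbx, ← hcdef]
      refine ⟨?_, ?_, ?_⟩ <;> module
    have apB : ∀ s, ap (m * S.Φ u (-(S.ε * s)) s 0 * m⁻¹) x = x ∧
        ap (m * S.Φ u (-(S.ε * s)) s 0 * m⁻¹) b = b ∧
        ap (m * S.Φ u (-(S.ε * s)) s 0 * m⁻¹) (S.D x) = S.D x - (s * c) • b := fun s => by
      have key : ∀ y, ap (m * S.Φ u (-(S.ε * s)) s 0 * m⁻¹) y =
          y + (-(S.ε * s) * f y x) • x + (s * f y b) • b := fun y => by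
        obtain ⟨y, rfl⟩ : ∃ y', y = ap m y' := ⟨ap m⁻¹ y, (ap_ap_inv m y).symm⟩
        rw [ap_mul, ap_mul, ap_inv_ap, S.ap_Φ hu, ap_add, ap_add, ap_smul, ap_smul, ← hxdef,
          ← hbdef]
        simp only [hxdef, hbdef, hm', zero_mul, add_zero, zero_add]
      have hxb : f x b = 0 := by rw [S.symp.skew, hbx, neg_zero]
      simp only [key, S.symp.alternating, hbx, hxb, h.Dzz, hcDb]
      refine ⟨?_, ?_, ?_⟩ <;> module
    obtain ⟨t, ht, ht1⟩ : ∃ t : F, t ≠ 0 ∧ t * t ≠ 1 := by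
      classical
      by_contra! h'
      have := S.five
      have : Fintype.card F ≤ 3 := by
        rw [← Finset.card_univ]
        refine (Finset.card_le_card (t := {0, 1, -1}) fun y _ => ?_).trans Finset.card_le_three
        by_cases hy : y = 0
        · simp [hy]
        · rcases mul_self_eq_one_iff.1 (h' y hy) with r | r <;> simp [r]
      omega
    set W : F → GL ι F := fun t => S.Φ x (-(S.ε * (t / c))) (t / c) 0 *
      (m * S.Φ u (-(S.ε * (1 / (t * c)))) (1 / (t * c)) 0 * m⁻¹) *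
        S.Φ x (-(S.ε * (t / c))) (t / c) 0 with hW
    have hWM : ∀ t, W t ∈ M := fun t => mul_mem (mul_mem (hA _) (hB _)) (hA _)
    have hWx : ∀ t, ap (W t) x = x := fun t => by
      simp only [hW, ap_mul, (apA _).1, (apB _).1]
    have hWD : ∀ t, t ≠ 0 → ap (W t) (S.D x) = (-(1 / t)) • b := fun t ht => by
      simp only [hW, ap_mul, (apA _).2.1, (apB _).2.2, ap_sub, ap_smul, (apA _).2.2]
      match_scalars <;> field_simp <;> ring
    have hWb : ∀ t, t ≠ 0 → ap (W t) b = t • S.D x := fun t ht => by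
      simp only [hW, ap_mul, (apA _).2.2, ap_add, ap_smul, (apB _).2.1, (apB _).2.2, ap_sub,
        (apA _).2.1]
      match_scalars <;> field_simp <;> ring
    have hh : W t * W 1 ∈ M := mul_mem (hWM t) (hWM 1)
    have g1 : ap (W t * W 1) x = (1 : F) • x + (0 : F) • S.D x := by
      rw [ap_mul, hWx, hWx]; simp
    have g2 : ap (W t * W 1) (S.D x) = (0 : F) • x + (-t) • S.D x := by
      rw [ap_mul, hWD 1 one_ne_zero, ap_smul, hWb t ht]
      module
    have := mul_mem (mul_mem hh (S.Φ_base hR hx 1)) (inv_mem hh)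
    rw [S.conj_Φ hx (hM hh) hx g1 g2] at this
    refine S.isom_le_of_cen hR hM h (S.cen_of_Φ hR h this (Or.inl ?_))
    intro h0
    have e' : S.ε * (t * t - 1) = 0 := by linear_combination h0
    exact ht1 (sub_eq_zero.1 ((mul_eq_zero.mp e').resolve_left he))
  -- the image of the plane is the plane
  rw [hb0, zero_smul, add_zero] at hbd
  have g1 : ap m u = (1 : F) • x + (0 : F) • S.D x := by simp [← hxdef]
  have g2 : ap m (S.D u) = r • x + p • S.D x := hbd
  have h1 := mul_mem (mul_mem hm (S.Φ_base hR hu 1)) (inv_mem hm)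
  rw [S.conj_Φ hu hmi hx g1 g2] at h1
  by_cases hd : (-(S.ε * 1) * 1 * 1 + 1 * r * r + 2 * 0 * 1 * r) +
      S.ε * (-(S.ε * 1) * 0 * 0 + 1 * p * p + 2 * 0 * 0 * p) = 0 ∧ r * p = 0
  swap
  · rcases not_and_or.mp hd with h0 | h0
    · exact S.isom_le_of_cen hR hM h (S.cen_of_Φ hR h h1 (Or.inl h0))
    · exact S.isom_le_of_cen hR hM h (S.cen_of_Φ hR h h1 (Or.inr fun h0' => h0 (by
        linear_combination h0')))
  obtain ⟨hd1, hd2⟩ := hd
  have hr : r = 0 := (mul_eq_zero.mp hd2).resolve_right fun hp0 =>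
    S.eps_ne_sq r (by rw [hp0] at hd1; linear_combination hd1)
  have hp : p * p = 1 := by
    rw [hr] at hd1
    exact mul_left_cancel₀ he (by linear_combination hd1)
  rw [hr, zero_smul, zero_add] at hbd
  -- unit scalars of the two fields
  set a₀ := (1 + S.ε) / (1 - S.ε) with ha₀
  set b₀ := 2 / (1 - S.ε) with hb₀
  have hε1 : (1 : F) - S.ε ≠ 0 := sub_ne_zero.mpr fun h0 => S.eps_ne_sq 1 (by rw [one_mul, h0])
  have hn₀ : a₀ * a₀ - S.ε * (b₀ * b₀) = 1 := by rw [ha₀, hb₀]; field_simp; ring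
  have hb₀0 : b₀ ≠ 0 := div_ne_zero S.two hε1
  have hsc : ∀ a b : F, a * a - S.ε * (b * b) = 1 → ∃ g ∈ M, ∀ y, ap g y = a • y + b • S.D y := by
    intro a b hab
    let L : F → F → (ι → F) →ₗ[F] (ι → F) := fun a b => a • LinearMap.id + b • S.D
    have hcomp : ∀ a b, a * a - S.ε * (b * b) = 1 → L a b ∘ₗ L a (-b) = LinearMap.id := fun a b hab =>
      LinearMap.ext fun y => by
        simp only [L, LinearMap.comp_apply, LinearMap.add_apply, LinearMap.smul_apply,
          LinearMap.id_apply, map_add, map_smul, S.sq]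
        match_scalars
        · linear_combination hab
        · ring
    have h1 := hcomp a b hab
    have h2 := hcomp a (-b) (by linear_combination hab)
    rw [neg_neg] at h2
    obtain ⟨g, hg⟩ : ∃ g : GL ι F, ∀ y, ap g y = a • y + b • S.D y := by
      refine ⟨⟨LinearMap.toMatrix' (L a b), LinearMap.toMatrix' (L a (-b)), ?_, ?_⟩, fun y => ?_⟩
      · rw [← LinearMap.toMatrix'_comp, h1, LinearMap.toMatrix'_id]
      · rw [← LinearMap.toMatrix'_comp, h2, LinearMap.toMatrix'_id]
      · exact LinearMap.toMatrix'_mulVec (L a b) y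
    refine ⟨g, hR g (mem_isom_iff.2 fun y y' => ?_) fun y => by rw [hg, hg, map_add, map_smul,
      map_smul], hg⟩
    show f (ap g y) (ap g y') = f y y'
    simp only [hg, bl.add_left, bl.add_right, bl.smul_left, bl.smul_right, S.f_D_D, S.anti y y']
    linear_combination f y y' * hab
  obtain ⟨Λ, hΛM, hΛ⟩ := hsc a₀ b₀ hn₀
  obtain ⟨Λ', hΛ'M, hΛ'⟩ := hsc a₀ (-(p * b₀))
    (by linear_combination hn₀ - S.ε * b₀ * b₀ * hp)
  set E : (ι → F) → (ι → F) := fun y => ap m (S.D (ap m⁻¹ y)) with hE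
  have hz' : ∀ y, ap (m * Λ * m⁻¹) y = a₀ • y + b₀ • E y := fun y => by
    rw [ap_mul, ap_mul, hΛ, ap_add, ap_smul, ap_smul, ap_ap_inv]
  have hEx : E x = p • S.D x := by
    rw [← hbd, hbdef, hE, hxdef]; simp [ap_inv_ap]
  have hEE : ∀ y, E (E y) = S.ε • y := fun y => by
    simp [hE, ap_inv_ap, S.sq, ap_smul, ap_ap_inv]
  have hEDx : E (S.D x) = (p * S.ε) • x := by
    have h0 := hEE x
    rw [hEx] at h0
    have h1 : E (p • S.D x) = p • E (S.D x) := by simp [hE, ap_smul, map_smul]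
    rw [h1] at h0
    rw [← one_smul F (E (S.D x)), ← hp, mul_smul, h0, smul_smul]
  set k := Λ' * (m * Λ * m⁻¹) with hk
  have hkM : k ∈ M := mul_mem hΛ'M (mul_mem (mul_mem hm hΛM) (inv_mem hm))
  have hkx : ap k x = x := by
    rw [hk, ap_mul, hz', hEx, hΛ', map_add, map_smul, map_smul, map_smul, S.sq]
    match_scalars
    · linear_combination hn₀ - S.ε * b₀ * b₀ * hp
    · ring
  have hkDx : ap k (S.D x) = S.D x := by
    rw [hk, ap_mul, hz', hEDx, hΛ']
    simp only [map_add, map_smul, S.sq]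
    match_scalars
    all_goals first | linear_combination hn₀ - S.ε * b₀ * b₀ * hp | ring
  have hki : ∀ a b, f (ap k a) (ap k b) = f a b := hM hkM
  set α := -f (ap k w) w
  set γ := f (ap k w) (S.D w) / S.ε
  set β := -(f (ap k (S.D w)) (S.D w) / S.ε) / S.ε
  have hk1 : f (ap k w) x = -1 := by rw [← hkx, hki, h.wz]
  have hk2 : f (ap k w) (S.D x) = 0 := by rw [← hkDx, hki, h.wDz]
  have hk3 : f (ap k (S.D w)) x = 0 := by rw [← hkx, hki, h.Dwz]
  have hk4 : f (ap k (S.D w)) (S.D x) = S.ε := by rw [← hkDx, hki, h.DwDz]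
  have hkw : ap k w = (-α) • x + (-γ) • S.D x + w := by
    conv_lhs => rw [h.decomp (ap k w)]
    rw [hk1, hk2]
    simp only [α, γ]
    match_scalars <;> field_simp <;> ring
  have hkDw : ap k (S.D w) = (S.ε * γ) • x + (S.ε * β) • S.D x + S.D w := by
    have hd := h.decomp (ap k (S.D w))
    rw [hk3, hk4] at hd
    have hcross := hki w (S.D w)
    rw [hkw, hd, h.ww] at hcross
    simp only [bl.add_left, bl.add_right, bl.smul_left, bl.smul_right, S.symp.alternating, h.zz,
      h.Dzz, h.zDw, h.DzDw, h.wz, h.wDz, h.Dwz, h.ww, h.zw, h.Dzw] at hcross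
    field_simp at hcross
    have hs : f (ap k (S.D w)) w = S.ε * γ := mul_left_cancel₀ he (by linear_combination -hcross)
    rw [hs] at hd
    rw [hd]
    simp only [β]
    match_scalars <;> field_simp <;> ring
  have hkΦ : k = S.Φ x α β γ := gl_ext fun y => by
    conv_lhs => rw [h.decomp y]
    simp only [ap_add, ap_smul, hkx, hkDx, hkw, hkDw, S.ap_Φ hx]
    conv_rhs => arg 1; arg 1; rw [h.decomp y]
    match_scalars <;> field_simp <;> ring
  by_cases hne : α + S.ε * β ≠ 0 ∨ γ ≠ 0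
  · exact S.isom_le_of_cen hR hM h (S.cen_of_Φ hR h (hkΦ ▸ hkM) hne)
  exfalso
  push Not at hne
  apply hmn
  have hkD : ∀ y, S.D (ap k y) = ap k (S.D y) := fun y => by
    rw [hkΦ, hne.2]
    simp only [S.ap_Φ hx, map_add, map_smul, S.sq, S.f_D_D, S.anti y x]
    rw [show α = -(S.ε * β) by linear_combination hne.1]
    module
  have hcomm : ∀ y, S.D (E y) = E (S.D y) := fun y => by
    have h0 := hkD y
    simp only [hk, ap_mul, hz', hΛ', map_add, map_smul] at h0
    have h' : ap Λ' (b₀ • (S.D (E y) - E (S.D y))) = 0 := by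
      simp only [hΛ', map_smul, map_sub]
      linear_combination (norm := module) h0
    have h'' := (ap_injective Λ') (h'.trans (ap_zero Λ').symm)
    exact sub_eq_zero.mp ((smul_eq_zero.mp h'').resolve_left hb₀0)
  have hEanti : ∀ a b, f (E a) b = -f a (E b) := fun a b => by
    conv_lhs => rw [← ap_ap_inv m b]
    conv_rhs => rw [← ap_ap_inv m a]
    simp only [hE, hm', ap_inv_ap, S.anti]
  have hw1 : f (E w) x = 0 := by rw [hEanti, hEx, bl.smul_right, h.wDz]; ring
  have hw2 : f (E w) (S.D x) = p * S.ε := by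
    rw [hEanti, hEDx, bl.smul_right, h.wz]; ring
  have hEw := h.decomp (E w)
  rw [hw1, hw2, neg_zero, zero_smul, add_zero] at hEw
  set c1 := f (E w) w
  set c2 := -(f (E w) (S.D w) / S.ε)
  have hEw' : E w = c1 • x + c2 • S.D x + p • S.D w := by
    rw [hEw]; congr 2; field_simp
  have hadd : ∀ a b, E (a + b) = E a + E b := fun a b => by simp [hE, ap_add, map_add]
  have hsm : ∀ (c : F) a, E (c • a) = c • E a := fun c a => by simp [hE, ap_smul, map_smul]
  have hEDw : E (S.D w) = (c2 * S.ε) • x + c1 • S.D x + (p * S.ε) • w := by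
    rw [← hcomm, hEw', map_add, map_add, map_smul, map_smul, map_smul, S.sq, S.sq]
    module
  have h0 := hEE w
  rw [hEw', hadd, hadd, hsm, hsm, hsm, hEx, hEDx, hEDw] at h0
  have q1 := congrArg (fun y => f y w) h0
  have q2 := congrArg (fun y => f y (S.D w)) h0
  simp only [bl.add_left, bl.smul_left, S.symp.alternating, h.zw, h.Dzw, h.zDw, h.DzDw, h.ww] at q1 q2
  have hp0 : (2 : F) * p ≠ 0 := mul_ne_zero S.two fun h => by simp [h] at hp
  have hc2 : c2 = 0 := by
    have : (2 * p) * (S.ε * c2) = 0 := by linear_combination q1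
    exact (mul_eq_zero.mp ((mul_eq_zero.mp this).resolve_left hp0)).resolve_left he
  have hc1 : c1 = 0 := by
    have : (2 * p) * (S.ε * c1) = 0 := by linear_combination -q2
    exact (mul_eq_zero.mp ((mul_eq_zero.mp this).resolve_left hp0)).resolve_left he
  rw [hc1, hc2] at hEw' hEDw
  have hED : ∀ y, E y = p • S.D y := fun y => by
    conv_lhs => rw [h.decomp y]
    conv_rhs => rw [h.decomp y]
    simp only [hadd, hsm, hEx, hEDx, hEw', hEDw, map_add, map_smul, S.sq]
    module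
  refine ⟨p, hp, fun y => ?_⟩
  have := hED (ap m y)
  simpa [hE, ap_inv_ap] using this

omit hR hM in
/-- Some isometry does not normalise the field. -/
theorem exists_not_normalize : ∃ g ∈ isom f,
    ¬ ∃ a b : F, ∀ x, ap g (S.D x) = a • ap g x + b • S.D (ap g x) := by
  obtain ⟨z, hz0, hz⟩ := S.exists_null
  obtain ⟨w, h⟩ := S.exists_frame hz0 hz
  refine ⟨Symp.T S.symp z 1, Symp.T_mem_isom S.symp _ _, ?_⟩
  rintro ⟨a, b, hab⟩
  have e := hab w
  simp only [Symp.ap_T, h.Dwz, h.wz, mul_zero, zero_smul, add_zero, one_mul, map_add, map_smul] at e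
  have e1 := congrArg (fun y => f y (S.D z)) e
  have e2 := congrArg (fun y => f y (S.D w)) e
  simp only [S.symp.bilinear.add_left, S.symp.bilinear.smul_left, S.symp.alternating, h.DwDz,
    h.zz, h.wDz, h.DzDw, h.ww, h.zDw] at e1 e2
  have hb : S.ε * (b - 1) = 0 := by linear_combination -e1
  have hb' : S.ε * b = 0 := by linear_combination -e2
  have hb0 := (mul_eq_zero.mp hb').resolve_left S.eps_ne
  rw [hb0] at hb
  simp [S.eps_ne] at hb

end Data

end SympQuadExtFour

open Matrix in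
theorem symp_unitary_maximal_four {F : Type*} [Field F] [Fintype F] {ι : Type} [Fintype ι]
    [DecidableEq ι] {f : (ι → F) → (ι → F) → F} (hf : Cfsg.Geo.IsSymplecticForm f)
    (hn : Fintype.card ι = 4) (hodd : Odd (Fintype.card F)) (h5 : 5 ≤ Fintype.card F)
    (K : Subalgebra F (Matrix ι ι F))
    (hK : Cfsg.Geo.IsFieldSubalgebra 2 K) (hac : Cfsg.Geo.IsAdjointClosedFor f K)
    (hnsa : ¬ Cfsg.Geo.IsSelfAdjointFor f K) :
    Cfsg.Geo.IsMaximalIn (isom f) (Cfsg.Geo.subalgebraNormalizer K ⊓ isom f) := by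
  have h2 : (2 : F) ≠ 0 := CfsgLib.ClassicalForms.two_ne_zero_of_odd
    (by rwa [Nat.card_eq_fintype_card])
  obtain ⟨k, hk, hkne⟩ : ∃ k ∈ K, ¬ ∀ u v, f (k *ᵥ u) v = f u (k *ᵥ v) := by
    simpa [Cfsg.Geo.IsSelfAdjointFor] using hnsa
  obtain ⟨k', hk', hkadj⟩ := hac k hk
  have hkadj' : ∀ u v, f (k' *ᵥ u) v = f u (k *ᵥ v) := fun u v => by
    rw [hf.skew, ← hkadj, ← hf.skew]
  set δ := k - k' with hδdef
  have hδ : δ ∈ K := K.sub_mem hk hk'
  have hanti : ∀ x y, f (δ *ᵥ x) y = -f x (δ *ᵥ y) := fun x y => by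
    rw [hδdef, Matrix.sub_mulVec, Matrix.sub_mulVec, Symp.sub_left hf,
      Symp.sub_right hf, hkadj, hkadj']
    ring
  have hns : ∀ c : F, δ ≠ c • 1 := by
    intro c hc
    refine hkne fun u v => ?_
    have h : ∀ x, δ *ᵥ x = c • x := fun x => by rw [hc, Matrix.smul_mulVec, Matrix.one_mulVec]
    by_cases hc0 : c = 0
    · rw [hc0, zero_smul, hδdef, sub_eq_zero] at hc
      rw [hkadj, hc]
    · have hz : ∀ x y, f x y = 0 := fun x y => by
        have h1 := hanti x y
        rw [h, h, hf.bilinear.smul_left, hf.bilinear.smul_right, eq_neg_iff_add_eq_zero, ← two_mul] at h1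
        exact (mul_eq_zero.mp ((mul_eq_zero.mp h1).resolve_left h2)).resolve_left hc0
      rw [hz, hz]
  have hspan := fun x hx => ExtF.quad_span hK hδ hns (k := x) hx
  obtain ⟨a, b, hab⟩ := hspan (δ * δ) (K.mul_mem hδ hδ)
  have hne : Nonempty ι := Fintype.card_pos_iff.mp (by omega)
  have hδ2 : ∀ x, δ *ᵥ (δ *ᵥ x) = a • x + b • (δ *ᵥ x) := fun x => by
    rw [Matrix.mulVec_mulVec, hab, Matrix.add_mulVec, Matrix.smul_mulVec, Matrix.smul_mulVec,
      Matrix.one_mulVec]
  have hb : b = 0 := by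
    by_contra hb
    obtain ⟨x, hx⟩ := exists_ne (0 : ι → F)
    have hDx : δ *ᵥ x ≠ 0 := fun h =>
      ExtF.quad_irred hK hδ hns hx 0 (by rw [h, zero_smul])
    obtain ⟨y, hy⟩ := (hf.nondegenerate _ hDx).2
    refine hy ?_
    have h1 := hanti (δ *ᵥ x) y
    rw [hanti x, hδ2 x, hδ2 y, hf.bilinear.add_left, hf.bilinear.add_right, hf.bilinear.smul_left,
      hf.bilinear.smul_left, hf.bilinear.smul_right, hf.bilinear.smul_right, neg_neg, hanti x y] at h1
    have h3 : 2 * (b * f x (δ *ᵥ y)) = 0 := by linear_combination -h1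
    rw [hanti x y, (mul_eq_zero.mp ((mul_eq_zero.mp h3).resolve_left h2)).resolve_left hb, neg_zero]
  let S : ExtF.SympQuadExtFour.Data (f) :=
    { symp := hf
      D := Matrix.toLin' δ
      ε := a
      sq := fun x => by
        rw [Matrix.toLin'_apply, Matrix.toLin'_apply, hδ2, hb, zero_smul, add_zero]
      anti := fun x y => by rw [Matrix.toLin'_apply, Matrix.toLin'_apply]; exact hanti x y
      irred := fun x hx c => by
        rw [Matrix.toLin'_apply]; exact ExtF.quad_irred hK hδ hns hx c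
      two := h2
      four := hn
      five := h5 }
  have hD : ∀ x, S.D x = δ *ᵥ x := fun x => Matrix.toLin'_apply δ x
  have hnorm := fun g => ExtF.quad_normalizer_iff hK hδ hns g
  refine ⟨lt_of_le_of_ne inf_le_right fun h => ?_, fun M hNM hMI => ?_⟩
  · obtain ⟨g, hg, hgn⟩ := S.exists_not_normalize
    obtain ⟨c, e, hce⟩ := (hnorm g).mp (inf_eq_right.mp h hg)
    exact hgn ⟨c, e, fun x => by rw [hD, hD]; exact hce x⟩
  by_cases hle : M ≤ Cfsg.Geo.subalgebraNormalizer K
  · exact Or.inl (le_antisymm (le_inf hle hMI) hNM)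
  obtain ⟨g, hg, hgN⟩ := SetLike.not_le_iff_exists.mp hle
  refine Or.inr (le_antisymm hMI (S.le_of_not_normalize (fun g hg hcomm => hNM
      ⟨(hnorm g).mpr ⟨0, 1, fun x => by
        rw [zero_smul, zero_add, one_smul, ← hD, ← hD]; exact (hcomm x).symm⟩, hg⟩) hMI
    ⟨g, hg, fun ⟨c, e, hce⟩ => hgN ((hnorm g).mpr ⟨c, e, fun x => by
      have := hce x; rwa [hD, hD] at this⟩)⟩))

end CfsgLib.Geometric.ExtF
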