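import Cfsg.Agent.Lib.Geometric.ExtField.SympUnitary
import Cfsg.Agent.Lib.Geometric.ExtField.Quadratic

/-!
Maximality in a symplectic group of the normaliser of a quadratic field with non-trivial adjoint map.
-/

set_option autoImplicit false
set_option linter.unusedSectionVars false

namespace CfsgLib.Geometric.ExtF

open Matrix

theorem symp_unitary_maximal {F : Type*} [Field F] [Fintype F] {ι : Type} [Fintype ι] [DecidableEq ι]
    {f : (ι → F) → (ι → F) → F} (hf : Cfsg.Geo.IsSymplecticForm f) (hn : 10 ≤ Fintype.card ι)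
    (hodd : Odd (Fintype.card F)) (K : Subalgebra F (Matrix ι ι F))
    (hK : Cfsg.Geo.IsFieldSubalgebra 2 K) (hac : Cfsg.Geo.IsAdjointClosedFor f K)
    (hnsa : ¬ Cfsg.Geo.IsSelfAdjointFor f K) :
    Cfsg.Geo.IsMaximalIn (isom f) (Cfsg.Geo.subalgebraNormalizer K ⊓ isom f) := by
  have h2 : (2 : F) ≠ 0 := CfsgLib.ClassicalForms.two_ne_zero_of_odd
    (by rwa [Nat.card_eq_fintype_card])
  obtain ⟨k, hk, hkne⟩ : ∃ k ∈ K, ¬ ∀ u v, f (k *ᵥ u) v = f u (k *ᵥ v) := by
    simpa [Cfsg.Geo.IsSelfAdjointFor] using hnsa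
  obtain ⟨k', hk', hkadj⟩ := hac k hk
  have hkadj' : ∀ u v, f (k' *ᵥ u) v = f u (k *ᵥ v) := fun u v => by
    rw [hf.skew, ← hkadj, ← hf.skew]
  set δ := k - k' with hδdef
  have hδ : δ ∈ K := K.sub_mem hk hk'
  have hanti : ∀ x y, f (δ *ᵥ x) y = -f x (δ *ᵥ y) := fun x y => by
    rw [hδdef, Matrix.sub_mulVec, Matrix.sub_mulVec, Symp.sub_left hf,
      Symp.sub_right hf, hkadj, hkadj']
    ring
  have hns : ∀ c : F, δ ≠ c • 1 := by
    intro c hc
    refine hkne fun u v => ?_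
    have h : ∀ x, δ *ᵥ x = c • x := fun x => by rw [hc, Matrix.smul_mulVec, Matrix.one_mulVec]
    by_cases hc0 : c = 0
    · rw [hc0, zero_smul, hδdef, sub_eq_zero] at hc
      rw [hkadj, hc]
    · have hz : ∀ x y, f x y = 0 := fun x y => by
        have h1 := hanti x y
        rw [h, h, hf.bilinear.smul_left, hf.bilinear.smul_right, eq_neg_iff_add_eq_zero, ← two_mul] at h1
        exact (mul_eq_zero.mp ((mul_eq_zero.mp h1).resolve_left h2)).resolve_left hc0
      rw [hz, hz]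
  have hspan := fun x hx => ExtF.quad_span hK hδ hns (k := x) hx
  obtain ⟨a, b, hab⟩ := hspan (δ * δ) (K.mul_mem hδ hδ)
  have hne : Nonempty ι := Fintype.card_pos_iff.mp (by omega)
  have hδ2 : ∀ x, δ *ᵥ (δ *ᵥ x) = a • x + b • (δ *ᵥ x) := fun x => by
    rw [Matrix.mulVec_mulVec, hab, Matrix.add_mulVec, Matrix.smul_mulVec, Matrix.smul_mulVec,
      Matrix.one_mulVec]
  have hb : b = 0 := by
    by_contra hb
    obtain ⟨x, hx⟩ := exists_ne (0 : ι → F)
    have hDx : δ *ᵥ x ≠ 0 := fun h =>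
      ExtF.quad_irred hK hδ hns hx 0 (by rw [h, zero_smul])
    obtain ⟨y, hy⟩ := (hf.nondegenerate _ hDx).2
    refine hy ?_
    have h1 := hanti (δ *ᵥ x) y
    rw [hanti x, hδ2 x, hδ2 y, hf.bilinear.add_left, hf.bilinear.add_right, hf.bilinear.smul_left,
      hf.bilinear.smul_left, hf.bilinear.smul_right, hf.bilinear.smul_right, neg_neg, hanti x y] at h1
    have h3 : 2 * (b * f x (δ *ᵥ y)) = 0 := by linear_combination -h1
    rw [hanti x y, (mul_eq_zero.mp ((mul_eq_zero.mp h3).resolve_left h2)).resolve_left hb, neg_zero]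
  let S : ExtF.SympQuadExt.Data (f) :=
    { symp := hf
      D := Matrix.toLin' δ
      ε := a
      sq := fun x => by
        rw [Matrix.toLin'_apply, Matrix.toLin'_apply, hδ2, hb, zero_smul, add_zero]
      anti := fun x y => by rw [Matrix.toLin'_apply, Matrix.toLin'_apply]; exact hanti x y
      irred := fun x hx c => by
        rw [Matrix.toLin'_apply]; exact ExtF.quad_irred hK hδ hns hx c
      two := h2
      big := hn }
  have hD : ∀ x, S.D x = δ *ᵥ x := fun x => Matrix.toLin'_apply δ x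
  have hnorm := fun g => ExtF.quad_normalizer_iff hK hδ hns g
  refine ⟨lt_of_le_of_ne inf_le_right fun h => ?_, fun M hNM hMI => ?_⟩
  · obtain ⟨g, hg, hgn⟩ := S.exists_not_normalize
    obtain ⟨c, e, hce⟩ := (hnorm g).mp (inf_eq_right.mp h hg)
    exact hgn ⟨c, e, fun x => by rw [hD, hD]; exact hce x⟩
  by_cases hle : M ≤ Cfsg.Geo.subalgebraNormalizer K
  · exact Or.inl (le_antisymm (le_inf hle hMI) hNM)
  obtain ⟨g, hg, hgN⟩ := SetLike.not_le_iff_exists.mp hle
  refine Or.inr (le_antisymm hMI (S.le_of_not_normalize (fun g hg hcomm => hNM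
      ⟨(hnorm g).mpr ⟨0, 1, fun x => by
        rw [zero_smul, zero_add, one_smul, ← hD, ← hD]; exact (hcomm x).symm⟩, hg⟩) hMI
    ⟨g, hg, fun ⟨c, e, hce⟩ => hgN ((hnorm g).mpr ⟨c, e, fun x => by
      have := hce x; rwa [hD, hD] at this⟩)⟩))

end CfsgLib.Geometric.ExtF
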