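import Cfsg.Agent.Lib.Geometric.ExtField.Quadratic
import Cfsg.Agent.Lib.Geometric.Orth.ExtQuad
import Cfsg.Agent.Lib.Geometric.SOTensor.Max

/-!
A group of symplectic isometries containing those commuting with a quadratic extension field on which the
adjoint map is non-trivial, and one element not normalising that field, contains every symplectic isometry:
the argument valid from dimension six on.
-/

set_option autoImplicit false
set_option linter.unusedSectionVars false

namespace CfsgLib.Geometric.ExtF.SympQuadExtSix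

open Matrix QuadraticMap Module CfsgLib.Geometric.Orth CfsgLib.ClassicalForms

section Combination

variable {ι : Type} [Fintype ι] [DecidableEq ι] {F : Type*} [Field F] [Finite F]
variable {Q : QuadraticForm F (ι → F)}

/-- A map keeping every singular line of the extension lies in the extension, in dimension at least 6. -/
lemma eq_combination_six (S : QuadExtData Q) (hQ : Nondeg Q) (hn : 6 ≤ Fintype.card ι)
    {P : (ι → F) →ₗ[F] (ι → F)} (hP : ∀ x, Q x = 0 → P x ∈ S.L x) :
    ∃ a b : F, ∀ x, P x = a • x + b • S.D x := by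
  choose α β hαβ using fun (x : {x : ι → F // Q x = 0}) => S.mem_L.mp (hP x x.2)
  have hli : ∀ v : ι → F, v ≠ 0 → ∀ a b : F, a • v + b • S.D v = 0 → a = 0 ∧ b = 0 := by
    intro v hv0 a b he
    by_cases hb : b = 0
    · rw [hb, zero_smul, add_zero, smul_eq_zero, or_iff_left hv0] at he
      exact ⟨he, hb⟩
    · refine absurd ?_ (S.irred v hv0 (-(a / b)))
      linear_combination (norm := skip) b⁻¹ • he
      match_scalars <;> field_simp <;> ring
  have hpair : ∀ (v w : {x : ι → F // Q x = 0}), (v : ι → F) ≠ 0 → (w : ι → F) ∉ S.L v →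
      polar Q (v : ι → F) w = 0 → α v = α w ∧ β v = β w := by
    rintro ⟨v, hv⟩ ⟨w, hw⟩ hv0 hwv hvw
    dsimp only at hv0 hwv hvw
    have hs : Q (v + w) = 0 := by rw [QuadraticMap.map_add (⇑Q), hv, hw, hvw]; simp
    set p := α ⟨v + w, hs⟩
    set q := β ⟨v + w, hs⟩
    have h := hαβ ⟨v + w, hs⟩
    rw [map_add P v w, ← hαβ ⟨v, hv⟩, ← hαβ ⟨w, hw⟩, map_add] at h
    have h' : (p - α ⟨w, hw⟩) • w + (q - β ⟨w, hw⟩) • S.D w =
        (α ⟨v, hv⟩ - p) • v + (β ⟨v, hv⟩ - q) • S.D v := by
      linear_combination (norm := module) h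
    have hmem : (p - α ⟨w, hw⟩) • w + (q - β ⟨w, hw⟩) • S.D w ∈ S.L v :=
      h' ▸ S.mem_L.mpr ⟨_, _, rfl⟩
    have hq : q = β ⟨w, hw⟩ := by
      by_contra hne
      have hne' := sub_ne_zero.mpr hne
      refine hwv (S.mem_of_sub_mem (-((p - α ⟨w, hw⟩) / (q - β ⟨w, hw⟩))) ?_)
      have := (S.L v).smul_mem (q - β ⟨w, hw⟩)⁻¹ hmem
      convert this using 1
      match_scalars <;> field_simp
    have hp : p = α ⟨w, hw⟩ := by
      by_contra hne
      refine hwv ?_
      rw [hq, sub_self, zero_smul, add_zero] at hmem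
      rwa [Submodule.smul_mem_iff _ (sub_ne_zero.mpr hne)] at hmem
    rw [hp, hq, sub_self, sub_self, zero_smul, zero_smul, zero_add] at h'
    obtain ⟨e1, e2⟩ := hli v hv0 _ _ h'.symm
    exact ⟨sub_eq_zero.mp e1, sub_eq_zero.mp e2⟩
  obtain ⟨v, hv0, hQv⟩ : ∃ v : ι → F, v ≠ 0 ∧ Q v = 0 := by
    obtain ⟨z, hz, hQz, -⟩ := exists_singular_off (Q := Q) (fun i : Fin 0 => (Fin.elim0 i : ι → F))
      (by omega)
    exact ⟨z, fun h => hz (h ▸ Submodule.zero_mem _), hQz⟩
  have hvv : polar Q v v = 0 := by rw [polar_self, hQv, smul_zero]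
  have hvDv : polar Q v (S.D v) = 0 := by rw [S.self, hQv, mul_zero]
  -- `v ~ w ~ t ~ v₂` with `v₂` on the line of `v` but independent of `v`
  obtain ⟨w, hwL, hQw, hwp⟩ := exists_singular_off' (Q := Q) ![v] ![v, S.D v] (by omega)
  have hvw : polar Q v w = 0 := by rw [polar_comm]; exact hwp 0
  have hw0 : w ≠ 0 := fun h => hwL (h ▸ Submodule.zero_mem _)
  have hwv : v ∉ Submodule.span F {w} := by
    intro h
    obtain ⟨c, hc⟩ := Submodule.mem_span_singleton.mp h
    have hc0 : c ≠ 0 := fun h0 => hv0 (by rw [← hc, h0, zero_smul])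
    refine hwL (S.mem_L.mpr ⟨c⁻¹, 0, ?_⟩)
    rw [← hc, smul_smul, inv_mul_cancel₀ hc0, one_smul, zero_smul, add_zero]
  obtain ⟨t, hQt, hwt, hvt, htL⟩ : ∃ t, Q t = 0 ∧ polar Q w t = 0 ∧ polar Q v t = 1 ∧
      t ∉ S.L w := by
    obtain ⟨φ, hφ, hφv⟩ := exists_functional_eq_one hwv
    obtain ⟨y, hy⟩ := exists_eq_polar hQ φ
    have hwy : polar Q w y = 0 := by rw [hy]; exact hφ _ (Submodule.mem_span_singleton_self w)
    have hvy : polar Q v y = 1 := by rw [hy, hφv]
    have mk : ∀ y, polar Q w y = 0 → polar Q v y = 1 → Q (y - Q y • v) = 0 ∧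
        polar Q w (y - Q y • v) = 0 ∧ polar Q v (y - Q y • v) = 1 := by
      intro y hw' hv'
      refine ⟨?_, ?_, ?_⟩
      · rw [map_sub_eq, QuadraticMap.map_smul, hQv, polar_smul_right, polar_comm Q y v, hv']; simp
      · rw [polar_sub_right, polar_smul_right, hw', polar_comm Q w v, hvw]; simp
      · rw [polar_sub_right, polar_smul_right, hv', hvv]; simp
    obtain ⟨s, hs, hsU⟩ : ∃ s ∈ perpOf Q ![v, w],
        s ∉ Submodule.span F (Set.range ![v, w, S.D w]) := by
      by_contra hc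
      push Not at hc
      have h1 := Submodule.finrank_mono (show perpOf Q ![v, w] ≤ _ from fun x hx => hc x hx)
      have h2 := card_le_finrank_perpOf (Q := Q) ![v, w]
      have h3 := finrank_range_le_card (R := F) ![v, w, S.D w]
      simp only [Set.finrank, Fintype.card_fin] at h3
      omega
    have hsp := mem_perpOf.mp hs
    by_cases h1 : y - Q y • v ∈ S.L w
    swap
    · obtain ⟨a1, a2, a3⟩ := mk y hwy hvy
      exact ⟨_, a1, a2, a3, h1⟩
    have hsv : polar Q v s = 0 := by rw [polar_comm]; exact hsp 0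
    have hsw : polar Q w s = 0 := by rw [polar_comm]; exact hsp 1
    obtain ⟨b1, b2, b3⟩ := mk (y + s) (by rw [polar_add_right, hwy, hsw, add_zero])
      (by rw [polar_add_right, hvy, hsv, add_zero])
    refine ⟨_, b1, b2, b3, fun h2 => hsU ?_⟩
    obtain ⟨a, b, hab⟩ := S.mem_L.mp ((S.L w).sub_mem h2 h1)
    rw [Submodule.mem_span_range_iff_exists_fun]
    refine ⟨![Q (y + s) - Q y, a, b], ?_⟩
    simp [Fin.sum_univ_three]
    linear_combination (norm := module) hab
  have ht0 : t ≠ 0 := fun h => htL (h ▸ Submodule.zero_mem _)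
  set v₂ := polar Q (S.D v) t • v - S.D v with hv₂def
  have hv₂L : v₂ ∈ S.L v := S.mem_L.mpr ⟨polar Q (S.D v) t, -1, by rw [hv₂def]; module⟩
  have hQv₂ : Q v₂ = 0 := by
    rw [hv₂def, map_sub_eq, QuadraticMap.map_smul, hQv, S.map, hQv, polar_smul_left, hvDv]; simp
  have hv₂0 : v₂ ≠ 0 := fun h => S.irred v hv0 _ (sub_eq_zero.mp h).symm
  have hv₂t : polar Q v₂ t = 0 := by
    rw [hv₂def, polar_sub_left, polar_smul_left, hvt]; simp
  have htv : t ∉ S.L v := fun h => by
    obtain ⟨a, b, hab⟩ := S.mem_L.mp h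
    rw [← hab, polar_add_right, polar_smul_right, polar_smul_right, hvv, hvDv] at hvt
    simp at hvt
  obtain ⟨g1, g2⟩ := hpair ⟨v, hQv⟩ ⟨w, hQw⟩ hv0 hwL hvw
  obtain ⟨g3, g4⟩ := hpair ⟨w, hQw⟩ ⟨t, hQt⟩ hw0 htL hwt
  obtain ⟨g5, g6⟩ := hpair ⟨v₂, hQv₂⟩ ⟨t, hQt⟩ hv₂0
    (fun h => htv (by
      obtain ⟨a, b, hab⟩ := S.mem_L.mp h
      have hm := Submodule.add_mem _ (Submodule.smul_mem _ a hv₂L)
        (Submodule.smul_mem _ b (S.D_mem hv₂L))
      rw [hab] at hm
      exact hm)) hv₂t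
  refine ⟨α ⟨v, hQv⟩, β ⟨v, hQv⟩, ?_⟩
  let R : (ι → F) →ₗ[F] (ι → F) := P - α ⟨v, hQv⟩ • LinearMap.id - β ⟨v, hQv⟩ • S.D
  have hR₀ : ∀ x (hx : Q x = 0), α ⟨x, hx⟩ = α ⟨v, hQv⟩ → β ⟨x, hx⟩ = β ⟨v, hQv⟩ → R x = 0 := by
    intro x hx e1 e2
    simp only [R, LinearMap.sub_apply, LinearMap.smul_apply, LinearMap.id_apply, ← e1, ← e2,
      ← hαβ ⟨x, hx⟩]
    abel
  have hRv : R v = 0 := hR₀ v hQv rfl rfl
  have hRDv : R (S.D v) = 0 := by
    have h := hR₀ v₂ hQv₂ (g5.trans (g1.trans g3).symm) (g6.trans (g2.trans g4).symm)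
    rw [hv₂def, map_sub, map_smul, hRv, smul_zero, zero_sub, neg_eq_zero] at h
    exact h
  have hRL : ∀ x ∈ S.L v, R x = 0 := fun x hx => by
    obtain ⟨a, b, rfl⟩ := S.mem_L.mp hx
    rw [map_add, map_smul, map_smul, hRv, hRDv, smul_zero, smul_zero, add_zero]
  have hR : ∀ x, Q x = 0 → R x = 0 := by
    intro x hx
    by_cases hxL : x ∈ S.L v
    · exact hRL x hxL
    obtain ⟨a, b, hab, hne⟩ : ∃ a b : F, polar Q (a • v + b • S.D v) x = 0 ∧
        ¬(a = 0 ∧ b = 0) := by
      by_cases h : polar Q v x = 0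
      · exact ⟨1, 0, by simpa using h, by simp⟩
      · exact ⟨-polar Q (S.D v) x, polar Q v x, by
          rw [polar_add_left, polar_smul_left, polar_smul_left]; simp; ring, by simp [h]⟩
    set v' := a • v + b • S.D v with hv'
    have hv'L : v' ∈ S.L v := S.mem_L.mpr ⟨a, b, rfl⟩
    have hv'0 : v' ≠ 0 := fun h => hne (hli v hv0 a b h)
    have hQv' : Q v' = 0 := by
      rw [hv', QuadraticMap.map_add (⇑Q), QuadraticMap.map_smul, QuadraticMap.map_smul, S.map, hQv,
        polar_smul_left, polar_smul_right, hvDv]; simp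
    have hxv' : x ∉ S.L v' := fun h => hxL (by
      obtain ⟨c, e, hce⟩ := S.mem_L.mp h
      exact hce ▸ Submodule.add_mem _ (Submodule.smul_mem _ c hv'L)
        (Submodule.smul_mem _ e (S.D_mem hv'L)))
    obtain ⟨f1, f2⟩ := hpair ⟨v', hQv'⟩ ⟨x, hx⟩ hv'0 hxv' hab
    have h := hRL v' hv'L
    simp only [R, LinearMap.sub_apply, LinearMap.smul_apply, LinearMap.id_apply,
      ← hαβ ⟨v', hQv'⟩] at h
    have h' : (α ⟨v', hQv'⟩ - α ⟨v, hQv⟩) • v' + (β ⟨v', hQv'⟩ - β ⟨v, hQv⟩) • S.D v' = 0 := by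
      linear_combination (norm := module) h
    obtain ⟨e1, e2⟩ := hli v' hv'0 _ _ h'
    exact hR₀ x hx (f1.symm.trans (sub_eq_zero.mp e1)) (f2.symm.trans (sub_eq_zero.mp e2))
  intro x
  by_cases hx0 : x = 0
  · simp [hx0]
  have hxb : x ∉ (⊥ : Submodule F (ι → F)) := by simpa using hx0
  obtain ⟨θ, -, hθ⟩ := exists_functional_eq_one hxb
  obtain ⟨z, hQz, hz⟩ := exists_singular_val hQ ![x] θ (by omega)
  have h1 : polar Q x z = 1 := by rw [polar_comm]; simpa [hθ] using hz 0
  have h2 : R (x - Q x • z) = 0 := hR _ (by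
    rw [map_sub_eq, QuadraticMap.map_smul, hQz, polar_smul_right, h1]; simp)
  rw [map_sub, map_smul, hR z hQz, smul_zero, sub_zero] at h2
  simp only [R, LinearMap.sub_apply, sub_sub, sub_eq_zero] at h2
  exact h2

end Combination

variable {ι : Type} [Fintype ι] [DecidableEq ι] {F : Type*} [Field F] [Finite F]
variable {f : (ι → F) → (ι → F) → F}

/-- The data of a quadratic field with non-trivial adjoint map. -/
structure Data (f : (ι → F) → (ι → F) → F) where
  symp : Cfsg.Geo.IsSymplecticForm f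
  /-- The anti-self-adjoint generator. -/
  D : (ι → F) →ₗ[F] (ι → F)
  /-- Its square. -/
  ε : F
  sq : ∀ x, D (D x) = ε • x
  anti : ∀ x y, f (D x) y = -f x (D y)
  irred : ∀ x, x ≠ 0 → ∀ c : F, D x ≠ c • x
  two : (2 : F) ≠ 0
  big : 6 ≤ Fintype.card ι

namespace Data

variable (S : Data f)

/-- The associated symmetric form. -/
def hform : (ι → F) →ₗ[F] (ι → F) →ₗ[F] F :=
  LinearMap.mk₂ F (fun x y => f x (S.D y))
    (fun x x' y => S.symp.bilinear.add_left x x' _)
    (fun c x y => S.symp.bilinear.smul_left c x _)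
    (fun x y y' => by rw [map_add, S.symp.bilinear.add_right])
    (fun c x y => by rw [map_smul, S.symp.bilinear.smul_right]; rfl)

@[simp] lemma hform_apply (x y : ι → F) : S.hform x y = f x (S.D y) := rfl

lemma hform_symm (x y : ι → F) : f y (S.D x) = f x (S.D y) := by
  rw [S.symp.skew, S.anti, neg_neg]

/-- The associated quadratic form. -/
def R : QuadraticForm F (ι → F) := LinearMap.BilinMap.toQuadraticMap S.hform

@[simp] lemma R_apply (x : ι → F) : S.R x = f x (S.D x) := rfl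

lemma polar_R (x y : ι → F) : polar S.R x y = 2 * f x (S.D y) := by
  rw [R, LinearMap.BilinMap.polar_toQuadraticMap, hform_apply, hform_apply, S.hform_symm x y]
  ring

lemma eps_ne : S.ε ≠ 0 := by
  intro h
  have hne : Nonempty ι := Fintype.card_pos_iff.mp (by have := S.big; omega)
  obtain ⟨x, hx⟩ := exists_ne (0 : ι → F)
  have hDx : S.D x ≠ 0 := fun h0 => S.irred x hx 0 (by rw [h0, zero_smul])
  exact S.irred _ hDx 0 (by rw [S.sq, h, zero_smul, zero_smul])

lemma norm_ne (a : F) : 1 - S.ε * a ^ 2 ≠ 0 := by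
  intro h
  have hne : Nonempty ι := Fintype.card_pos_iff.mp (by have := S.big; omega)
  obtain ⟨x, hx⟩ := exists_ne (0 : ι → F)
  have ha : a ≠ 0 := by rintro rfl; simp at h
  by_cases hv : S.D x + a⁻¹ • x = 0
  · refine S.irred x hx (-a⁻¹) ?_
    rw [neg_smul]; exact eq_neg_of_add_eq_zero_left hv
  · refine S.irred _ hv a⁻¹ ?_
    rw [map_add, map_smul, S.sq]
    match_scalars
    · field_simp
      linear_combination -h
    · ring

lemma nondeg_R : Nondeg S.R := fun x hx => by
  by_contra h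
  obtain ⟨y, hy⟩ := (S.symp.nondegenerate x h).2
  have := hx (S.ε⁻¹ • S.D y)
  rw [S.polar_R, map_smul, S.sq, smul_smul, inv_mul_cancel₀ S.eps_ne, one_smul] at this
  exact hy ((mul_eq_zero.mp this).resolve_left S.two)

/-- The quadratic extension acting on the associated form. -/
def ext : QuadExtData S.R where
  D := S.D
  t := 0
  N := -S.ε
  sq x := by rw [S.sq, zero_smul, neg_smul, sub_neg_eq_add, zero_add]
  adj x y := by
    rw [S.polar_R, S.polar_R, S.anti, zero_smul, zero_sub, map_neg, ← neg_one_smul F (S.D (S.D y)),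
      S.symp.bilinear.smul_right]
    ring
  map x := by rw [R_apply, R_apply, S.anti, S.sq, S.symp.bilinear.smul_right]; ring
  self x := by rw [S.polar_R, S.sq, S.symp.bilinear.smul_right, S.symp.alternating]; ring
  irred := S.irred

lemma f_D_D (x y : ι → F) : f (S.D x) (S.D y) = -(S.ε * f x y) := by
  rw [S.anti, S.sq, S.symp.bilinear.smul_right]

/-- A singular vector with prescribed values of the form, outside a given span. -/
lemma exists_val {k : ℕ} (b : Fin k → ι → F) (θ : (ι → F) →ₗ[F] F)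
    (hk : 2 * k + 3 ≤ Fintype.card ι) :
    ∃ z, S.R z = 0 ∧ (∀ i, f z (b i) = θ (b i)) ∧
      z ∉ Submodule.span F (Set.range fun i => S.D (b i)) := by
  set v : Fin k → ι → F := fun i => S.ε⁻¹ • S.D (b i) with hv
  have hDv : ∀ i, S.D (v i) = b i := fun i => by
    rw [hv, map_smul, S.sq, smul_smul, inv_mul_cancel₀ S.eps_ne, one_smul]
  have hspan : Submodule.span F (Set.range fun i => S.D (b i)) ≤ Submodule.span F (Set.range v) := by
    rw [Submodule.span_le]
    rintro _ ⟨i, rfl⟩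
    have h : S.ε • v i ∈ Submodule.span F (Set.range v) :=
      Submodule.smul_mem _ _ (Submodule.subset_span ⟨i, rfl⟩)
    simpa [hv, smul_smul, mul_inv_cancel₀ S.eps_ne] using h
  obtain ⟨z, hz, hzv⟩ := exists_singular_val S.nondeg_R v ((2 : F) • θ ∘ₗ S.D) hk
  have hval : ∀ (z : ι → F) i, polar S.R z (v i) = ((2 : F) • θ ∘ₗ S.D) (v i) →
      f z (b i) = θ (b i) := by
    intro z i h
    rw [S.polar_R, LinearMap.smul_apply, LinearMap.comp_apply, hDv, smul_eq_mul] at h
    exact mul_left_cancel₀ S.two h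
  by_cases hmem : z ∈ Submodule.span F (Set.range v)
  · obtain ⟨z', hz', hQz', hperp⟩ := exists_singular_off (Q := S.R) v hk
    have hzz : polar S.R z z' = 0 := by
      rw [Submodule.mem_span_range_iff_exists_fun] at hmem
      obtain ⟨c, hc⟩ := hmem
      rw [← hc, polar_comm]
      have : ∀ x ∈ Submodule.span F (Set.range v), polar S.R z' x = 0 := by
        intro x hx
        induction hx using Submodule.span_induction with
        | mem x hx => obtain ⟨i, rfl⟩ := hx; exact hperp i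
        | zero => exact polar_zero_right _ _
        | add x y _ _ hx hy => rw [polar_add_right, hx, hy, add_zero]
        | smul a x _ hx => rw [polar_smul_right, hx, smul_zero]
      exact this _ (Submodule.sum_mem _ fun i _ =>
        Submodule.smul_mem _ _ (Submodule.subset_span ⟨i, rfl⟩))
    refine ⟨z + z', by rw [QuadraticMap.map_add (⇑S.R), hz, hQz', hzz]; simp,
      fun i => hval _ i (by rw [polar_add_left, hperp, add_zero, hzv]), fun h => hz' ?_⟩
    have := Submodule.sub_mem _ (hspan h) hmem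
    simpa using this
  · exact ⟨z, hz, fun i => hval z i (hzv i), fun h => hmem (hspan h)⟩

/-- The unitary transvection at a singular vector. -/
def τ (z : ι → F) (s : F) : GL ι F :=
  Symp.T S.symp (S.D z) s * Symp.T S.symp z (-(S.ε * s))

lemma ap_τ {z : ι → F} (hz : S.R z = 0) (s : F) (x : ι → F) :
    ap (S.τ z s) x = x + (s * f x (S.D z)) • S.D z - (S.ε * s * f x z) • z := by
  rw [R_apply] at hz
  rw [τ, ap_mul, Symp.ap_T, Symp.ap_T, S.symp.bilinear.add_left, S.symp.bilinear.smul_left, hz]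
  module

lemma τ_comm {z : ι → F} (hz : S.R z = 0) (s : F) (x : ι → F) :
    S.D (ap (S.τ z s) x) = ap (S.τ z s) (S.D x) := by
  rw [S.ap_τ hz, S.ap_τ hz, map_sub, map_add, map_smul, map_smul, S.sq, S.anti x z, S.f_D_D]
  module

lemma τ_isom (z : ι → F) (s : F) : S.τ z s ∈ isom f :=
  mul_mem (Symp.T_mem_isom S.symp _ _) (Symp.T_mem_isom S.symp _ _)

variable {M : Subgroup (GL ι F)}
  (hR : ∀ g ∈ isom f, (∀ x, S.D (ap g x) = ap g (S.D x)) → g ∈ M)
  (hM : M ≤ isom f)

/-- All transvections at `x` lie in `M`. -/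
def Cen (M : Subgroup (GL ι F)) (x : ι → F) : Prop := ∀ c, Symp.T S.symp x c ∈ M

include hR in
lemma τ_mem {z : ι → F} (hz : S.R z = 0) (s : F) : S.τ z s ∈ M :=
  hR _ (S.τ_isom z s) (S.τ_comm hz s)

include hM

lemma cen_ap {x : ι → F} (hx : S.Cen M x) {g : GL ι F} (hg : g ∈ M) : S.Cen M (ap g x) := fun c => by
  rw [← Symp.conj_T S.symp (hM hg)]
  exact mul_mem (mul_mem hg (hx c)) (inv_mem hg)

omit hM in
lemma cen_smul {x : ι → F} (hx : S.Cen M x) (a : F) : S.Cen M (a • x) := fun c => by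
  rw [Symp.T_smul]; exact hx _

lemma cen_add {x y : ι → F} (hx : S.Cen M x) (hy : S.Cen M y) (h : f x y ≠ 0) (c : F) :
    S.Cen M (x + c • y) := by
  have := S.cen_ap hM hx (hy (c / f x y))
  rwa [Symp.ap_T, div_mul_cancel₀ _ h] at this

include hR

/-- A transvection at a singular vector, from one at any vector. -/
lemma exists_singular_cen {d : ι → F} (hd : d ≠ 0) (hc : S.Cen M d) :
    ∃ x, x ≠ 0 ∧ S.R x = 0 ∧ S.Cen M x := by
  obtain ⟨θ, -, hθ⟩ := exists_functional_eq_one
    (show S.D d ∉ Submodule.span F {d} from fun h => by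
      obtain ⟨a, ha⟩ := Submodule.mem_span_singleton.mp h
      exact S.irred d hd a ha.symm)
  obtain ⟨z, hz, hzv, -⟩ := S.exists_val ![S.D d] θ (by have := S.big; omega)
  have h1 : f d (S.D z) = 1 := by rw [S.hform_symm z d]; simpa [hθ] using hzv 0
  set e := S.D z - (S.ε * f d z) • z with he
  have hde : f d e = 1 - S.ε * f d z ^ 2 := by
    rw [he, Symp.sub_right S.symp, S.symp.bilinear.smul_right, h1]; ring
  have hmem : S.Cen M (d + e) := by
    have := S.cen_ap hM hc (S.τ_mem hR hz 1)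
    rw [S.ap_τ hz, h1, one_mul, one_smul, mul_one, add_sub_assoc] at this
    exact this
  have h2 := S.cen_add hM hmem hc (by
    rw [S.symp.bilinear.add_left, S.symp.alternating, zero_add, S.symp.skew, hde, neg_ne_zero]
    exact S.norm_ne _) (-1)
  rw [neg_one_smul, add_neg_cancel_comm] at h2
  refine ⟨e, fun h => S.norm_ne (f d z) (by rw [← hde, h, Symp.zero_right S.symp]), ?_, h2⟩
  rw [R_apply] at hz ⊢
  rw [he, map_sub, map_smul, S.sq]
  simp only [Symp.sub_left S.symp, Symp.sub_right S.symp, S.symp.bilinear.smul_left,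
    S.symp.bilinear.smul_right, S.symp.alternating, S.symp.skew (S.D z) z, hz]
  ring

omit hM hR in
lemma norm2_ne {a c : F} (h : a ≠ 0 ∨ c ≠ 0) : a ^ 2 - S.ε * c ^ 2 ≠ 0 := by
  intro he
  by_cases ha : a = 0
  · rw [ha] at he h
    rcases h with h | h
    · exact h rfl
    · simp [S.eps_ne, h] at he
  · refine S.norm_ne (c / a) ?_
    field_simp
    linear_combination he

omit hM hR in
lemma R_D (x : ι → F) : S.R (S.D x) = -(S.ε * S.R x) := by
  have := S.ext.map x
  rw [show S.ext.D x = S.D x from rfl] at this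
  rw [this]
  simp [Data.ext]

omit hM hR in
lemma R_add (x y : ι → F) : S.R (x + y) = S.R x + S.R y + 2 * f x (S.D y) := by
  rw [QuadraticMap.map_add (⇑S.R), S.polar_R]

/-- One transvection gives all. -/
theorem cen_all {d : ι → F} (hd : d ≠ 0) (hc : S.Cen M d) (v : ι → F) : S.Cen M v := by
  obtain ⟨x, hx0, hRx, hx⟩ := S.exists_singular_cen hR hM hd hc
  have hone : ∀ x y, S.Cen M x → S.R y = 0 → f x y ≠ 0 → f x (S.D y) = 0 → S.R x = 0 →
      S.Cen M y := by
    intro x y hx hy hne h0 hRx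
    have hRp : S.R (S.ε⁻¹ • S.D y) = 0 := by
      rw [QuadraticMap.map_smul]
      have := S.ext.map y
      rw [show S.ext.D y = S.D y from rfl] at this
      rw [this, hy]; simp
    have h3 := S.cen_ap hM hx (S.τ_mem hR hRp ((f x y)⁻¹))
    have e : ap (S.τ (S.ε⁻¹ • S.D y) (f x y)⁻¹) x = x + y := by
      rw [S.ap_τ hRp, map_smul, S.sq, inv_smul_smul₀ S.eps_ne, S.symp.bilinear.smul_right, h0,
        inv_mul_cancel₀ hne]
      simp
    rw [e] at h3
    have := S.cen_add hM h3 hx (by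
      rw [S.symp.bilinear.add_left, S.symp.alternating, zero_add, S.symp.skew, neg_ne_zero]
      exact hne) (-1)
    rwa [neg_one_smul, add_neg_cancel_comm] at this
  have bl := S.symp.bilinear
  have alt := S.symp.alternating
  have hx' : f x (S.D x) = 0 := hRx
  -- a hyperbolic partner
  obtain ⟨y, hRy, hxy, hxDy⟩ : ∃ y, S.R y = 0 ∧ f x y = 1 ∧ f x (S.D y) = 0 := by
    have hD : x ∉ Submodule.span F {S.D x} := fun h => by
      obtain ⟨a, ha⟩ := Submodule.mem_span_singleton.mp h
      by_cases ha0 : a = 0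
      · rw [ha0, zero_smul] at ha; exact hx0 ha.symm
      · refine S.irred x hx0 a⁻¹ ?_
        nth_rw 2 [← ha]
        rw [smul_smul, inv_mul_cancel₀ ha0, one_smul]
    obtain ⟨p, hp, hpx⟩ := Symp.exists_perp_ne S.symp hD
    set y₀ := (f x p)⁻¹ • p with hy₀
    have h1 : f x y₀ = 1 := by rw [hy₀, bl.smul_right, inv_mul_cancel₀ hpx]
    have h0 : f y₀ (S.D x) = 0 := by
      rw [hy₀, bl.smul_left, (Symp.mem_perp_span S.symp).mp hp, mul_zero]
    have h2 : f x (S.D y₀) = 0 := by rw [← h0, S.hform_symm]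
    clear_value y₀
    refine ⟨y₀ + (S.R y₀ / (2 * S.ε)) • S.D x, ?_, ?_, ?_⟩
    · have := S.two
      have := S.eps_ne
      rw [S.R_add, QuadraticMap.map_smul, S.R_D, hRx, map_smul, S.sq, bl.smul_right,
        bl.smul_right, S.symp.skew y₀ x, h1]
      simp
      field_simp
      ring
    · rw [bl.add_right, bl.smul_right, h1, hx']; ring
    · rw [map_add, map_smul, S.sq, bl.add_right, bl.smul_right, bl.smul_right, h2, alt]; ring
  have hy : S.Cen M y := hone x y hx hRy (by rw [hxy]; exact one_ne_zero) hxDy hRx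
  have hy' : f y (S.D y) = 0 := hRy
  have hyx : f y x = -1 := by rw [S.symp.skew, hxy]
  have hyDx : f y (S.D x) = 0 := by rw [S.hform_symm, hxDy]
  -- the decomposition along the hyperbolic line
  have hdec : ∀ u, ∃ (a b c e : F) (u' : ι → F), u = a • x + b • S.D x + c • y + e • S.D y + u' ∧
      f u' x = 0 ∧ f u' (S.D x) = 0 ∧ f u' y = 0 ∧ f u' (S.D y) = 0 := by
    intro u
    refine ⟨f u y, -(f u (S.D y) / S.ε), -f u x, f u (S.D x) / S.ε,
      u - (f u y • x + (-(f u (S.D y) / S.ε)) • S.D x + (-f u x) • y + (f u (S.D x) / S.ε) • S.D y),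
      by abel, ?_, ?_, ?_, ?_⟩ <;>
      · have := S.eps_ne
        simp only [Symp.sub_left S.symp, bl.add_left, bl.smul_left, alt, hx', hy', hxy, hyx, hxDy,
          hyDx, S.f_D_D, S.anti x x, S.anti y x, S.anti x y, S.anti y y]
        try field_simp
        try ring
  obtain ⟨n, n1, n2, n3, n4, hRn⟩ : ∃ n, f n x = 0 ∧ f n (S.D x) = 0 ∧ f n y = 0 ∧
      f n (S.D y) = 0 ∧ S.R n ≠ 0 := by
    by_contra hc
    push Not at hc
    set W := perpOf S.R ![x, y, S.D x, S.D y]
    obtain ⟨m, hm, hm0⟩ := Submodule.exists_mem_ne_zero_of_ne_bot (p := W) fun h => by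
      have h1 := card_le_finrank_perpOf (Q := S.R) ![x, y, S.D x, S.D y]
      rw [show perpOf S.R ![x, y, S.D x, S.D y] = W from rfl, h, finrank_bot] at h1
      have := S.big
      omega
    have q : ∀ w, polar S.R m w = 0 → f m (S.D w) = 0 := fun w hw => by
      rw [S.polar_R] at hw; exact (mul_eq_zero.mp hw).resolve_left S.two
    have q' : ∀ w, polar S.R m (S.D w) = 0 → f m w = 0 := fun w hw => by
      have := q _ hw
      rw [S.sq, bl.smul_right] at this
      exact (mul_eq_zero.mp this).resolve_left S.eps_ne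
    have hmp := mem_perpOf.mp hm
    have m1 := q' x (hmp 2)
    have m2 := q x (hmp 0)
    have m3 := q' y (hmp 3)
    have m4 := q y (hmp 1)
    obtain ⟨u, hu⟩ : ∃ u, f m u ≠ 0 := (S.symp.nondegenerate m hm0).2
    obtain ⟨a, b, c, e, u', hu', u1, u2, u3, u4⟩ := hdec (S.ε⁻¹ • S.D u)
    have hmu : f m (S.D u') ≠ 0 := by
      have h1 : f m (S.D (S.ε⁻¹ • S.D u)) = f m u := by
        rw [map_smul, S.sq, smul_smul, inv_mul_cancel₀ S.eps_ne, one_smul]
      rw [hu'] at h1
      simp only [map_add, map_smul, S.sq, bl.add_right, bl.smul_right, m1, m2, m3, m4, mul_zero,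
        add_zero, zero_add] at h1
      rwa [h1]
    have hsum := hc (m + u') (by rw [bl.add_left, m1, u1, add_zero])
      (by rw [bl.add_left, m2, u2, add_zero]) (by rw [bl.add_left, m3, u3, add_zero])
      (by rw [bl.add_left, m4, u4, add_zero])
    rw [S.R_add, hc m m1 m2 m3 m4, hc u' u1 u2 u3 u4, add_zero, zero_add] at hsum
    exact hmu ((mul_eq_zero.mp hsum).resolve_left S.two)
  -- a vector with both phases
  set t := -(S.R n / (2 * S.ε)) with ht
  have hε2 : (2 : F) * S.ε ≠ 0 := mul_ne_zero S.two S.eps_ne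
  have ht0 : t ≠ 0 := by rw [ht, neg_ne_zero]; exact div_ne_zero hRn hε2
  set z := x + t • S.D y + n with hz
  have zx : f z x = 0 := by
    rw [hz, bl.add_left, bl.add_left, bl.smul_left, alt, n1, S.anti, hyDx]; ring
  have zDx : f z (S.D x) = t * S.ε := by
    rw [hz, bl.add_left, bl.add_left, bl.smul_left, hx', n2, S.f_D_D, hyx]; ring
  have zy : f z y = 1 := by
    rw [hz, bl.add_left, bl.add_left, bl.smul_left, hxy, n3, S.anti, hy']; ring
  have zDy : f z (S.D y) = 0 := by
    rw [hz, bl.add_left, bl.add_left, bl.smul_left, hxDy, n4, alt]; ring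
  have hRz : S.R z = 0 := by
    rw [hz, S.R_add, S.R_add, QuadraticMap.map_smul, S.R_D, hRx, hRy, map_smul, S.sq, bl.smul_right,
      bl.smul_right, hxy, bl.add_left, bl.smul_left, S.hform_symm n x, n2, S.f_D_D,
      S.symp.skew y n, n3]
    have := S.two
    have := S.eps_ne
    rw [ht]
    simp only [smul_eq_mul, R_apply]
    field_simp
    ring
  have hRDz : S.R (S.D z) = 0 := by rw [S.R_D, hRz]; ring
  have hCz : S.Cen M z := hone y z hy hRz (by rw [S.symp.skew, zy]; simp)
    (by rw [S.hform_symm, zDy]) hRy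
  have hCDz : S.Cen M (S.D z) := hone x (S.D z) hx hRDz
    (by rw [S.hform_symm, zDx]; exact mul_ne_zero ht0 S.eps_ne)
    (by rw [S.sq, bl.smul_right, S.symp.skew, zx]; ring) hRx
  have hzz : f z (S.D z) = 0 := hRz
  have hzz' : f (S.D z) z = 0 := by rw [S.anti, hzz, neg_zero]
  let Pset : Set (ι → F) := {z, S.D z} ∪ {p | S.Cen M p ∧ f z p ≠ 0 ∧ f (S.D z) p ≠ 0}
  have hp0 : ∀ c : F, c ≠ 0 → x + c • y ∈ Pset := fun c hc => Or.inr
    ⟨S.cen_add hM hx hy (by rw [hxy]; exact one_ne_zero) c,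
      by rw [bl.add_right, bl.smul_right, zx, zy, zero_add, mul_one]; exact hc,
      by rw [bl.add_right, bl.smul_right, S.anti z x, zDx, S.anti z y, zDy, neg_zero, mul_zero,
          add_zero, neg_ne_zero]
         exact mul_ne_zero ht0 S.eps_ne⟩
  have hP : ∀ p ∈ Pset, ∀ c, Symp.T S.symp p c ∈ M := by
    rintro p ((rfl | rfl) | hp)
    exacts [hCz, hCDz, hp.1]
  have hsep : ∀ v, v ≠ 0 → ∃ p ∈ Pset, f v p ≠ 0 := by
    intro v hv0
    by_contra hcon
    push Not at hcon
    have vz : f v z = 0 := hcon z (Or.inl (Or.inl rfl))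
    have vDz : f v (S.D z) = 0 := hcon (S.D z) (Or.inl (Or.inr rfl))
    obtain ⟨p, hp, hpz, hpDz⟩ : ∃ p, S.Cen M p ∧ f z p ≠ 0 ∧ f (S.D z) p ≠ 0 := by
      rcases hp0 1 one_ne_zero with (h | h) | h
      · have := congrArg (f z) h
        simp [bl.add_right, zx, zy, alt] at this
      · have := congrArg (f z) (Set.mem_singleton_iff.mp h)
        simp [bl.add_right, zx, zy, hzz] at this
      · exact ⟨_, h⟩
    have kill : ∀ q, S.Cen M q →
        (f z q ≠ 0 ∧ f (S.D z) q = 0 ∨ f z q = 0 ∧ f (S.D z) q ≠ 0) → f v q = 0 := by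
      intro q hq hcase
      obtain ⟨p, ⟨hp, hpz, hpDz⟩, hqp⟩ : ∃ p,
          (S.Cen M p ∧ f z p ≠ 0 ∧ f (S.D z) p ≠ 0) ∧ f p q ≠ 0 := by
        by_cases hpq : f p q = 0
        swap
        · exact ⟨p, ⟨hp, hpz, hpDz⟩, hpq⟩
        rcases hcase with ⟨h1, -⟩ | ⟨-, h1⟩
        · refine ⟨p + (1 : F) • z, ⟨S.cen_add hM hp hCz
            (by rw [S.symp.skew, neg_ne_zero]; exact hpz) 1, ?_, ?_⟩, ?_⟩
          · rw [one_smul, bl.add_right, alt, add_zero]; exact hpz
          · rw [one_smul, bl.add_right, hzz', add_zero]; exact hpDz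
          · rw [one_smul, bl.add_left, hpq, zero_add]; exact h1
        · refine ⟨p + (1 : F) • S.D z, ⟨S.cen_add hM hp hCDz
            (by rw [S.symp.skew, neg_ne_zero]; exact hpDz) 1, ?_, ?_⟩, ?_⟩
          · rw [one_smul, bl.add_right, hzz, add_zero]; exact hpz
          · rw [one_smul, bl.add_right, alt, add_zero]; exact hpDz
          · rw [one_smul, bl.add_left, hpq, zero_add]; exact h1
      have hvp : f v p = 0 := hcon p (Or.inr ⟨hp, hpz, hpDz⟩)
      obtain ⟨c, hc, h1, h2⟩ : ∃ c : F, c ≠ 0 ∧ f z (p + c • q) ≠ 0 ∧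
          f (S.D z) (p + c • q) ≠ 0 := by
        simp only [bl.add_right, bl.smul_right]
        rcases hcase with ⟨-, h2⟩ | ⟨h1, -⟩
        · by_cases h : f z p + 1 * f z q = 0
          · refine ⟨-1, by simp, fun h' => hpz ?_, by rw [h2]; simpa using hpDz⟩
            have : (2 : F) * f z p = 0 := by linear_combination h + h'
            exact (mul_eq_zero.mp this).resolve_left S.two
          · exact ⟨1, one_ne_zero, h, by rw [h2]; simpa using hpDz⟩
        · by_cases h : f (S.D z) p + 1 * f (S.D z) q = 0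
          · refine ⟨-1, by simp, by rw [h1]; simpa using hpz, fun h' => hpDz ?_⟩
            have : (2 : F) * f (S.D z) p = 0 := by linear_combination h + h'
            exact (mul_eq_zero.mp this).resolve_left S.two
          · exact ⟨1, one_ne_zero, by rw [h1]; simpa using hpz, h⟩
      have := hcon (p + c • q) (Or.inr ⟨S.cen_add hM hp hq hqp c, h1, h2⟩)
      rw [bl.add_right, bl.smul_right, hvp, zero_add] at this
      exact (mul_eq_zero.mp this).resolve_left hc
    have hline : ∀ w, S.R w = 0 → (f z w ≠ 0 ∨ f z (S.D w) ≠ 0) →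
        f v w = 0 ∧ f v (S.D w) = 0 := by
      intro w hRw hor
      set g := f z w with hg
      set h := f z (S.D w) with hh
      have hN : h ^ 2 - S.ε * g ^ 2 ≠ 0 := S.norm2_ne hor.symm
      have hww : f w (S.D w) = 0 := hRw
      set w₁ := (S.ε * g) • w - h • S.D w with hw₁
      set w₂ := h • w - g • S.D w with hw₂
      have hRc : ∀ a b : F, S.R (a • w - b • S.D w) = 0 := fun a b => by
        rw [sub_eq_add_neg, ← neg_smul, S.R_add, QuadraticMap.map_smul, QuadraticMap.map_smul,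
          S.R_D, hRw, map_smul, S.sq]
        simp [bl.smul_left, bl.smul_right, alt, hww, Symp.neg_right S.symp]
      have a1 : f z w₁ = S.ε * g ^ 2 - h ^ 2 := by
        rw [hw₁, Symp.sub_right S.symp, bl.smul_right, bl.smul_right, ← hg, ← hh]; ring
      have a2 : f z (S.D w₁) = 0 := by
        rw [hw₁, map_sub, map_smul, map_smul, S.sq, Symp.sub_right S.symp, bl.smul_right,
          bl.smul_right, bl.smul_right, ← hg, ← hh]; ring
      have b1 : f z w₂ = 0 := by
        rw [hw₂, Symp.sub_right S.symp, bl.smul_right, bl.smul_right, ← hg, ← hh]; ring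
      have b2 : f z (S.D w₂) = h ^ 2 - S.ε * g ^ 2 := by
        rw [hw₂, map_sub, map_smul, map_smul, S.sq, Symp.sub_right S.symp, bl.smul_right,
          bl.smul_right, bl.smul_right, ← hg, ← hh]; ring
      have a1' : f z w₁ ≠ 0 := by rw [a1, ← neg_sub, neg_ne_zero]; exact hN
      have b2' : f (S.D z) w₂ ≠ 0 := by rw [S.anti, b2, neg_ne_zero]; exact hN
      have hC₁ := hone z w₁ hCz (hRc _ _) a1' a2 hRz
      have hC₂ := hone (S.D z) w₂ hCDz (hRc _ _) b2' (by rw [S.f_D_D, b1]; ring) hRDz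
      have k₁ := kill w₁ hC₁ (Or.inl ⟨a1', by rw [S.anti, a2, neg_zero]⟩)
      have k₂ := kill w₂ hC₂ (Or.inr ⟨b1, b2'⟩)
      rw [hw₁, Symp.sub_right S.symp, bl.smul_right, bl.smul_right] at k₁
      rw [hw₂, Symp.sub_right S.symp, bl.smul_right, bl.smul_right] at k₂
      constructor
      · refine (mul_eq_zero.mp (?_ : (h ^ 2 - S.ε * g ^ 2) * f v w = 0)).resolve_left hN
        linear_combination h * k₂ - g * k₁
      · refine (mul_eq_zero.mp (?_ : (h ^ 2 - S.ε * g ^ 2) * f v (S.D w) = 0)).resolve_left hN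
        linear_combination S.ε * g * k₂ - h * k₁
    obtain ⟨vx, vDx⟩ := hline x hRx (Or.inr (by rw [zDx]; exact mul_ne_zero ht0 S.eps_ne))
    obtain ⟨vy, vDy⟩ := hline y hRy (Or.inl (by rw [zy]; exact one_ne_zero))
    have hperp : ∀ u', f u' x = 0 → f u' (S.D x) = 0 → f u' y = 0 → f u' (S.D y) = 0 →
        (f n u' ≠ 0 ∨ f n (S.D u') ≠ 0) → f v u' = 0 := by
      intro u' u1 u2 u3 u4 hor
      set t' := -(S.R u' / (2 * S.ε)) with ht'
      have hxu : f x (S.D u') = 0 := by rw [← u2, S.hform_symm]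
      have hyu : f (S.D y) (S.D u') = 0 := by rw [S.f_D_D, S.symp.skew, u3]; ring
      have key : ∀ s : F, s * s = 1 → S.R (s • x + (s * t') • S.D y + u') = 0 := by
        intro s hs
        rw [S.R_add, S.R_add, QuadraticMap.map_smul, QuadraticMap.map_smul, S.R_D, hRx, hRy,
          map_smul, S.sq]
        simp only [bl.smul_left, bl.add_left, bl.smul_right, hxy, hxu, hyu, ht', smul_eq_mul,
          mul_zero, mul_one, add_zero, zero_add, neg_zero]
        have := S.two
        have := S.eps_ne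
        field_simp
        linear_combination (-(S.R u')) * hs
      have hzu : f z u' = f n u' := by
        rw [hz, bl.add_left, bl.add_left, bl.smul_left, S.symp.skew x u', u1, S.symp.skew (S.D y) u',
          u4]; ring
      have hzu' : f z (S.D u') = f n (S.D u') := by
        rw [hz, bl.add_left, bl.add_left, bl.smul_left, hxu, hyu]; ring
      have done : ∀ s : F, s * s = 1 → (f n u' ≠ 0 ∨
          s * (t + t') * S.ε + f n (S.D u') ≠ 0) → f v u' = 0 := by
        intro s hs hor'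
        have := (hline _ (key s hs) (by
          simp only [map_add, map_smul, S.sq, bl.add_right, bl.smul_right, zx, zDy, zDx, zy, hzu,
            hzu', mul_zero, zero_add, mul_one]
          convert hor' using 2
          ring_nf)).1
        simpa [bl.add_right, bl.smul_right, vx, vDy] using this
      by_cases h1 : f n u' = 0
      · by_cases h2 : 1 * (t + t') * S.ε + f n (S.D u') = 0
        · refine done (-1) (by ring) (Or.inr fun h3 => ?_)
          refine (hor.resolve_left (not_not.mpr h1)) ((mul_eq_zero.mp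
            (?_ : (2 : F) * f n (S.D u') = 0)).resolve_left S.two)
          linear_combination h2 + h3
        · exact done 1 (one_mul 1) (Or.inr h2)
      · exact done 1 (one_mul 1) (Or.inl h1)
    have vn : f v n = 0 := hperp n n1 n2 n3 n4 (Or.inr hRn)
    obtain ⟨u, hu⟩ := (S.symp.nondegenerate v hv0).2
    refine hu ?_
    obtain ⟨a, b, c, e, u', rfl, u1, u2, u3, u4⟩ := hdec u
    simp only [bl.add_right, bl.smul_right, vx, vDx, vy, vDy, mul_zero, zero_add]
    by_cases hor : f n u' ≠ 0 ∨ f n (S.D u') ≠ 0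
    · exact hperp u' u1 u2 u3 u4 hor
    push Not at hor
    have h := hperp (u' + n) (by rw [bl.add_left, u1, n1, add_zero])
      (by rw [bl.add_left, u2, n2, add_zero]) (by rw [bl.add_left, u3, n3, add_zero])
      (by rw [bl.add_left, u4, n4, add_zero])
      (Or.inr (by rw [map_add, bl.add_right, hor.2, zero_add]; exact hRn))
    rwa [bl.add_right, vn, add_zero] at h
  have hcon : ∀ p ∈ Pset, ∀ p' ∈ Pset, p ≠ 0 → p' ≠ 0 →
      ∃ r ∈ Pset, f p r ≠ 0 ∧ f p' r ≠ 0 := by
    obtain ⟨p₁, hp₁, hp₁z, hp₁Dz⟩ : ∃ p, p ∈ Pset ∧ f z p ≠ 0 ∧ f (S.D z) p ≠ 0 :=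
      ⟨x + (1 : F) • y, hp0 1 one_ne_zero,
        by rw [bl.add_right, bl.smul_right, zx, zy]; simp,
        by rw [bl.add_right, bl.smul_right, S.anti z x, zDx, S.anti z y, zDy]
           simp [ht0, S.eps_ne]⟩
    have addz : ∀ p, S.Cen M p → f z p ≠ 0 → f (S.D z) p ≠ 0 →
        p + z ∈ Pset ∧ f p (p + z) ≠ 0 ∧ f z (p + z) ≠ 0 := by
      intro p hp h1 h2
      have hpz : f p z ≠ 0 := by rw [S.symp.skew, neg_ne_zero]; exact h1
      have hz1 : f z (p + z) ≠ 0 := by rwa [bl.add_right, alt, add_zero]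
      refine ⟨Or.inr ⟨?_, hz1, by rwa [bl.add_right, hzz', add_zero]⟩,
        by rwa [bl.add_right, alt, zero_add], hz1⟩
      simpa using S.cen_add hM hp hCz hpz 1
    have addDz : ∀ p, S.Cen M p → f z p ≠ 0 → f (S.D z) p ≠ 0 →
        p + S.D z ∈ Pset ∧ f p (p + S.D z) ≠ 0 ∧ f (S.D z) (p + S.D z) ≠ 0 := by
      intro p hp h1 h2
      have hpz : f p (S.D z) ≠ 0 := by rw [S.symp.skew, neg_ne_zero]; exact h2
      have hz1 : f (S.D z) (p + S.D z) ≠ 0 := by rwa [bl.add_right, alt, add_zero]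
      refine ⟨Or.inr ⟨?_, by rwa [bl.add_right, hzz, add_zero], hz1⟩,
        by rwa [bl.add_right, alt, zero_add], hz1⟩
      simpa using S.cen_add hM hp hCDz hpz 1
    rintro p ((rfl | rfl) | ⟨hp, h1, h2⟩) p' ((rfl | rfl) | ⟨hp', h1', h2'⟩) - -
    · exact ⟨p₁, hp₁, hp₁z, hp₁z⟩
    · exact ⟨p₁, hp₁, hp₁z, hp₁Dz⟩
    · obtain ⟨a, b, c⟩ := addz p' hp' h1' h2'; exact ⟨_, a, c, b⟩
    · exact ⟨p₁, hp₁, hp₁Dz, hp₁z⟩
    · exact ⟨p₁, hp₁, hp₁Dz, hp₁Dz⟩
    · obtain ⟨a, b, c⟩ := addDz p' hp' h1' h2'; exact ⟨_, a, c, b⟩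
    · obtain ⟨a, b, c⟩ := addz p hp h1 h2; exact ⟨_, a, b, c⟩
    · obtain ⟨a, b, c⟩ := addDz p hp h1 h2; exact ⟨_, a, b, c⟩
    · exact ⟨z, Or.inl (Or.inl rfl), by rwa [S.symp.skew, neg_ne_zero],
        by rwa [S.symp.skew, neg_ne_zero]⟩
  exact fun c => Symp.T_mem_of_connected S.symp S.two hM hP hsep hcon v c

omit hM hR in
lemma perp_q {m a : ι → F} (h : polar S.R m a = 0) : f m (S.D a) = 0 := by
  rw [S.polar_R] at h; exact (mul_eq_zero.mp h).resolve_left S.two

omit hM hR in
lemma perp_q' {m a : ι → F} (h : polar S.R m (S.D a) = 0) : f m a = 0 := by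
  have := S.perp_q h
  rw [S.sq, S.symp.bilinear.smul_right] at this
  exact (mul_eq_zero.mp this).resolve_left S.eps_ne

omit hM hR in
/-- A non-singular vector orthogonal to a line over the extension. -/
lemma exists_nonsing (u : ι → F) : ∃ m, f m u = 0 ∧ f m (S.D u) = 0 ∧ S.R m ≠ 0 := by
  by_contra hc
  push Not at hc
  have hzero : ∀ y p, f y u = 0 → f y (S.D u) = 0 → f p u = 0 → f p (S.D u) = 0 →
      f y (S.D p) = 0 := by
    intro y p h1 h2 h3 h4
    have := hc (y + p) (by rw [S.symp.bilinear.add_left, h1, h3, add_zero])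
      (by rw [S.symp.bilinear.add_left, h2, h4, add_zero])
    rw [S.R_add, hc y h1 h2, hc p h3 h4, add_zero, zero_add] at this
    exact (mul_eq_zero.mp this).resolve_left S.two
  have hle : perpOf S.R ![u, S.D u] ≤ S.ext.L u := by
    intro y hy
    have hyp := mem_perpOf.mp hy
    refine S.ext.mem_of_sub_mem 0 ?_
    rw [zero_smul, sub_zero]
    refine Symp.mem_of_forall_perp S.symp fun p hp => ?_
    change f (S.D y) p = 0
    rw [S.anti, hzero y p (S.perp_q' (hyp 1)) (S.perp_q (hyp 0))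
      ((Symp.mem_perp S.symp).mp hp u (S.ext.mem_L.mpr ⟨1, 0, by simp⟩))
      ((Symp.mem_perp S.symp).mp hp (S.D u) (S.ext.mem_L.mpr ⟨0, 1, by simp [Data.ext]⟩)),
      neg_zero]
  have h1 := Submodule.finrank_mono hle
  have h2 := card_le_finrank_perpOf (Q := S.R) ![u, S.D u]
  have h3 : finrank F (S.ext.L u) ≤ 2 :=
    (finrank_range_le_card (R := F) ![u, S.ext.D u]).trans (by simp)
  have h4 := S.big
  omega

omit hM in
include hR in
/-- The reflection at a non-singular line lies in the group. -/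
lemma refl_mem {n : ι → F} (hn : S.R n ≠ 0) :
    ∃ k ∈ M, ∀ x, ap k x = x + (-(2 / S.R n)) • (f x (S.D n) • n - f x n • S.D n) := by
  have bl := S.symp.bilinear
  set c := -(2 / S.R n) with hc
  let L : (ι → F) →ₗ[F] (ι → F) :=
    { toFun := fun x => x + c • (f x (S.D n) • n - f x n • S.D n)
      map_add' := fun x y => by simp only [bl.add_left]; module
      map_smul' := fun a x => by simp only [bl.smul_left, RingHom.id_apply]; module }
  have hL : ∀ x, L x = x + c • (f x (S.D n) • n - f x n • S.D n) := fun x => rfl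
  have hDn : f (S.D n) n = -S.R n := by rw [S.anti, R_apply]
  have hnn : f n n = 0 := S.symp.alternating n
  have hDD : f (S.D n) (S.D n) = 0 := S.symp.alternating _
  have hcR : c * S.R n = -2 := by rw [hc]; field_simp
  have hinv : L ∘ₗ L = LinearMap.id := LinearMap.ext fun x => by
    simp only [LinearMap.comp_apply, LinearMap.id_apply, hL, bl.add_left, bl.smul_left,
      Symp.sub_left S.symp, hnn, hDD, hDn, ← R_apply]
    match_scalars
    · ring
    · linear_combination c * f x (S.D n) * hcR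
    · linear_combination -(c * f x n) * hcR
  have hinv' : ∀ x, L (L x) = x := fun x => LinearMap.congr_fun hinv x
  obtain ⟨k, hk⟩ : ∃ k : GL ι F, ∀ x, ap k x = L x := by
    refine ⟨⟨LinearMap.toMatrix' L, LinearMap.toMatrix' L, ?_, ?_⟩, fun x => ?_⟩
    · rw [← LinearMap.toMatrix'_comp, hinv, LinearMap.toMatrix'_id]
    · rw [← LinearMap.toMatrix'_comp, hinv, LinearMap.toMatrix'_id]
    · exact LinearMap.toMatrix'_mulVec L x
  refine ⟨k, hR k ?_ fun x => ?_, fun x => by rw [hk, hL]⟩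
  · rw [mem_isom_iff]
    intro x y
    show f (ap k x) (ap k y) = f x y
    rw [hk, hk, hL, hL]
    simp only [bl.add_left, bl.add_right, bl.smul_left, bl.smul_right, Symp.sub_left S.symp,
      Symp.sub_right S.symp, hnn, hDD, hDn, ← R_apply]
    rw [S.symp.skew n y, S.symp.skew (S.D n) y]
    linear_combination c * (f x n * f y (S.D n) - f x (S.D n) * f y n) * hcR
  · rw [hk, hk, hL, hL, map_add, map_smul, map_sub, map_smul, map_smul, S.sq, S.f_D_D, S.anti x n]
    module

/-- The element `x ↦ x + k (f(x,d) b + f(x,b) d)` lies in `M` for all `k`. -/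
def HasE (M : Subgroup (GL ι F)) (d b : ι → F) : Prop :=
  ∀ k : F, ∃ g ∈ M, ∀ x, ap g x = x + k • (f x d • b + f x b • d)

lemma exists_pair
    (hnot : ∃ g ∈ M, ¬ ∃ a b : F, ∀ x, ap g (S.D x) = a • ap g x + b • S.D (ap g x)) :
    ∃ d b, S.R d ≠ 0 ∧ b ∉ S.ext.L d ∧ f d b = 0 ∧ HasE (f := f) M d b := by
  obtain ⟨g, hg, hgn⟩ := hnot
  have hn := S.big
  have hne : Nonempty ι := Fintype.card_pos_iff.mp (by omega)
  obtain ⟨v, hv, hvL⟩ : ∃ v, S.R v = 0 ∧ ap g (S.D v) ∉ S.ext.L (ap g v) := by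
    by_contra h
    push Not at h
    obtain ⟨a, b, hab⟩ := eq_combination_six S.ext S.nondeg_R (by omega)
      (P := (apEquiv g⁻¹).toLinearMap ∘ₗ S.D ∘ₗ (apEquiv g).toLinearMap) fun x hx => by
        obtain ⟨a, b, hab⟩ := S.ext.mem_L.mp (h x hx)
        change a • ap g x + b • S.D (ap g x) = ap g (S.D x) at hab
        by_cases hb : b = 0
        · by_cases hx0 : x = 0
          · simp [hx0, ap_zero]
          · rw [hb, zero_smul, add_zero, ← ap_smul] at hab
            exact absurd (ap_injective g hab).symm (S.irred x hx0 a)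
        refine S.ext.mem_L.mpr ⟨-(a / b), b⁻¹, ap_injective g ?_⟩
        simp only [LinearMap.comp_apply, LinearEquiv.coe_coe, apEquiv_apply, ap_ap_inv, ap_add,
          ap_smul]
        change -(a / b) • ap g x + b⁻¹ • ap g (S.D x) = _
        rw [← hab]
        match_scalars <;> field_simp <;> ring
    have hab' : ∀ x, S.D (ap g x) = a • ap g x + b • ap g (S.D x) := fun x => by
      have := congrArg (ap g) (hab x)
      simpa [ap_ap_inv, ap_add, ap_smul, Data.ext] using this
    have hb : b ≠ 0 := by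
      intro hb
      obtain ⟨y, hy⟩ := exists_ne (0 : ι → F)
      have := hab' y
      rw [hb, zero_smul, add_zero] at this
      exact S.irred _ (ap_ne_zero g hy) a this
    refine hgn ⟨-(a / b), b⁻¹, fun x => ?_⟩
    rw [hab' x]
    match_scalars <;> field_simp <;> ring
  set u := ap g v
  set w := ap g (S.D v)
  rw [R_apply] at hv
  have huw : f u w = 0 := (hM hg v (S.D v)).trans hv
  have hA : ∀ s, Symp.T S.symp w s * Symp.T S.symp u (-(S.ε * s)) ∈ M := fun s => by
    have h3 := mul_mem (mul_mem hg (S.τ_mem hR (z := v) (by rw [R_apply, hv]) s)) (inv_mem hg)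
    rwa [τ, show ∀ A B : GL ι F, g * (A * B) * g⁻¹ = (g * A * g⁻¹) * (g * B * g⁻¹) from
      fun A B => by group, Symp.conj_T S.symp (hM hg), Symp.conj_T S.symp (hM hg)] at h3
  have bl := S.symp.bilinear
  have alt := S.symp.alternating
  have hwL : w ∉ S.ext.L u := hvL
  obtain ⟨n, n1, n2, hRn, hwn, hwnL⟩ : ∃ n, f n u = 0 ∧ f n (S.D u) = 0 ∧ S.R n ≠ 0 ∧
      f w (S.D n) ≠ 0 ∧ w ∉ S.ext.L n := by
    obtain ⟨y₀, hy₀u, hy₀Du, hy₀w⟩ : ∃ y, f y u = 0 ∧ f y (S.D u) = 0 ∧ f w (S.D y) ≠ 0 := by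
      have hDw : S.D w ∉ S.ext.L u := fun h => hwL (S.ext.mem_of_sub_mem 0 (by
        rw [zero_smul, sub_zero]; exact h))
      obtain ⟨p, hp, hpw⟩ := Symp.exists_perp_ne S.symp hDw
      exact ⟨p, (Symp.mem_perp S.symp).mp hp u (S.ext.mem_L.mpr ⟨1, 0, by simp⟩),
        (Symp.mem_perp S.symp).mp hp (S.D u) (S.ext.mem_L.mpr ⟨0, 1, by simp [Data.ext]⟩),
        by rw [S.anti] at hpw; simpa using hpw⟩
    obtain ⟨y, hyu, hyDu, hRy, hyw⟩ : ∃ y, f y u = 0 ∧ f y (S.D u) = 0 ∧ S.R y ≠ 0 ∧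
        f w (S.D y) ≠ 0 := by
      by_cases h0 : S.R y₀ = 0
      swap
      · exact ⟨y₀, hy₀u, hy₀Du, h0, hy₀w⟩
      obtain ⟨m, mu, mDu, hRm⟩ := S.exists_nonsing u
      by_cases hwm : f w (S.D m) = 0
      swap
      · exact ⟨m, mu, mDu, hRm, hwm⟩
      have hw' : ∀ s : F, f w (S.D (y₀ + s • m)) ≠ 0 := fun s => by
        rw [map_add, map_smul, bl.add_right, bl.smul_right, hwm, mul_zero, add_zero]; exact hy₀w
      by_cases h1 : S.R (y₀ + (1 : F) • m) = 0
      · refine ⟨y₀ + (-1 : F) • m, by simp [bl.add_left, Symp.neg_left S.symp, hy₀u, mu],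
          by simp [bl.add_left, Symp.neg_left S.symp, hy₀Du, mDu], fun h2 => hRm ?_, hw' _⟩
        rw [S.R_add, QuadraticMap.map_smul, map_smul, bl.smul_right, h0] at h1 h2
        simp only [smul_eq_mul] at h1 h2
        have : (2 : F) * S.R m = 0 := by linear_combination h1 + h2
        exact (mul_eq_zero.mp this).resolve_left S.two
      · exact ⟨y₀ + (1 : F) • m, by simp [bl.add_left, hy₀u, mu],
          by simp [bl.add_left, hy₀Du, mDu], h1, hw' _⟩
    by_cases hwy : w ∈ S.ext.L y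
    swap
    · exact ⟨y, hyu, hyDu, hRy, hyw, hwy⟩
    -- move `y` off the line of `w` by a vector orthogonal to both lines
    set W := perpOf S.R ![u, S.D u, y, S.D y]
    obtain ⟨m, hm, hm0⟩ := Submodule.exists_mem_ne_zero_of_ne_bot (p := W) fun h => by
      have h1 := card_le_finrank_perpOf (Q := S.R) ![u, S.D u, y, S.D y]
      rw [show perpOf S.R ![u, S.D u, y, S.D y] = W from rfl, h, finrank_bot] at h1
      omega
    have hmp := mem_perpOf.mp hm
    obtain ⟨mu, mDu, my, mDy⟩ : f m u = 0 ∧ f m (S.D u) = 0 ∧ f m y = 0 ∧ f m (S.D y) = 0 :=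
      ⟨S.perp_q' (hmp 1), S.perp_q (hmp 0), S.perp_q' (hmp 3), S.perp_q (hmp 2)⟩
    obtain ⟨m', hm'0, m'u, m'Du, m'y, m'Dy, hR'⟩ : ∃ m', m' ≠ 0 ∧ f m' u = 0 ∧
        f m' (S.D u) = 0 ∧ f m' y = 0 ∧ f m' (S.D y) = 0 ∧ S.R y + S.R m' ≠ 0 := by
      by_cases h1 : S.R y + S.R m = 0
      swap
      · exact ⟨m, hm0, mu, mDu, my, mDy, h1⟩
      refine ⟨m + S.D m, fun h => S.irred m hm0 (-1) ?_,
        by simp [bl.add_left, S.anti m u, mu, mDu],
        by simp [bl.add_left, S.f_D_D, mu, mDu],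
        by simp [bl.add_left, S.anti m y, my, mDy],
        by simp [bl.add_left, S.f_D_D, my, mDy], fun h2 => ?_⟩
      · rw [neg_one_smul]; exact eq_neg_of_add_eq_zero_right h
      · rw [S.R_add, S.R_D, S.sq, bl.smul_right, alt] at h2
        have h3 : S.ε * S.R m = 0 := by linear_combination h1 - h2
        rw [(mul_eq_zero.mp h3).resolve_left S.eps_ne, add_zero] at h1
        exact hRy h1
    obtain ⟨a, b, hab⟩ := S.ext.mem_L.mp hwy
    change a • y + b • S.D y = w at hab
    have ym' : f y (S.D m') = 0 := by rw [S.hform_symm, m'Dy]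
    have Dym' : f (S.D y) (S.D m') = 0 := by rw [S.f_D_D, S.symp.skew, m'y]; ring
    refine ⟨y + m', by rw [bl.add_left, hyu, m'u, add_zero],
      by rw [bl.add_left, hyDu, m'Du, add_zero], ?_, ?_, fun h => ?_⟩
    · rw [S.R_add, ym']; simpa using hR'
    · rw [map_add, bl.add_right, show f w (S.D m') = 0 by
        rw [← hab, bl.add_left, bl.smul_left, bl.smul_left, ym', Dym']; ring, add_zero]
      exact hyw
    · -- then `m'` is on the line of `y`
      have hw0 : w ≠ 0 := fun h0 => hwL (h0 ▸ Submodule.zero_mem _)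
      have hy0 : y ≠ 0 := fun h0 => hRy (by rw [h0, map_zero])
      have hyL : y ∈ S.ext.L w := S.ext.mem_L_symm hw0 hwy
      have h' : y + m' ∈ S.ext.L w := S.ext.mem_L_symm hw0 h
      have hmw : m' ∈ S.ext.L w := by simpa using Submodule.sub_mem _ h' hyL
      obtain ⟨p, q, hpq⟩ := S.ext.mem_L.mp hmw
      change p • w + q • S.D w = m' at hpq
      have hmy : ∃ c e : F, m' = c • y + e • S.D y := by
        refine ⟨p * a + q * b * S.ε, p * b + q * a, ?_⟩
        rw [← hpq, ← hab, map_add, map_smul, map_smul, S.sq]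
        module
      obtain ⟨c, e, hce⟩ := hmy
      have e1 := m'y
      have e2 := m'Dy
      rw [hce, bl.add_left, bl.smul_left, bl.smul_left, alt, S.anti] at e1
      rw [hce, bl.add_left, bl.smul_left, bl.smul_left, alt] at e2
      have he : e = 0 := (mul_eq_zero.mp (show e * S.R y = 0 by
        rw [R_apply]; linear_combination -e1)).resolve_right hRy
      have hc : c = 0 := (mul_eq_zero.mp (show c * S.R y = 0 by
        rw [R_apply]; linear_combination e2)).resolve_right hRy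
      exact hm'0 (by rw [hce, hc, he]; simp)
  obtain ⟨k, hkM, hk⟩ := S.refl_mem hR hRn
  set d := (-(2 / S.R n)) • (f w (S.D n) • n - f w n • S.D n) with hd
  have hku : ap k u = u := by
    rw [hk, S.hform_symm n u, n2, S.symp.skew u n, n1]; simp
  have hkw : ap k w = w + d := by rw [hk, hd]
  have hwd : f w d = 0 := by
    rw [hd, bl.smul_right, Symp.sub_right S.symp, bl.smul_right, bl.smul_right]; ring
  have hdw : f d w = 0 := by rw [S.symp.skew, hwd, neg_zero]
  have hc0 : -(2 / S.R n) ≠ 0 := neg_ne_zero.mpr (div_ne_zero S.two hRn)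
  have hdn : d ∈ S.ext.L n := by
    rw [hd]
    refine Submodule.smul_mem _ _ (S.ext.mem_L.mpr ⟨f w (S.D n), -f w n, ?_⟩)
    change f w (S.D n) • n + (-f w n) • S.D n = _
    module
  have hRd : S.R d ≠ 0 := by
    have e : S.R d =
        -(2 / S.R n) * -(2 / S.R n) * ((f w (S.D n) ^ 2 - S.ε * f w n ^ 2) * S.R n) := by
      rw [hd, QuadraticMap.map_smul, sub_eq_add_neg, ← neg_smul, S.R_add, QuadraticMap.map_smul,
        QuadraticMap.map_smul, S.R_D, map_smul, S.sq]
      simp only [bl.smul_left, bl.smul_right, alt, smul_eq_mul]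
      ring
    rw [e]
    exact mul_ne_zero (mul_ne_zero hc0 hc0) (mul_ne_zero (S.norm2_ne (Or.inl hwn)) hRn)
  refine ⟨d, (2 : F) • w + d, hRd, ?_, ?_, fun t => ?_⟩
  · intro hb
    have hdd : d ∈ S.ext.L d := S.ext.mem_L.mpr ⟨1, 0, by simp⟩
    have h1 := Submodule.sub_mem _ hb hdd
    rw [add_sub_cancel_right, Submodule.smul_mem_iff _ S.two] at h1
    obtain ⟨a, b, hab⟩ := S.ext.mem_L.mp h1
    exact hwnL (hab ▸ Submodule.add_mem _ (Submodule.smul_mem _ a hdn)
      (Submodule.smul_mem _ b (S.ext.D_mem hdn)))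
  · rw [bl.add_right, bl.smul_right, hdw, alt]; ring
  · set A := Symp.T S.symp w (2 * t) * Symp.T S.symp u (-(S.ε * (2 * t))) with hAdef
    refine ⟨k * A * k⁻¹ * A⁻¹, mul_mem (mul_mem (mul_mem hkM (hA (2 * t))) (inv_mem hkM))
      (inv_mem (hA (2 * t))), fun x => ?_⟩
    have hconj : k * A * k⁻¹ =
        Symp.T S.symp (w + d) (2 * t) * Symp.T S.symp u (-(S.ε * (2 * t))) := by
      rw [hAdef, show k * (Symp.T S.symp w (2 * t) * Symp.T S.symp u (-(S.ε * (2 * t)))) * k⁻¹ =
        (k * Symp.T S.symp w (2 * t) * k⁻¹) * (k * Symp.T S.symp u (-(S.ε * (2 * t))) * k⁻¹) by group,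
        Symp.conj_T S.symp (hM hkM), Symp.conj_T S.symp (hM hkM), hku, hkw]
    have hAinv : A⁻¹ = Symp.T S.symp u (S.ε * (2 * t)) * Symp.T S.symp w (-(2 * t)) := by
      refine inv_eq_of_mul_eq_one_right ?_
      rw [hAdef, mul_assoc, ← mul_assoc (Symp.T S.symp u _) (Symp.T S.symp u _), Symp.T_mul,
        neg_add_cancel, Symp.T_zero_right, one_mul, Symp.T_mul, add_neg_cancel, Symp.T_zero_right]
    rw [hconj, hAinv]
    have hwu : f w u = 0 := by rw [S.symp.skew, huw, neg_zero]
    simp only [ap_mul, Symp.ap_T, S.symp.bilinear.add_left, S.symp.bilinear.smul_left,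
      S.symp.bilinear.add_right, S.symp.bilinear.smul_right, S.symp.alternating, huw, hwu, hwd, hdw]
    module

/-- The group is the whole isometry group. -/
theorem le_of_not_normalize
    (hnot : ∃ g ∈ M, ¬ ∃ a b : F, ∀ x, ap g (S.D x) = a • ap g x + b • S.D (ap g x)) :
    isom f ≤ M := by
  obtain ⟨d, b, hRd, hbd, hdb, hE⟩ := S.exists_pair hR hM hnot
  have hd : d ≠ 0 := fun h => hRd (by rw [h, map_zero])
  have hn := S.big
  have bl := S.symp.bilinear
  obtain ⟨z, hz, c1, c2, c3'⟩ : ∃ z, S.R z = 0 ∧ f z d = 0 ∧ f z (S.D d) = 0 ∧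
      (f b (S.D z) ≠ 0 ∨ f b z ≠ 0) := by
    obtain ⟨x, hx, hx0, hRx⟩ := exists_singular_mem (Q := S.R) (perpOf S.R ![d, S.D d]) (by
      have := card_le_finrank_perpOf (Q := S.R) ![d, S.D d]
      omega)
    have hxp := mem_perpOf.mp hx
    have x1 : f x d = 0 := S.perp_q' (hxp 1)
    have x2 : f x (S.D d) = 0 := S.perp_q (hxp 0)
    by_cases hxb : f b (S.D x) ≠ 0 ∨ f b x ≠ 0
    · exact ⟨x, hRx, x1, x2, hxb⟩
    push Not at hxb
    have hDb : S.D b ∉ S.ext.L d := fun h => hbd (S.ext.mem_of_sub_mem 0 (by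
      rw [zero_smul, sub_zero]; exact h))
    have hDx : S.D x ∉ S.ext.L d := fun h => by
      have hxL : x ∈ S.ext.L d := S.ext.mem_of_sub_mem 0 (by rw [zero_smul, sub_zero]; exact h)
      obtain ⟨p, q, hpq⟩ := S.ext.mem_L.mp hxL
      change p • d + q • S.D d = x at hpq
      rw [← hpq, bl.add_left, bl.smul_left, bl.smul_left, S.symp.alternating, S.anti] at x1
      rw [← hpq, bl.add_left, bl.smul_left, bl.smul_left, S.symp.alternating] at x2
      have hp : p = 0 := (mul_eq_zero.mp (show p * S.R d = 0 by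
        rw [R_apply]; linear_combination x2)).resolve_right hRd
      have hq : q = 0 := (mul_eq_zero.mp (show q * S.R d = 0 by
        rw [R_apply]; linear_combination -x1)).resolve_right hRd
      exact hx0 (by rw [← hpq, hp, hq]; simp)
    obtain ⟨y₁, hy₁, hby₁⟩ := Symp.exists_perp_ne S.symp hDb
    obtain ⟨y₂, hy₂, hxy₂⟩ := Symp.exists_perp_ne S.symp hDx
    rw [S.anti, neg_ne_zero] at hby₁ hxy₂
    obtain ⟨y, hy, hby, hxy⟩ : ∃ y ∈ Symp.perp S.symp (S.ext.L d),
        f b (S.D y) ≠ 0 ∧ f x (S.D y) ≠ 0 := by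
      by_cases e1 : f x (S.D y₁) = 0
      swap
      · exact ⟨y₁, hy₁, hby₁, e1⟩
      by_cases e2 : f b (S.D y₂) = 0
      swap
      · exact ⟨y₂, hy₂, e2, hxy₂⟩
      exact ⟨y₁ + y₂, Submodule.add_mem _ hy₁ hy₂,
        by rw [map_add, bl.add_right, e2, add_zero]; exact hby₁,
        by rw [map_add, bl.add_right, e1, zero_add]; exact hxy₂⟩
    have y1 : f y d = 0 := (Symp.mem_perp S.symp).mp hy d (S.ext.mem_L.mpr ⟨1, 0, by simp⟩)
    have y2 : f y (S.D d) = 0 :=
      (Symp.mem_perp S.symp).mp hy (S.D d) (S.ext.mem_L.mpr ⟨0, 1, by simp [Data.ext]⟩)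
    refine ⟨y - (S.R y / (2 * f x (S.D y))) • x, ?_, ?_, ?_, Or.inl ?_⟩
    · have := S.two
      rw [sub_eq_add_neg, ← neg_smul, S.R_add, QuadraticMap.map_smul, hRx, map_smul, bl.smul_right,
        S.hform_symm x y]
      simp
      field_simp
      ring
    · rw [Symp.sub_left S.symp, bl.smul_left, y1, x1]; ring
    · rw [Symp.sub_left S.symp, bl.smul_left, y2, x2]; ring
    · rw [map_sub, map_smul, Symp.sub_right S.symp, bl.smul_right, hxb.1, mul_zero, sub_zero]
      exact hby
  set k := S.τ z 1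
  have hkM : k ∈ M := S.τ_mem hR hz 1
  have hkd : ap k d = d := by
    rw [S.ap_τ hz]
    simp [S.symp.skew d z, c1, S.hform_symm z d, c2]
  set b' := ap k b with hb'
  have hbb' : f b b' = f b (S.D z) ^ 2 - S.ε * f b z ^ 2 := by
    rw [hb', S.ap_τ hz]
    simp only [Symp.sub_right S.symp, S.symp.bilinear.add_right, S.symp.bilinear.smul_right,
      S.symp.alternating]
    ring
  have hdb' : f d b' = 0 := by
    have := hM hkM d b
    change f (ap k d) b' = _ at this
    rw [hkd] at this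
    rw [this, hdb]
  obtain ⟨G', hG', hG'ap⟩ := hE 1
  have hG2 : ∀ x, ap (k * G' * k⁻¹) x = x + (f x d • b' + f x b' • d) := by
    intro x
    have h1 : f (ap k⁻¹ x) d = f x d := by
      have := hM hkM (ap k⁻¹ x) d
      change f (ap k (ap k⁻¹ x)) (ap k d) = _ at this
      rw [ap_ap_inv, hkd] at this
      exact this.symm
    have h2 : f (ap k⁻¹ x) b = f x b' := by
      have := hM hkM (ap k⁻¹ x) b
      change f (ap k (ap k⁻¹ x)) (ap k b) = _ at this
      rw [ap_ap_inv] at this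
      exact this.symm
    rw [ap_mul, ap_mul, hG'ap, one_smul, ap_add, ap_ap_inv, ap_add, ap_smul, ap_smul, h1, h2, hkd]
  have hcen : S.Cen M d := by
    intro c
    have hκ : f b b' ≠ 0 := by rw [hbb']; exact S.norm2_ne c3'
    obtain ⟨G, hG, hGap⟩ := hE (-c / (2 * f b b'))
    set B := k * G' * k⁻¹
    have hB : B ∈ M := mul_mem (mul_mem hkM hG') (inv_mem hkM)
    have key : Symp.T S.symp d c * (B * G) = G * B := by
      refine gl_ext fun x => ?_
      have hbd' : f b d = 0 := by rw [S.symp.skew, hdb, neg_zero]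
      have hb'd : f b' d = 0 := by rw [S.symp.skew, hdb', neg_zero]
      simp only [ap_mul, hGap, hG2, Symp.ap_T, S.symp.bilinear.add_left, S.symp.bilinear.smul_left,
        S.symp.alternating, hdb, hdb', hbd', hb'd, S.symp.skew b' b]
      have := S.two
      match_scalars <;> field_simp <;> ring
    rw [show Symp.T S.symp d c = G * B * (B * G)⁻¹ by rw [← key]; group]
    exact mul_mem (mul_mem hG hB) (inv_mem (mul_mem hB hG))
  exact Symp.isom_le_of_T_mem S.symp fun v c => S.cen_all hR hM hd hcen v c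

omit hR hM in
/-- Some isometry does not normalise the field. -/
theorem exists_not_normalize : ∃ g ∈ isom f,
    ¬ ∃ a b : F, ∀ x, ap g (S.D x) = a • ap g x + b • S.D (ap g x) := by
  have hne : Nonempty ι := Fintype.card_pos_iff.mp (by have := S.big; omega)
  obtain ⟨x, hx, -, hRx⟩ : ∃ x : ι → F, x ≠ 0 ∧ True ∧ S.R x = 0 := by
    obtain ⟨z, -, hz, hQz⟩ := exists_singular_mem (Q := S.R) ⊤
      (by rw [finrank_top, Module.finrank_fintype_fun_eq_card]; have := S.big; omega)
    exact ⟨z, hz, trivial, hQz⟩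
  obtain ⟨p, hp⟩ := (S.symp.nondegenerate _ (show S.D x ≠ 0 from fun h =>
    S.irred x hx 0 (by rw [h, zero_smul]))).1
  obtain ⟨w, hxw, hDxw⟩ : ∃ w, f x w = 0 ∧ f (S.D x) w ≠ 0 := by
    have hD : S.D x ∉ Submodule.span F {x} := fun h => by
      obtain ⟨a, ha⟩ := Submodule.mem_span_singleton.mp h
      exact S.irred x hx a ha.symm
    obtain ⟨w, hw, hne⟩ := Symp.exists_perp_ne S.symp hD
    exact ⟨w, by rw [S.symp.skew, (Symp.mem_perp_span S.symp).mp hw, neg_zero], hne⟩
  refine ⟨Symp.T S.symp w 1, Symp.T_mem_isom S.symp _ _, ?_⟩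
  rintro ⟨a, b, hab⟩
  have h := hab x
  rw [Symp.ap_T_fix S.symp (x := x) 1 hxw, Symp.ap_T, one_mul] at h
  have h' : f (S.D x) w • w ∈ S.ext.L x := S.ext.mem_L.mpr ⟨a, b - 1, by
    change a • x + (b - 1) • S.D x = _
    linear_combination (norm := module) -h⟩
  rw [Submodule.smul_mem_iff _ hDxw] at h'
  obtain ⟨α, β, hw⟩ := S.ext.mem_L.mp h'
  change α • x + β • S.D x = w at hw
  rw [← hw, S.symp.bilinear.add_right, S.symp.bilinear.smul_right, S.symp.bilinear.smul_right,
    S.symp.alternating, S.symp.skew] at hDxw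
  rw [R_apply] at hRx
  simp [hRx] at hDxw

end Data

end CfsgLib.Geometric.ExtF.SympQuadExtSix
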