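import Cfsg.Agent.Lib.Geometric.ExtField.Normaliser
import Cfsg.Agent.Lib.Geometric.Unitary

/-!
A skew-hermitian form over a field extension of odd prime degree: fixed fields, isotropic vectors,
transvections and Eichler elements.
-/

set_option autoImplicit false
set_option linter.unusedSectionVars false

namespace CfsgLib.Geometric.ExtF

open Module Matrix

variable {F : Type*} [Field F] {ι : Type} [Fintype ι] [DecidableEq ι] {E : Type*} [Field E]
  [Algebra F E] [Module E (ι → F)] [IsScalarTower F E (ι → F)]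

/-- A skew-hermitian form over `E` on `ι → F`, with a functional to `F`. -/
structure UForm (F : Type*) [Field F] (E : Type*) [Field E] [Algebra F E] (ι : Type)
    [Module E (ι → F)] where
  /-- The involution of the base field. -/
  σ : F ≃+* F
  /-- The involution of the extension. -/
  τ : E ≃+* E
  /-- The functional. -/
  T : E →ₗ[F] F
  /-- The form. -/
  φ : (ι → F) → (ι → F) → E
  σ_ne : σ ≠ RingEquiv.refl F
  σ_invol : ∀ c, σ (σ c) = c
  τ_invol : ∀ a, τ (τ a) = a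
  τ_map : ∀ c : F, τ (algebraMap F E c) = algebraMap F E (σ c)
  T_τ : ∀ a, T (τ a) = σ (T a)
  T_ne : T ≠ 0
  add_left : ∀ x y z, φ (x + y) z = φ x z + φ y z
  smul_left : ∀ (a : E) x y, φ (a • x) y = a * φ x y
  skew : ∀ x y, φ y x = -τ (φ x y)
  nondeg : ∀ x, x ≠ 0 → ∃ y, φ x y ≠ 0

namespace UForm

variable (S : UForm F E ι)

/-- The form over the base field. -/
def f (x y : ι → F) : F := S.T (S.φ x y)

lemma f_def (x y : ι → F) : S.f x y = S.T (S.φ x y) := rfl

/-- The functional `x ↦ φ x y`. -/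
def l (y : ι → F) : (ι → F) →ₗ[E] E where
  toFun x := S.φ x y
  map_add' x z := S.add_left x z y
  map_smul' a x := S.smul_left a x y

@[simp] lemma l_apply (y x : ι → F) : S.l y x = S.φ x y := rfl

lemma zero_left (y : ι → F) : S.φ 0 y = 0 := (S.l y).map_zero

lemma sub_left (x y z : ι → F) : S.φ (x - y) z = S.φ x z - S.φ y z := (S.l z).map_sub x y

lemma neg_left (x y : ι → F) : S.φ (-x) y = -S.φ x y := (S.l y).map_neg x

lemma add_right (x y z : ι → F) : S.φ x (y + z) = S.φ x y + S.φ x z := by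
  rw [S.skew (y + z) x, S.add_left, map_add, S.skew y x, S.skew z x]; ring

lemma smul_right (a : E) (x y : ι → F) : S.φ x (a • y) = S.τ a * S.φ x y := by
  rw [S.skew (a • y) x, S.smul_left, map_mul, S.skew y x]; ring

lemma zero_right (y : ι → F) : S.φ y 0 = 0 := by rw [S.skew, S.zero_left, map_zero, neg_zero]

lemma sub_right (x y z : ι → F) : S.φ x (y - z) = S.φ x y - S.φ x z := by
  rw [S.skew (y - z) x, S.sub_left, map_sub, S.skew y x, S.skew z x]; ring

lemma eq_zero_comm {x y : ι → F} : S.φ x y = 0 ↔ S.φ y x = 0 := by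
  rw [S.skew x y, neg_eq_zero, map_eq_zero_iff _ S.τ.injective]

lemma τ_smul (c : F) (a : E) : S.τ (c • a) = S.σ c • S.τ a := by
  rw [Algebra.smul_def, map_mul, S.τ_map, Algebra.smul_def]

lemma T_mul_ext {e e' : E} (h : ∀ a, S.T (a * e) = S.T (a * e')) : e = e' := by
  by_contra hne
  apply S.T_ne
  refine LinearMap.ext fun a => ?_
  have h1 := h (a / (e - e'))
  rw [← sub_eq_zero, ← map_sub, ← mul_sub, div_mul_cancel₀ _ (sub_ne_zero.mpr hne)] at h1
  simpa using h1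

lemma exists_T_one {c : E} (hc : c ≠ 0) : ∃ p, S.T (p * c) = 1 := by
  obtain ⟨a, ha⟩ : ∃ a, S.T a ≠ 0 := by
    by_contra h
    push Not at h
    exact S.T_ne (LinearMap.ext h)
  refine ⟨((S.T a)⁻¹ • a) / c, ?_⟩
  rw [div_mul_cancel₀ _ hc, map_smul, smul_eq_mul, inv_mul_cancel₀ ha]

lemma isSkewForm : IsSkewForm S.σ S.f := by
  refine ⟨S.σ_ne, S.σ_invol, fun x y v => ?_, fun c x v => ?_, fun v w => ?_, fun v hv => ?_⟩
  · rw [f_def, f_def, f_def, S.add_left, map_add]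
  · rw [f_def, f_def, ← algebraMap_smul E c x, S.smul_left, ← Algebra.smul_def, map_smul,
      smul_eq_mul]
  · rw [f_def, f_def, S.skew w v, map_neg, S.T_τ]
  · obtain ⟨y, hy⟩ := S.nondeg v hv
    obtain ⟨p, hp⟩ := S.exists_T_one hy
    refine ⟨⟨S.τ p • y, ?_⟩, ⟨S.τ p • y, ?_⟩⟩
    · rw [f_def, S.skew v, map_neg, S.T_τ, S.smul_right, S.τ_invol, hp, map_one]
      simp
    · rw [f_def, S.smul_right, S.τ_invol, hp]
      exact one_ne_zero

/-! ### Fixed fields -/

lemma exists_moved : ∃ ω : F, S.σ ω ≠ ω := by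
  by_contra h
  push Not at h
  exact S.σ_ne (RingEquiv.ext h)

/-- A scalar moved by the involution. -/
noncomputable def om : F := S.exists_moved.choose

lemma om_moved : S.σ S.om ≠ S.om := S.exists_moved.choose_spec

lemma om_sub_ne : algebraMap F E S.om - algebraMap F E (S.σ S.om) ≠ 0 :=
  sub_ne_zero.mpr fun h => S.om_moved ((algebraMap F E).injective h).symm

/-- An element is a sum of a fixed element and a multiple of one. -/
lemma decomp (e : E) : ∃ x y, S.τ x = x ∧ S.τ y = y ∧ e = x + S.om • y := by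
  set w := algebraMap F E S.om with hw
  set w' := algebraMap F E (S.σ S.om) with hw'
  have h1 : S.τ w = w' := S.τ_map _
  have h2 : S.τ w' = w := by rw [hw', S.τ_map, S.σ_invol]
  have hne : w - w' ≠ 0 := S.om_sub_ne
  have hne' : w' - w ≠ 0 := by rwa [← neg_sub, neg_ne_zero]
  have hy : S.τ ((e - S.τ e) / (w - w')) = (e - S.τ e) / (w - w') := by
    rw [map_div₀, map_sub, map_sub, S.τ_invol, h1, h2, div_eq_div_iff hne' hne]
    ring
  refine ⟨e - w * ((e - S.τ e) / (w - w')), (e - S.τ e) / (w - w'), ?_, hy, ?_⟩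
  · rw [map_sub, map_mul, hy, h1]
    field_simp
    ring
  · rw [Algebra.smul_def]; ring

/-- The decomposition is unique. -/
lemma decomp_unique {x y x' y' : E} (hx : S.τ x = x) (hy : S.τ y = y) (hx' : S.τ x' = x')
    (hy' : S.τ y' = y') (h : x + S.om • y = x' + S.om • y') : x = x' ∧ y = y' := by
  have h2 := congrArg S.τ h
  rw [map_add, map_add, S.τ_smul, S.τ_smul, hx, hy, hx', hy'] at h2
  simp only [Algebra.smul_def] at h h2
  have h3 : (algebraMap F E S.om - algebraMap F E (S.σ S.om)) * (y - y') = 0 := by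
    linear_combination h - h2
  obtain rfl : y = y' := sub_eq_zero.mp ((mul_eq_zero.mp h3).resolve_left S.om_sub_ne)
  exact ⟨add_right_cancel h, rfl⟩

/-- The fixed field of the extension, as a set. -/
abbrev Fix : Type _ := {e : E // S.τ e = e}

/-- The fixed field of the base. -/
def fxF : Subfield F where
  carrier := {x | S.σ x = x}
  zero_mem' := map_zero S.σ
  one_mem' := map_one S.σ
  add_mem' {a b} (ha : S.σ a = a) (hb : S.σ b = b) := show S.σ (a + b) = a + b by rw [map_add, ha, hb]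
  mul_mem' {a b} (ha : S.σ a = a) (hb : S.σ b = b) := show S.σ (a * b) = a * b by rw [map_mul, ha, hb]
  neg_mem' {a} (ha : S.σ a = a) := show S.σ (-a) = -a by rw [map_neg, ha]
  inv_mem' a (ha : S.σ a = a) := show S.σ a⁻¹ = a⁻¹ by rw [map_inv₀, ha]

lemma mem_fxF {x : F} : x ∈ S.fxF ↔ S.σ x = x := Iff.rfl

/-- The order of the fixed field of the base. -/
noncomputable def q : ℕ := Nat.card S.fxF

variable [Finite F] [Finite E]

lemma two_le_q : 2 ≤ S.q := Finite.one_lt_card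

lemma card_eq_fix_sq : Nat.card E = Nat.card S.Fix ^ 2 := by
  rw [sq, ← Nat.card_prod]
  refine (Nat.card_eq_of_bijective (fun p : S.Fix × S.Fix => (p.1 : E) + S.om • (p.2 : E))
    ⟨fun p p' h => ?_, fun e => ?_⟩).symm
  · obtain ⟨h1, h2⟩ := S.decomp_unique p.1.2 p.2.2 p'.1.2 p'.2.2 h
    exact Prod.ext (Subtype.ext h1) (Subtype.ext h2)
  · obtain ⟨x, y, hx, hy, rfl⟩ := S.decomp e
    exact ⟨(⟨x, hx⟩, ⟨y, hy⟩), rfl⟩

lemma card_base : Nat.card F = S.q ^ 2 := by
  have hne : S.om - S.σ S.om ≠ 0 := sub_ne_zero.mpr (Ne.symm S.om_moved)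
  have hne' : S.σ S.om - S.om ≠ 0 := sub_ne_zero.mpr S.om_moved
  rw [q, sq, ← Nat.card_prod]
  refine (Nat.card_eq_of_bijective (fun p : S.fxF × S.fxF => (p.1 : F) + S.om * (p.2 : F))
    ⟨fun p p' h => ?_, fun e => ?_⟩).symm
  · have h2 := congrArg S.σ h
    simp only [map_add, map_mul, S.mem_fxF.mp p.1.2, S.mem_fxF.mp p.2.2, S.mem_fxF.mp p'.1.2,
      S.mem_fxF.mp p'.2.2] at h h2
    have h3 : (S.om - S.σ S.om) * ((p.2 : F) - p'.2) = 0 := by linear_combination h - h2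
    have e2 : (p.2 : F) = p'.2 := sub_eq_zero.mp ((mul_eq_zero.mp h3).resolve_left hne)
    exact Prod.ext (Subtype.ext (by linear_combination h - S.om * e2)) (Subtype.ext e2)
  · have hy : S.σ ((e - S.σ e) / (S.om - S.σ S.om)) = (e - S.σ e) / (S.om - S.σ S.om) := by
      rw [map_div₀, map_sub, map_sub, S.σ_invol, S.σ_invol, div_eq_div_iff hne' hne]
      ring
    refine ⟨(⟨e - S.om * ((e - S.σ e) / (S.om - S.σ S.om)), ?_⟩, ⟨_, hy⟩), by simp⟩
    rw [mem_fxF, map_sub, map_mul, hy]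
    field_simp
    ring

lemma card_ext : Nat.card E = (S.q ^ finrank F E) ^ 2 := by
  rw [Module.natCard_eq_pow_finrank (K := F), S.card_base, ← pow_mul, ← pow_mul, mul_comm]

lemma card_fix : Nat.card S.Fix = S.q ^ finrank F E :=
  Nat.pow_left_injective two_ne_zero (S.card_eq_fix_sq.symm.trans S.card_ext)

/-- The functional is non-zero on the fixed field. -/
lemma exists_fix_T_ne : ∃ y, S.τ y = y ∧ S.T y ≠ 0 := by
  by_contra h
  push Not at h
  refine S.T_ne (LinearMap.ext fun e => ?_)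
  obtain ⟨x, y, hx, hy, rfl⟩ := S.decomp e
  simp [h x hx, h y hy]

lemma exists_sub_eq {s : E} (hs : S.τ s = -s) : ∃ a, a - S.τ a = s := by
  obtain ⟨θ, hθ⟩ := Unitary.exists_trace S.isSkewForm
  refine ⟨algebraMap F E θ * s, ?_⟩
  rw [map_mul, S.τ_map, hs]
  have : algebraMap F E θ + algebraMap F E (S.σ θ) = 1 := by rw [← map_add, hθ, map_one]
  linear_combination s * this

lemma τ_ne : (S.τ : E →+* E) ≠ RingHom.id E := fun h => by
  have := RingHom.congr_fun h (algebraMap F E S.om)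
  simp only [RingEquiv.coe_toRingHom, RingHom.id_apply, S.τ_map] at this
  exact S.om_moved ((algebraMap F E).injective this)

lemma exists_norm {c : E} (hc : S.τ c = c) : ∃ ν, ν * S.τ ν = c := by
  obtain ⟨ν, hν⟩ := CfsgLib.Forms.exists_norm_eq (S.τ : E →+* E) S.τ_ne S.τ_invol c hc
  exact ⟨ν, by rw [mul_comm]; exact hν⟩

lemma skew_self (x : ι → F) : S.τ (S.φ x x) = -S.φ x x := by linear_combination S.skew x x

/-! ### Isotropic vectors -/

/-- A vector pairing to one. -/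
lemma exists_one_pair {v : ι → F} (hv : v ≠ 0) : ∃ y, S.φ v y = 1 := by
  obtain ⟨y, hy⟩ := S.nondeg v hv
  exact ⟨S.τ (S.φ v y)⁻¹ • y, by rw [S.smul_right, S.τ_invol, inv_mul_cancel₀ hy]⟩

/-- The hyperbolic partner of an isotropic vector. -/
lemma exists_hyper {v : ι → F} (hv : v ≠ 0) (hvv : S.φ v v = 0) :
    ∃ w, S.φ w w = 0 ∧ S.φ v w = 1 := by
  obtain ⟨y, hy⟩ := S.exists_one_pair hv
  obtain ⟨a, ha⟩ := S.exists_sub_eq (s := -S.φ y y) (by rw [map_neg, S.skew_self])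
  refine ⟨y + a • v, ?_, ?_⟩
  · have hyv : S.φ y v = -1 := by rw [S.skew v y, hy, map_one]
    simp only [S.add_left, S.add_right, S.smul_left, S.smul_right, hvv, hy, hyv]
    linear_combination ha
  · rw [S.add_right, S.smul_right, hvv, hy, mul_zero, add_zero]

/-- Two dimensional spaces contain non-zero isotropic vectors. -/
lemma exists_iso (hm : ∀ v : ι → F, ∃ w : ι → F, ∀ a : E, a • v ≠ w) :
    ∃ v, v ≠ 0 ∧ S.φ v v = 0 := by
  obtain ⟨x, hx⟩ := hm 0
  have hx0 : x ≠ 0 := fun h => hx 0 (by rw [h, zero_smul])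
  by_cases hxx : S.φ x x = 0
  · exact ⟨x, hx0, hxx⟩
  obtain ⟨w, hw⟩ := hm x
  obtain ⟨y, hy, hyx⟩ : ∃ y, y ≠ 0 ∧ S.φ y x = 0 :=
    ⟨w - (S.φ w x / S.φ x x) • x, fun h => hw _ (sub_eq_zero.mp h).symm, by
      rw [S.sub_left, S.smul_left, div_mul_cancel₀ _ hxx, sub_self]⟩
  obtain ⟨ν, hν⟩ := S.exists_norm (c := -(S.φ y y / S.φ x x)) (by
    rw [map_neg, map_div₀, S.skew_self, S.skew_self, neg_div_neg_eq])
  refine ⟨y + ν • x, fun h => ?_, ?_⟩
  · have : S.φ (y + ν • x) x = 0 := by rw [h, S.zero_left]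
    rw [S.add_left, S.smul_left, hyx, zero_add, mul_eq_zero, or_iff_left hxx] at this
    rw [this, zero_smul, add_zero] at h
    exact hy h
  · simp only [S.add_left, S.add_right, S.smul_left, S.smul_right, hyx, S.eq_zero_comm.mp hyx]
    field_simp at hν
    linear_combination hν

/-- An isotropic vector pairing with a given one. -/
lemma exists_iso_pair (hm : ∀ v : ι → F, ∃ w : ι → F, ∀ a : E, a • v ≠ w) {u : ι → F}
    (hu : S.φ u u ≠ 0) : ∃ v, v ≠ 0 ∧ S.φ v v = 0 ∧ S.φ u v = 1 := by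
  obtain ⟨v₀, hv₀, hv₀0⟩ := S.exists_iso hm
  obtain ⟨w₀, hw₀, hvw⟩ := S.exists_hyper hv₀ hv₀0
  have hwv : S.φ w₀ v₀ = -1 := by rw [S.skew v₀ w₀, hvw, map_one]
  obtain ⟨z, hz, huz⟩ : ∃ z, S.φ z z = 0 ∧ S.φ u z ≠ 0 := by
    by_cases h1 : S.φ u v₀ ≠ 0
    · exact ⟨v₀, hv₀0, h1⟩
    by_cases h2 : S.φ u w₀ ≠ 0
    · exact ⟨w₀, hw₀, h2⟩
    push Not at h1 h2
    obtain ⟨a, ha⟩ := S.exists_sub_eq (S.skew_self u)
    refine ⟨v₀ + a • w₀ + u, ?_, ?_⟩
    · simp only [S.add_left, S.add_right, S.smul_left, S.smul_right, hv₀0, hw₀, hvw, hwv, h1, h2,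
        S.eq_zero_comm.mp h1, S.eq_zero_comm.mp h2]
      linear_combination -ha
    · simpa [S.add_right, S.smul_right, h1, h2] using hu
  have huv : S.φ u (S.τ (S.φ u z)⁻¹ • z) = 1 := by
    rw [S.smul_right, S.τ_invol, inv_mul_cancel₀ huz]
  exact ⟨_, fun h => by rw [h, S.zero_right] at huv; exact zero_ne_one huv,
    by rw [S.smul_left, S.smul_right, hz, mul_zero, mul_zero], huv⟩

/-! ### Elements -/

/-- An element linear over `E` preserving the form. -/
def IsIsom (g : GL ι F) : Prop :=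
  (∀ (a : E) x, ap g (a • x) = a • ap g x) ∧ ∀ x y, S.φ (ap g x) (ap g y) = S.φ x y

lemma IsIsom.mul {g h : GL ι F} (hg : S.IsIsom g) (hh : S.IsIsom h) : S.IsIsom (g * h) :=
  ⟨fun a x => by rw [ap_mul, hh.1, hg.1, ap_mul], fun x y => by rw [ap_mul, ap_mul, hg.2, hh.2]⟩

variable {X : Subgroup (GL ι F)}
  (hX : ∀ g, S.IsIsom g → g ∈ Cfsg.Geo.specialLinear ι F → g ∈ X)

/-- The transvection over `E` at an isotropic vector. -/
def tr (u : ι → F) (a : E) (hu : S.φ u u = 0) : GL ι F :=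
  qT (dyad F (LinearMap.mulLeft F a) u (S.l u)) (dyad_sq _ u (S.l u) hu)

@[simp] lemma ap_tr (u : ι → F) (a : E) (hu : S.φ u u = 0) (x : ι → F) :
    ap (S.tr u a hu) x = x + (a * S.φ x u) • u := by simp [tr]

lemma tr_isom {u : ι → F} {a : E} (hu : S.φ u u = 0) (ha : S.τ a = a) :
    S.IsIsom (S.tr u a hu) := by
  refine ⟨fun b x => ?_, fun x y => ?_⟩
  · simp [S.smul_left, smul_add, smul_smul, mul_left_comm]
  · simp only [ap_tr, S.add_left, S.add_right, S.smul_left, S.smul_right, map_mul, ha, hu]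
    rw [S.skew y u]
    ring

/-- The Eichler element over `E`. -/
def ei (u y : ι → F) (c : E) (hu : S.φ u u = 0) (hyu : S.φ y u = 0) : GL ι F :=
  qT (dyad F LinearMap.id y (S.l u)) (dyad_sq _ y (S.l u) hyu) *
    qT (dyad F LinearMap.id u (S.l y + c • S.l u))
      (dyad_sq _ u _ (by simp [hu, S.eq_zero_comm.mp hyu]))

lemma ap_ei (u y : ι → F) (c : E) (hu : S.φ u u = 0) (hyu : S.φ y u = 0) (x : ι → F) :
    ap (S.ei u y c hu hyu) x = x + S.φ x u • y + (S.φ x y + c * S.φ x u) • u := by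
  simp only [ei, ap_mul, ap_qT, dyad_apply, LinearMap.id_apply, LinearMap.add_apply,
    LinearMap.smul_apply, l_apply, smul_eq_mul, S.add_left, S.smul_left, hu]
  module

lemma ei_isom {u y : ι → F} {c : E} (hu : S.φ u u = 0) (hyu : S.φ y u = 0)
    (hc : c - S.τ c = S.φ y y) : S.IsIsom (S.ei u y c hu hyu) := by
  refine ⟨fun b x => ?_, fun x z => ?_⟩
  · simp only [ap_ei, S.smul_left, smul_add, smul_smul]
    match_scalars <;> ring
  · simp only [ap_ei, S.add_left, S.add_right, S.smul_left, S.smul_right, map_add, map_mul, hu,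
      hyu, S.eq_zero_comm.mp hyu]
    rw [S.skew z u, S.skew z y]
    linear_combination -(S.φ x u * S.τ (S.φ z u)) * hc

lemma ei_sl {u y : ι → F} {c : E} (hu : S.φ u u = 0) (hyu : S.φ y u = 0) :
    S.ei u y c hu hyu ∈ Cfsg.Geo.specialLinear ι F :=
  mul_mem (det_qT _ _) (det_qT _ _)

include hX

lemma tr_mem {u : ι → F} {a : E} (hu : S.φ u u = 0) (ha : S.τ a = a) : S.tr u a hu ∈ X :=
  hX _ (S.tr_isom hu ha) (det_qT _ _)

lemma ei_mem {u y : ι → F} {c : E} (hu : S.φ u u = 0) (hyu : S.φ y u = 0)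
    (hc : c - S.τ c = S.φ y y) : S.ei u y c hu hyu ∈ X :=
  hX _ (S.ei_isom hu hyu hc) (S.ei_sl hu hyu)

/-- Exchange of the ends of a hyperbolic pair. -/
lemma exists_swap {v w : ι → F} (hv : S.φ v v = 0) (hw : S.φ w w = 0) (hvw : S.φ v w = 1) :
    ∃ g ∈ X, S.IsIsom g ∧ ap g v = w := by
  have hwv : S.φ w v = -1 := by rw [S.skew v w, hvw, map_one]
  refine ⟨S.tr v 1 hv * S.tr w 1 hw,
    mul_mem (S.tr_mem hX hv (map_one _)) (S.tr_mem hX hw (map_one _)),
    (S.tr_isom hv (map_one _)).mul S (S.tr_isom hw (map_one _)), ?_⟩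
  simp only [ap_mul, ap_tr, hvw, hwv, S.add_left, S.smul_left, hv]
  module

/-- Scaling of the ends of a hyperbolic pair by fixed scalars. -/
lemma exists_scale {v w : ι → F} (hv : S.φ v v = 0) (hw : S.φ w w = 0) (hvw : S.φ v w = 1)
    {x : E} (hx : S.τ x = x) (hx0 : x ≠ 0) : ∃ g ∈ X, S.IsIsom g ∧ ap g v = x • v := by
  have hwv : S.φ w v = -1 := by rw [S.skew v w, hvw, map_one]
  have hx' : S.τ (-x)⁻¹ = (-x)⁻¹ := by rw [map_inv₀, map_neg, hx]
  have hxn : S.τ (-x) = -x := by rw [map_neg, hx]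
  refine ⟨S.tr w (-x)⁻¹ hw * S.tr v (-x) hv * (S.tr v 1 hv * S.tr w 1 hw),
    mul_mem (mul_mem (S.tr_mem hX hw hx') (S.tr_mem hX hv hxn))
      (mul_mem (S.tr_mem hX hv (map_one _)) (S.tr_mem hX hw (map_one _))),
    ((S.tr_isom hw hx').mul S (S.tr_isom hv hxn)).mul S
      ((S.tr_isom hv (map_one _)).mul S (S.tr_isom hw (map_one _))), ?_⟩
  simp only [ap_mul, ap_tr, hvw, hwv, S.add_left, S.smul_left, hv, hw]
  match_scalars <;> field_simp <;> ring

/-- Transitivity on non-zero isotropic vectors paired by one. -/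
lemma exists_move_line {v v' : ι → F} (hv : v ≠ 0) (hvv : S.φ v v = 0) (hv' : v' ≠ 0)
    (hvv' : S.φ v' v' = 0) : ∃ g ∈ X, S.IsIsom g ∧ ∃ b : E, b ≠ 0 ∧ ap g v = b • v' := by
  have one : ∀ v v', v ≠ 0 → S.φ v v = 0 → S.φ v' v' = 0 → S.φ v v' ≠ 0 →
      ∃ g ∈ X, S.IsIsom g ∧ ∃ b : E, b ≠ 0 ∧ ap g v = b • v' := by
    intro v v' hv hvv hvv' hne
    set c := S.τ (S.φ v v')⁻¹ with hc
    obtain ⟨g, hg, hgi, hgv⟩ := S.exists_swap hX hvv (w := c • v')
      (by rw [S.smul_left, S.smul_right, hvv', mul_zero, mul_zero])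
      (by rw [S.smul_right, hc, S.τ_invol, inv_mul_cancel₀ hne])
    exact ⟨g, hg, hgi, c, by
      rw [hc]; exact (map_ne_zero_iff _ S.τ.injective).mpr (inv_ne_zero hne), hgv⟩
  by_cases h : S.φ v v' = 0
  swap
  · exact one v v' hv hvv hvv' h
  obtain ⟨w, hww, hvw⟩ := S.exists_hyper hv hvv
  obtain ⟨w', hw', hv'w'⟩ := S.exists_hyper hv' hvv'
  obtain ⟨z, hz, h1, h2⟩ : ∃ z, S.φ z z = 0 ∧ S.φ v z ≠ 0 ∧ S.φ v' z ≠ 0 := by
    by_cases ha : S.φ v' w ≠ 0
    · exact ⟨w, hww, by rw [hvw]; exact one_ne_zero, ha⟩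
    by_cases hb : S.φ v w' ≠ 0
    · exact ⟨w', hw', hb, by rw [hv'w']; exact one_ne_zero⟩
    push Not at ha hb
    obtain ⟨a, ha'⟩ := S.exists_sub_eq (s := -S.φ (w + w') (w + w'))
      (by rw [map_neg, S.skew_self])
    refine ⟨w + w' + a • v, ?_, ?_, ?_⟩
    · have h3 : S.φ v (w + w') = 1 := by rw [S.add_right, hvw, hb, add_zero]
      have h4 : S.φ (w + w') v = -1 := by rw [S.skew, h3, map_one]
      generalize w + w' = y at *
      simp only [S.add_left, S.add_right, S.smul_left, S.smul_right, hvv, h3, h4]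
      linear_combination ha'
    · simp [S.add_right, S.smul_right, hvv, hvw, hb]
    · simp [S.add_right, S.smul_right, S.eq_zero_comm.mp h, ha, hv'w']
  obtain ⟨g₁, hg₁, hi₁, b₁, hb₁, hm₁⟩ := one v z hv hvv hz h1
  have hz0 : z ≠ 0 := fun e => h1 (by rw [e, S.zero_right])
  obtain ⟨g₂, hg₂, hi₂, b₂, hb₂, hm₂⟩ := one z v' hz0 hz hvv' (by rwa [ne_eq, S.eq_zero_comm])
  exact ⟨g₂ * g₁, mul_mem hg₂ hg₁, hi₂.mul S hi₁, b₁ * b₂, mul_ne_zero hb₁ hb₂,
    by rw [ap_mul, hm₁, hi₂.1, hm₂, smul_smul]⟩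

end UForm

end CfsgLib.Geometric.ExtF
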