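import Cfsg.Agent.Lib.Geometric.ExtField.UnitLine
import Cfsg.Agent.Lib.Geometric.ExtField.SympTransv
import Cfsg.Agent.Lib.Geometric.UnitaryGen

/-!
A group containing the special isometries of a skew-hermitian form over an extension field of odd prime
degree and one further element contains every unitary transvection over the base field.
-/

set_option autoImplicit false
set_option linter.unusedSectionVars false

namespace CfsgLib.Geometric.ExtF

open Module Matrix

variable {F : Type*} [Field F] {ι : Type} [Fintype ι] [DecidableEq ι] {E : Type*} [Field E]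
  [Algebra F E] [Module E (ι → F)] [IsScalarTower F E (ι → F)] [Finite F] [Finite E]

namespace UForm

variable (S : UForm F E ι)

/-- The position `A` at `v` lies in `X`. -/
def Pos (X : Subgroup (GL ι F)) (v : ι → F) (A : E →ₗ[F] E) : Prop :=
  ∃ t ∈ X, ∀ x, ap t x = x + A (S.φ x v) • v

/-- An isometry scaling an isotropic line by a scalar not real up to the base field. -/
def HasScale (X : Subgroup (GL ι F)) (v : ι → F) : Prop :=
  ∃ g ∈ X, S.IsIsom g ∧ ∃ x y : E, S.τ x = x ∧ S.τ y = y ∧ x ≠ 0 ∧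
    y / x ∉ Set.range (algebraMap F E) ∧ ap g v = (x + S.om • y) • v

variable {X : Subgroup (GL ι F)} {v : ι → F}

lemma pos_add (hvv : S.φ v v = 0) {A B : E →ₗ[F] E} (hA : S.Pos X v A) (hB : S.Pos X v B) :
    S.Pos X v (A + B) := by
  obtain ⟨t, ht, ht'⟩ := hA
  obtain ⟨s, hs, hs'⟩ := hB
  refine ⟨t * s, mul_mem ht hs, fun x => ?_⟩
  rw [ap_mul, hs', ht', S.add_left, S.smul_left, hvv, mul_zero, add_zero, LinearMap.add_apply,
    add_smul]
  abel

lemma pos_neg (hvv : S.φ v v = 0) {A : E →ₗ[F] E} (hA : S.Pos X v A) : S.Pos X v (-A) := by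
  obtain ⟨t, ht, ht'⟩ := hA
  refine ⟨t⁻¹, inv_mem ht, fun x => ap_injective t ?_⟩
  rw [ap_ap_inv, ht', S.add_left, S.smul_left, hvv, mul_zero, add_zero, LinearMap.neg_apply,
    neg_smul]
  abel

lemma pos_zero : S.Pos X v 0 := ⟨1, one_mem X, fun x => by simp⟩

lemma pos_conj {g : GL ι F} (hg : g ∈ X) (hgi : S.IsIsom g) {b : E} (hgv : ap g v = b • v)
    {A : E →ₗ[F] E} (hA : S.Pos X v A) :
    S.Pos X v (LinearMap.mulLeft F b ∘ₗ A ∘ₗ LinearMap.mulLeft F (S.τ b)) := by
  obtain ⟨t, ht, ht'⟩ := hA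
  refine ⟨g * t * g⁻¹, mul_mem (mul_mem hg ht) (inv_mem hg), fun x => ?_⟩
  have h1 : S.φ (ap g⁻¹ x) v = S.τ b * S.φ x v := by
    rw [← hgi.2, ap_ap_inv, hgv, S.smul_right]
  simp [ap_mul, ap_add, ap_ap_inv, ht', hgi.1, hgv, h1, smul_smul, mul_comm]

variable (hX : ∀ g, S.IsIsom g → g ∈ Cfsg.Geo.specialLinear ι F → g ∈ X)
  (hXf : ∀ g ∈ X, ∀ x y, S.f (ap g x) (ap g y) = S.f x y)

include hXf in
/-- Positions are self-adjoint. -/
lemma pos_selfAdj (hvv : S.φ v v = 0) {p : ι → F} (hp : S.φ p v = 1) {A : E →ₗ[F] E}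
    (hA : S.Pos X v A) (e e' : E) : S.T (A e * S.τ e') = S.T (e * S.τ (A e')) := by
  obtain ⟨t, ht, ht'⟩ := hA
  have hvp : S.φ v p = -1 := by rw [S.skew p v, hp, map_one]
  have h := hXf t ht (e • p) (e' • p)
  rw [ht', ht', f_def, f_def] at h
  simp only [S.smul_left, hp, mul_one, S.add_left, S.add_right, S.smul_right, hvp, hvv,
    map_add, mul_zero, add_zero] at h
  simp only [mul_neg, map_neg, mul_one, mul_add, map_add] at h
  linear_combination -h

include hX

lemma pos_mul (hvv : S.φ v v = 0) {a : E} (ha : S.τ a = a) : S.Pos X v (LinearMap.mulLeft F a) :=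
  ⟨S.tr v a hvv, S.tr_mem hX hvv ha, fun x => by simp⟩

/-- Scaling by a fixed scalar of the base field. -/
lemma pos_smul (hv : v ≠ 0) (hvv : S.φ v v = 0) {A : E →ₗ[F] E} (hA : S.Pos X v A) {k : F}
    (hk : S.σ k = k) : S.Pos X v (k • A) := by
  obtain ⟨w, hw, hvw⟩ := S.exists_hyper hv hvv
  have key : ∀ k : F, S.σ k = k → S.Pos X v (k ^ 2 • A) := by
    intro k hk
    by_cases hk0 : k = 0
    · simp [hk0, S.pos_zero]
    obtain ⟨g, hg, hgi, hgv⟩ := S.exists_scale hX hvv hw hvw (x := algebraMap F E k)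
      (by rw [S.τ_map, hk]) (by simpa using hk0)
    have h := S.pos_conj hg hgi hgv hA
    rw [S.τ_map, hk] at h
    convert h using 1
    refine LinearMap.ext fun x => ?_
    simp [← Algebra.smul_def, map_smul, smul_smul, sq]
  obtain ⟨a, b, hab⟩ := exists_sq_add_sq (⟨k, hk⟩ : S.fxF)
  have hab' : k = (a : F) ^ 2 + (b : F) ^ 2 := (congrArg Subtype.val hab).symm
  rw [hab', add_smul]
  exact S.pos_add hvv (key a a.2) (key b b.2)

include hXf

/-- Every self-adjoint map is a position. -/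
theorem pos_all (hr : (finrank F E).Prime) (hv : v ≠ 0) (hvv : S.φ v v = 0) (hs : S.HasScale X v)
    {G : E →ₗ[F] E} (hGinj : Function.Injective G) (hG : ¬ Nrm G) {h : GL ι F} (hh : h ∈ X)
    (hGv : ∀ a : E, ap h (a • v) = G a • v) {A : E →ₗ[F] E}
    (hA : ∀ e e', S.T (A e * S.τ e') = S.T (e * S.τ (A e'))) : S.Pos X v A := by
  obtain ⟨w, hw, hvw⟩ := S.exists_hyper hv hvv
  obtain ⟨p, hp⟩ : ∃ p, S.φ p v = 1 := ⟨-w, by
    rw [S.neg_left, S.skew v w, hvw, map_one, neg_neg]⟩
  let Q : Submodule F (E →ₗ[F] E) := Submodule.span F {B | S.Pos X v B}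
  have hQ : ∀ B, S.Pos X v B → B ∈ Q := fun B hB => Submodule.subset_span hB
  have h1Q : LinearMap.id ∈ Q := by
    have := hQ _ (S.pos_mul hX hvv (map_one S.τ))
    rwa [LinearMap.mulLeft_one] at this
  -- two sided multiplications
  let M : E → E → (E →ₗ[F] E) → (E →ₗ[F] E) := fun a b B =>
    LinearMap.mulLeft F a ∘ₗ B ∘ₗ LinearMap.mulLeft F b
  have hMspan : ∀ a b, (∀ B, S.Pos X v B → M a b B ∈ Q) → ∀ B ∈ Q, M a b B ∈ Q := by
    intro a b hab B hB
    induction hB using Submodule.span_induction with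
    | mem B hB => exact hab B hB
    | zero => simp [M]
    | add B C _ _ hB hC =>
      have : M a b (B + C) = M a b B + M a b C := by
        simp [M, LinearMap.add_comp, LinearMap.comp_add]
      rw [this]; exact Q.add_mem hB hC
    | smul k B _ hB =>
      have : M a b (k • B) = k • M a b B := by simp [M, LinearMap.smul_comp, LinearMap.comp_smul]
      rw [this]; exact Q.smul_mem k hB
  have hreal : ∀ x, S.τ x = x → ∀ B ∈ Q, M x x B ∈ Q := by
    intro x hx
    by_cases hx0 : x = 0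
    · intro B _
      simp [M, hx0]
    obtain ⟨g, hg, hgi, hgv⟩ := S.exists_scale hX hvv hw hvw hx hx0
    exact hMspan x x fun B hB => hQ _ (by
      have := S.pos_conj hg hgi hgv hB
      rwa [hx] at this)
  obtain ⟨g, hg, hgi, x, y, hx, hy, hx0, hρ, hgv⟩ := hs
  have hb : ∀ B ∈ Q, M (x + S.om • y) (S.τ (x + S.om • y)) B ∈ Q :=
    hMspan _ _ fun B hB => hQ _ (S.pos_conj hg hgi hgv hB)
  have hleftρ : ∀ B ∈ Q, LinearMap.mulLeft F (y / x) ∘ₗ B ∈ Q := by
    have hyx : ∀ B ∈ Q, M y x B ∈ Q := by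
      intro B hB
      have h1 := hb B hB
      have hS : M x y B + M y x B ∈ Q := by
        have e : M x y B + M y x B = M (x + y) (x + y) B - M x x B - M y y B := by
          refine LinearMap.ext fun e => ?_
          simp [M, add_mul, mul_add]
          ring
        rw [e]
        exact Q.sub_mem (Q.sub_mem (hreal _ (by rw [map_add, hx, hy]) B hB) (hreal x hx B hB))
          (hreal y hy B hB)
      have e : (S.om - S.σ S.om) • M y x B = M (x + S.om • y) (S.τ (x + S.om • y)) B - M x x B -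
          (S.om * S.σ S.om) • M y y B - S.σ S.om • (M x y B + M y x B) := by
        refine LinearMap.ext fun e => ?_
        simp only [M, LinearMap.smul_apply, LinearMap.sub_apply, LinearMap.add_apply,
          LinearMap.comp_apply, LinearMap.mulLeft_apply, map_add, S.τ_smul, hx, hy, add_mul,
          smul_mul_assoc, map_smul, smul_add, smul_smul]
        module
      have h2 : (S.om - S.σ S.om) • M y x B ∈ Q := by
        rw [e]
        exact Q.sub_mem (Q.sub_mem (Q.sub_mem h1 (hreal x hx B hB))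
          (Q.smul_mem _ (hreal y hy B hB))) (Q.smul_mem _ hS)
      have := Q.smul_mem (S.om - S.σ S.om)⁻¹ h2
      rwa [smul_smul, inv_mul_cancel₀ (sub_ne_zero.mpr (Ne.symm S.om_moved)), one_smul] at this
    intro B hB
    have h1 := hreal x⁻¹ (by rw [map_inv₀, hx]) _ (hyx B hB)
    convert h1 using 1
    refine LinearMap.ext fun e => ?_
    simp only [M, LinearMap.comp_apply, LinearMap.mulLeft_apply]
    rw [← mul_assoc x, mul_inv_cancel₀ hx0, one_mul]
    field_simp
  let Lf : Subalgebra F E :=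
    { carrier := {a | ∀ B ∈ Q, LinearMap.mulLeft F a ∘ₗ B ∈ Q}
      mul_mem' := fun {a b} ha hb B hB => by
        have := ha _ (hb B hB)
        rwa [← LinearMap.comp_assoc, ← LinearMap.mulLeft_mul] at this
      one_mem' := fun B hB => by rw [LinearMap.mulLeft_one, LinearMap.id_comp]; exact hB
      add_mem' := fun {a b} ha hb B hB => by
        have e : LinearMap.mulLeft F (a + b) ∘ₗ B =
            LinearMap.mulLeft F a ∘ₗ B + LinearMap.mulLeft F b ∘ₗ B :=
          LinearMap.ext fun e => by simp [add_mul]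
        rw [e]; exact Q.add_mem (ha B hB) (hb B hB)
      zero_mem' := fun B _ => by simp
      algebraMap_mem' := fun k B hB => by
        have e : LinearMap.mulLeft F (algebraMap F E k) ∘ₗ B = k • B :=
          LinearMap.ext fun e => by simp [Algebra.smul_def]
        rw [e]; exact Q.smul_mem k hB }
  have hLtop : Lf = ⊤ := subalgebra_eq_top hr (show y / x ∈ Lf from hleftρ) hρ
  -- the adjoint of `G`
  let Gs : E →ₗ[F] E := (S.l v).restrictScalars F ∘ₗ (apEquiv h⁻¹).toLinearMap ∘ₗ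
    (LinearMap.toSpanSingleton E (ι → F) p).restrictScalars F
  have hGs : ∀ x, S.φ (ap h⁻¹ x) v = Gs (S.φ x v) := by
    intro x
    refine S.T_mul_ext fun a => ?_
    have e1 : ∀ z, S.f (ap h⁻¹ z) (S.τ a • v) = S.T (a * S.φ (ap h⁻¹ z) v) := fun z => by
      rw [f_def, S.smul_right, S.τ_invol]
    have e2 : ∀ z, S.f (ap h⁻¹ z) (S.τ a • v) = S.T (S.τ (G (S.τ a)) * S.φ z v) := fun z => by
      rw [← hXf h hh, ap_ap_inv, hGv, f_def, S.smul_right]
    show _ = S.T (a * S.φ (ap h⁻¹ (S.φ x v • p)) v)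
    rw [← e1, ← e1, e2, e2, S.smul_left, hp, mul_one]
  have hGsinj : Function.Injective Gs := by
    rw [injective_iff_map_eq_zero]
    intro e he
    refine S.T_mul_ext fun a => ?_
    obtain ⟨a', ha'⟩ := (Finite.injective_iff_surjective.mp hGinj) (S.τ a)
    have e2 : S.f (ap h⁻¹ (e • p)) (a' • v) = S.T (a * e) := by
      rw [← hXf h hh, ap_ap_inv, hGv, f_def, S.smul_right, ha', S.τ_invol, S.smul_left, hp, mul_one]
    rw [← e2, f_def, S.smul_right, hGs, S.smul_left, hp, mul_one, he, mul_zero, mul_zero]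
  -- conjugation preserves the span
  let Ψ : (E →ₗ[F] E) →ₗ[F] (E →ₗ[F] E) :=
    { toFun := fun B => G ∘ₗ B ∘ₗ Gs
      map_add' := fun B C => by simp [LinearMap.add_comp, LinearMap.comp_add]
      map_smul' := fun k B => by simp [LinearMap.smul_comp, LinearMap.comp_smul] }
  have hΨ : Q.map Ψ = Q := by
    have hΨinj : Function.Injective Ψ := by
      intro B C hBC
      refine LinearMap.ext fun e => ?_
      obtain ⟨e', rfl⟩ := (Finite.injective_iff_surjective.mp hGsinj) e
      exact hGinj (LinearMap.congr_fun hBC e')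
    refine Submodule.eq_of_le_of_finrank_eq ?_
      (Submodule.equivMapOfInjective Ψ hΨinj Q).finrank_eq.symm
    rw [Submodule.map_span, Submodule.span_le]
    rintro _ ⟨B, ⟨t, ht, ht'⟩, rfl⟩
    refine hQ _ ⟨h * t * h⁻¹, mul_mem (mul_mem hh ht) (inv_mem hh), fun x => ?_⟩
    rw [ap_mul, ap_mul, ht', ap_add, ap_ap_inv, hGv, hGs]
    rfl
  -- the idealiser
  let R : Subalgebra F (E →ₗ[F] E) :=
    { carrier := {L | ∀ B ∈ Q, L ∘ₗ B ∈ Q}
      mul_mem' := fun {L L'} hL hL' B hB => hL _ (hL' B hB)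
      one_mem' := fun B hB => hB
      add_mem' := fun {L L'} hL hL' B hB => by
        rw [LinearMap.add_comp]; exact Q.add_mem (hL B hB) (hL' B hB)
      zero_mem' := fun B _ => by simp
      algebraMap_mem' := fun k B hB => by
        have e : (algebraMap F (E →ₗ[F] E) k) ∘ₗ B = k • B := LinearMap.ext fun e => by simp
        rw [e]; exact Q.smul_mem k hB }
  have hRmul : ∀ a, LinearMap.mulLeft F a ∈ R := fun a =>
    (hLtop ▸ Algebra.mem_top : a ∈ Lf)
  let Ge := LinearEquiv.ofInjectiveEndo G hGinj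
  have hGe : ∀ e, Ge e = G e := fun e => rfl
  obtain ⟨a, ha⟩ : ∃ a : E, ∀ d,
      G ∘ₗ LinearMap.mulLeft F a ∘ₗ Ge.symm.toLinearMap ≠ LinearMap.mulLeft F d := by
    by_contra hc
    push Not at hc
    refine hG fun a => ?_
    obtain ⟨d, hd⟩ := hc a
    refine ⟨d, fun x => ?_⟩
    have := LinearMap.congr_fun hd (Ge x)
    simp only [LinearMap.comp_apply, LinearEquiv.coe_coe, LinearEquiv.symm_apply_apply,
      LinearMap.mulLeft_apply] at this
    exact this
  have hconj : G ∘ₗ LinearMap.mulLeft F a ∘ₗ Ge.symm.toLinearMap ∈ R := by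
    intro B hB
    rw [← hΨ] at hB
    obtain ⟨B', hB', rfl⟩ := hB
    have : (G ∘ₗ LinearMap.mulLeft F a ∘ₗ Ge.symm.toLinearMap) ∘ₗ Ψ B' =
        Ψ (LinearMap.mulLeft F a ∘ₗ B') := LinearMap.ext fun e => by
      show G (a * Ge.symm (G (B' (Gs e)))) = G (a * B' (Gs e))
      rw [← hGe (B' (Gs e)), LinearEquiv.symm_apply_apply]
    rw [this, ← hΨ]
    exact Submodule.mem_map_of_mem (hRmul a _ hB')
  have hAQ : A ∈ Q := by
    have h1 := endSubalgebra_eq_top hr R hRmul hconj ha A _ h1Q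
    rwa [LinearMap.comp_id] at h1
  -- descend to positions
  have hspan : ∀ B ∈ Q, ∃ B₁ B₂, S.Pos X v B₁ ∧ S.Pos X v B₂ ∧ B = B₁ + S.om • B₂ := by
    intro B hB
    have hom2 : ∀ c : F, ∃ α β, S.σ α = α ∧ S.σ β = β ∧ c = α + S.om * β := by
      intro c
      have hne : S.om - S.σ S.om ≠ 0 := sub_ne_zero.mpr (Ne.symm S.om_moved)
      have hne' : S.σ S.om - S.om ≠ 0 := sub_ne_zero.mpr S.om_moved
      have hy : S.σ ((c - S.σ c) / (S.om - S.σ S.om)) = (c - S.σ c) / (S.om - S.σ S.om) := by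
        rw [map_div₀, map_sub, map_sub, S.σ_invol, S.σ_invol, div_eq_div_iff hne' hne]
        ring
      refine ⟨c - S.om * ((c - S.σ c) / (S.om - S.σ S.om)), _, ?_, hy, by ring⟩
      rw [map_sub, map_mul, hy]
      field_simp
      ring
    induction hB using Submodule.span_induction with
    | mem B hB => exact ⟨B, 0, hB, S.pos_zero, by simp⟩
    | zero => exact ⟨0, 0, S.pos_zero, S.pos_zero, by simp⟩
    | add B C _ _ hB hC =>
      obtain ⟨B₁, B₂, h1, h2, rfl⟩ := hB
      obtain ⟨C₁, C₂, h3, h4, rfl⟩ := hC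
      exact ⟨B₁ + C₁, B₂ + C₂, S.pos_add hvv h1 h3, S.pos_add hvv h2 h4, by module⟩
    | smul k B _ hB =>
      obtain ⟨B₁, B₂, h1, h2, rfl⟩ := hB
      obtain ⟨α, β, hα, hβ, rfl⟩ := hom2 k
      obtain ⟨γ, δ, hγ, hδ, hω⟩ := hom2 (S.om * S.om)
      refine ⟨α • B₁ + (β * γ) • B₂, β • B₁ + (α + β * δ) • B₂,
        S.pos_add hvv (S.pos_smul hX hv hvv h1 hα) (S.pos_smul hX hv hvv h2 (by
          rw [map_mul, hβ, hγ])),
        S.pos_add hvv (S.pos_smul hX hv hvv h1 hβ) (S.pos_smul hX hv hvv h2 (by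
          rw [map_add, map_mul, hα, hβ, hδ])), ?_⟩
      match_scalars
      · ring
      · linear_combination β * hω
  obtain ⟨A₁, A₂, h1, h2, rfl⟩ := hspan A hAQ
  convert h1 using 1
  rw [add_eq_left]
  refine LinearMap.ext fun e => ?_
  refine S.T_mul_ext fun a => ?_
  rw [LinearMap.zero_apply, mul_zero, map_zero]
  have k0 := hA e (S.τ a)
  have k1 := S.pos_selfAdj hXf hvv hp h1 e (S.τ a)
  have k2 := S.pos_selfAdj hXf hvv hp h2 e (S.τ a)
  simp only [LinearMap.add_apply, LinearMap.smul_apply, add_mul, map_add, smul_mul_assoc, map_smul,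
    S.τ_smul, mul_add, mul_smul_comm, smul_eq_mul, S.τ_invol] at k0 k1 k2 ⊢
  have k3 : (S.om - S.σ S.om) * S.T (A₂ e * a) = 0 := by
    linear_combination k0 - k1 - S.σ S.om * k2
  rw [mul_comm a, (mul_eq_zero.mp k3).resolve_left (sub_ne_zero.mpr (Ne.symm S.om_moved)), mul_zero]

/-- Every transvection over the base field. -/
theorem hasT (hr : (finrank F E).Prime) (h3 : 3 ≤ finrank F E)
    (hm : ∀ v : ι → F, ∃ w : ι → F, ∀ a : E, a • v ≠ w)
    (hscale : ∀ v, v ≠ 0 → S.φ v v = 0 → S.HasScale X v) (hnot : ∃ g ∈ X, ¬ IsSemi E g) :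
    Unitary.HasT S.isSkewForm X := by
  obtain ⟨v, G, hv, hvv, hGinj, hG, h, hh, hGv⟩ := S.exists_line hX hXf hr h3 hm hnot
  have hXI : ∀ g ∈ X, g ∈ isom S.f := fun g hg => mem_isom_iff.mpr (hXf g hg)
  have hz : ∀ z : E, ∀ (hu : S.f (z • v) (z • v) = 0) (c : F), S.σ c = c →
      Unitary.T S.isSkewForm (z • v) c hu ∈ X := by
    intro z hu c hc
    obtain ⟨t, ht, ht'⟩ := S.pos_all hX hXf hr hv hvv (hscale v hv hvv) hGinj hG hh hGv
      (A := LinearMap.smulRight (c • S.T ∘ₗ LinearMap.mulRight F (S.τ z)) z) fun e e' => by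
        simp only [LinearMap.smulRight_apply, LinearMap.smul_apply, LinearMap.comp_apply,
          LinearMap.mulRight_apply, smul_eq_mul, smul_mul_assoc, map_smul, S.τ_smul, mul_smul_comm,
          map_mul, hc, ← S.T_τ, S.τ_invol]
        rw [mul_comm (S.τ e') z]
        ring
    convert ht using 1
    refine gl_ext fun x => ?_
    rw [Unitary.ap_T, ht', f_def, S.smul_right, mul_comm (S.τ z)]
    simp [smul_assoc]
  have hiso : ∀ u, S.φ u u = 0 → ∀ (hu : S.f u u = 0) (c : F), S.σ c = c →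
      Unitary.T S.isSkewForm u c hu ∈ X := by
    intro u huu hu c hc
    by_cases hu0 : u = 0
    · subst hu0
      convert one_mem X
      exact gl_ext fun x => by simp [Unitary.ap_T]
    obtain ⟨g, hg, hgi, b, hb, hgv⟩ := S.exists_move_line hX hv hvv hu0 huu
    have h0 : S.f (b⁻¹ • v) (b⁻¹ • v) = 0 := by
      rw [f_def, S.smul_left, S.smul_right, hvv, mul_zero, mul_zero, map_zero]
    have h1 := mul_mem (mul_mem hg (hz b⁻¹ h0 c hc)) (inv_mem hg)
    rw [Unitary.conj_T S.isSkewForm (hXI g hg)] at h1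
    convert h1 using 1
    refine gl_ext fun x => ?_
    rw [Unitary.ap_T, Unitary.ap_T, hgi.1, hgv, smul_smul, inv_mul_cancel₀ hb, one_smul]
  intro u hu c hc
  by_cases huu : S.φ u u = 0
  · exact hiso u huu hu c hc
  obtain ⟨z, hz0, hzz, huz⟩ := S.exists_iso_pair hm huu
  have hzu : S.φ z u = -1 := by rw [S.skew u z, huz, map_one]
  -- a coefficient with non-zero value
  obtain ⟨γ, hγ, hγT⟩ : ∃ γ, γ - S.τ γ = S.φ u u ∧ S.T γ ≠ 0 := by
    obtain ⟨γ₀, hγ₀⟩ := S.exists_sub_eq (S.skew_self u)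
    by_cases h0 : S.T γ₀ = 0
    · obtain ⟨y, hy, hTy⟩ := S.exists_fix_T_ne
      exact ⟨γ₀ + y, by rw [map_add, hy]; linear_combination hγ₀, by
        rw [map_add, h0, zero_add]; exact hTy⟩
    · exact ⟨γ₀, hγ₀, h0⟩
  set w := u + γ • z with hw
  have hww : S.φ w w = 0 := by
    simp only [hw, S.add_left, S.add_right, S.smul_left, S.smul_right, hzz, huz, hzu]
    linear_combination -hγ
  have hwz : S.f w ((-γ) • z) = -S.σ (S.T γ) := by
    rw [f_def, hw, S.smul_right, S.add_left, S.smul_left, hzz, huz, mul_zero, add_zero, mul_one,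
      map_neg, map_neg, S.T_τ]
  have hreal : S.σ (S.T γ) = S.T γ := by
    have h1 : S.T (γ - S.τ γ) = 0 := by rw [hγ]; exact hu
    rw [map_sub, S.T_τ, sub_eq_zero] at h1
    exact h1.symm
  have hgzz : S.φ ((-γ) • z) ((-γ) • z) = 0 := by
    rw [S.smul_left, S.smul_right, hzz, mul_zero, mul_zero]
  have hd : S.σ (-(S.T γ)⁻¹) = -(S.T γ)⁻¹ := by rw [map_neg, map_inv₀, hreal]
  set g := Unitary.T S.isSkewForm ((-γ) • z) (-(S.T γ)⁻¹) (by rw [f_def, hgzz, map_zero]) with hgdef
  have hg : g ∈ X := hiso _ hgzz _ _ hd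
  have hgw : ap g w = u := by
    rw [hgdef, Unitary.ap_T, hwz, hreal, neg_mul_neg, inv_mul_cancel₀ hγT, one_smul, hw, neg_smul]
    abel
  have hw0 : S.f w w = 0 := by rw [f_def, hww, map_zero]
  have h1 := mul_mem (mul_mem hg (hiso w hww hw0 c hc)) (inv_mem hg)
  rw [Unitary.conj_T S.isSkewForm (hXI g hg)] at h1
  convert h1 using 1
  exact gl_ext fun x => by rw [Unitary.ap_T, Unitary.ap_T, hgw]

end UForm

end CfsgLib.Geometric.ExtF
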