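import Cfsg.Agent.Lib.Geometric.ExtField.UnitForm
import Cfsg.Agent.Lib.Geometric.ExtField.CommonZero

/-!
A group containing the special isometries of a skew-hermitian form over an extension field of odd prime
degree and one element that is not semilinear contains an element stabilising an isotropic line and not
semilinear on it.
-/

set_option autoImplicit false
set_option linter.unusedSectionVars false

namespace CfsgLib.Geometric.ExtF

open Module Matrix

/-- A non-trivial map `1 + N` with `N * N = 0` and a fixed vector does not normalise the multiplications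
of an extension of odd prime degree. -/
lemma not_nrm_of_sq {F : Type*} [Field F] {E : Type*} [Field E] [Algebra F E]
    (hr : (finrank F E).Prime) (h3 : 3 ≤ finrank F E) {N : E →ₗ[F] E} (hN : N ≠ 0)
    (hNN : ∀ x, N (N x) = 0) {z : E} (hz : z ≠ 0) (hzN : N z = 0) :
    ¬ Nrm (LinearMap.id + N) := by
  intro h
  choose β hβ using h
  simp only [LinearMap.add_apply, LinearMap.id_apply] at hβ
  have hNz : ∀ a, N (a * z) = (β a - a) * z := fun a => by
    have := hβ a z
    rw [hzN, add_zero] at this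
    linear_combination this
  have hβmul : ∀ a b, β (a * b) = β a * β b := fun a b => by
    have h1 := hβ (a * b) z
    have h2 := hβ a (b * z)
    have h3 := hβ b z
    rw [hzN, add_zero] at h1 h3
    rw [mul_assoc] at h1
    rw [h1, h3] at h2
    exact mul_right_cancel₀ hz (h2.trans (mul_assoc _ _ _).symm)
  have hβadd : ∀ a b, β (a + b) = β a + β b := fun a b => by
    have h1 := hNz (a + b)
    rw [add_mul, map_add, hNz, hNz, ← add_mul] at h1
    linear_combination -(mul_right_cancel₀ hz h1)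
  have hsq : ∀ a, β (β a) - 2 * β a + a = 0 := fun a => by
    have h1 := hNN (a * z)
    rw [hNz, sub_mul, map_sub, hNz, hNz] at h1
    have h2 : (β (β a) - 2 * β a + a) * z = 0 := by linear_combination h1
    exact (mul_eq_zero.mp h2).resolve_right hz
  obtain ⟨a, ha⟩ : ∃ a, β a ≠ a := by
    by_contra hc
    push Not at hc
    refine hN (LinearMap.ext fun x => ?_)
    have := hNz (x / z)
    rw [div_mul_cancel₀ _ hz, hc, sub_self, zero_mul] at this
    exact this
  have h2 : (2 : E) = 0 := by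
    have h1 := hsq (a * a)
    rw [hβmul, hβmul] at h1
    have e1 : β (β a) = 2 * β a - a := by linear_combination hsq a
    rw [e1] at h1
    have e2 : 2 * ((β a - a) * (β a - a)) = 0 := by linear_combination h1
    exact (mul_eq_zero.mp e2).resolve_right (mul_ne_zero (sub_ne_zero.mpr ha) (sub_ne_zero.mpr ha))
  have hinvol : ∀ a, β (β a) = a := fun a => by linear_combination hsq a + (β a - a) * h2
  have hβF : ∀ c : F, β (algebraMap F E c) = algebraMap F E c := fun c => by
    have h1 := hβ (algebraMap F E c) z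
    rw [hzN, add_zero, ← Algebra.smul_def, map_smul, hzN, smul_zero, add_zero, Algebra.smul_def]
      at h1
    exact (mul_right_cancel₀ hz h1).symm
  let Fx : Subalgebra F E :=
    { carrier := {x | β x = x}
      mul_mem' := fun {x y} (hx : β x = x) (hy : β y = y) => show β (x * y) = x * y by
        rw [hβmul, hx, hy]
      one_mem' := show β 1 = 1 by simpa using hβF 1
      add_mem' := fun {x y} (hx : β x = x) (hy : β y = y) => show β (x + y) = x + y by
        rw [hβadd, hx, hy]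
      zero_mem' := show β 0 = 0 by simpa using hβF 0
      algebraMap_mem' := hβF }
  have hfix : ∀ x, β x = x → x ∈ Set.range (algebraMap F E) := by
    intro x hx
    by_contra hc
    have htop := subalgebra_eq_top hr (show x ∈ Fx from hx) hc
    exact ha (show a ∈ Fx from htop ▸ Algebra.mem_top)
  obtain ⟨p, hp⟩ := hfix (a + β a) (by rw [hβadd, hinvol, add_comm])
  obtain ⟨m, hm⟩ := hfix (a * β a) (by rw [hβmul, hinvol, mul_comm])
  have haa : a * a = p • a - m • (1 : E) := by
    rw [Algebra.smul_def, Algebra.smul_def, hp, hm]; ring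
  let A : Submodule F E := Submodule.span F (Set.range ![(1 : E), a])
  have hA1 : (1 : E) ∈ A := Submodule.subset_span ⟨0, rfl⟩
  have hAa : a ∈ A := Submodule.subset_span ⟨1, rfl⟩
  let S : Subalgebra F E :=
    { carrier := {x | x ∈ A ∧ x * a ∈ A ∧ ∀ y ∈ A, x * y ∈ A}
      mul_mem' := fun {x y} hx hy => ⟨hx.2.2 y hy.1,
        by rw [mul_assoc]; exact hx.2.2 _ hy.2.1,
        fun w hw => by rw [mul_assoc]; exact hx.2.2 _ (hy.2.2 w hw)⟩
      one_mem' := ⟨hA1, by rwa [one_mul], fun y hy => by rwa [one_mul]⟩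
      add_mem' := fun {x y} hx hy => ⟨A.add_mem hx.1 hy.1,
        by rw [add_mul]; exact A.add_mem hx.2.1 hy.2.1,
        fun w hw => by rw [add_mul]; exact A.add_mem (hx.2.2 w hw) (hy.2.2 w hw)⟩
      zero_mem' := ⟨A.zero_mem, by simp, fun y _ => by simp⟩
      algebraMap_mem' := fun c => ⟨by rw [Algebra.algebraMap_eq_smul_one]; exact A.smul_mem c hA1,
        by rw [← Algebra.smul_def]; exact A.smul_mem c hAa,
        fun y hy => by rw [← Algebra.smul_def]; exact A.smul_mem c hy⟩ }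
  have hasq : a * a ∈ A := haa ▸ A.sub_mem (A.smul_mem p hAa) (A.smul_mem m hA1)
  have haS : a ∈ S := ⟨hAa, hasq, fun y hy => by
    induction hy using Submodule.span_induction with
    | mem y hy =>
      obtain ⟨i, rfl⟩ := hy
      fin_cases i
      · simpa using hAa
      · simpa using hasq
    | zero => simp
    | add x y _ _ hx hy => rw [mul_add]; exact A.add_mem hx hy
    | smul c x _ hx => rw [mul_smul_comm]; exact A.smul_mem c hx⟩
  have htop := subalgebra_eq_top hr haS (fun ⟨c, hc⟩ => ha (hc ▸ hβF c))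
  have hle : (⊤ : Submodule F E) ≤ A := fun x _ => (show x ∈ S from htop ▸ Algebra.mem_top).1
  have hAtop : A = ⊤ := top_le_iff.mp hle
  have := finrank_range_le_card (R := F) ![(1 : E), a]
  rw [Set.finrank, show Submodule.span F (Set.range ![(1 : E), a]) = ⊤ from hAtop, finrank_top,
    Fintype.card_fin] at this
  omega

variable {F : Type*} [Field F] {ι : Type} [Fintype ι] [DecidableEq ι] {E : Type*} [Field E]
  [Algebra F E] [Module E (ι → F)] [IsScalarTower F E (ι → F)] [Finite F] [Finite E]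

namespace UForm

variable (S : UForm F E ι)

/-- Fixed elements in a subspace orthogonal to a vector. -/
lemma exists_fix_mul {η : E} (D : Submodule F E)
    (hperp : ∀ s ∈ D, S.T (s * S.τ η) = 0) (h2 : finrank F E ≤ 2 * finrank F D) :
    ∃ s ∈ D, s ≠ 0 ∧ S.τ (s * S.τ η) = s * S.τ η := by
  by_contra hno
  push Not at hno
  obtain ⟨y₀, hy₀, hTy₀⟩ := S.exists_fix_T_ne
  have hT₀ : S.σ (S.T y₀) = S.T y₀ := by rw [← S.T_τ, hy₀]
  let A := {y : S.Fix // S.T y = 0}
  have hmem : ∀ y : S.Fix, S.τ ((y : E) - (S.T y / S.T y₀) • y₀) = (y : E) - (S.T y / S.T y₀) • y₀ := by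
    intro y
    rw [map_sub, S.τ_smul, y.2, hy₀, map_div₀, hT₀, ← S.T_τ, y.2]
  have hA : Nat.card S.Fix ≤ Nat.card A * S.q := by
    rw [q, ← Nat.card_prod]
    refine Nat.card_le_card_of_injective (fun y : S.Fix =>
      ((⟨⟨_, hmem y⟩, by simp [div_mul_cancel₀ _ hTy₀]⟩ : A),
        (⟨S.T y, S.mem_fxF.mpr (by rw [← S.T_τ, y.2])⟩ : S.fxF))) fun y y' h => ?_
    have e1 := congrArg (fun p => ((p.1 : S.Fix) : E)) h
    have e2 := congrArg (fun p => (p.2 : F)) h
    simp only at e1 e2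
    rw [e2] at e1
    exact Subtype.ext (sub_left_injective e1)
  have hker : Nat.card A * Nat.card D ≤ Nat.card (LinearMap.ker S.T) := by
    rw [← Nat.card_prod]
    refine Nat.card_le_card_of_injective (fun p : A × D =>
      (⟨((p.1 : S.Fix) : E) - (p.2 : E) * S.τ η, by simp [p.1.2, hperp _ p.2.2]⟩ : LinearMap.ker S.T))
      fun p p' h => ?_
    have e1 := congrArg Subtype.val h
    simp only at e1
    by_cases hs : (p.2 : E) - p'.2 = 0
    · have e2 : (p.2 : E) = p'.2 := sub_eq_zero.mp hs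
      rw [e2] at e1
      exact Prod.ext (Subtype.ext (Subtype.ext (sub_left_injective e1))) (Subtype.ext e2)
    · refine absurd ?_ (hno _ (D.sub_mem p.2.2 p'.2.2) hs)
      rw [show ((p.2 : E) - p'.2) * S.τ η = ((p.1 : S.Fix) : E) - ((p'.1 : S.Fix) : E) by
        linear_combination -e1, map_sub, p.1.1.2, p'.1.1.2]
  rw [S.card_fix] at hA
  have hD : Nat.card D = S.q ^ (2 * finrank F D) := by
    rw [Module.natCard_eq_pow_finrank (K := F), S.card_base, ← pow_mul]
  have hK : Nat.card (LinearMap.ker S.T) = S.q ^ (2 * (finrank F E - 1)) := by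
    have : Module.Finite F E := Module.Finite.of_finite
    have h1 := LinearMap.finrank_range_add_finrank_ker S.T
    rw [LinearMap.range_eq_top.mpr (LinearMap.surjective S.T_ne), finrank_top, Module.finrank_self]
      at h1
    rw [Module.natCard_eq_pow_finrank (K := F), S.card_base, ← pow_mul,
      show finrank F (LinearMap.ker S.T) = finrank F E - 1 by omega]
  have hq := S.two_le_q
  have key : S.q ^ (finrank F E + 2 * finrank F D) ≤ S.q ^ (2 * (finrank F E - 1) + 1) := by
    rw [pow_add, pow_succ, ← hD, ← hK]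
    calc S.q ^ finrank F E * Nat.card D ≤ Nat.card A * S.q * Nat.card D := Nat.mul_le_mul_right _ hA
      _ = Nat.card A * Nat.card D * S.q := by ring
      _ ≤ _ := Nat.mul_le_mul_right _ hker
  have := (Nat.pow_le_pow_iff_right hq).mp key
  have : Module.Finite F E := Module.Finite.of_finite
  have := Module.finrank_pos (R := F) (M := E)
  omega

/-- A totally singular space of the dimension of the extension contains an isotropic vector. -/
lemma exists_iso_mem (L : E →ₗ[F] (ι → F))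
    (hts : ∀ a b, S.f (L a) (L b) = 0) : ∃ a, a ≠ 0 ∧ S.φ (L a) (L a) = 0 := by
  classical
  obtain ⟨b, hbT⟩ : ∃ b : Fin (finrank F (LinearMap.ker S.T)) → E,
      Submodule.span F (Set.range b) = LinearMap.ker S.T :=
    ⟨fun i => ((finBasis F (LinearMap.ker S.T) i : LinearMap.ker S.T) : E), by
      rw [show (fun i => ((finBasis F (LinearMap.ker S.T) i : LinearMap.ker S.T) : E)) =
        (LinearMap.ker S.T).subtype ∘ finBasis F (LinearMap.ker S.T) from rfl, Set.range_comp,
        Submodule.span_image, (finBasis F (LinearMap.ker S.T)).span_eq, Submodule.map_top,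
        Submodule.range_subtype]⟩
  -- functionals separating the totally skew values
  obtain ⟨c₀, hc₀, hTc₀⟩ := S.exists_fix_T_ne
  have hrk : finrank F (LinearMap.ker S.T) + 1 = finrank F E := by
    have : Module.Finite F E := Module.Finite.of_finite
    have h1 := LinearMap.finrank_range_add_finrank_ker S.T
    rw [LinearMap.range_eq_top.mpr (LinearMap.surjective S.T_ne), finrank_top, Module.finrank_self]
      at h1
    omega
  obtain ⟨κ, hκ, hκc, hκcard⟩ : ∃ κ : Finset E, (∀ c ∈ κ, S.τ c = c) ∧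
      (∀ e : E, (∀ c ∈ κ, S.T (c * e) = 0) → S.T e = 0 → e = 0) ∧ κ.card + 1 ≤ finrank F E := by
    have : Module.Finite F E := Module.Finite.of_finite
    let fx : Set E := {c | S.τ c = c}
    have h1 : ({1} : Set E) ⊆ fx := fun c hc => by rw [hc]; exact map_one S.τ
    obtain ⟨B, hBfx, hB1, hsp, hind⟩ := exists_linearIndepOn_id_extension
      ((linearIndepOn_singleton_iff (R := F) (v := id) (i := (1 : E))).mpr one_ne_zero) h1
    have hspan : ∀ e : E, e ∈ Submodule.span F B := fun e => by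
      obtain ⟨x, y, hx, hy, rfl⟩ := S.decomp e
      exact Submodule.add_mem _ (hsp hx) (Submodule.smul_mem _ _ (hsp hy))
    have := Fintype.ofFinite B
    refine ⟨B.toFinset.erase 1, fun c hc => hBfx (Set.mem_toFinset.mp (Finset.mem_of_mem_erase hc)),
      fun e he he1 => ?_, ?_⟩
    · refine S.T_mul_ext fun a => ?_
      rw [mul_zero, map_zero]
      induction hspan a using Submodule.span_induction with
      | mem c hc =>
        by_cases h : c = 1
        · rw [h, one_mul, he1]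
        · exact he c (Finset.mem_erase.mpr ⟨h, Set.mem_toFinset.mpr hc⟩)
      | zero => rw [zero_mul, map_zero]
      | add x y _ _ hx hy => rw [add_mul, map_add, hx, hy, add_zero]
      | smul k x _ hx => rw [smul_mul_assoc, map_smul, hx, smul_zero]
    · rw [Finset.card_erase_add_one (Set.mem_toFinset.mpr (hB1 rfl))]
      rw [Set.toFinset_card]
      exact hind.fintype_card_le_finrank
  -- coordinates over the fixed field
  have hom : S.σ S.om - S.om ≠ 0 := sub_ne_zero.mpr S.om_moved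
  have hπ : ∀ x : F, (x - S.σ x) / (S.om - S.σ S.om) ∈ S.fxF := fun x => by
    rw [mem_fxF, map_div₀, map_sub, map_sub, S.σ_invol, S.σ_invol, ← neg_sub (x : F), ← neg_sub S.om,
      neg_div_neg_eq]
  let π : F →+ S.fxF := AddMonoidHom.mk' (fun x => ⟨_, hπ x⟩) fun x y => Subtype.ext (by
    show (x + y - S.σ (x + y)) / (S.om - S.σ S.om) =
      (x - S.σ x) / (S.om - S.σ S.om) + (y - S.σ y) / (S.om - S.σ S.om)
    rw [map_add]; ring)
  obtain ⟨ζ, hζ0, hζ⟩ := Unitary.exists_skew S.isSkewForm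
  set ν := S.om * ζ⁻¹ with hν
  let B : κ → E →ₗ[S.fxF] E →ₗ[S.fxF] S.fxF := fun c => LinearMap.mk₂ S.fxF
    (fun a a' => π (ν * S.T ((c : E) * S.φ (L a) (L a'))))
    (fun a a' a'' => by simp [S.add_left, mul_add])
    (fun k a a' => Subtype.ext (by
      rw [show (k • a : E) = (k : F) • a from rfl, map_smul, ← algebraMap_smul E (k : F) (L a),
        S.smul_left, mul_left_comm, ← Algebra.smul_def, map_smul, smul_eq_mul]
      show (ν * ((k : F) * _) - S.σ (ν * ((k : F) * _))) / _ = (k : F) * ((_ - _) / _)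
      simp only [map_mul, S.mem_fxF.mp k.2]
      ring))
    (fun a a' a'' => by simp [S.add_right, mul_add])
    (fun k a a' => Subtype.ext (by
      rw [show (k • a' : E) = (k : F) • a' from rfl, map_smul, ← algebraMap_smul E (k : F) (L a'),
        S.smul_right, S.τ_map, S.mem_fxF.mp k.2, mul_left_comm, ← Algebra.smul_def, map_smul,
        smul_eq_mul]
      show (ν * ((k : F) * _) - S.σ (ν * ((k : F) * _))) / _ = (k : F) * ((_ - _) / _)
      simp only [map_mul, S.mem_fxF.mp k.2]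
      ring))
  have hdim : 2 * Fintype.card κ < finrank S.fxF E := by
    have h1 := Module.finrank_mul_finrank S.fxF F E
    have h2 : finrank S.fxF F = 2 := by
      have h3 := Module.natCard_eq_pow_finrank (K := S.fxF) (V := F)
      rw [S.card_base] at h3
      exact (Nat.pow_right_injective S.two_le_q h3).symm
    rw [h2] at h1
    rw [Fintype.card_coe]
    omega
  obtain ⟨a, ha0, ha⟩ := exists_common_zero B (fun _ => 0) hdim
  refine ⟨a, ha0, hκc _ (fun c hc => ?_) (hts a a)⟩
  have h1 : π (ν * S.T (c * S.φ (L a) (L a))) = 0 := by simpa [B] using ha ⟨c, hc⟩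
  have h2 : S.σ (S.T (c * S.φ (L a) (L a))) = -S.T (c * S.φ (L a) (L a)) := by
    rw [← S.T_τ, map_mul, hκ c hc, S.skew_self, mul_neg, map_neg]
  generalize S.T (c * S.φ (L a) (L a)) = t at h1 h2
  have h3 : (ν * t - S.σ (ν * t)) / (S.om - S.σ S.om) = 0 := congrArg Subtype.val h1
  rw [div_eq_zero_iff, or_iff_left (sub_ne_zero.mpr (Ne.symm S.om_moved)), hν, map_mul, map_mul,
    map_inv₀, hζ, h2] at h3
  field_simp at h3
  by_contra ht
  exact S.om_moved (mul_right_cancel₀ ht (by linear_combination -h3))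

/-- An element mapping isotropic lines into lines is semilinear. -/
lemma isSemi_of_iso_lines (hm : ∀ v : ι → F, ∃ w : ι → F, ∀ a : E, a • v ≠ w) {g : GL ι F}
    (h : ∀ v, v ≠ 0 → S.φ v v = 0 → ∀ a : E, ∃ b : E, ap g (a • v) = b • ap g v) : IsSemi E g := by
  choose! β hβ using h
  have hinj : ∀ {v : ι → F}, v ≠ 0 → ∀ {b b' : E}, b • ap g v = b' • ap g v → b = b' :=
    fun hv _ _ e => smul_left_injective E (ap_ne_zero g hv) e
  have hadd : ∀ v, v ≠ 0 → S.φ v v = 0 → ∀ a a', β v (a + a') = β v a + β v a' := fun v hv hvv a a' =>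
    hinj hv (by rw [← hβ v hv hvv, add_smul, ap_add, hβ v hv hvv, hβ v hv hvv, add_smul])
  have hlin : ∀ v, v ≠ 0 → S.φ v v = 0 → ∀ (k : F) a, β v (k • a) = k • β v a := fun v hv hvv k a =>
    hinj hv (by rw [← hβ v hv hvv, smul_assoc, ap_smul, hβ v hv hvv, smul_assoc])
  -- equal on pairs with a fixed value
  have hpair : ∀ v w, v ≠ 0 → S.φ v v = 0 → S.φ w w = 0 → S.τ (S.φ v w) = S.φ v w → S.φ v w ≠ 0 →
      ∀ a, β v a = β w a := by
    intro v w hv hvv hww hfix hne a
    have hw : w ≠ 0 := fun e => hne (by rw [e, S.zero_right])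
    have hs : v + w ≠ 0 := fun e => hne (by
      rw [eq_neg_of_add_eq_zero_right e, ← neg_one_smul E v, S.smul_right, hvv, mul_zero])
    have hss : S.φ (v + w) (v + w) = 0 := by
      rw [S.add_left, S.add_right, S.add_right, hvv, hww, S.skew v w, hfix]; ring
    have h1 := hβ (v + w) hs hss a
    rw [smul_add, ap_add, ap_add, hβ v hv hvv, hβ w hw hww, smul_add] at h1
    by_contra hne'
    have h2 : (β v a - β (v + w) a) • ap g v = (β (v + w) a - β w a) • ap g w := by
      rw [sub_smul, sub_smul, sub_eq_iff_eq_add, sub_add_eq_add_sub, eq_sub_iff_add_eq, h1]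
      abel
    by_cases hz : β (v + w) a - β w a = 0
    · rw [hz, zero_smul, smul_eq_zero, or_iff_left (ap_ne_zero g hv)] at h2
      exact hne' (by linear_combination h2 + hz)
    -- the image of the line is the line of the image
    let B : E →ₗ[F] E := { toFun := β v, map_add' := hadd v hv hvv, map_smul' := hlin v hv hvv }
    have hB : Function.Injective B := fun b b' e => smul_left_injective E hv (ap_injective g (by
      rw [hβ v hv hvv, hβ v hv hvv, show β v b = β v b' from e]))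
    obtain ⟨b, hb⟩ := (Finite.injective_iff_surjective.mp hB)
      ((β v a - β (v + w) a) / (β (v + w) a - β w a))
    have h3 : w = b • v := ap_injective g (by
      rw [hβ v hv hvv, show β v b = _ from hb, div_eq_inv_mul, mul_smul, h2, smul_smul,
        inv_mul_cancel₀ hz, one_smul])
    exact hne (by rw [h3, S.smul_right, hvv, mul_zero])
  -- multiplicativity
  have hmul : ∀ v, v ≠ 0 → S.φ v v = 0 → ∀ a c, β v (a * c) = β v a * β v c := by
    intro v hv hvv
    obtain ⟨w, hww, hvw⟩ := S.exists_hyper hv hvv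
    have key : ∀ a x, S.τ x = x → β v (a * x) = β v a * β v x := by
      intro a x hx
      by_cases hx0 : x = 0
      · have h0 : β v 0 = 0 := by simpa using hlin v hv hvv 0 0
        rw [hx0, mul_zero, h0, mul_zero]
      have hxv : x • v ≠ 0 := smul_ne_zero hx0 hv
      have hxvv : S.φ (x • v) (x • v) = 0 := by rw [S.smul_left, S.smul_right, hvv, mul_zero, mul_zero]
      have e1 : β (x • v) a = β v a := by
        rw [hpair (x • v) w hxv hxvv hww (by rw [S.smul_left, hvw, mul_one, hx])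
          (by rw [S.smul_left, hvw, mul_one]; exact hx0),
          hpair v w hv hvv hww (by rw [hvw, map_one]) (by rw [hvw]; exact one_ne_zero)]
      refine hinj hv ?_
      rw [← hβ v hv hvv, mul_smul, hβ _ hxv hxvv, e1, hβ v hv hvv, smul_smul]
    intro a c
    obtain ⟨x, y, hx, hy, rfl⟩ := S.decomp c
    rw [mul_add, mul_smul_comm, hadd v hv hvv, hadd v hv hvv, hlin v hv hvv, hlin v hv hvv,
      key a x hx, key a y hy, mul_add, mul_smul_comm]
  have hpair' : ∀ v w, v ≠ 0 → S.φ v v = 0 → S.φ w w = 0 → S.φ v w ≠ 0 → ∀ a, β v a = β w a := by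
    intro v w hv hvv hww hne a
    set c := S.τ (S.φ v w)⁻¹
    have hw : w ≠ 0 := fun e => hne (by rw [e, S.zero_right])
    have hc : c ≠ 0 := (map_ne_zero_iff _ S.τ.injective).mpr (inv_ne_zero hne)
    have hcw : S.φ (c • w) (c • w) = 0 := by rw [S.smul_left, S.smul_right, hww, mul_zero, mul_zero]
    have h1 : S.φ v (c • w) = 1 := by rw [S.smul_right, S.τ_invol, inv_mul_cancel₀ hne]
    rw [hpair v _ hv hvv hcw (by rw [h1, map_one]) (by rw [h1]; exact one_ne_zero)]
    refine hinj (smul_ne_zero hc hw) ?_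
    rw [← hβ _ (smul_ne_zero hc hw) hcw, smul_smul, hβ w hw hww, hmul w hw hww, mul_smul,
      ← hβ w hw hww]
  obtain ⟨v₀, hv₀, hv₀0⟩ := S.exists_iso hm
  obtain ⟨w₀, hw₀, hvw₀⟩ := S.exists_hyper hv₀ hv₀0
  have hw₀0 : w₀ ≠ 0 := fun e => by rw [e, S.zero_right] at hvw₀; exact zero_ne_one hvw₀
  have hvw₀' : ∀ a, β v₀ a = β w₀ a :=
    hpair' v₀ w₀ hv₀ hv₀0 hw₀ (by rw [hvw₀]; exact one_ne_zero)
  have hiso : ∀ v, v ≠ 0 → S.φ v v = 0 → ∀ a, ap g (a • v) = β v₀ a • ap g v := by
    intro v hv hvv a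
    by_cases h1 : S.φ v v₀ ≠ 0
    · rw [hβ v hv hvv, hpair' v v₀ hv hvv hv₀0 h1]
    by_cases h2 : S.φ v w₀ ≠ 0
    · rw [hβ v hv hvv, hpair' v w₀ hv hvv hw₀ h2, hvw₀']
    push Not at h1 h2
    have hs : S.φ (v + v₀) (v + v₀) = 0 := by
      rw [S.add_left, S.add_right, S.add_right, hvv, hv₀0, h1, S.eq_zero_comm.mp h1]; ring
    have hsw : S.φ (v + v₀) w₀ = 1 := by rw [S.add_left, h2, hvw₀, zero_add]
    have hs0 : v + v₀ ≠ 0 := fun e => by rw [e, S.zero_left] at hsw; exact zero_ne_one hsw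
    have e1 := hβ _ hs0 hs a
    rw [hpair' _ w₀ hs0 hs hw₀ (by rw [hsw]; exact one_ne_zero), ← hvw₀', smul_add, ap_add,
      hβ v₀ hv₀ hv₀0 a, ap_add, smul_add] at e1
    exact add_right_cancel e1
  intro a
  refine ⟨β v₀ a, fun x => ?_⟩
  by_cases hx0 : x = 0
  · simp [hx0, ap_zero]
  by_cases hxx : S.φ x x = 0
  · exact hiso x hx0 hxx a
  obtain ⟨v, hv, hvv, hxv⟩ := S.exists_iso_pair hm hxx
  obtain ⟨γ, hγ⟩ := S.exists_sub_eq (S.skew_self x)
  have hvx : S.φ v x = -1 := by rw [S.skew x v, hxv, map_one]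
  set w := x + γ • v with hw
  have hww : S.φ w w = 0 := by
    simp only [hw, S.add_left, S.add_right, S.smul_left, S.smul_right, hvv, hxv, hvx]
    linear_combination -hγ
  have hw0 : w ≠ 0 := fun e => by
    have h1 : S.φ w v = 0 := by rw [e, S.zero_left]
    rw [hw, S.add_left, S.smul_left, hvv, hxv, mul_zero, add_zero] at h1
    exact one_ne_zero h1
  have h2 : w + (-γ) • v = x := by rw [hw, neg_smul]; abel
  clear_value w
  clear hw
  have key : ap g (a • (w + (-γ) • v)) = β v₀ a • ap g (w + (-γ) • v) := by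
    rw [smul_add, smul_smul, ap_add, ap_add, smul_add, hiso w hw0 hww, hiso v hv hvv,
      hiso v hv hvv (-γ), smul_smul, hmul v₀ hv₀ hv₀0]
  rwa [h2] at key

/-- A vector outside a line pairs as prescribed with something orthogonal to the line. -/
lemma exists_perp_val {u w : ι → F} (hu : u ≠ 0) (hwu : w ∉ ln F E u) (δ : E) :
    ∃ y, S.φ y u = 0 ∧ S.φ w y = δ := by
  obtain ⟨y, hy, hwy⟩ : ∃ y, S.φ y u = 0 ∧ S.φ w y ≠ 0 := by
    by_contra h
    push Not at h
    obtain ⟨p, hp⟩ := S.exists_one_pair hu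
    have hpu : S.φ p u = -1 := by rw [S.skew u p, hp, map_one]
    refine hwu (mem_ln.mpr ⟨S.φ w p, (sub_eq_zero.mp ?_).symm⟩)
    by_contra hne0
    obtain ⟨x, hx⟩ := S.nondeg _ hne0
    refine hx ?_
    have h1 := h (x + S.φ x u • p) (by rw [S.add_left, S.smul_left, hpu]; ring)
    rw [S.add_right, S.smul_right] at h1
    rw [S.sub_left, S.smul_left, S.skew x u]
    linear_combination h1
  exact ⟨S.τ (δ / S.φ w y) • y, by rw [S.smul_left, hy, mul_zero],
    by rw [S.smul_right, S.τ_invol, div_mul_cancel₀ _ hwy]⟩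

variable {X : Subgroup (GL ι F)}
  (hX : ∀ g, S.IsIsom g → g ∈ Cfsg.Geo.specialLinear ι F → g ∈ X)
  (hXf : ∀ g ∈ X, ∀ x y, S.f (ap g x) (ap g y) = S.f x y)
include hX hXf

/-- An element stabilising an isotropic line and not semilinear on it. -/
theorem exists_line (hr : (finrank F E).Prime) (h3 : 3 ≤ finrank F E)
    (hm : ∀ v : ι → F, ∃ w : ι → F, ∀ a : E, a • v ≠ w) (hnot : ∃ g ∈ X, ¬ IsSemi E g) :
    ∃ (v : ι → F) (G : E →ₗ[F] E), v ≠ 0 ∧ S.φ v v = 0 ∧ Function.Injective G ∧ ¬ Nrm G ∧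
      ∃ h ∈ X, ∀ a : E, ap h (a • v) = G a • v := by
  classical
  let P' : ℕ → Prop := fun e => ∃ g ∈ X, ∃ v u : ι → F, v ≠ 0 ∧ S.φ v v = 0 ∧ u ≠ 0 ∧
    S.φ u u = 0 ∧ img g (ln F E v) ≠ ln F E u ∧
      finrank F ↥(img g (ln F E v) ⊓ ln F E u) = e
  have hbound : ∀ e, P' e → e ≤ finrank F E := by
    rintro e ⟨g, -, v, u, hv, -, hu, -, -, rfl⟩
    exact le_trans (Submodule.finrank_mono inf_le_right) (finrank_ln hu).le
  obtain ⟨e₀, hPe₀, he₀⟩ : ∃ e, P' e ∧ 0 < e := by
    obtain ⟨g, hgX, hg⟩ := hnot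
    obtain ⟨v, hv, hvv, hno⟩ : ∃ v, v ≠ 0 ∧ S.φ v v = 0 ∧ ∀ u, img g (ln F E v) ≠ ln F E u := by
      by_contra hc
      push Not at hc
      refine hg (S.isSemi_of_iso_lines hm fun v hv hvv a => ?_)
      obtain ⟨u, hu⟩ := hc v hv hvv
      obtain ⟨c, hc'⟩ := mem_ln.mp (hu ▸ mem_img.mpr ⟨v, self_mem_ln v, rfl⟩)
      obtain ⟨b, hb⟩ := mem_ln.mp (hu ▸ mem_img.mpr ⟨a • v, smul_mem_ln v a, rfl⟩)
      have hc0 : c ≠ 0 := fun e => ap_ne_zero g hv (by rw [← hc', e, zero_smul])
      exact ⟨b / c, by rw [← hb, ← hc', smul_smul, div_mul_cancel₀ _ hc0]⟩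
    let L : E →ₗ[F] (ι → F) :=
      (apEquiv g).toLinearMap ∘ₗ (LinearMap.toSpanSingleton E (ι → F) v).restrictScalars F
    have hL : ∀ a, L a = ap g (a • v) := fun a => rfl
    obtain ⟨a, ha, hLa⟩ := S.exists_iso_mem L fun a b => by
      rw [hL, hL, hXf g hgX, f_def, S.smul_left, S.smul_right, hvv, mul_zero, mul_zero, map_zero]
    have hd : L a ≠ 0 := ap_ne_zero g (smul_ne_zero ha hv)
    refine ⟨_, ⟨g, hgX, v, L a, hv, hvv, hd, hLa, hno _, rfl⟩, ?_⟩
    rw [Nat.pos_iff_ne_zero, Ne, Submodule.finrank_eq_zero]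
    intro hbot
    have hmem : L a ∈ img g (ln F E v) ⊓ ln F E (L a) :=
      ⟨mem_img.mpr ⟨a • v, smul_mem_ln v a, rfl⟩, self_mem_ln _⟩
    rw [hbot, Submodule.mem_bot] at hmem
    exact hd hmem
  set e := Nat.findGreatest P' (finrank F E) with he
  have hPe : P' e := Nat.findGreatest_spec (hbound _ hPe₀) hPe₀
  have hee : e₀ ≤ e := Nat.le_findGreatest (hbound _ hPe₀) hPe₀
  obtain ⟨g, hgX, v, u, hv, hvv, hu, huu, hne, hdim⟩ := hPe
  set L' := img g (ln F E v) with hL'
  set D := L' ⊓ ln F E u with hD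
  have hrank : finrank F L' = finrank F (ln F E u) := by
    rw [finrank_img, finrank_ln hv, finrank_ln hu]
  have hts : ∀ x ∈ L', ∀ y ∈ L', S.f x y = 0 := by
    intro x hx y hy
    obtain ⟨x', hx', rfl⟩ := mem_img.mp hx
    obtain ⟨y', hy', rfl⟩ := mem_img.mp hy
    obtain ⟨a, rfl⟩ := mem_ln.mp hx'
    obtain ⟨b, rfl⟩ := mem_ln.mp hy'
    rw [hXf g hgX, f_def, S.smul_left, S.smul_right, hvv, mul_zero, mul_zero, map_zero]
  -- maximality
  have hmax : ∀ t ∈ X, (∀ x ∈ D, ap t x = x) → ∀ w ∈ L', w ∉ ln F E u → ap t w - w ∈ D →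
      ∀ x ∈ L', ap t x ∈ L' := by
    intro t htX htD w hw hwu htw
    obtain ⟨d, hdD, htw'⟩ : ∃ d ∈ D, ap t w = w + d := ⟨_, htw, by abel⟩
    set h := g⁻¹ * t * g with hh
    have hhX : h ∈ X := mul_mem (mul_mem (inv_mem hgX) htX) hgX
    have hline : ∀ x ∈ L', ap g⁻¹ x ∈ ln F E v := by
      intro x hx
      obtain ⟨y, hy, rfl⟩ := mem_img.mp hx
      rwa [ap_inv_ap]
    have hstab : img h (ln F E v) = ln F E v := by
      by_contra hne'
      let S' := D ⊔ Submodule.span F {w + d}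
      have hwd : w + d ∉ ln F E u := fun hc => hwu (by
        simpa using (ln F E u).sub_mem hc hdD.2)
      have hlt : D < S' := lt_of_le_of_ne le_sup_left fun heq => hwd
        ((show D ≤ ln F E u from inf_le_right)
          (heq ▸ Submodule.mem_sup_right (Submodule.mem_span_singleton_self _)))
      have hle : img g⁻¹ S' ≤ img h (ln F E v) ⊓ ln F E v := by
        rw [img, Submodule.map_sup, Submodule.map_span, sup_le_iff, Submodule.span_le,
          Set.image_singleton, Set.singleton_subset_iff]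
        refine ⟨?_, ⟨mem_img.mpr ⟨ap g⁻¹ w, hline w hw, ?_⟩, ?_⟩⟩
        · rintro _ ⟨x, hx, rfl⟩
          exact ⟨mem_img.mpr ⟨ap g⁻¹ x, hline x hx.1, by
            simp [hh, ap_mul, ap_ap_inv, htD x hx]⟩, hline x hx.1⟩
        · simp [hh, ap_mul, ap_ap_inv, htw']
        · simp only [LinearEquiv.coe_coe, apEquiv_apply]
          exact hline _ (L'.add_mem hw hdD.1)
      have h1 := Submodule.finrank_mono hle
      rw [finrank_img] at h1
      have h2 := Submodule.finrank_lt_finrank_of_lt hlt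
      have hP : P' (finrank F ↥(img h (ln F E v) ⊓ ln F E v)) :=
        ⟨h, hhX, v, v, hv, hvv, hv, hvv, hne', rfl⟩
      have := Nat.le_findGreatest (hbound _ hP) hP
      omega
    intro x hx
    have h3 : ap h (ap g⁻¹ x) ∈ ln F E v := hstab ▸ mem_img.mpr ⟨_, hline x hx, rfl⟩
    refine mem_img.mpr ⟨_, h3, ?_⟩
    rw [hh, ap_mul, ap_mul, ap_ap_inv, ap_ap_inv]
  -- the trace of `D` on the line of `u`
  let su : E →ₗ[F] (ι → F) := (LinearMap.toSpanSingleton E (ι → F) u).restrictScalars F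
  let DK : Submodule F E := D.comap su
  have hDK : ∀ a : E, a ∈ DK ↔ a • u ∈ D := fun a => Iff.rfl
  have hDKtop : DK ≠ ⊤ := by
    intro h
    refine hne (Submodule.eq_of_le_of_finrank_eq (fun x hx => ?_) hrank.symm).symm
    obtain ⟨a, rfl⟩ := mem_ln.mp hx
    exact ((hDK a).mp (h ▸ Submodule.mem_top : a ∈ DK)).1
  have hDKrk : finrank F DK = e := by
    rw [(Submodule.equivMapOfInjective su (fun a b h => smul_left_injective E hu h) DK).finrank_eq,
      Submodule.map_comap_eq, inf_eq_right.mpr, hdim]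
    intro x hx
    obtain ⟨a, rfl⟩ := mem_ln.mp hx.2
    exact ⟨a, rfl⟩
  obtain ⟨d, hdD, hd⟩ := Submodule.exists_mem_ne_zero_of_ne_bot (p := D) (by
    intro h
    rw [h, finrank_bot] at hdim
    omega)
  -- the element
  obtain ⟨t, htX, htD, htd, w, hwL, hwne⟩ : ∃ t ∈ X, (∀ x ∈ D, ap t x = x) ∧
      (∀ x ∈ L', ap t x - x ∈ D) ∧ ∃ w ∈ L', ap t w ≠ w := by
    by_cases hA : ∀ x ∈ L', S.φ x u = 0
    · obtain ⟨w, hw, hwu⟩ : ∃ w ∈ L', w ∉ ln F E u := by
        by_contra h
        push Not at h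
        exact hne (Submodule.eq_of_le_of_finrank_eq h hrank)
      obtain ⟨δ, hδ⟩ := mem_ln.mp hdD.2
      obtain ⟨y', hy'u, hwy'⟩ := S.exists_perp_val hu hwu δ
      obtain ⟨c, hc⟩ := S.exists_sub_eq (S.skew_self y')
      have hap : ∀ x ∈ L', ap (S.ei u y' c huu hy'u) x = x + S.φ x y' • u := fun x hx => by
        rw [S.ap_ei, hA x hx, zero_smul, mul_zero, add_zero, add_zero]
      refine ⟨_, S.ei_mem hX huu hy'u hc, fun x hx => ?_, fun x hx => ?_, w, hw, ?_⟩
      · obtain ⟨b, rfl⟩ := mem_ln.mp hx.2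
        rw [S.ap_ei, S.smul_left, S.smul_left, huu, S.eq_zero_comm.mp hy'u]
        simp
      · refine ⟨?_, ?_⟩
        · refine L'.sub_mem (hmax _ (S.ei_mem hX huu hy'u hc) (fun x hx => ?_) w hw hwu ?_ x hx) hx
          · obtain ⟨b, rfl⟩ := mem_ln.mp hx.2
            rw [S.ap_ei, S.smul_left, S.smul_left, huu, S.eq_zero_comm.mp hy'u]
            simp
          · rw [hap w hw, hwy', hδ, add_sub_cancel_left]; exact hdD
        · rw [hap x hx, add_sub_cancel_left]; exact smul_mem_ln u _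
      · rw [hap w hw, hwy', hδ]
        simpa using hd
    -- otherwise only `D` is orthogonal to `u` in `L'`
    push Not at hA
    obtain ⟨x₀, hx₀, hx₀u⟩ := hA
    have hker : ∀ x ∈ L', S.φ x u = 0 → x ∈ ln F E u := by
      intro w hw hwu0
      by_contra hwu
      obtain ⟨δ, hδ⟩ := mem_ln.mp hdD.2
      obtain ⟨y', hy'u, hwy'⟩ := S.exists_perp_val hu hwu δ
      obtain ⟨c, hc⟩ := S.exists_sub_eq (S.skew_self y')
      have hstab : ∀ c, c - S.τ c = S.φ y' y' → ap (S.ei u y' c huu hy'u) x₀ ∈ L' := by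
        intro c hc
        refine hmax _ (S.ei_mem hX huu hy'u hc) (fun x hx => ?_) w hw hwu ?_ x₀ hx₀
        · obtain ⟨b, rfl⟩ := mem_ln.mp hx.2
          rw [S.ap_ei, S.smul_left, S.smul_left, huu, S.eq_zero_comm.mp hy'u]
          simp
        · rw [S.ap_ei, hwu0, zero_smul, mul_zero, add_zero, add_zero, hwy', hδ, add_sub_cancel_left]
          exact hdD
      have hfix : ∀ c', S.τ c' = c' → c' * S.φ x₀ u ∈ DK := by
        intro c' hc'
        have h2 := L'.sub_mem (hstab (c + c') (by rw [map_add, hc', ← hc]; ring)) (hstab c hc)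
        rw [S.ap_ei, S.ap_ei, add_mul, ← add_assoc (S.φ x₀ y'), add_smul] at h2
        exact (hDK _).mpr ⟨by simpa using h2, smul_mem_ln u _⟩
      refine hDKtop (eq_top_iff.mpr fun a _ => ?_)
      obtain ⟨x, y, hx, hy, hxy⟩ := S.decomp (a / S.φ x₀ u)
      rw [div_eq_iff hx₀u, add_mul, smul_mul_assoc] at hxy
      rw [hxy]
      exact DK.add_mem (hfix x hx) (DK.smul_mem _ (hfix y hy))
    let lu : L' →ₗ[F] E := (S.l u).restrictScalars F ∘ₗ L'.subtype
    have hker' : (LinearMap.ker lu).map L'.subtype = D := by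
      refine le_antisymm ?_ ?_
      · rintro _ ⟨x, hx, rfl⟩
        exact ⟨x.2, hker x.1 x.2 hx⟩
      · intro x hx
        obtain ⟨b, hb⟩ := mem_ln.mp hx.2
        refine ⟨⟨x, hx.1⟩, ?_, rfl⟩
        show S.φ x u = 0
        rw [← hb, S.smul_left, huu, mul_zero]
    have hI : finrank F (LinearMap.range lu) + e = finrank F E := by
      have h1 := LinearMap.finrank_range_add_finrank_ker lu
      rw [finrank_img, finrank_ln hv, ← Submodule.finrank_map_subtype_eq L' (LinearMap.ker lu),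
        hker', hdim] at h1
      exact h1
    have hperp : ∀ δ ∈ DK, ∀ γ ∈ LinearMap.range lu, S.T (δ * S.τ γ) = 0 := by
      rintro δ hδ _ ⟨x, rfl⟩
      have := hts _ ((hDK δ).mp hδ).1 _ x.2
      rw [f_def, S.smul_left, S.skew, mul_neg, map_neg, neg_eq_zero] at this
      exact this
    obtain ⟨δ, hδ, γ, hγ, hδ0, hγ0, hfix⟩ : ∃ δ ∈ DK, ∃ γ ∈ LinearMap.range lu, δ ≠ 0 ∧ γ ≠ 0 ∧
        S.τ (δ * S.τ γ) = δ * S.τ γ := by
      by_cases h2 : finrank F E ≤ 2 * e
      · have hγ1 : S.φ x₀ u ∈ LinearMap.range lu := ⟨⟨x₀, hx₀⟩, rfl⟩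
        obtain ⟨δ, hδ, hδ0, hfix⟩ := S.exists_fix_mul (η := S.φ x₀ u) DK
          (fun δ hδ => hperp δ hδ _ hγ1) (by rw [hDKrk]; exact h2)
        exact ⟨δ, hδ, _, hγ1, hδ0, hx₀u, hfix⟩
      · obtain ⟨δ, hδ⟩ := mem_ln.mp hdD.2
        have hδ1 : δ ∈ DK := (hDK δ).mpr (hδ.symm ▸ hdD)
        obtain ⟨γ, hγ, hγ0, hfix⟩ := S.exists_fix_mul (η := δ) (LinearMap.range lu)
          (fun γ hγ => by
            have := hperp δ hδ1 γ hγ
            rw [← S.τ_invol δ, ← map_mul, S.T_τ, EmbeddingLike.map_eq_zero_iff] at this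
            rwa [mul_comm]) (by omega)
        refine ⟨δ, hδ1, γ, hγ, fun h0 => hd (by rw [← hδ, h0, zero_smul]), hγ0, ?_⟩
        have h4 := congrArg S.τ hfix
        rw [S.τ_invol] at h4
        have h5 : S.τ (δ * S.τ γ) = γ * S.τ δ := by rw [map_mul, S.τ_invol, mul_comm]
        rw [h5, h4, map_mul, S.τ_invol, mul_comm]
    obtain ⟨⟨w, hw⟩, rfl⟩ := hγ
    set γ := lu ⟨w, hw⟩ with hγdef
    have hwγ : S.φ w u = γ := rfl
    have hwu : w ∉ ln F E u := fun hc => hγ0 (by
      obtain ⟨b, rfl⟩ := mem_ln.mp hc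
      rw [← hwγ, S.smul_left, huu, mul_zero])
    have hγ' : S.τ γ ≠ 0 := (map_ne_zero_iff _ S.τ.injective).mpr hγ0
    have ha : S.τ (δ / γ) = δ / γ := by
      rw [map_mul, S.τ_invol] at hfix
      rw [map_div₀, div_eq_div_iff hγ' hγ0, mul_comm]
      linear_combination hfix
    refine ⟨S.tr u (δ / γ) huu, S.tr_mem hX huu ha, fun x hx => ?_, fun x hx => ?_, w, hw, ?_⟩
    · obtain ⟨b, rfl⟩ := mem_ln.mp hx.2
      simp [S.smul_left, huu]
    · refine ⟨?_, ?_⟩
      · refine L'.sub_mem (hmax _ (S.tr_mem hX huu ha) (fun x hx => ?_) w hw hwu ?_ x hx) hx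
        · obtain ⟨b, rfl⟩ := mem_ln.mp hx.2
          simp [S.smul_left, huu]
        · rw [S.ap_tr, hwγ, div_mul_cancel₀ _ hγ0, add_sub_cancel_left]
          exact (hDK δ).mp hδ
      · rw [S.ap_tr, add_sub_cancel_left]; exact smul_mem_ln u _
    · rw [S.ap_tr, hwγ, div_mul_cancel₀ _ hγ0]
      simpa using smul_ne_zero hδ0 hu
  -- the map induced on the line
  have hgv : ∀ a : E, ap g (a • v) ∈ L' := fun a => mem_img.mpr ⟨_, smul_mem_ln v a, rfl⟩
  have hG : ∀ a : E, ∃ b : E, ap g⁻¹ (ap t (ap g (a • v)) - ap g (a • v)) = b • v := by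
    intro a
    obtain ⟨y, hy, hye⟩ := mem_img.mp (htd _ (hgv a)).1
    obtain ⟨b, rfl⟩ := mem_ln.mp hy
    exact ⟨b, by rw [← hye, ap_inv_ap]⟩
  choose N₀ hN₀ using hG
  let N : E →ₗ[F] E :=
    { toFun := N₀
      map_add' := fun a b => smul_left_injective E hv (by
        show N₀ (a + b) • v = (N₀ a + N₀ b) • v
        simp only [← hN₀, add_smul, ap_add, ap_sub]; abel)
      map_smul' := fun k a => smul_left_injective E hv (by
        show N₀ (k • a) • v = (k • N₀ a) • v
        rw [smul_assoc k (N₀ a), ← hN₀, ← hN₀, smul_assoc k a, ap_smul, ap_smul, ← smul_sub,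
          ap_smul]) }
  have hN : ∀ a, ap g⁻¹ (ap t (ap g (a • v)) - ap g (a • v)) = N a • v := hN₀
  have hgN : ∀ a, ap g (N a • v) ∈ D := fun a => by
    rw [← hN, ap_ap_inv]; exact htd _ (hgv a)
  have hh : ∀ a : E, ap (g⁻¹ * t * g) (a • v) = (LinearMap.id + N : E →ₗ[F] E) a • v := fun a => by
    rw [LinearMap.add_apply, LinearMap.id_apply, add_smul, ← hN, ap_sub, ap_inv_ap, ap_mul, ap_mul]
    abel
  have hinj : Function.Injective (LinearMap.id + N : E →ₗ[F] E) := fun a b h =>
    smul_left_injective E hv (ap_injective (g⁻¹ * t * g) (by rw [hh, hh, h]))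
  obtain ⟨z, hz, hgz⟩ : ∃ z : E, z ≠ 0 ∧ ap g (z • v) = d := by
    obtain ⟨y, hy, hyd⟩ := mem_img.mp hdD.1
    obtain ⟨z, rfl⟩ := mem_ln.mp hy
    exact ⟨z, fun h => hd (by rw [← hyd, h, zero_smul, ap_zero]), hyd⟩
  have hz' : ∀ a, ap g (a • v) ∈ D → N a = 0 := fun a ha => by
    have h1 := hN a
    rw [htD _ ha, sub_self, ap_zero, eq_comm, smul_eq_zero] at h1
    exact h1.resolve_right hv
  refine ⟨v, LinearMap.id + N, hv, hvv, hinj, not_nrm_of_sq hr h3 (fun hN0 => hwne ?_)
    (fun a => hz' _ (hgN a)) hz (hz' z (hgz.symm ▸ hdD)), g⁻¹ * t * g,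
    mul_mem (mul_mem (inv_mem hgX) htX) hgX, hh⟩
  obtain ⟨y, hy, hyw⟩ := mem_img.mp hwL
  obtain ⟨b, rfl⟩ := mem_ln.mp hy
  have h1 := hN b
  rw [hN0, LinearMap.zero_apply, zero_smul, hyw] at h1
  exact sub_eq_zero.mp ((apEquiv g⁻¹).map_eq_zero_iff.mp h1)

end UForm

end CfsgLib.Geometric.ExtF
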