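import Cfsg.Agent.Lib.Geometric.ExtField.UnitScale
import Cfsg.Agent.Lib.Geometric.SkewPairApply

/-!
The normaliser of a field of odd prime degree closed under adjoints is maximal in the special unitary
group, when the field does not act irreducibly.
-/

set_option autoImplicit false
set_option linter.unusedSectionVars false

namespace CfsgLib.Geometric.ExtF

open Matrix Module

theorem unitary_maximal_of_hom {F : Type*} [Field F] [Fintype F] {ι : Type} [Fintype ι] [DecidableEq ι]
    {σ : F ≃+* F} {f : (ι → F) → (ι → F) → F} (hf : IsSkewForm σ f)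
    {E : Type*} [Field E] [Algebra F E] [Finite E] (hr : (finrank F E).Prime) (hodd : Odd (finrank F E))
    (hn : 2 * finrank F E ≤ Fintype.card ι)
    (hk : 3 * finrank F E ≤ Fintype.card ι ∨ ∀ q, Fintype.card F = q ^ 2 →
      finrank F E * (q ^ 2 - 1) < q ^ finrank F E + 1)
    (ρ : E →ₐ[F] Matrix ι ι F) (K : Subalgebra F (Matrix ι ι F))
    (hρK : ∀ k, k ∈ K ↔ ∃ a, ρ a = k)
    (hac : ∀ k ∈ K, ∃ k' ∈ K, ∀ u v : ι → F, f (k *ᵥ u) v = f u (k' *ᵥ v)) :
    Cfsg.Geo.IsMaximalIn (isom f ⊓ Cfsg.Geo.specialLinear ι F)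
      (Cfsg.Geo.subalgebraNormalizer K ⊓ (isom f ⊓ Cfsg.Geo.specialLinear ι F)) := by
  classical
  have : Module.Finite F E := Module.Finite.of_finite
  have h3 : 3 ≤ finrank F E := by
    have := hr.two_le
    obtain ⟨k, hk⟩ := hodd
    omega
  let : Module E (ι → F) := Module.compHom _ ((Matrix.toLinAlgEquiv'.toAlgHom.comp ρ).toRingHom)
  have hsmul : ∀ (a : E) (v : ι → F), a • v = ρ a *ᵥ v := fun a v => rfl
  have : IsScalarTower F E (ι → F) := ⟨fun c a v => by
    rw [hsmul, hsmul, map_smul, Matrix.smul_mulVec]⟩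
  have hne : Nonempty ι := Fintype.card_pos_iff.mp (by omega)
  -- the involution
  have hex : ∀ a : E, ∃ a' : E, ∀ u v : ι → F, f (a • u) v = f u (a' • v) := fun a => by
    obtain ⟨k', hk', h⟩ := hac _ ((hρK _).mpr ⟨a, rfl⟩)
    obtain ⟨a', rfl⟩ := (hρK _).mp hk'
    exact ⟨a', h⟩
  choose τ hτ using hex
  have huniq : ∀ a b : E, (∀ u v : ι → F, f u (a • v) = f u (b • v)) → a = b := by
    intro a b h
    by_contra hab
    obtain ⟨v, hv⟩ := exists_ne (0 : ι → F)
    obtain ⟨u, hu⟩ := (hf.nondegenerate _ (show (a - b) • v ≠ 0 from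
      smul_ne_zero (sub_ne_zero.mpr hab) hv)).1
    exact hu (by rw [sub_smul, Unitary.sub_right hf, h, sub_self])
  have hτadd : ∀ a b, τ (a + b) = τ a + τ b := fun a b => huniq _ _ fun u v => by
    rw [← hτ, add_smul, add_smul, hf.add_left, Unitary.add_right hf, hτ, hτ]
  have hτmul : ∀ a b, τ (a * b) = τ a * τ b := fun a b => huniq _ _ fun u v => by
    rw [← hτ, mul_smul, hτ, hτ, smul_smul, mul_comm]
  have hτmap : ∀ c : F, τ (algebraMap F E c) = algebraMap F E (σ c) := fun c => huniq _ _ fun u v => by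
    rw [← hτ, algebraMap_smul, algebraMap_smul, hf.smul_left, Unitary.smul_right hf, hf.involutive]
  have hτinvol : ∀ a, τ (τ a) = a := fun a => huniq _ _ fun u v => by
    rw [← hτ, hf.skew (τ a • u) v, ← hτ, ← hf.skew]
  let τe : E ≃+* E :=
    { toFun := τ
      invFun := τ
      left_inv := hτinvol
      right_inv := hτinvol
      map_mul' := hτmul
      map_add' := hτadd }
  -- the trace
  set T := Algebra.trace F E with hT
  have hTτ : ∀ a, T (τe a) = σ (T a) := fun a => by
    apply (algebraMap F E).injective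
    rw [← hτmap, hT, FiniteField.algebraMap_trace_eq_sum_pow, FiniteField.algebraMap_trace_eq_sum_pow]
    show _ = τe _
    rw [map_sum]
    simp only [map_pow]
  have hT0 : T ≠ 0 := Algebra.trace_ne_zero F E
  let ψ : (ι → F) → (ι → F) → (E →ₗ[F] F) := fun x y =>
    { toFun := fun a => f (a • x) y
      map_add' := fun a b => by rw [add_smul, hf.add_left]
      map_smul' := fun c a => by rw [smul_assoc, hf.smul_left, RingHom.id_apply, smul_eq_mul] }
  choose φ hφ using fun x y => exists_mul_rep hT0 (ψ x y)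
  have ext : ∀ {e e' : E}, (∀ a, T (a * e) = T (a * e')) → e = e' := by
    intro e e' h
    by_contra hne
    refine hT0 (LinearMap.ext fun a => ?_)
    have h1 := h (a / (e - e'))
    rw [← sub_eq_zero, ← map_sub, ← mul_sub, div_mul_cancel₀ _ (sub_ne_zero.mpr hne)] at h1
    simpa using h1
  have hφ' : ∀ x y a, T (a * φ x y) = f (a • x) y := fun x y a => hφ x y a
  let S : UForm F E ι :=
    { σ := σ
      τ := τe
      T := T
      φ := φ
      σ_ne := hf.ne_refl
      σ_invol := hf.involutive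
      τ_invol := hτinvol
      τ_map := hτmap
      T_τ := hTτ
      T_ne := hT0
      add_left := fun x y z => ext fun a => by
        rw [mul_add, map_add, hφ', hφ', hφ', smul_add, hf.add_left]
      smul_left := fun b x y => ext fun a => by rw [hφ', ← mul_assoc, hφ', mul_smul]
      skew := fun x y => ext fun a => by
        have h1 : τe (τe a * φ x y) = a * τe (φ x y) := by
          rw [map_mul]
          exact congrArg (· * τe (φ x y)) (hτinvol a)
        rw [mul_neg, map_neg, hφ', ← h1, hTτ, hφ', hf.skew, neg_inj]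
        refine congrArg σ ?_
        show f x (a • y) = f (τ a • x) y
        rw [hτ, hτinvol]
      nondeg := fun x hx => by
        obtain ⟨y, hy⟩ := (hf.nondegenerate x hx).2
        exact ⟨y, fun h => hy (by rw [← one_smul E x, ← hφ', h, mul_zero, map_zero])⟩ }
  have hSf : S.f = f := by
    funext x y
    have := hφ' x y 1
    rwa [one_mul, one_smul] at this
  have hm : ∀ v : ι → F, ∃ w : ι → F, ∀ a : E, a • v ≠ w := by
    intro v
    by_contra h
    push Not at h
    have h1 := LinearMap.finrank_range_le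
      ((LinearMap.toSpanSingleton E (ι → F) v).restrictScalars F)
    rw [LinearMap.range_eq_top.mpr (fun w => h w), finrank_top,
      Module.finrank_fintype_fun_eq_card] at h1
    omega
  have hiff : ∀ g : GL ι F, g ∈ Cfsg.Geo.subalgebraNormalizer K ↔ IsSemi E g :=
    mem_normalizer_iff_isSemi K ρ hρK hsmul
  obtain ⟨v, hv, hvv⟩ := S.exists_iso hm
  refine ⟨lt_of_le_of_ne inf_le_right fun h => ?_, fun M hNM hMI => ?_⟩
  · -- a transvection is not semilinear
    obtain ⟨a, ha⟩ := exists_notMem_range (F := F) hr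
    have hfv : ∀ b : E, f (b • v) v = 0 := fun b => by
      rw [← hφ', show φ v v = 0 from hvv, mul_zero, map_zero]
    have hv0 : f v v = 0 := by simpa using hfv 1
    obtain ⟨x, hx⟩ := (hf.nondegenerate v hv).1
    obtain ⟨b, hb⟩ := (hiff _).mp (inf_eq_right.mp h (Unitary.T_mem hf hv0 (map_one σ))) a
    have h1 := hb v
    rw [Unitary.ap_T hf, Unitary.ap_T hf, hfv, hv0, mul_zero, zero_smul, add_zero, add_zero] at h1
    obtain rfl : a = b := smul_left_injective E hv h1
    have h2 := hb x
    rw [Unitary.ap_T hf, Unitary.ap_T hf, smul_add, add_right_inj, one_mul, one_mul,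
      ← algebraMap_smul E (f x v), smul_smul, ← algebraMap_smul E (f (a • x) v)] at h2
    have h3 := smul_left_injective E hv h2
    refine ha ⟨f (a • x) v / f x v, ?_⟩
    rw [map_div₀, h3, mul_div_assoc, div_self (by simpa using hx), mul_one]
  by_cases h : M ≤ Cfsg.Geo.subalgebraNormalizer K
  · exact Or.inl (le_antisymm (le_inf h hMI) hNM)
  obtain ⟨g, hg, hgN⟩ := SetLike.not_le_iff_exists.mp h
  have hX : ∀ g, S.IsIsom g → g ∈ Cfsg.Geo.specialLinear ι F → g ∈ M := fun g hg hs => hNM
    ⟨(hiff g).mpr (IsSemi.of_linear E hg.1), ⟨mem_isom_iff.mpr fun x y => by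
      rw [← hSf]; exact congrArg _ (hg.2 x y), hs⟩⟩
  have hXf : ∀ g ∈ M, ∀ x y, S.f (ap g x) (ap g y) = S.f x y := fun g hg x y => by
    rw [hSf]; exact mem_isom_iff.mp (hMI hg).1 x y
  have hk' : 3 * finrank F E ≤ Fintype.card ι ∨
      finrank F E * (S.q ^ 2 - 1) < S.q ^ finrank F E + 1 :=
    hk.imp_right fun h => h _ (by rw [← Nat.card_eq_fintype_card, S.card_base])
  have htv := S.hasT hX hXf hr h3 hm (fun v hv hvv => S.hasScale h3 hk' hX hv hvv)
    ⟨g, hg, fun hs => hgN ((hiff g).mpr hs)⟩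
  refine Or.inr (le_antisymm hMI (Unitary.le_of_hasT hf (by omega) fun u hu c hc => ?_))
  have := htv u (by rw [hSf]; exact hu) c hc
  convert this using 1
  exact gl_ext fun x => by rw [Unitary.ap_T, Unitary.ap_T, hSf]

/-- The normaliser of a field of odd prime degree closed under adjoints. -/
theorem unitary_maximal {F : Type*} [Field F] [Fintype F] {ι : Type} [Fintype ι] [DecidableEq ι]
    {σ : F ≃+* F} {h : (ι → F) → (ι → F) → F} (hh : Cfsg.Geo.IsUnitaryForm σ h) {r : ℕ}
    (hr : r.Prime) (hodd : Odd r) (hn : 2 * r ≤ Fintype.card ι)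
    (hk : 3 * r ≤ Fintype.card ι ∨ ∀ q, Fintype.card F = q ^ 2 → r * (q ^ 2 - 1) < q ^ r + 1)
    (K : Subalgebra F (Matrix ι ι F)) (hK : Cfsg.Geo.IsFieldSubalgebra r K)
    (hac : Cfsg.Geo.IsAdjointClosedFor h K) :
    Cfsg.Geo.IsMaximalIn (isom h ⊓ Cfsg.Geo.specialLinear ι F)
      (Cfsg.Geo.subalgebraNormalizer K ⊓ (isom h ⊓ Cfsg.Geo.specialLinear ι F)) := by
  classical
  let : Field K := fieldOfSubalg hK hr.ne_zero
  have : Module.Finite F K := Module.finite_of_finrank_pos (by rw [hK.finrank_eq]; exact hr.pos)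
  have : Finite K := Module.finite_of_finite F
  obtain ⟨ζ, hζ, hf⟩ := exists_skewForm_of_unitary hh
  have := unitary_maximal_of_hom hf (E := K) (by rw [hK.finrank_eq]; exact hr)
    (by rw [hK.finrank_eq]; exact hodd) (by rw [hK.finrank_eq]; exact hn)
    (by rw [hK.finrank_eq]; exact hk) K.val K
    (fun k => ⟨fun hk => ⟨⟨k, hk⟩, rfl⟩, fun ⟨a, ha⟩ => ha ▸ a.2⟩)
    fun k hk => by
      obtain ⟨k', hk', he⟩ := hac k hk
      exact ⟨k', hk', fun u v => by rw [he]⟩
  rwa [isom_mul_const hζ] at this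

end CfsgLib.Geometric.ExtF
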