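import Cfsg.Agent.Lib.Geometric.ExtField.UnitFull

/-!
Special isometries over an extension field scaling an isotropic line by a scalar that is not real up to the
base field, built from quasi-reflections.
-/

set_option autoImplicit false
set_option linter.unusedSectionVars false

namespace CfsgLib.Geometric.ExtF

open Module Matrix

variable {F : Type*} [Field F] {ι : Type} [Fintype ι] [DecidableEq ι] {E : Type*} [Field E]
  [Algebra F E] [Module E (ι → F)] [IsScalarTower F E (ι → F)] [Finite F] [Finite E]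

/-- The dilation by `ε` along `s` with axis the kernel of `Φ`. -/
def dil (Φ : (ι → F) →ₗ[E] E) (s : ι → F) (hs : Φ s = 1) (ε : E) (hε : ε ≠ 0) : GL ι F :=
  ofEquiv
    { toFun := fun x => x + ((ε - 1) * Φ x) • s
      map_add' := fun x y => by rw [map_add, mul_add, add_smul]; abel
      map_smul' := fun c x => by
        rw [LinearMap.map_smul_of_tower, RingHom.id_apply, smul_add, mul_smul_comm, smul_assoc]
      invFun := fun x => x + ((ε⁻¹ - 1) * Φ x) • s
      left_inv := fun x => by
        simp only [map_add, map_smul, hs, smul_eq_mul, mul_one]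
        match_scalars <;> field_simp <;> ring
      right_inv := fun x => by
        simp only [map_add, map_smul, hs, smul_eq_mul, mul_one]
        match_scalars <;> field_simp <;> ring }

lemma ap_dil (Φ : (ι → F) →ₗ[E] E) (s : ι → F) (hs : Φ s = 1) (ε : E) (hε : ε ≠ 0) (x : ι → F) :
    ap (dil Φ s hs ε hε) x = x + ((ε - 1) * Φ x) • s := by
  rw [dil, ap_ofEquiv]; rfl

/-- The determinant of a dilation is the norm. -/
lemma det_dil (Φ : (ι → F) →ₗ[E] E) (s : ι → F) (hs : Φ s = 1) (ε : E) (hε : ε ≠ 0) :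
    (dil Φ s hs ε hε : Matrix ι ι F).det = Algebra.norm F ε := by
  have : Module.Finite F E := Module.Finite.of_finite
  let K := LinearMap.ker (Φ.restrictScalars F)
  let Ψ : (K × E) ≃ₗ[F] (ι → F) :=
    { toFun := fun p => (p.1 : ι → F) + p.2 • s
      map_add' := fun p p' => by simp only [Prod.fst_add, Prod.snd_add, Submodule.coe_add, add_smul]; abel
      map_smul' := fun c p => by
        simp only [Prod.smul_fst, Prod.smul_snd, Submodule.coe_smul, RingHom.id_apply, smul_add,
          smul_assoc]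
      invFun := fun x => (⟨x - Φ x • s, by simp [K, hs]⟩, Φ x)
      left_inv := fun p => by
        have hp : Φ (p.1 : ι → F) = 0 := p.1.2
        refine Prod.ext (Subtype.ext ?_) ?_ <;> simp [hs, hp]
      right_inv := fun x => by simp }
  have h1 : Matrix.toLin' (dil Φ s hs ε hε : Matrix ι ι F) =
      Ψ.toLinearMap ∘ₗ LinearMap.prodMap LinearMap.id (LinearMap.mulLeft F ε) ∘ₗ Ψ.symm.toLinearMap := by
    refine LinearMap.ext fun x => ?_
    rw [Matrix.toLin'_apply, ← ap_def, ap_dil]
    show _ = (x - Φ x • s) + (ε * Φ x) • s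
    module
  rw [← LinearMap.det_toLin', h1, LinearMap.det_conj, LinearMap.det_prodMap, LinearMap.det_id,
    one_mul, Algebra.norm_apply]
  rfl

namespace UForm

variable (S : UForm F E ι)

/-- The fixed field of the extension. -/
def fxE : Subfield E where
  carrier := {x | S.τ x = x}
  zero_mem' := map_zero S.τ
  one_mem' := map_one S.τ
  add_mem' {a b} (ha : S.τ a = a) (hb : S.τ b = b) := show S.τ (a + b) = a + b by rw [map_add, ha, hb]
  mul_mem' {a b} (ha : S.τ a = a) (hb : S.τ b = b) := show S.τ (a * b) = a * b by rw [map_mul, ha, hb]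
  neg_mem' {a} (ha : S.τ a = a) := show S.τ (-a) = -a by rw [map_neg, ha]
  inv_mem' a (ha : S.τ a = a) := show S.τ a⁻¹ = a⁻¹ by rw [map_inv₀, ha]

/-- A unit quotient by the conjugate with no small power equal to one. -/
lemma exists_unit_gen : ∃ η : E, η * S.τ η = 1 ∧
    ∀ m, 0 < m → η ^ m = 1 → S.q ^ finrank F E + 1 ≤ m := by
  classical
  have := Fintype.ofFinite E
  have := Fintype.ofFinite S.fxE
  obtain ⟨u, hu⟩ := IsCyclic.exists_generator (α := Eˣ)
  have hord : orderOf (u : E) = Fintype.card E - 1 := by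
    rw [orderOf_units, orderOf_eq_card_of_forall_mem_zpowers hu, Nat.card_eq_fintype_card,
      Fintype.card_units]
  have hu0 : (u : E) ≠ 0 := u.ne_zero
  have hτu : S.τ (u : E) ≠ 0 := (map_ne_zero_iff _ S.τ.injective).mpr hu0
  refine ⟨(u : E) / S.τ u, ?_, fun m hm h => ?_⟩
  · rw [map_div₀, S.τ_invol]; field_simp
  rw [div_pow, div_eq_one_iff_eq (pow_ne_zero _ hτu), ← map_pow] at h
  have h1 := FiniteField.pow_card_sub_one_eq_one (⟨(u : E) ^ m, h.symm⟩ : S.fxE)
    (fun h0 => pow_ne_zero m hu0 (congrArg Subtype.val h0))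
  have h2 : (u : E) ^ (m * (Fintype.card S.fxE - 1)) = 1 := by
    rw [pow_mul]; simpa using congrArg Subtype.val h1
  have h3 := orderOf_dvd_of_pow_eq_one h2
  have hc1 : Fintype.card S.fxE = S.q ^ finrank F E := by
    rw [← Nat.card_eq_fintype_card, ← S.card_fix]; rfl
  rw [hord, ← Nat.card_eq_fintype_card, S.card_ext, hc1] at h3
  set Q := S.q ^ finrank F E
  have hQ : 2 ≤ Q := le_trans S.two_le_q (Nat.le_self_pow
    (by have : Module.Finite F E := Module.Finite.of_finite; exact (Module.finrank_pos (R := F) (M := E)).ne') _)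
  have h4 : (Q + 1) * (Q - 1) ∣ m * (Q - 1) := by
    rwa [show (Q + 1) * (Q - 1) = Q ^ 2 - 1 by
      rw [← Nat.sq_sub_sq, one_pow]]
  exact Nat.le_of_dvd hm (Nat.dvd_of_mul_dvd_mul_right (by omega) h4)

/-- A unit outside the base field, of norm one when its degree of freedom allows. -/
lemma exists_unit (h3 : 3 ≤ finrank F E) :
    ∃ ε : E, ε * S.τ ε = 1 ∧ ε ∉ Set.range (algebraMap F E) ∧
      (finrank F E * (S.q ^ 2 - 1) < S.q ^ finrank F E + 1 → Algebra.norm F ε = 1) := by
  classical
  have := Fintype.ofFinite F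
  have hF : Fintype.card F = S.q ^ 2 := by rw [← Nat.card_eq_fintype_card, S.card_base]
  have hq := S.two_le_q
  have hq4 : 4 ≤ S.q ^ 2 := le_trans (by norm_num) (Nat.pow_le_pow_left hq 2)
  obtain ⟨η, hη, hηm⟩ := S.exists_unit_gen
  have hη0 : η ≠ 0 := fun h => by rw [h, zero_mul] at hη; exact zero_ne_one hη
  have hηF : η ∉ Set.range (algebraMap F E) := by
    rintro ⟨c, rfl⟩
    have hc : c ≠ 0 := fun h => hη0 (by rw [h, map_zero])
    have h := hηm (S.q ^ 2 - 1) (by omega) (by
      rw [← map_pow, ← hF, FiniteField.pow_card_sub_one_eq_one c hc, map_one])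
    have : S.q ^ 3 ≤ S.q ^ finrank F E := Nat.pow_le_pow_right (by omega) h3
    have : 2 * S.q ^ 2 ≤ S.q ^ 3 := by rw [pow_succ' S.q 2]; exact Nat.mul_le_mul_right _ hq
    omega
  by_cases hr : finrank F E * (S.q ^ 2 - 1) < S.q ^ finrank F E + 1
  swap
  · exact ⟨η, hη, hηF, fun h => absurd h hr⟩
  set φ := FiniteField.frobeniusAlgEquivOfAlgebraic F E with hφdef
  have hφ : ∀ x : E, φ x = x ^ Fintype.card F := fun x => rfl
  have hφ0 : φ η ≠ 0 := by simpa using hη0
  refine ⟨η / φ η, ?_, ?_, fun _ => ?_⟩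
  · have h1 : η ^ Fintype.card F * S.τ (η ^ Fintype.card F) = 1 := by
      rw [map_pow, ← mul_pow, hη, one_pow]
    rw [hφ, map_div₀, div_mul_div_comm, hη, h1, div_one]
  · rintro ⟨c, hc⟩
    rw [eq_div_iff hφ0] at hc
    have hc0 : c ≠ 0 := fun h => hη0 (by rw [← hc, h, map_zero, zero_mul])
    have hpow : ∀ k, algebraMap F E c ^ k * (φ ^ k) η = η := by
      intro k
      induction k with
      | zero => simp
      | succ k ih =>
        have h2 : (φ ^ k) η = algebraMap F E c * (φ ^ (k + 1)) η := by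
          conv_lhs => rw [← hc]
          rw [map_mul, AlgEquiv.commutes, pow_succ, AlgEquiv.mul_apply]
        rw [pow_succ, mul_assoc, ← h2, ih]
    have hord : φ ^ finrank F E = 1 := by
      rw [← FiniteField.orderOf_frobeniusAlgEquivOfAlgebraic F E, ← hφdef]
      exact pow_orderOf_eq_one φ
    have h5 := hpow (finrank F E)
    rw [hord, AlgEquiv.one_apply, mul_eq_right₀ hη0] at h5
    have h6 : φ (η ^ finrank F E) = η ^ finrank F E := by
      conv_rhs => rw [← hc]
      rw [map_pow, mul_pow, h5, one_mul]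
    have hF1 : η ^ finrank F E ≠ 0 := pow_ne_zero _ hη0
    have h7 : (η ^ finrank F E) ^ (Fintype.card F - 1) = 1 := by
      refine mul_right_cancel₀ hF1 ?_
      rw [← pow_succ, one_mul, Nat.sub_add_cancel Fintype.card_pos, ← hφ, h6]
    rw [← pow_mul, hF] at h7
    have := hηm _ (Nat.mul_pos (by omega) (by omega)) h7
    omega
  · rw [div_eq_mul_inv, ← map_inv₀ φ, map_mul, Algebra.norm_eq_of_algEquiv φ, ← map_mul,
      mul_inv_cancel₀ hη0, map_one]

variable {X : Subgroup (GL ι F)}

/-- The functional of a quasi-reflection. -/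
noncomputable def rfl' (s : ι → F) : (ι → F) →ₗ[E] E := (S.φ s s)⁻¹ • S.l s

lemma rfl'_apply (s x : ι → F) : S.rfl' s x = (S.φ s s)⁻¹ * S.φ x s := rfl

lemma rfl'_self {s : ι → F} (hs : S.φ s s ≠ 0) : S.rfl' s s = 1 := by
  rw [rfl'_apply, inv_mul_cancel₀ hs]

/-- A quasi-reflection by a unit is an isometry. -/
lemma dil_isom {s : ι → F} (hs : S.φ s s ≠ 0) {ε : E} (hε : ε * S.τ ε = 1) (hε0 : ε ≠ 0) :
    S.IsIsom (dil (S.rfl' s) s (S.rfl'_self hs) ε hε0) := by
  refine ⟨fun b x => ?_, fun x y => ?_⟩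
  · rw [ap_dil, ap_dil, map_smul, smul_add, smul_smul, smul_eq_mul, mul_left_comm]
  · simp only [ap_dil, rfl'_apply, S.add_left, S.add_right, S.smul_left, S.smul_right, map_mul,
      map_sub, map_one, map_inv₀, S.skew_self]
    rw [S.skew y s]
    field_simp
    linear_combination (-(S.φ x s * S.τ (S.φ y s))) * hε

/-- Special isometries scaling an isotropic line. -/
theorem hasScale (h3 : 3 ≤ finrank F E)
    (hk : 3 * finrank F E ≤ Fintype.card ι ∨
      finrank F E * (S.q ^ 2 - 1) < S.q ^ finrank F E + 1)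
    (hX : ∀ g, S.IsIsom g → g ∈ Cfsg.Geo.specialLinear ι F → g ∈ X)
    {v : ι → F} (hv : v ≠ 0) (hvv : S.φ v v = 0) : S.HasScale X v := by
  classical
  obtain ⟨w, hw, hvw⟩ := S.exists_hyper hv hvv
  have hwv : S.φ w v = -1 := by rw [S.skew v w, hvw, map_one]
  obtain ⟨ε, hε, hεF, hεN⟩ := S.exists_unit h3
  have hε0 : ε ≠ 0 := fun h => by rw [h, zero_mul] at hε; exact zero_ne_one hε
  set c := algebraMap F E S.om with hc
  set c' := algebraMap F E (S.σ S.om) with hc'
  have hτc : S.τ c = c' := S.τ_map _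
  have hcc : c' - c ≠ 0 := by
    rw [← neg_sub, neg_ne_zero]; exact S.om_sub_ne
  set s := v + c • w with hs
  have hss : S.φ s s = c' - c := by
    simp only [hs, S.add_left, S.add_right, S.smul_left, S.smul_right, hvv, hw, hvw, hwv, hτc]
    ring
  have hs0 : S.φ s s ≠ 0 := by rw [hss]; exact hcc
  -- a compensating element fixing the plane
  obtain ⟨R', hR'i, hR'v, hR'w, hR'det⟩ : ∃ R' : GL ι F, S.IsIsom R' ∧ ap R' v = v ∧
      ap R' w = w ∧ Algebra.norm F ε * (R' : Matrix ι ι F).det = 1 := by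
    by_cases hN : Algebra.norm F ε = 1
    · exact ⟨1, ⟨fun a x => by simp, fun x y => by simp⟩, by simp, by simp, by simp [hN]⟩
    have hn : 3 * finrank F E ≤ Fintype.card ι := hk.resolve_right fun h => hN (hεN h)
    let L : (ι → F) →ₗ[F] (E × E) :=
      ((S.l v).restrictScalars F).prod ((S.l w).restrictScalars F)
    have hker : LinearMap.ker L ≠ ⊥ := by
      intro hbot
      have : Module.Finite F E := Module.Finite.of_finite
      have h1 := LinearMap.finrank_range_add_finrank_ker L
      have h2 := Submodule.finrank_le (LinearMap.range L)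
      rw [hbot, finrank_bot, Module.finrank_fintype_fun_eq_card] at h1
      rw [Module.finrank_prod] at h2
      omega
    obtain ⟨z, hz, hz0⟩ := Submodule.exists_mem_ne_zero_of_ne_bot hker
    have hzv : S.φ z v = 0 := congrArg Prod.fst hz
    have hzw : S.φ z w = 0 := congrArg Prod.snd hz
    obtain ⟨y, hy⟩ := S.nondeg z hz0
    set y' := y - S.φ y w • v + S.φ y v • w with hy'
    have hy'v : S.φ y' v = 0 := by
      simp only [hy', S.sub_left, S.add_left, S.smul_left, hvv, hwv]; ring
    have hy'w : S.φ y' w = 0 := by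
      simp only [hy', S.sub_left, S.add_left, S.smul_left, hw, hvw]; ring
    have hzy' : S.φ z y' = S.φ z y := by
      simp only [hy', S.sub_right, S.add_right, S.smul_right, hzv, hzw]; ring
    obtain ⟨t, htv, htw, htt⟩ : ∃ t, S.φ t v = 0 ∧ S.φ t w = 0 ∧ S.φ t t ≠ 0 := by
      by_contra hc
      push Not at hc
      have hzz := hc z hzv hzw
      have hyy := hc y' hy'v hy'w
      have e1 := hc (z + y') (by rw [S.add_left, hzv, hy'v, add_zero])
        (by rw [S.add_left, hzw, hy'w, add_zero])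
      have e2 := hc (z + c • y') (by rw [S.add_left, S.smul_left, hzv, hy'v, mul_zero, add_zero])
        (by rw [S.add_left, S.smul_left, hzw, hy'w, mul_zero, add_zero])
      simp only [S.add_left, S.add_right, S.smul_left, S.smul_right, hzz, hyy, hτc] at e1 e2
      refine hy ?_
      rw [← hzy']
      exact (mul_eq_zero.mp (show (c' - c) * S.φ z y' = 0 by
        linear_combination e2 - c * e1)).resolve_left hcc
    have hεi : ε⁻¹ * S.τ ε⁻¹ = 1 := by rw [map_inv₀, ← mul_inv, hε, _root_.inv_one]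
    refine ⟨dil (S.rfl' t) t (S.rfl'_self htt) ε⁻¹ (inv_ne_zero hε0), S.dil_isom htt hεi _, ?_, ?_, ?_⟩
    · simp [ap_dil, rfl'_apply, S.eq_zero_comm.mp htv]
    · simp [ap_dil, rfl'_apply, S.eq_zero_comm.mp htw]
    · rw [det_dil, ← map_mul, mul_inv_cancel₀ hε0, map_one]
  set R := dil (S.rfl' s) s (S.rfl'_self hs0) ε hε0 with hR
  -- the multiplier
  set b := (ε * c' - c) / (c' - c) with hb
  have hb0 : ε * c' - c ≠ 0 := by
    intro h
    refine hεF ⟨S.om / S.σ S.om, ?_⟩
    have hc'0 : c' ≠ 0 := fun h0 => hcc (by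
      have : c = 0 := by rw [← S.τ_invol c, hτc, h0, map_zero]
      rw [h0, this, sub_zero])
    rw [map_div₀, ← hc, ← hc', div_eq_iff hc'0]
    linear_combination -h
  set a := -((ε - 1) * c * c') / (ε * c' - c) with ha
  have hτc' : S.τ c' = c := by rw [hc', S.τ_map, S.σ_invol]
  have hτε : S.τ ε = ε⁻¹ := eq_inv_of_mul_eq_one_right hε
  have hden : ε⁻¹ * c - c' ≠ 0 := by
    intro h
    refine hb0 ?_
    field_simp at h
    linear_combination -h
  have haτ : S.τ a = a := by
    rw [ha, map_div₀, map_neg, map_mul, map_mul, map_sub, map_sub, map_mul, map_one, hτc, hτc', hτε,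
      div_eq_div_iff hden hb0]
    field_simp
    ring
  have hRi := S.dil_isom hs0 hε hε0
  set g := S.tr w a hw * (R * R') with hg
  have hgi : S.IsIsom g := (S.tr_isom hw haτ).mul S (hRi.mul S hR'i)
  have hgs : g ∈ Cfsg.Geo.specialLinear ι F := by
    refine mul_mem (det_qT _ _) ((mem_specialLinear_iff _).mpr ?_)
    rw [Units.val_mul, Matrix.det_mul, hR, det_dil]
    exact hR'det
  have hgv : ap g v = b • v := by
    rw [hg, ap_mul, ap_mul, hR'v, hR, ap_dil, rfl'_apply, hss, hs]
    simp only [S.add_left, S.add_right, S.smul_left, S.smul_right, hvv, hw, hvw, hτc, ap_tr]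
    rw [ha, hb]
    match_scalars <;> field_simp <;> ring
  obtain ⟨x, y, hx, hy, hxy⟩ := S.decomp b
  have hbτ : S.τ b * ε = b := by
    rw [hb, map_div₀, map_sub, map_sub, map_mul, hτc', hτc, hτε, ← neg_sub c' c, div_neg,
      neg_mul, div_mul_eq_mul_div, ← neg_div]
    field_simp
    ring
  have hbτ' := hbτ
  have hbne : b ≠ 0 := div_ne_zero hb0 hcc
  have hx0 : x ≠ 0 := by
    intro hx0
    rw [hx0, zero_add, Algebra.smul_def] at hxy
    rw [hxy, map_mul, hy, S.τ_map, ← hc, ← hc'] at hbτ
    have hy0 : y ≠ 0 := fun h => hbne (by rw [hxy, h, mul_zero])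
    refine hεF ⟨S.om / S.σ S.om, ?_⟩
    have hc'0 : c' ≠ 0 := fun h0 => hcc (by
      have : c = 0 := by rw [← S.τ_invol c, hτc, h0, map_zero]
      rw [h0, this, sub_zero])
    rw [map_div₀, ← hc, ← hc', div_eq_iff hc'0]
    exact mul_right_cancel₀ hy0 (by linear_combination -hbτ)
  refine ⟨g, hX g hgi hgs, hgi, x, y, hx, hy, hx0, ?_, by rw [← hxy]; exact hgv⟩
  rintro ⟨k, hk⟩
  rw [eq_div_iff hx0] at hk
  rw [hxy, ← hk, Algebra.smul_def, ← hc, map_add, map_mul, hτc, map_mul, S.τ_map, hx] at hbτ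
  have hk' : S.σ k = k := by
    apply (algebraMap F E).injective
    rw [← S.τ_map]
    have h := congrArg S.τ hk
    rw [map_mul, hx, hy, ← hk] at h
    exact mul_right_cancel₀ hx0 h
  rw [hk'] at hbτ
  refine hεF ⟨(1 + S.om * k) / (1 + S.σ S.om * k), ?_⟩
  have hd : (1 + c' * algebraMap F E k) ≠ 0 := by
    intro h
    refine hbne ?_
    have h2 : S.τ b = 0 := by
      rw [hxy, ← hk, Algebra.smul_def, ← hc, map_add, map_mul, hτc, map_mul, S.τ_map, hk', hx]
      linear_combination x * h
    rw [← hbτ', h2, zero_mul]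
  rw [map_div₀, map_add, map_add, map_one, map_mul, map_mul, ← hc, ← hc', div_eq_iff hd]
  exact mul_right_cancel₀ hx0 (by linear_combination -hbτ)

end UForm

end CfsgLib.Geometric.ExtF
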